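import Cfsg.Agent.H6.Abs

set_option autoImplicit false

/-! Passing to the quotient by a central subgroup in a split BN-pair. -/

namespace CfsgH6

namespace PreDatum

variable {G : Type*} [Group G] {I : Type*} (D : PreDatum G I)

/-- hypotheses for passing to the quotient by `Z` -/
structure QuotHyp (Z : Subgroup G) : Prop where
  ZB : Z ≤ D.B
  γZ : ∀ x, D.γ x ∈ Z ↔ x ∈ Z
  ul : ∀ u ∈ D.U, ∀ l ∈ D.L, l⁻¹ * u ∈ Z → u = 1
  nc : ∀ i, ∃ x ∈ D.X i, ∃ y ∈ D.Y i, (y * x)⁻¹ * (x * y) ∉ Z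
  ct : ∀ b ∈ D.B, D.γ b ∈ D.B → (∀ i, ∀ x ∈ D.X i, (x * b)⁻¹ * (b * x) ∈ Z) → b ∈ Z

variable {D} {Z : Subgroup G} [Z.Normal]

theorem mk_eq {a b : G} : (QuotientGroup.mk a : G ⧸ Z) = QuotientGroup.mk b ↔ a⁻¹ * b ∈ Z :=
  QuotientGroup.eq

theorem mem_map_mk {H : Subgroup G} {x : G} :
    (QuotientGroup.mk x : G ⧸ Z) ∈ H.map (QuotientGroup.mk' Z) ↔ ∃ h ∈ H, h⁻¹ * x ∈ Z := by
  constructor
  · rintro ⟨y, hy, hyx⟩
    exact ⟨y, hy, QuotientGroup.eq.1 hyx⟩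
  · rintro ⟨y, hy, hyx⟩
    exact ⟨y, hy, QuotientGroup.eq.2 hyx⟩

theorem mem_map_mk_of_le {H : Subgroup G} (hZ : Z ≤ H) {x : G} :
    (QuotientGroup.mk x : G ⧸ Z) ∈ H.map (QuotientGroup.mk' Z) ↔ x ∈ H := by
  rw [mem_map_mk]
  constructor
  · rintro ⟨h, hh, hx⟩
    have := H.mul_mem hh (hZ hx)
    rwa [mul_inv_cancel_left] at this
  · intro h
    exact ⟨x, h, by rw [inv_mul_cancel]; exact Z.one_mem⟩

theorem map_eq_of_iff (γ : MulAut G) (hγ : ∀ x, γ x ∈ Z ↔ x ∈ Z) : Z.map γ.toMonoidHom = Z := by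
  ext x
  constructor
  · rintro ⟨y, hy, rfl⟩
    exact (hγ y).2 hy
  · intro hx
    refine ⟨γ⁻¹ x, ?_, by simp⟩
    rw [SetLike.mem_coe, ← hγ]
    simpa using hx

/-- the induced automorphism of the quotient -/
def qAut (γ : MulAut G) (hγ : ∀ x, γ x ∈ Z ↔ x ∈ Z) : MulAut (G ⧸ Z) :=
  QuotientGroup.congr Z Z γ (map_eq_of_iff γ hγ)

theorem qAut_mk (γ : MulAut G) (hγ : ∀ x, γ x ∈ Z ↔ x ∈ Z) (x : G) :
    qAut γ hγ (QuotientGroup.mk x) = QuotientGroup.mk (γ x) := rfl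

theorem qAut_mem {H K : Subgroup G} (γ : MulAut G) (hγ : ∀ x, γ x ∈ Z ↔ x ∈ Z)
    (hHK : ∀ x, γ x ∈ K ↔ x ∈ H) (x : G ⧸ Z) :
    qAut γ hγ x ∈ K.map (QuotientGroup.mk' Z) ↔ x ∈ H.map (QuotientGroup.mk' Z) := by
  induction x using QuotientGroup.induction_on with
  | H x =>
    rw [qAut_mk, mem_map_mk, mem_map_mk]
    constructor
    · rintro ⟨k, hk, hx⟩
      refine ⟨γ⁻¹ k, ?_, ?_⟩
      · rw [← hHK]; simpa using hk
      · rw [← hγ, map_mul, map_inv]; simpa using hx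
    · rintro ⟨h, hh, hx⟩
      refine ⟨γ h, (hHK h).2 hh, ?_⟩
      rw [← map_inv, ← map_mul, hγ]; exact hx

/-- the datum of the quotient -/
def quot (h : D.QuotHyp Z) : Datum (G ⧸ Z) I where
  U := D.U.map (QuotientGroup.mk' Z)
  L := D.L.map (QuotientGroup.mk' Z)
  B := D.B.map (QuotientGroup.mk' Z)
  X := fun i => (D.X i).map (QuotientGroup.mk' Z)
  Y := fun i => (D.Y i).map (QuotientGroup.mk' Z)
  P := fun i => (D.P i).map (QuotientGroup.mk' Z)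
  N := QuotientGroup.mk' Z '' D.N
  γ := qAut D.γ h.γZ
  B_norm := by
    rintro _ ⟨b, hb, rfl⟩ _ ⟨u, hu, rfl⟩
    exact ⟨_, D.B_norm b hb u hu, by simp⟩
  U_le_B := Subgroup.map_mono D.U_le_B
  bruhat := by
    intro t
    induction t using QuotientGroup.induction_on with
    | H t =>
      obtain ⟨u, hu, n, hn, v, hv, rfl⟩ := D.bruhat t
      exact ⟨_, ⟨u, hu, rfl⟩, _, ⟨n, hn, rfl⟩, _, ⟨v, hv, rfl⟩, rfl⟩
  ex_neg := by
    rintro _ ⟨n, hn, rfl⟩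
    rcases D.ex_neg n hn with h1 | ⟨i, hi⟩
    · exact Or.inl ⟨n, h1, rfl⟩
    · right
      refine ⟨i, ?_⟩
      rintro _ ⟨y, hy, rfl⟩
      exact ⟨_, hi y hy, by simp⟩
  long := by
    rintro _ ⟨n, hn, rfl⟩
    rcases D.long n hn with ⟨x, hx, hx1, hx2⟩ | h1
    · left
      refine ⟨_, ⟨x, hx, rfl⟩, ?_, ⟨_, hx2, by simp⟩⟩
      intro h1
      apply hx1
      apply h.ul x hx 1 D.L.one_mem
      rw [inv_one, one_mul]
      exact (QuotientGroup.eq_one_iff x).1 h1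
    · right
      rintro _ ⟨x, hx, rfl⟩
      exact ⟨_, h1 x hx, by simp⟩
  inf := by
    rintro _ ⟨u, hu, rfl⟩ ⟨l, hl, hlu⟩
    have := h.ul u hu l hl (QuotientGroup.eq.1 hlu)
    rw [this, map_one]
  Y_le_L := fun i => Subgroup.map_mono (D.Y_le_L i)
  B_le_P := fun i => Subgroup.map_mono (D.B_le_P i)
  Y_le_P := fun i => Subgroup.map_mono (D.Y_le_P i)
  LP := by
    rintro i _ ⟨l, hl, rfl⟩ h1
    have h2 : l ∈ D.P i := (mem_map_mk_of_le (h.ZB.trans (D.B_le_P i))).1 h1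
    exact ⟨l, D.LP i l hl h2, rfl⟩
  Y_P := by
    intro i j hij
    apply D.Y_P i j
    intro y hy
    exact (mem_map_mk_of_le (h.ZB.trans (D.B_le_P i))).1 (hij ⟨y, hy, rfl⟩)
  Y_not_B := by
    intro i
    obtain ⟨y, hy, hyB⟩ := D.Y_not_B i
    refine ⟨_, ⟨y, hy, rfl⟩, ?_⟩
    intro h1
    exact hyB ((mem_map_mk_of_le h.ZB).1 h1)
  γU := qAut_mem _ h.γZ D.γU
  γL := qAut_mem _ h.γZ D.γL
  γX := fun i => qAut_mem _ h.γZ (D.γX i)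
  γY := fun i => qAut_mem _ h.γZ (D.γY i)
  comm := by
    rintro i j hij _ ⟨x, hx, rfl⟩ _ ⟨y, hy, rfl⟩
    rw [← map_mul, ← map_mul, D.comm i j hij x hx y hy]
  ncomm := by
    intro i
    obtain ⟨x, hx, y, hy, hxy⟩ := h.nc i
    refine ⟨_, ⟨x, hx, rfl⟩, _, ⟨y, hy, rfl⟩, ?_⟩
    rw [← map_mul, ← map_mul]
    intro h1
    exact hxy (QuotientGroup.eq.1 h1.symm)
  red := by
    rintro i _ ⟨g, hg, rfl⟩
    obtain ⟨k, hk, hkg⟩ := D.red i g hg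
    refine ⟨QuotientGroup.mk' Z k, ?_, ⟨_, hkg, map_mul _ _ _⟩⟩
    rw [← Subgroup.map_sup]
    exact ⟨k, hk, rfl⟩
  cent := by
    rintro _ ⟨b, hb, rfl⟩ h1 h2
    have h3 : D.γ b ∈ D.B := (mem_map_mk_of_le h.ZB).1 h1
    have h4 := h.ct b hb h3 (by
      intro i x hx
      have := h2 i _ ⟨x, hx, rfl⟩
      rw [← map_mul, ← map_mul] at this
      exact QuotientGroup.eq.1 this.symm)
    exact (QuotientGroup.eq_one_iff b).2 h4

theorem quot_isPGroup {p : ℕ} (h : D.QuotHyp Z) (hp : IsPGroup p D.U) : IsPGroup p (quot h).U := by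
  rintro ⟨_, ⟨u, hu, rfl⟩⟩
  obtain ⟨k, hk⟩ := hp ⟨u, hu⟩
  refine ⟨k, ?_⟩
  apply Subtype.ext
  have hk' : u ^ p ^ k = 1 := by simpa using congrArg Subtype.val hk
  show (QuotientGroup.mk' Z u) ^ p ^ k = 1
  rw [← map_pow, hk', map_one]

theorem quot_pelt {p : ℕ} (h : D.QuotHyp Z)
    (hB : ∀ b ∈ D.B, (∃ k : ℕ, b ^ p ^ k ∈ Z) → ∃ u ∈ D.U, u⁻¹ * b ∈ Z) :
    ∀ b ∈ (quot h).B, (∃ k : ℕ, b ^ p ^ k = 1) → b ∈ (quot h).U := by
  rintro _ ⟨b, hb, rfl⟩ ⟨k, hk⟩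
  rw [← map_pow] at hk
  obtain ⟨u, hu, hub⟩ := hB b hb ⟨k, (QuotientGroup.eq_one_iff _).1 hk⟩
  exact mem_map_mk.2 ⟨u, hu, hub⟩

end PreDatum

end CfsgH6
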