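import Mathlib

set_option autoImplicit false

/-! Standard form of alternating matrices. -/

namespace CfsgH6

open Matrix

theorem symp_family {K V : Type*} [Field K] [AddCommGroup V] [Module K V] [FiniteDimensional K V]
    (ω : V →ₗ[K] V →ₗ[K] K) (halt : ∀ v, ω v v = 0) (hnd : ∀ v, v ≠ 0 → ∃ w, ω v w ≠ 0) (m : ℕ)
    (hdim : 2 * m ≤ Module.finrank K V) : ∀ i, i ≤ m → ∃ e f : Fin i → V, (∀ a b, ω (e a) (e b) = 0) ∧
      (∀ a b, ω (f a) (f b) = 0) ∧ ∀ a b, ω (e a) (f b) = if a = b then 1 else 0 := by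
  have hneg : ∀ v w, ω v w = - ω w v := by
    intro v w
    have h := halt (v + w)
    simp only [map_add, LinearMap.add_apply, halt] at h
    linear_combination h
  intro i
  induction i with
  | zero => intro _; exact ⟨Fin.elim0, Fin.elim0, fun a => a.elim0, fun a => a.elim0, fun a => a.elim0⟩
  | succ i ih =>
    intro hi
    obtain ⟨e, f, hee, hff, hef⟩ := ih (by omega)
    have hfe : ∀ a b, ω (f a) (e b) = if a = b then -1 else 0 := by
      intro a b
      rw [hneg, hef]
      by_cases h : a = b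
      · rw [if_pos h, if_pos h.symm]
      · rw [if_neg h, if_neg (fun h' => h h'.symm), neg_zero]
    -- the projection
    let P : V → V := fun v => v - ∑ j, (ω v (f j) • e j - ω v (e j) • f j)
    have hPe : ∀ v a, ω (P v) (e a) = 0 := by
      intro v a
      show ω (v - ∑ j, (ω v (f j) • e j - ω v (e j) • f j)) (e a) = 0
      rw [map_sub, map_sum, LinearMap.sub_apply, LinearMap.sum_apply]
      simp only [map_sub, map_smul, LinearMap.sub_apply, LinearMap.smul_apply, hee, hfe, smul_eq_mul, mul_zero,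
        zero_sub]
      rw [Finset.sum_eq_single a]
      · rw [if_pos rfl]; ring
      · intro b _ hb
        rw [if_neg hb]; ring
      · simp
    have hPf : ∀ v a, ω (P v) (f a) = 0 := by
      intro v a
      show ω (v - ∑ j, (ω v (f j) • e j - ω v (e j) • f j)) (f a) = 0
      rw [map_sub, map_sum, LinearMap.sub_apply, LinearMap.sum_apply]
      simp only [map_sub, map_smul, LinearMap.sub_apply, LinearMap.smul_apply, hff, hef, smul_eq_mul, mul_zero,
        sub_zero]
      rw [Finset.sum_eq_single a]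
      · rw [if_pos rfl]; ring
      · intro b _ hb
        rw [if_neg hb]; ring
      · simp
    -- a vector outside the span
    obtain ⟨v, hv⟩ : ∃ v, v ∉ Submodule.span K (Set.range e ∪ Set.range f) := by
      by_contra h
      push Not at h
      have h1 : Submodule.span K (Set.range e ∪ Set.range f) = ⊤ := Submodule.eq_top_iff'.2 h
      have h2 : Module.finrank K (Submodule.span K (Set.range e ∪ Set.range f)) ≤ 2 * i := by
        classical
        have h3 : (Set.range e ∪ Set.range f) = ((Finset.univ.image e ∪ Finset.univ.image f : Finset V) : Set V) := by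
          ext x; simp
        rw [h3]
        refine (finrank_span_finset_le_card _).trans ?_
        refine (Finset.card_union_le _ _).trans ?_
        have h4 := Finset.card_image_le (s := (Finset.univ : Finset (Fin i))) (f := e)
        have h5 := Finset.card_image_le (s := (Finset.univ : Finset (Fin i))) (f := f)
        rw [Finset.card_univ, Fintype.card_fin] at h4 h5
        omega
      rw [h1, finrank_top] at h2
      omega
    have hPv : P v ≠ 0 := by
      intro h0
      apply hv
      have h1 : v = ∑ j, (ω v (f j) • e j - ω v (e j) • f j) := sub_eq_zero.1 h0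
      rw [h1]
      apply Submodule.sum_mem
      intro j _
      apply Submodule.sub_mem
      · exact Submodule.smul_mem _ _ (Submodule.subset_span (Or.inl ⟨j, rfl⟩))
      · exact Submodule.smul_mem _ _ (Submodule.subset_span (Or.inr ⟨j, rfl⟩))
    obtain ⟨w, hw⟩ := hnd _ hPv
    have hw' : ω (P v) (P w) = ω (P v) w := by
      show ω (P v) (w - ∑ j, (ω w (f j) • e j - ω w (e j) • f j)) = _
      rw [map_sub, map_sum]
      simp only [map_sub, map_smul, hPe, hPf, smul_zero, sub_zero, Finset.sum_const_zero]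
    set c := ω (P v) w with hc
    have hee' : ∀ a, ω (e a) (P v) = 0 := fun a => by rw [hneg, hPe, neg_zero]
    have hfe' : ∀ a, ω (f a) (P v) = 0 := fun a => by rw [hneg, hPf, neg_zero]
    have hee'' : ∀ a, ω (e a) (P w) = 0 := fun a => by rw [hneg, hPe, neg_zero]
    have hfe'' : ∀ a, ω (f a) (P w) = 0 := fun a => by rw [hneg, hPf, neg_zero]
    refine ⟨Fin.snoc e (P v), Fin.snoc f (c⁻¹ • P w), ?_, ?_, ?_⟩
    · intro a b
      refine Fin.lastCases ?_ (fun a => ?_) a
      · refine Fin.lastCases ?_ (fun b => ?_) b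
        · rw [Fin.snoc_last, halt]
        · rw [Fin.snoc_last, Fin.snoc_castSucc, hPe]
      · refine Fin.lastCases ?_ (fun b => ?_) b
        · rw [Fin.snoc_last, Fin.snoc_castSucc, hee']
        · rw [Fin.snoc_castSucc, Fin.snoc_castSucc, hee]
    · intro a b
      refine Fin.lastCases ?_ (fun a => ?_) a
      · refine Fin.lastCases ?_ (fun b => ?_) b
        · rw [Fin.snoc_last, halt]
        · rw [Fin.snoc_last, Fin.snoc_castSucc, map_smul, LinearMap.smul_apply, hPf, smul_zero]
      · refine Fin.lastCases ?_ (fun b => ?_) b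
        · rw [Fin.snoc_last, Fin.snoc_castSucc, map_smul, hfe'', smul_zero]
        · rw [Fin.snoc_castSucc, Fin.snoc_castSucc, hff]
    · intro a b
      refine Fin.lastCases ?_ (fun a => ?_) a
      · refine Fin.lastCases ?_ (fun b => ?_) b
        · rw [Fin.snoc_last, Fin.snoc_last, map_smul, hw', if_pos rfl, smul_eq_mul, inv_mul_cancel₀ hw]
        · rw [Fin.snoc_last, Fin.snoc_castSucc, hPf, if_neg (Fin.castSucc_lt_last b).ne']
      · refine Fin.lastCases ?_ (fun b => ?_) b
        · rw [Fin.snoc_last, Fin.snoc_castSucc, map_smul, hee'', smul_zero, if_neg (Fin.castSucc_lt_last a).ne]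
        · rw [Fin.snoc_castSucc, Fin.snoc_castSucc, hef]
          simp only [Fin.castSucc_inj]

/-- standard form of non-degenerate alternating matrices -/
theorem alt_std {K : Type*} [Field K] {m : ℕ} (B : Matrix (Fin m ⊕ Fin m) (Fin m ⊕ Fin m) K)
    (halt : ∀ v, v ⬝ᵥ (B *ᵥ v) = 0) (hdet : B.det ≠ 0) :
    ∃ k : GL (Fin m ⊕ Fin m) K, B = (k : Matrix _ _ K) * Matrix.J (Fin m) K * (k : Matrix (Fin m ⊕ Fin m) (Fin m ⊕ Fin m) K)ᵀ := by
  let ω : (Fin m ⊕ Fin m → K) →ₗ[K] (Fin m ⊕ Fin m → K) →ₗ[K] K :=
    Matrix.toLinearMap₂' K B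
  have hω : ∀ v w, ω v w = v ⬝ᵥ (B *ᵥ w) := fun v w => Matrix.toLinearMap₂'_apply' B v w
  obtain ⟨e, f, hee, hff, hef⟩ := symp_family ω (fun v => by rw [hω]; exact halt v) (by
    intro v hv
    by_contra h
    push Not at h
    apply hv
    have h1 : v ᵥ* B = 0 := by
      ext j
      have := h (Pi.single j 1)
      rw [hω, Matrix.dotProduct_mulVec] at this
      simpa using this
    exact Matrix.eq_zero_of_vecMul_eq_zero hdet h1) m (by
    rw [Module.finrank_fintype_fun_eq_card]; simp; omega) m le_rfl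
  have hneg : ∀ v w, ω v w = - ω w v := by
    intro v w
    have h : ω (v + w) (v + w) = 0 := by rw [hω]; exact halt _
    have h1 : ω v v = 0 := by rw [hω]; exact halt _
    have h2 : ω w w = 0 := by rw [hω]; exact halt _
    simp only [map_add, LinearMap.add_apply, h1, h2] at h
    linear_combination h
  -- rows: `inl i ↦ f i`, `inr i ↦ e i`
  let k : Matrix (Fin m ⊕ Fin m) (Fin m ⊕ Fin m) K := Matrix.of fun x => Sum.elim f e x
  have hk : k * B * kᵀ = Matrix.J (Fin m) K := by
    ext x y
    have h1 : (k * B * kᵀ) x y = ω (k x) (k y) := by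
      rw [hω, Matrix.mul_apply, dotProduct_mulVec, dotProduct]
      rfl
    rw [h1]
    rcases x with i | i <;> rcases y with j | j
    · show ω (f i) (f j) = 0
      exact hff i j
    · show ω (f i) (e j) = (-1 : Matrix (Fin m) (Fin m) K) i j
      rw [hneg, hef, Matrix.neg_apply, Matrix.one_apply]
      simp only [eq_comm]
    · show ω (e i) (f j) = (1 : Matrix (Fin m) (Fin m) K) i j
      rw [hef, Matrix.one_apply]
    · show ω (e i) (e j) = 0
      exact hee i j
  have hkdet : k.det ≠ 0 := by
    intro h0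
    have h1 := congrArg Matrix.det hk
    rw [Matrix.det_mul, Matrix.det_mul, h0, zero_mul, zero_mul] at h1
    have h2 := Matrix.isUnit_det_J (Fin m) K
    rw [← h1] at h2
    exact h2.ne_zero rfl
  have hu : IsUnit k := (Matrix.isUnit_iff_isUnit_det _).2 hkdet.isUnit
  refine ⟨hu.unit⁻¹, ?_⟩
  have h3 : ((hu.unit⁻¹ : GL (Fin m ⊕ Fin m) K) : Matrix (Fin m ⊕ Fin m) (Fin m ⊕ Fin m) K) * k = 1 := hu.val_inv_mul
  have h4 : kᵀ * ((hu.unit⁻¹ : GL (Fin m ⊕ Fin m) K) : Matrix (Fin m ⊕ Fin m) (Fin m ⊕ Fin m) K)ᵀ = 1 := by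
    rw [← Matrix.transpose_mul, h3, Matrix.transpose_one]
  rw [← hk]
  generalize ((hu.unit⁻¹ : GL (Fin m ⊕ Fin m) K) : Matrix (Fin m ⊕ Fin m) (Fin m ⊕ Fin m) K) = k' at h3 h4 ⊢
  have h5 : k' * (k * B * kᵀ) * k'ᵀ = (k' * k) * B * (kᵀ * k'ᵀ) := by simp only [mul_assoc]
  rw [h5, h3, h4, one_mul, mul_one]

end CfsgH6
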