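import Cfsg.Agent.H6.TauFix
import Cfsg.Agent.H6.Abs

set_option autoImplicit false

/-! Classical groups as fixed points in `SL_n(F)`: the form automorphism, parabolic subgroups. -/

namespace CfsgH6

open Matrix

variable {F : Type*} [Field F] {n : ℕ}

/-- data of an antidiagonal form with entries `±1` and an (at most) involutive field automorphism -/
structure Cls (n : ℕ) (F : Type*) [Field F] where
  σ : F ≃+* F
  hσ : ∀ x, σ (σ x) = x
  e : Fin n → Fˣ
  ε : Fˣ
  he : ∀ a, e a * e a = 1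
  hee : ∀ a, e a * e (Fin.rev a) = ε
  hσe : ∀ a, σ (e a) = e a

namespace Cls

variable (D : Cls n F)

theorem hε (h : 0 < n) : D.ε * D.ε = 1 := by
  rw [← D.hee ⟨0, h⟩]
  calc D.e ⟨0, h⟩ * D.e (Fin.rev ⟨0, h⟩) * (D.e ⟨0, h⟩ * D.e (Fin.rev ⟨0, h⟩)) =
      (D.e ⟨0, h⟩ * D.e ⟨0, h⟩) * (D.e (Fin.rev ⟨0, h⟩) * D.e (Fin.rev ⟨0, h⟩)) := by
        simp only [mul_assoc, mul_comm, mul_left_comm]
    _ = 1 := by rw [D.he, D.he, one_mul]

theorem e_inv (a : Fin n) : (D.e a)⁻¹ = D.e a := by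
  rw [inv_eq_iff_mul_eq_one]; exact D.he a

theorem hec (a : Fin n) : (D.e a : F) * (D.e a : F) = 1 := by
  have := congrArg Units.val (D.he a)
  simpa using this

theorem heec (a : Fin n) : (D.e a : F) * (D.e (Fin.rev a) : F) = (D.ε : F) := by
  have := congrArg Units.val (D.hee a)
  simpa using this

/-- the Gram matrix -/
def J : GL (Fin n) F := dGL D.e * revGL n F

/-- conjugation by the Gram matrix -/
def γ : MulAut (Matrix.SpecialLinearGroup (Fin n) F) := slConj n F D.J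

theorem γ_apply (g : Matrix.SpecialLinearGroup (Fin n) F) (a b : Fin n) :
    ((D.γ g : Matrix.SpecialLinearGroup (Fin n) F) : Matrix (Fin n) (Fin n) F) a b =
      (D.e a : F) * (D.e b : F) * (g : Matrix (Fin n) (Fin n) F) (Fin.rev a) (Fin.rev b) := by
  unfold γ J
  rw [map_mul]
  show ((slConj n F (dGL D.e) (slConj n F (revGL n F) g) : Matrix.SpecialLinearGroup (Fin n) F) :
    Matrix (Fin n) (Fin n) F) a b = _
  rw [slConj_coe]
  have h1 : (((dGL D.e)⁻¹ : GL (Fin n) F) : Matrix (Fin n) (Fin n) F) =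
      Matrix.diagonal fun i => (D.e i : F) := by
    have : (((dGL D.e)⁻¹ : GL (Fin n) F) : Matrix (Fin n) (Fin n) F) =
      Matrix.diagonal fun i => (((D.e i)⁻¹ : Fˣ) : F) := rfl
    rw [this]
    congr 1
    ext i
    rw [D.e_inv]
  have h2 : ((dGL D.e : GL (Fin n) F) : Matrix (Fin n) (Fin n) F) =
      Matrix.diagonal fun i => (D.e i : F) := rfl
  rw [h1, h2, Matrix.mul_diagonal, Matrix.diagonal_mul, slConj_coe, revGL_conj]
  ring

/-- the automorphism whose fixed points are the isometries -/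
def τ : MulAut (Matrix.SpecialLinearGroup (Fin n) F) := D.γ * slField n D.σ * slIota n F

theorem τ_apply (g : Matrix.SpecialLinearGroup (Fin n) F) (a b : Fin n) :
    ((D.τ g : Matrix.SpecialLinearGroup (Fin n) F) : Matrix (Fin n) (Fin n) F) a b =
      (D.e a : F) * (D.e b : F) * D.σ (((g⁻¹ : Matrix.SpecialLinearGroup (Fin n) F) :
        Matrix (Fin n) (Fin n) F) (Fin.rev b) (Fin.rev a)) := by
  show ((D.γ (slField n D.σ (slIota n F g)) : Matrix.SpecialLinearGroup (Fin n) F) :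
    Matrix (Fin n) (Fin n) F) a b = _
  rw [γ_apply, slField_coe, Matrix.map_apply, slIota_apply, Matrix.SpecialLinearGroup.coe_transpose,
    Matrix.transpose_apply]

theorem ee_cancel (a b : Fin n) (x : F) :
    (D.e a : F) * (D.e b : F) * ((D.e (Fin.rev a) : F) * (D.e (Fin.rev b) : F) * x) = x := by
  have hn : 0 < n := lt_of_le_of_lt (Nat.zero_le _) a.isLt
  have h1 := D.heec a
  have h2 := D.heec b
  have h3 : (D.ε : F) * (D.ε : F) = 1 := by
    have := congrArg Units.val (D.hε hn)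
    simpa using this
  calc _ = ((D.e a : F) * (D.e (Fin.rev a) : F)) * ((D.e b : F) * (D.e (Fin.rev b) : F)) * x := by ring
    _ = _ := by rw [h1, h2, h3, one_mul]

theorem γ_γ (g : Matrix.SpecialLinearGroup (Fin n) F) : D.γ (D.γ g) = g := by
  apply Subtype.ext
  ext a b
  rw [γ_apply, γ_apply, Fin.rev_rev, Fin.rev_rev, ee_cancel]

theorem τ_τ (g : Matrix.SpecialLinearGroup (Fin n) F) : D.τ (D.τ g) = g := by
  apply Subtype.ext
  ext a b
  rw [τ_apply, ← map_inv, τ_apply, inv_inv, Fin.rev_rev, Fin.rev_rev, map_mul, map_mul, D.hσe, D.hσe,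
    D.hσ]
  rw [mul_comm (D.e (Fin.rev b) : F), ee_cancel]

theorem τ_γ (g : Matrix.SpecialLinearGroup (Fin n) F) : D.τ (D.γ g) = D.γ (D.τ g) := by
  apply Subtype.ext
  ext a b
  rw [τ_apply, ← map_inv, γ_apply, γ_apply, τ_apply, map_mul, map_mul, D.hσe, D.hσe]
  rw [mul_comm (D.e (Fin.rev b) : F) (D.e (Fin.rev a) : F)]

theorem τ_mem_UU {g : Matrix.SpecialLinearGroup (Fin n) F} (hg : g ∈ UU n F) : D.τ g ∈ UU n F := by
  have hg' := (UU n F).inv_mem hg
  refine ⟨fun a => ?_, fun a b hab => ?_⟩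
  · rw [τ_apply, hg'.1, map_one, mul_one, hec]
  · rw [τ_apply, hg'.2 _ _ (Fin.rev_lt_rev.2 hab), map_zero, mul_zero]

theorem γ_mem_LL {g : Matrix.SpecialLinearGroup (Fin n) F} (hg : g ∈ UU n F) : D.γ g ∈ LL n F := by
  rw [mem_LL']
  refine ⟨fun a => ?_, fun a b hab => ?_⟩
  · rw [Matrix.transpose_apply, γ_apply, hg.1, mul_one, hec]
  · rw [Matrix.transpose_apply, γ_apply, hg.2 _ _ (Fin.rev_lt_rev.2 hab), mul_zero]

theorem γ_mem_UU {g : Matrix.SpecialLinearGroup (Fin n) F} (hg : g ∈ LL n F) : D.γ g ∈ UU n F := by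
  refine ⟨fun a => ?_, fun a b hab => ?_⟩
  · rw [γ_apply, LL_diag hg, mul_one, hec]
  · rw [γ_apply, LL_zero hg (Fin.rev_lt_rev.2 hab), mul_zero]

theorem τ_mem_LL {g : Matrix.SpecialLinearGroup (Fin n) F} (hg : g ∈ LL n F) : D.τ g ∈ LL n F := by
  have h1 := D.γ_mem_LL (D.τ_mem_UU (D.γ_mem_UU hg))
  rwa [τ_γ, γ_γ] at h1

theorem τ_mono {π : Equiv.Perm (Fin n)} {w : Matrix.SpecialLinearGroup (Fin n) F} (hw : IsMono π w) :
    IsMono (Fin.revPerm.trans (π.trans Fin.revPerm)) (D.τ w) := by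
  intro i j hij
  rw [τ_apply, mono_inv hw, if_neg, map_zero, mul_zero]
  intro h
  apply hij
  simp only [Equiv.trans_apply, Fin.revPerm_apply]
  rw [← h, Fin.rev_rev]

/-- a fixed monomial element has a permutation commuting with the reversal -/
theorem mono_rev {π : Equiv.Perm (Fin n)} {w : Matrix.SpecialLinearGroup (Fin n) F} (hw : IsMono π w)
    (hτ : D.τ w = w) (a : Fin n) : π (Fin.rev a) = Fin.rev (π a) := by
  have h1 := D.τ_mono hw
  rw [hτ] at h1
  have h2 := mono_ne_zero hw a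
  by_contra hne
  apply h2
  apply h1
  intro h
  apply hne
  simp only [Equiv.trans_apply, Fin.revPerm_apply] at h
  rw [h, Fin.rev_rev]

end Cls

/-! ### parabolic subgroups -/

/-- block triangular elements, with blocks the maximal intervals joined by the cuts in `S` -/
def PS (n : ℕ) (F : Type*) [Field F] (S : ℕ → Prop) [DecidablePred S] :
    Subgroup (Matrix.SpecialLinearGroup (Fin n) F) where
  carrier := {g | (g : Matrix (Fin n) (Fin n) F).BlockTriangular fun a => Nat.count (fun c => ¬ S c) a}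
  one_mem' := by
    show Matrix.BlockTriangular _ _
    rw [Matrix.SpecialLinearGroup.coe_one]; exact Matrix.blockTriangular_one
  mul_mem' := by
    intro a b ha hb
    show Matrix.BlockTriangular _ _
    rw [Matrix.SpecialLinearGroup.coe_mul]; exact Matrix.BlockTriangular.mul ha hb
  inv_mem' := by
    intro a ha
    show Matrix.BlockTriangular _ _
    rw [sl_coe_inv]
    have hinv : Invertible (a : Matrix (Fin n) (Fin n) F) :=
      Matrix.invertibleOfIsUnitDet _ (by rw [Matrix.SpecialLinearGroup.det_coe]; exact isUnit_one)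
    exact Matrix.blockTriangular_inv_of_blockTriangular ha

theorem mem_PS {S : ℕ → Prop} [DecidablePred S] {g : Matrix.SpecialLinearGroup (Fin n) F} :
    g ∈ PS n F S ↔ ∀ a b : Fin n, b < a → (∃ c : ℕ, (b : ℕ) ≤ c ∧ c < a ∧ ¬ S c) →
      (g : Matrix (Fin n) (Fin n) F) a b = 0 := by
  constructor
  · rintro h a b hab ⟨c, hbc, hca, hc⟩
    apply h
    show Nat.count _ (b : ℕ) < Nat.count _ (a : ℕ)
    exact (Nat.count_monotone _ hbc).trans_lt (Nat.count_strict_mono hc hca)
  · intro h a b hab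
    have hab' : Nat.count (fun c => ¬ S c) (b : ℕ) < Nat.count (fun c => ¬ S c) (a : ℕ) := hab
    have hlt : (b : ℕ) < a := by
      by_contra hn
      exact absurd (Nat.count_monotone (fun c => ¬ S c) (not_lt.1 hn)) (not_le.2 hab')
    apply h a b hlt
    by_contra hno
    push Not at hno
    apply hab'.ne
    obtain ⟨d, hd⟩ := Nat.exists_eq_add_of_le hlt.le
    rw [hd, Nat.count_add]
    have h0 : Nat.count (fun k => ¬ S (b + k)) d = 0 := by
      rw [Nat.count_iff_forall_not]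
      intro c hc
      rw [not_not]
      exact hno _ (by omega) (by omega)
    rw [h0, add_zero]

theorem BU_le_PS (S : ℕ → Prop) [DecidablePred S] : BU n F ≤ PS n F S := fun _ hg =>
  mem_PS.2 fun a b hab _ => mem_BU.1 hg a b hab

theorem mem_BU_of_PS {g : Matrix.SpecialLinearGroup (Fin n) F} (hg : g ∈ PS n F (fun _ => False)) :
    g ∈ BU n F := mem_BU.2 fun a b hab => mem_PS.1 hg a b hab ⟨b, le_rfl, hab, not_false⟩

theorem PS_sub {S S' : ℕ → Prop} [DecidablePred S] [DecidablePred S'] {g : Matrix.SpecialLinearGroup (Fin n) F}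
    (hg : g ∈ PS n F S) (h : ∀ a b : Fin n, b < a → (∀ c : ℕ, (b : ℕ) ≤ c → c < a → S c) →
      (∃ c : ℕ, (b : ℕ) ≤ c ∧ c < a ∧ ¬ S' c) → (g : Matrix (Fin n) (Fin n) F) a b = 0) :
    g ∈ PS n F S' := by
  rw [mem_PS]
  intro a b hab hc
  by_cases hall : ∀ c : ℕ, (b : ℕ) ≤ c → c < a → S c
  · exact h a b hab hall hc
  · push Not at hall
    obtain ⟨c, h1, h2, h3⟩ := hall
    exact mem_PS.1 hg a b hab ⟨c, h1, h2, h3⟩

theorem BU_mul_diag {g h : Matrix.SpecialLinearGroup (Fin n) F} (hg : g ∈ BU n F) (hh : h ∈ BU n F)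
    (a : Fin n) : ((g * h : Matrix.SpecialLinearGroup (Fin n) F) : Matrix (Fin n) (Fin n) F) a a =
      (g : Matrix (Fin n) (Fin n) F) a a * (h : Matrix (Fin n) (Fin n) F) a a := by
  rw [Matrix.SpecialLinearGroup.coe_mul, Matrix.mul_apply, Finset.sum_eq_single a]
  · intro l _ hl
    rcases lt_or_gt_of_ne hl with h' | h'
    · rw [mem_BU.1 hg a l h', zero_mul]
    · rw [mem_BU.1 hh l a h', mul_zero]
  · simp

theorem BU_norm {g u : Matrix.SpecialLinearGroup (Fin n) F} (hg : g ∈ BU n F) (hu : u ∈ UU n F) :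
    g * u * g⁻¹ ∈ UU n F := by
  have hu' := UU_le_BU hu
  have h1 : g * u * g⁻¹ ∈ BU n F := (BU n F).mul_mem ((BU n F).mul_mem hg hu') ((BU n F).inv_mem hg)
  refine ⟨fun a => ?_, fun a b hab => mem_BU.1 h1 a b hab⟩
  rw [BU_mul_diag ((BU n F).mul_mem hg hu') ((BU n F).inv_mem hg), BU_mul_diag hg hu', hu.1, mul_one,
    ← BU_mul_diag hg ((BU n F).inv_mem hg), mul_inv_cancel, Matrix.SpecialLinearGroup.coe_one,
    Matrix.one_apply_eq]

/-- the cuts of the `i`-th minimal parabolic -/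
def cut (n i : ℕ) : ℕ → Prop := fun c => c = i ∨ c + i + 2 = n

instance (n i : ℕ) : DecidablePred (cut n i) := fun _ => inferInstanceAs (Decidable (_ ∨ _))

/-- a sequence decreasing at all steps -/
theorem perm_desc {π : Equiv.Perm (Fin n)} {S : ℕ → Prop}
    (h : ∀ c : ℕ, S c → ∀ (hc : c + 1 < n), π ⟨c + 1, hc⟩ < π ⟨c, by omega⟩)
    {a b : Fin n} (hab : b < a) (hall : ∀ c : ℕ, (b : ℕ) ≤ c → c < a → S c) : π a < π b := by
  obtain ⟨d, hd⟩ := Nat.exists_eq_add_of_lt (show (b : ℕ) < a from hab)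
  have key : ∀ d (hd : (b : ℕ) + d + 1 < n), (∀ c : ℕ, (b : ℕ) ≤ c → c < b + d + 1 → S c) →
      π ⟨(b : ℕ) + d + 1, hd⟩ < π b := by
    intro d
    induction d with
    | zero =>
      intro hd hS
      exact h b (hS b le_rfl (by omega)) hd
    | succ d ih =>
      intro hd hS
      exact (h (b + d + 1) (hS _ (by omega) (by omega)) hd).trans
        (ih (by omega) fun c h1 h2 => hS c h1 (by omega))
  have h1 := key d (by rw [← hd]; exact a.isLt) (by rw [← hd]; exact hall)
  have h2 : a = ⟨(b : ℕ) + d + 1, by rw [← hd]; exact a.isLt⟩ := Fin.ext hd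
  rw [h2]; exact h1

end CfsgH6
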