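import Cfsg.Agent.H6.Cls9

set_option autoImplicit false

/-! The last node is fixed: symplectic groups. -/

namespace CfsgH6

open Matrix

variable {F : Type*} [Field F] {n : ℕ}

namespace Cls

variable {D : Cls n F} {G : Subgroup (Matrix.SpecialLinearGroup (Fin n) F)}

/-- monomial elements of the rank one groups -/
theorem nrt_mem (h : D.Good G) {i : Fin (n / 2)} (hs : 2 * (i : ℕ) + 4 ≤ n) (t : F) :
    nx (lo i) (hi i) t * D.τ (nx (lo i) (hi i) t) ∈ G := by
  rw [← rt_nx (short_of hs)]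
  have m1 : ∀ t, D.rt (lo i) (hi i) t ∈ G := fun t => (inX_short hs t).memG h
  have m2 : ∀ t, D.rt (hi i) (lo i) t ∈ G := fun t => (inY_short hs t).memG h
  exact G.mul_mem (G.mul_mem (m1 _) (m2 _)) (m1 _)

theorem swap_of_ne {a b x : Fin n} (h1 : x ≠ a) (h2 : x ≠ b) : Equiv.swap a b x = x :=
  Equiv.swap_apply_of_ne_of_ne h1 h2

/-- adjacent short root groups are conjugate -/
theorem exists_conj_short (h : D.Good G) {i j : Fin (n / 2)} (hij : (j : ℕ) = i + 1) (hs : 2 * (j : ℕ) + 4 ≤ n) :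
    ∃ w ∈ G, ∃ c : F, c ≠ 0 ∧ w * D.rt (lo i) (hi i) 1 * w⁻¹ = D.rt (lo j) (hi j) c := by
  have hi' : 2 * (i : ℕ) + 4 ≤ n := by omega
  have hhi : ((hi i : Fin n) : ℕ) = i + 1 := hi_val_of_not (by omega)
  have hhj : ((hi j : Fin n) : ℕ) = j + 1 := hi_val_of_not (by omega)
  have e1 : (hi i : Fin n) = lo j := Fin.ext (by rw [hhi, lo_val, hij])
  have hsi := short_of hi'
  have hsj := short_of hs
  refine ⟨_, G.mul_mem (nrt_mem h hi' 1) (nrt_mem h hs 1), ?_⟩
  have f1 := h.fix _ (nrt_mem h hi' 1)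
  have f2 := h.fix _ (nrt_mem h hs 1)
  have m1 := (nx_mono (F := F) (n := n) hsi.ab one_ne_zero).mul (D.τ_mono (nx_mono hsi.ab one_ne_zero))
  have m2 := (nx_mono (F := F) (n := n) hsj.ab one_ne_zero).mul (D.τ_mono (nx_mono hsj.ab one_ne_zero))
  have m3 := m1.mul m2
  obtain ⟨c, hc, hconj⟩ := mono_conj m3 hsi.ab
  -- values of the permutation
  have va : ((lo i : Fin n) : ℕ) = i := lo_val i
  have vb : ((lo j : Fin n) : ℕ) = i + 1 := by rw [lo_val, hij]
  have vc : ((hi j : Fin n) : ℕ) = i + 2 := by rw [hhj, hij]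
  have vd : ((hi i : Fin n) : ℕ) = i + 1 := hhi
  have hjj : 2 * (i : ℕ) + 6 ≤ n := by omega
  have key : ∀ (a b x : Fin n), Fin.rev x ≠ a → Fin.rev x ≠ b →
      (Fin.revPerm.trans ((Equiv.swap a b).trans Fin.revPerm)) x = x := by
    intro a b x h1 h2
    simp only [Equiv.trans_apply, Fin.revPerm_apply]
    rw [swap_of_ne h1 h2, Fin.rev_rev]
  have nr : ∀ x y : Fin n, (x : ℕ) + y + 1 < n → Fin.rev x ≠ y := by
    intro x y h1 h2
    have := congrArg Fin.val h2
    rw [Fin.val_rev] at this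
    have hx := x.isLt
    omega
  have r1 : ∀ x : Fin n, (x : ℕ) ≤ i + 2 → (Fin.revPerm.trans ((Equiv.swap (lo i : Fin n) (hi i)).trans Fin.revPerm)) x = x :=
    fun x hx => key _ _ _ (nr _ _ (by rw [va]; omega)) (nr _ _ (by rw [vd]; omega))
  have r2 : ∀ x : Fin n, (x : ℕ) ≤ i + 2 → (Fin.revPerm.trans ((Equiv.swap (lo j : Fin n) (hi j)).trans Fin.revPerm)) x = x :=
    fun x hx => key _ _ _ (nr _ _ (by rw [vb]; omega)) (nr _ _ (by rw [vc]; omega))
  have s1 : Equiv.swap (lo j : Fin n) (hi j) (lo i) = lo i :=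
    swap_of_ne (Fin.ne_of_val_ne (by rw [va, vb]; omega)) (Fin.ne_of_val_ne (by rw [va, vc]; omega))
  have s2 : Equiv.swap (lo i : Fin n) (hi i) (lo i) = lo j := by rw [Equiv.swap_apply_left, e1]
  have s3 : Equiv.swap (lo j : Fin n) (hi j) (hi i) = hi j := by rw [e1, Equiv.swap_apply_left]
  have s4 : Equiv.swap (lo i : Fin n) (hi i) (hi j) = hi j :=
    swap_of_ne (Fin.ne_of_val_ne (by rw [va, vc]; omega)) (Fin.ne_of_val_ne (by rw [vd, vc]; omega))
  generalize (Fin.revPerm.trans ((Equiv.swap (lo i : Fin n) (hi i)).trans Fin.revPerm)) = R1 at *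
  generalize (Fin.revPerm.trans ((Equiv.swap (lo j : Fin n) (hi j)).trans Fin.revPerm)) = R2 at *
  generalize (Equiv.swap (lo i : Fin n) (hi i)) = S1 at *
  generalize (Equiv.swap (lo j : Fin n) (hi j)) = S2 at *
  have p1 : (S1 * R1 * (S2 * R2)) (lo i) = lo j := by
    show S1 (R1 (S2 (R2 (lo i)))) = lo j
    rw [r2 _ (by rw [va]; omega), s1, r1 _ (by rw [va]; omega), s2]
  have p2 : (S1 * R1 * (S2 * R2)) (hi i) = hi j := by
    show S1 (R1 (S2 (R2 (hi i)))) = hi j
    rw [r2 _ (by rw [vd]; omega), s3, r1 _ (by rw [vc]), s4]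
  refine ⟨c, hc, ?_⟩
  have h1 := hconj 1
  rw [p1, p2, mul_one] at h1
  generalize nx (F := F) (lo i) (hi i) 1 * D.τ (nx (lo i) (hi i) 1) = w1 at *
  generalize nx (F := F) (lo j) (hi j) 1 * D.τ (nx (lo j) (hi j) 1) = w2 at *
  have hτ : D.τ (w1 * w2) = w1 * w2 := by
    rw [map_mul, f1, f2]
  unfold rt
  rw [← h1, map_mul, map_mul, map_inv, hτ]
  group

/-- the other root groups are not long -/
theorem last_sp_ge [Finite F] (h : D.Good G) {κ : F} (hκ : D.LongHyp κ) (hn : n % 2 = 0) (hn6 : 6 ≤ n)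
    {β : MulAut (↥G ⧸ Subgroup.center ↥G)} {ρ : Fin (n / 2) → Fin (n / 2)} (hβ : (qd h hκ).Perm β ρ)
    (i : Fin (n / 2)) (hi' : (ρ i : ℕ) + 1 = n / 2) : (i : ℕ) + 1 = n / 2 := by
  by_contra hne
  have hil := i.isLt
  have hs : 2 * (i : ℕ) + 4 ≤ n := by omega
  have hl : 2 * (ρ i : ℕ) + 2 = n := by omega
  -- a short neighbour `k` with conjugate elements
  obtain ⟨k, hks, w, hw, c, hc, d, hd, hconj⟩ : ∃ (k : Fin (n / 2)) (_ : 2 * (k : ℕ) + 4 ≤ n ∧ k ≠ i)
      (w : Matrix.SpecialLinearGroup (Fin n) F) (_ : w ∈ G) (c : F) (_ : c ≠ 0) (d : F) (_ : d ≠ 0),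
      w * D.rt (lo i) (hi i) d * w⁻¹ = D.rt (lo k) (hi k) c := by
    by_cases hcase : 2 * ((i : ℕ) + 1) + 4 ≤ n
    · obtain ⟨w, hw, c, hc, hconj⟩ := exists_conj_short h (i := i) (j := ⟨i + 1, by omega⟩) rfl hcase
      exact ⟨⟨i + 1, by omega⟩, ⟨hcase, fun h => by have := congrArg Fin.val h; simp only at this; omega⟩,
        w, hw, c, hc, 1, one_ne_zero, hconj⟩
    · have hi1 : 1 ≤ (i : ℕ) := by omega
      obtain ⟨w, hw, c, hc, hconj⟩ := exists_conj_short h (i := ⟨(i : ℕ) - 1, by omega⟩) (j := i)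
        (by simp only; omega) hs
      refine ⟨⟨(i : ℕ) - 1, by omega⟩, ⟨by simp only; omega, fun h => by
        have := congrArg Fin.val h; simp only at this; omega⟩, w⁻¹, G.inv_mem hw, 1, one_ne_zero, c, hc, ?_⟩
      rw [← hconj]; group
  have hρk : (ρ k : ℕ) + 1 ≠ n / 2 := by
    intro h1
    apply hks.2
    apply hβ.inj
    exact Fin.ext (by omega)
  have hρk' := (ρ k).isLt
  have hρks : 2 * (ρ k : ℕ) + 4 ≤ n := by omega
  have m1 := (hβ.pos i _).2 ((inX_short (D := D) hs d).mem_qX h hκ)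
  have m2 := (hβ.pos k _).2 ((inX_short (D := D) hks.1 c).mem_qX h hκ)
  obtain ⟨s, hsX, hs'⟩ := mem_qX h hκ m1
  obtain ⟨t, htX, ht'⟩ := mem_qX h hκ m2
  obtain ⟨h1, h2⟩ := hsX.even hl
  have h3 := htX.short hρks
  -- the element
  obtain ⟨g, hg⟩ : ∃ g : ↥G, (QuotientGroup.mk g : ↥G ⧸ Subgroup.center ↥G) = β (mq w hw) :=
    QuotientGroup.mk_surjective _
  have h4 : mq w hw * mq (D.rt (lo i) (hi i) d) ((inX_short hs d).memG h) * (mq w hw)⁻¹ =
      mq (D.rt (lo k) (hi k) c) ((inX_short hks.1 c).memG h) := by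
    rw [mq_inv, mq_mul, mq_mul]
    exact mq_eq hconj
  have h5 := congrArg β h4
  rw [map_mul, map_mul, map_inv, hs', ht', ← hg] at h5
  have h6 : (QuotientGroup.mk g : ↥G ⧸ Subgroup.center ↥G) = mq g.1 g.2 := rfl
  rw [h6, mq_inv, mq_mul, mq_mul] at h5
  obtain ⟨r, hr⟩ := mq_smul h hκ h5.symm
  have htne : (t : Matrix (Fin n) (Fin n) F) (lo (ρ k)) (hi (ρ k)) ≠ 0 := by
    intro h0
    rw [h0] at h3
    have h7 : t = 1 := by
      rw [h3]
      unfold rt
      rw [xe_zero, map_one, mul_one]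
    have h8 : β (mq (D.rt (lo k) (hi k) c) ((inX_short hks.1 c).memG h)) = 1 := by
      rw [ht']
      exact (mq_eq h7).trans rfl
    have h9 := (MulEquiv.map_eq_one_iff β).1 h8
    have h10 : mq (D.rt (lo k) (hi k) c) ((inX_short hks.1 c).memG h) = mq 1 G.one_mem := h9
    have h11 := mq_UU_inj h hκ (rt_mem_UU (lo_lt_hi k) c) (UU n F).one_mem h10
    apply hc
    rw [← rt_entry (D := D) (short_of hks.1) c, h11, Matrix.SpecialLinearGroup.coe_one,
      Matrix.one_apply_ne (lo_lt_hi k).ne]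
  rw [h2, h3] at hr
  exact not_conj (D := D) (lo_lt_hi (ρ i)).ne (short_of hρks) htne g.1 (lo_lt_hi (ρ k)) hr

/-! ### dimension four -/

theorem nx_sq {a b : Fin n} (h : a ≠ b) {t : F} (ht : t ≠ 0) (x y : Fin n) :
    ((nx a b t * nx a b t : Matrix.SpecialLinearGroup (Fin n) F) : Matrix (Fin n) (Fin n) F) x y =
      if x = y then (if x = a then -1 else if x = b then -1 else 1) else 0 := by
  have h1 : nx a b t * nx a b t = Matrix.SpecialLinearGroup.diag2n h t ht *
      (Matrix.SpecialLinearGroup.diag2n h (-t) (neg_ne_zero.2 ht))⁻¹ := by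
    rw [diag2n_nx h ht, diag2n_nx h (neg_ne_zero.2 ht), _root_.mul_inv_rev, inv_inv, nx_inv h (-t), neg_neg]
    group
  have hd1 : ∀ x y : Fin n, x ≠ y → ((Matrix.SpecialLinearGroup.diag2n h t ht : Matrix.SpecialLinearGroup (Fin n) F) :
      Matrix (Fin n) (Fin n) F) x y = 0 := fun _ _ => diag2n_diag h ht
  have hm : IsMono 1 (Matrix.SpecialLinearGroup.diag2n h (-t) (neg_ne_zero.2 ht)) :=
    fun i j hij => diag2n_diag h (neg_ne_zero.2 ht) hij
  rw [h1, diag_mul hd1, mono_inv hm, diag2n_apply]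
  simp only [Equiv.Perm.coe_one, id_eq]
  rw [diag2n_apply]
  by_cases hxy : x = y
  · subst hxy
    by_cases hxa : x = a
    · simp [hxa, ht, inv_neg]
    · by_cases hxb : x = b
      · simp [hxb, ht, h.symm]
      · simp [hxa, hxb]
  · simp [hxy, Ne.symm hxy]

theorem last_sp_four [Finite F] (h : D.Good G) {κ : F} (hκ : D.LongHyp κ) (hn : n = 4) (h2 : (2 : F) ≠ 0)
    {β : MulAut (↥G ⧸ Subgroup.center ↥G)} {ρ : Fin (n / 2) → Fin (n / 2)} (hβ : (qd h hκ).Perm β ρ)
    (i : Fin (n / 2)) (hi' : (ρ i : ℕ) + 1 = n / 2) : (i : ℕ) + 1 = n / 2 := by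
  by_contra hne
  have hil := i.isLt
  have hs : 2 * (i : ℕ) + 4 ≤ n := by omega
  have hl : 2 * (ρ i : ℕ) + 2 = n := by omega
  have hl' : ¬ 2 * (ρ i : ℕ) + 4 ≤ n := by omega
  have hi0 : (i : ℕ) = 0 := by omega
  have hsh := short_of hs
  have hhi : ((hi i : Fin n) : ℕ) = i + 1 := hi_val_of_not (by omega)
  have hP := pair_short h hκ hs
  have hQ := pair_long h hκ hl'
  -- images of the root elements
  obtain ⟨k, hk⟩ : ∃ k, β (xS h hs 1) = xL h hκ hl' k := by
    obtain ⟨s, hsX, hs'⟩ := mem_qX h hκ ((hβ.pos i _).2 ((inX_short (D := D) hs 1).mem_qX h hκ))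
    obtain ⟨h3, h4⟩ := hsX.even hl
    obtain ⟨k, hk⟩ := mem_xL h hκ hl' h3
    exact ⟨k, by rw [hk]; exact hs'.trans (mq_eq h4)⟩
  obtain ⟨k', hk'⟩ : ∃ k, β (yS h hs (-1⁻¹)) = yL h hκ hl' k := by
    obtain ⟨s, hsX, hs'⟩ := mem_qY h hκ ((hβ.neg i _).2 ((inY_short (D := D) hs (-1⁻¹)).mem_qY h hκ))
    obtain ⟨t, h3, h4⟩ := hsX.even hl
    obtain ⟨k, hk⟩ := mem_yL h hκ hl' h3
    exact ⟨k, by rw [hk]; exact hs'.trans (mq_eq h4)⟩
  have hk0 : k ≠ 0 := by
    intro h0
    rw [h0, hQ.x_zero] at hk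
    have h3 := (MulEquiv.map_eq_one_iff β).1 hk
    rw [← hP.x_zero] at h3
    exact one_ne_zero (hP.x_inj h3)
  have hb := hP.braid 1 (-1⁻¹) (by simp)
  have hb' := congrArg β hb
  rw [map_mul, map_mul, map_mul, map_mul, hk, hk'] at hb'
  have hkk := hQ.conv k k' hk0 hb'
  -- squares
  have e1 : xS h hs 1 * yS h hs (-1⁻¹) * xS h hs 1 = mq _ (nrt_mem h hs 1) := by
    rw [xyx]
    exact mq_eq (rt_nx hsh 1)
  have hsq : (xS h hs 1 * yS h hs (-1⁻¹) * xS h hs 1) * (xS h hs 1 * yS h hs (-1⁻¹) * xS h hs 1) = 1 := by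
    rw [e1, mq_mul]
    have hN := nx_sq (F := F) (n := n) hsh.ab one_ne_zero
    set N : Matrix.SpecialLinearGroup (Fin n) F := nx (lo i) (hi i) 1 with hNd
    have hc : D.τ N * N = N * D.τ N := AB_comm hsh (nx_mem_AB _ _ _) (nx_mem_AB _ _ _)
    have h3 : N * D.τ N * (N * D.τ N) = (N * N) * D.τ (N * N) := by
      rw [map_mul]
      calc N * D.τ N * (N * D.τ N) = N * (D.τ N * N) * D.τ N := by simp only [mul_assoc]
        _ = _ := by rw [hc]; simp only [mul_assoc]
    have hd : ∀ x y, x ≠ y → ((N * N : Matrix.SpecialLinearGroup (Fin n) F) : Matrix (Fin n) (Fin n) F) x y = 0 :=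
      fun x y hxy => by rw [hN, if_neg hxy]
    have h4 : (⟨N * D.τ N * (N * D.τ N), G.mul_mem (nrt_mem h hs 1) (nrt_mem h hs 1)⟩ : ↥G) ∈ Subgroup.center ↥G := by
      rw [mem_center_iff h hκ]
      refine ⟨-1, ?_⟩
      show ((N * D.τ N * (N * D.τ N) : Matrix.SpecialLinearGroup (Fin n) F) : Matrix (Fin n) (Fin n) F) = _
      rw [h3]
      ext x y
      rw [diag_mul hd]
      by_cases hxy : x = y
      · subst hxy
        rw [τ_diag_apply hd, hN, hN, if_pos rfl, if_pos rfl, Matrix.scalar_apply, Matrix.diagonal_apply_eq]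
        have hx := x.isLt
        by_cases hx0 : (x : ℕ) = 0 ∨ (x : ℕ) = 1
        · have c1 : (x = lo i ∨ x = hi i) := by
            rcases hx0 with h | h
            · left; exact Fin.ext (by rw [lo_val]; omega)
            · right; exact Fin.ext (by rw [hhi]; omega)
          have c2 : ¬ (Fin.rev x = lo i) := fun h => by
            have := congrArg Fin.val h; rw [Fin.val_rev, lo_val] at this; omega
          have c3 : ¬ (Fin.rev x = hi i) := fun h => by
            have := congrArg Fin.val h; rw [Fin.val_rev, hhi] at this; omega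
          rw [if_neg c2, if_neg c3, map_one, inv_one, mul_one]
          rcases c1 with h | h
          · rw [if_pos h]
          · rw [if_neg (fun h' => hsh.ab (h'.symm.trans h)), if_pos h]
        · have c1 : (Fin.rev x = lo i ∨ Fin.rev x = hi i) := by
            have : (x : ℕ) = 2 ∨ (x : ℕ) = 3 := by omega
            rcases this with h | h
            · right; exact Fin.ext (by rw [Fin.val_rev, hhi]; omega)
            · left; exact Fin.ext (by rw [Fin.val_rev, lo_val]; omega)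
          have c2 : ¬ (x = lo i) := fun h => by
            have := congrArg Fin.val h; rw [lo_val] at this; omega
          have c3 : ¬ (x = hi i) := fun h => by
            have := congrArg Fin.val h; rw [hhi] at this; omega
          rw [if_neg c2, if_neg c3, one_mul]
          rcases c1 with h | h
          · rw [if_pos h, map_neg, map_one, inv_neg, inv_one]
          · rw [if_neg (fun h' => hsh.ab (h'.symm.trans h)), if_pos h, map_neg, map_one, inv_neg, inv_one]
      · rw [hd x y hxy |> fun h => (τ_diag hd hxy), mul_zero, Matrix.scalar_apply, Matrix.diagonal_apply_ne _ hxy]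
    exact (QuotientGroup.eq_one_iff _).2 h4
  have h3 := congrArg β hsq
  rw [map_mul, map_mul, map_mul, hk, hk', map_one, xyxL, mq_mul] at h3
  have hκk : κ * (k : F) ≠ 0 := mul_ne_zero hκ.ne (fun h0 => hk0 (Subtype.ext h0))
  have e2 : κ⁻¹ * (k' : F) = -(κ * (k : F))⁻¹ := by
    have h4 : (k : F) * k' = -1 := by exact_mod_cast congrArg Subtype.val hkk
    have h5 := hκ.ne
    have h6 : (k : F) ≠ 0 := fun h0 => hk0 (Subtype.ext h0)
    field_simp
    linear_combination h4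
  have h4 : (⟨(xe (lo (ρ i)) (hi (ρ i)) (κ * k) * xe (hi (ρ i)) (lo (ρ i)) (κ⁻¹ * k') * xe (lo (ρ i)) (hi (ρ i)) (κ * k)) *
      (xe (lo (ρ i)) (hi (ρ i)) (κ * k) * xe (hi (ρ i)) (lo (ρ i)) (κ⁻¹ * k') * xe (lo (ρ i)) (hi (ρ i)) (κ * k)),
      G.mul_mem (G.mul_mem (G.mul_mem ((inX_long hl' (lng_mul hκ.lng k)).memG h)
        ((inY_long hl' (lng_mul (hκ.lng.inv (npos i)) k')).memG h)) ((inX_long hl' (lng_mul hκ.lng k)).memG h))
        (G.mul_mem (G.mul_mem ((inX_long hl' (lng_mul hκ.lng k)).memG h)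
        ((inY_long hl' (lng_mul (hκ.lng.inv (npos i)) k')).memG h)) ((inX_long hl' (lng_mul hκ.lng k)).memG h))⟩ : ↥G) ∈
      Subgroup.center ↥G := (QuotientGroup.eq_one_iff _).1 h3
  obtain ⟨r, hr⟩ := scalar_of_center h hκ h4
  have hr' : ((nx (lo (ρ i)) (hi (ρ i)) (κ * k) * nx (lo (ρ i)) (hi (ρ i)) (κ * k) :
      Matrix.SpecialLinearGroup (Fin n) F) : Matrix (Fin n) (Fin n) F) = Matrix.scalar (Fin n) r := by
    rw [← hr]
    unfold nx
    rw [← e2]
  have hh1 := lo_lt_hi (ρ i)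
  have hhi' : ((hi (ρ i) : Fin n) : ℕ) = (ρ i : ℕ) + 1 := hi_val_of_not (by omega)
  have h5 := congrFun (congrFun hr' (lo (ρ i))) (lo (ρ i))
  have h6 := congrFun (congrFun hr' ⟨0, by omega⟩) ⟨0, by omega⟩
  rw [nx_sq hh1.ne hκk, Matrix.scalar_apply, Matrix.diagonal_apply_eq, if_pos rfl, if_pos rfl] at h5
  rw [nx_sq hh1.ne hκk, Matrix.scalar_apply, Matrix.diagonal_apply_eq, if_pos rfl, if_neg, if_neg] at h6
  · rw [← h5] at h6
    apply h2
    linear_combination h6
  · intro h; have := congrArg Fin.val h; rw [hhi'] at this; simp only at this; omega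
  · intro h; have := congrArg Fin.val h; rw [lo_val] at this; simp only at this; omega

end Cls

end CfsgH6
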