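import Cfsg.Agent.H6.Cls10

set_option autoImplicit false

/-! Diagonal semilinear automorphisms; the automorphism theorem in even dimension. -/

namespace CfsgH6

open Matrix

variable {F : Type*} [Field F] {n : ℕ}

/-- the diagonal semilinear automorphism of `SL_n` -/
def Fd (d : Fin n → Fˣ) (φ : F ≃+* F) : MulAut (Matrix.SpecialLinearGroup (Fin n) F) :=
  slConj n F (dGL d) * slField n φ

theorem Fd_apply (d : Fin n → Fˣ) (φ : F ≃+* F) (g : Matrix.SpecialLinearGroup (Fin n) F) (a b : Fin n) :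
    ((Fd d φ g : Matrix.SpecialLinearGroup (Fin n) F) : Matrix (Fin n) (Fin n) F) a b =
      (d a : F) * (d b : F)⁻¹ * φ ((g : Matrix (Fin n) (Fin n) F) a b) := by
  show ((slConj n F (dGL d) (slField n φ g) : Matrix.SpecialLinearGroup (Fin n) F) :
    Matrix (Fin n) (Fin n) F) a b = _
  rw [slConj_coe, slField_coe]
  have h1 : (((dGL d)⁻¹ : GL (Fin n) F) : Matrix (Fin n) (Fin n) F) =
      Matrix.diagonal fun i => ((d i : F))⁻¹ := by
    have : (((dGL d)⁻¹ : GL (Fin n) F) : Matrix (Fin n) (Fin n) F) =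
      Matrix.diagonal fun i => (((d i)⁻¹ : Fˣ) : F) := rfl
    rw [this]
    congr 1
    ext i
    rw [Units.val_inv_eq_inv_val]
  have h2 : ((dGL d : GL (Fin n) F) : Matrix (Fin n) (Fin n) F) =
      Matrix.diagonal fun i => (d i : F) := rfl
  rw [h1, h2, Matrix.mul_diagonal, Matrix.diagonal_mul, Matrix.map_apply]
  ring

theorem Fd_xe (d : Fin n → Fˣ) (φ : F ≃+* F) {a b : Fin n} (h : a ≠ b) (t : F) :
    Fd d φ (xe a b t) = xe a b ((d a : F) * (d b : F)⁻¹ * φ t) := by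
  apply Subtype.ext
  ext x y
  rw [Fd_apply, xe_apply h, xe_apply h]
  by_cases hxy : x = y
  · subst hxy
    have h3 : ¬ (a = x ∧ b = x) := fun h' => h (h'.1.trans h'.2.symm)
    rw [if_pos rfl, if_neg h3, if_neg h3, add_zero, map_one, mul_one, mul_inv_cancel₀ (d x).ne_zero]
  · rw [if_neg hxy, zero_add, zero_add]
    by_cases h3 : a = x ∧ b = y
    · obtain ⟨rfl, rfl⟩ := h3
      rw [if_pos ⟨rfl, rfl⟩, if_pos ⟨rfl, rfl⟩]
    · rw [if_neg h3, if_neg h3, map_zero, mul_zero]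

theorem Fd_mem_UU (d : Fin n → Fˣ) (φ : F ≃+* F) {g : Matrix.SpecialLinearGroup (Fin n) F} (hg : g ∈ UU n F) :
    Fd d φ g ∈ UU n F := by
  refine ⟨fun a => ?_, fun a b hab => ?_⟩
  · rw [Fd_apply, hg.1, map_one, mul_one, mul_inv_cancel₀ (d a).ne_zero]
  · rw [Fd_apply, hg.2 _ _ hab, map_zero, mul_zero]

theorem Fd_mem_LL (d : Fin n → Fˣ) (φ : F ≃+* F) {g : Matrix.SpecialLinearGroup (Fin n) F} (hg : g ∈ LL n F) :
    Fd d φ g ∈ LL n F := by
  rw [mem_LL']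
  refine ⟨fun a => ?_, fun a b hab => ?_⟩
  · rw [Matrix.transpose_apply, Fd_apply, LL_diag hg, map_one, mul_one, mul_inv_cancel₀ (d a).ne_zero]
  · rw [Matrix.transpose_apply, Fd_apply, LL_zero hg hab, map_zero, mul_zero]

theorem Fd_mem_BU (d : Fin n → Fˣ) (φ : F ≃+* F) {g : Matrix.SpecialLinearGroup (Fin n) F} (hg : g ∈ BU n F) :
    Fd d φ g ∈ BU n F := by
  rw [mem_BU]
  intro a b hab
  rw [Fd_apply, mem_BU.1 hg a b hab, map_zero, mul_zero]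

theorem Fd_mem_PS (d : Fin n → Fˣ) (φ : F ≃+* F) {S : ℕ → Prop} [DecidablePred S]
    {g : Matrix.SpecialLinearGroup (Fin n) F} (hg : g ∈ PS n F S) : Fd d φ g ∈ PS n F S := by
  rw [mem_PS]
  intro a b hab hc
  rw [Fd_apply, mem_PS.1 hg a b hab hc, map_zero, mul_zero]

/-! ### induced automorphisms of `G` modulo its center -/

/-- restriction to `G` of an automorphism of `SL_n` -/
noncomputable def resG {G : Subgroup (Matrix.SpecialLinearGroup (Fin n) F)} [Finite F]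
    (A : MulAut (Matrix.SpecialLinearGroup (Fin n) F)) (hA : ∀ g ∈ G, A g ∈ G) : MulAut ↥G :=
  MulEquiv.ofBijective
    ({ toFun := fun g : ↥G => (⟨A g.1, hA g.1 g.2⟩ : ↥G)
       map_one' := Subtype.ext (map_one A)
       map_mul' := fun a b => Subtype.ext (map_mul A a.1 b.1) } : ↥G →* ↥G)
    (Finite.injective_iff_bijective.1 fun a b hab => Subtype.ext (A.injective (congrArg Subtype.val hab)))

theorem mem_center_aut {G : Type*} [Group G] (γ : MulAut G) (x : G) :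
    γ x ∈ Subgroup.center G ↔ x ∈ Subgroup.center G := by
  constructor
  · intro hx
    rw [Subgroup.mem_center_iff] at hx ⊢
    intro g
    have := hx (γ g)
    rw [← map_mul, ← map_mul] at this
    exact γ.injective this
  · intro hx
    rw [Subgroup.mem_center_iff] at hx ⊢
    intro g
    have := hx (γ⁻¹ g)
    have h2 := congrArg γ this
    simpa using h2

/-- the automorphism of `G` modulo its center induced by an automorphism of `SL_n` -/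
noncomputable def qA {G : Subgroup (Matrix.SpecialLinearGroup (Fin n) F)} [Finite F]
    (A : MulAut (Matrix.SpecialLinearGroup (Fin n) F)) (hA : ∀ g ∈ G, A g ∈ G) :
    MulAut (↥G ⧸ Subgroup.center ↥G) := PreDatum.qAut (resG A hA) (mem_center_aut _)

theorem qA_mk {G : Subgroup (Matrix.SpecialLinearGroup (Fin n) F)} [Finite F]
    (A : MulAut (Matrix.SpecialLinearGroup (Fin n) F)) (hA : ∀ g ∈ G, A g ∈ G) (g : ↥G) :
    qA A hA (QuotientGroup.mk g) = QuotientGroup.mk ⟨A g.1, hA g.1 g.2⟩ := rfl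

namespace Cls

variable {D : Cls n F} {G : Subgroup (Matrix.SpecialLinearGroup (Fin n) F)}

theorem qA_mq [Finite F] (A : MulAut (Matrix.SpecialLinearGroup (Fin n) F)) (hA : ∀ g ∈ G, A g ∈ G)
    (s : Matrix.SpecialLinearGroup (Fin n) F) (hs : s ∈ G) : qA A hA (mq s hs) = mq (A s) (hA s hs) := rfl

/-- diagonal similarities compatible with a field automorphism -/
structure DSim (D : Cls n F) (d : Fin n → Fˣ) (φ : F ≃+* F) : Prop where
  sim : ∃ μ : F, ∀ a, (d a : F) * D.σ (d (Fin.rev a)) = μ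
  comm : ∀ x, φ (D.σ x) = D.σ (φ x)

theorem map_e (φ : F ≃+* F) (a : Fin n) : φ (D.e a : F) = D.e a := by
  have h := D.hec a
  have h2 : ((D.e a : F) - 1) * ((D.e a : F) + 1) = 0 := by linear_combination h
  rcases mul_eq_zero.1 h2 with h3 | h3
  · have h4 : (D.e a : F) = 1 := by linear_combination h3
    rw [h4, map_one]
  · have h4 : (D.e a : F) = -1 := by linear_combination h3
    rw [h4, map_neg, map_one]

theorem DSim.τ {d : Fin n → Fˣ} {φ : F ≃+* F} (h : D.DSim d φ) (g : Matrix.SpecialLinearGroup (Fin n) F) :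
    D.τ (Fd d φ g) = Fd d φ (D.τ g) := by
  obtain ⟨μ, hμ⟩ := h.sim
  apply Subtype.ext
  ext a b
  rw [τ_apply, ← map_inv, Fd_apply, Fd_apply, τ_apply, map_mul, map_mul, map_mul, map_mul, map_e, map_e,
    h.comm, map_inv₀]
  have h1 := hμ a
  have h2 := hμ b
  have n1 : D.σ (d (Fin.rev a) : F) ≠ 0 := fun h0 => (d (Fin.rev a)).ne_zero ((map_eq_zero D.σ).1 h0)
  have n2 : D.σ (d (Fin.rev b) : F) ≠ 0 := fun h0 => (d (Fin.rev b)).ne_zero ((map_eq_zero D.σ).1 h0)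
  have h3 : D.σ (d (Fin.rev b) : F) * (D.σ (d (Fin.rev a) : F))⁻¹ = (d a : F) * (d b : F)⁻¹ := by
    have n3 := (d b).ne_zero
    rw [mul_inv_eq_iff_eq_mul₀ n1]
    have : (d a : F) * (d b : F)⁻¹ * D.σ (d (Fin.rev a) : F) = ((d a : F) * D.σ (d (Fin.rev a) : F)) * (d b : F)⁻¹ := by
      ring
    rw [this, h1, ← h2]
    field_simp
  rw [h3]
  ring

theorem DSim.rt {d : Fin n → Fˣ} {φ : F ≃+* F} (h : D.DSim d φ) {a b : Fin n} (hab : a ≠ b) (t : F) :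
    Fd d φ (D.rt a b t) = D.rt a b ((d a : F) * (d b : F)⁻¹ * φ t) := by
  unfold Cls.rt
  rw [map_mul, ← h.τ, Fd_xe d φ hab]

/-- diagonal semilinear similarities normalise `G` -/
def DG (D : Cls n F) (G : Subgroup (Matrix.SpecialLinearGroup (Fin n) F)) : Prop :=
  ∀ d φ, D.DSim d φ → ∀ g ∈ G, Fd d φ g ∈ G

/-- the permutation of the root groups induced by a diagonal semilinear automorphism is trivial -/
theorem DSim.perm [Finite F] (h : D.Good G) {κ : F} (hκ : D.LongHyp κ) {d : Fin n → Fˣ} {φ : F ≃+* F}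
    (_hd : D.DSim d φ) (hG : ∀ g ∈ G, Fd d φ g ∈ G) : (qd h hκ).Perm (qA (Fd d φ) hG) id := by
  have key : ∀ (H : Subgroup (↥G ⧸ Subgroup.center ↥G)), (∀ x ∈ H, qA (Fd d φ) hG x ∈ H) →
      ∀ x, qA (Fd d φ) hG x ∈ H ↔ x ∈ H := fun H hH => mem_iff_of_mapsTo' H _ hH
  refine ⟨⟨key _ ?_, key _ ?_⟩, fun i => key _ ?_, fun i => key _ ?_, Function.injective_id⟩
  · rintro _ ⟨g, hg, rfl⟩
    exact ⟨⟨_, hG g.1 g.2⟩, Fd_mem_UU d φ hg, rfl⟩
  · rintro _ ⟨g, hg, rfl⟩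
    exact ⟨⟨_, hG g.1 g.2⟩, Fd_mem_LL d φ hg, rfl⟩
  · rintro _ ⟨g, hg, rfl⟩
    refine ⟨⟨_, hG g.1 g.2⟩, ?_, rfl⟩
    have h1 := Fd_mem_UU d φ ((γ_iff_LL (D := D) g.1).1 hg.1)
    refine ⟨D.γ_mem_LL h1, ?_⟩
    apply γ_mem_PS_cut_of_UU _ (node_le _)
    rintro a b hab ⟨c, hc1, hc2, hc3⟩
    have hX : D.InX i g.1 := ⟨h.fix g.1 g.2, hg.1, hg.2⟩
    show ((Fd d φ g.1 : Matrix.SpecialLinearGroup (Fin n) F) : Matrix (Fin n) (Fin n) F) a b = 0
    rw [Fd_apply, hX.entry hab hc1 hc2 hc3, map_zero, mul_zero]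
  · rintro _ ⟨g, hg, rfl⟩
    exact ⟨⟨_, hG g.1 g.2⟩, ⟨Fd_mem_LL d φ hg.1, Fd_mem_PS d φ hg.2⟩, rfl⟩

/-! ### choice of the diagonal element -/

theorem exists_chain (c : ℕ → Fˣ) (m : ℕ) (s : Fˣ) :
    ∃ dd : ℕ → Fˣ, dd (m - 1) = s ∧ ∀ i, i + 1 < m → dd i = c i * dd (i + 1) := by
  refine ⟨fun i => (∏ j ∈ Finset.Ico i (m - 1), c j) * s, ?_, ?_⟩
  · simp
  · intro i hi
    show (∏ j ∈ Finset.Ico i (m - 1), c j) * s = c i * ((∏ j ∈ Finset.Ico (i + 1) (m - 1), c j) * s)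
    rw [Finset.prod_eq_prod_Ico_succ_bot (by omega), mul_assoc]

/-- the diagonal element built from its upper half -/
def mkd (D : Cls n F) (dd : ℕ → Fˣ) (μ w : Fˣ) : Fin n → Fˣ := fun a =>
  if (a : ℕ) < n / 2 then dd a else if (a : ℕ) = n / 2 ∧ n % 2 = 1 then w
    else μ * (Units.map (D.σ : F →* F) (dd (Fin.rev a)))⁻¹

theorem mkd_lt {dd : ℕ → Fˣ} {μ w : Fˣ} {a : Fin n} (ha : (a : ℕ) < n / 2) : D.mkd dd μ w a = dd a := by
  unfold mkd; rw [if_pos ha]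

theorem mkd_mid {dd : ℕ → Fˣ} {μ w : Fˣ} {a : Fin n} (ha : (a : ℕ) = n / 2) (hn : n % 2 = 1) :
    D.mkd dd μ w a = w := by
  unfold mkd; rw [if_neg (by omega), if_pos ⟨ha, hn⟩]

theorem mkd_gt {dd : ℕ → Fˣ} {μ w : Fˣ} {a : Fin n} (ha : ((Fin.rev a : Fin n) : ℕ) < n / 2) :
    D.mkd dd μ w a = μ * (Units.map (D.σ : F →* F) (dd (Fin.rev a)))⁻¹ := by
  have h1 := Fin.val_rev a
  have h2 := a.isLt
  unfold mkd
  rw [if_neg (by omega), if_neg (by omega)]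

theorem mkd_sim {dd : ℕ → Fˣ} {μ w : Fˣ} (hμ : D.σ (μ : F) = μ) (hw : n % 2 = 1 → (w : F) * D.σ w = μ)
    (a : Fin n) : (D.mkd dd μ w a : F) * D.σ (D.mkd dd μ w (Fin.rev a)) = μ := by
  have h1 := Fin.val_rev a
  have h2 := a.isLt
  by_cases ha : (a : ℕ) < n / 2
  · rw [mkd_lt ha, mkd_gt (by rw [Fin.rev_rev]; exact ha), Fin.rev_rev]
    simp only [Units.val_mul, Units.val_inv_eq_inv_val, Units.coe_map, MonoidHom.coe_coe, map_mul, map_inv₀, hμ]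
    rw [D.hσ]
    have := (dd a).ne_zero
    field_simp
  · by_cases ha' : (a : ℕ) = n / 2 ∧ n % 2 = 1
    · rw [mkd_mid ha'.1 ha'.2, mkd_mid (by omega) ha'.2]
      exact hw ha'.2
    · have h3 : ((Fin.rev a : Fin n) : ℕ) < n / 2 := by omega
      rw [mkd_gt h3, mkd_lt h3]
      simp only [Units.val_mul, Units.val_inv_eq_inv_val, Units.coe_map, MonoidHom.coe_coe]
      have : D.σ (dd (Fin.rev a) : F) ≠ 0 := fun h0 => (dd (Fin.rev a)).ne_zero ((map_eq_zero D.σ).1 h0)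
      field_simp

/-! ### field automorphisms of the short nodes -/

/-- the norm -/
def nm (D : Cls n F) (t : F) : fixF D.σ := ⟨t * D.σ t, by
  rw [mem_fixF, map_mul, D.hσ, mul_comm]⟩

theorem nm_coe (t : F) : (D.nm t : F) = t * D.σ t := rfl

theorem nm_mul (s t : F) : D.nm (s * t) = D.nm s * D.nm t := by
  apply Subtype.ext
  rw [Subfield.coe_mul, nm_coe, nm_coe, nm_coe, map_mul]; ring

theorem nm_ne {t : F} (ht : t ≠ 0) : D.nm t ≠ 0 := by
  intro h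
  have h1 : t * D.σ t = 0 := congrArg Subtype.val h
  rcases mul_eq_zero.1 h1 with h2 | h2
  · exact ht h2
  · exact ht ((map_eq_zero D.σ).1 h2)

/-- action of the torus of a short node on the next short node -/
theorem hh_act_short (h : D.Good G) {i j : Fin (n / 2)} (hij : (j : ℕ) = i + 1)
    (hi' : 2 * (i : ℕ) + 4 ≤ n) (hj : 2 * (j : ℕ) + 4 ≤ n) {t : F} (u : F) (ht : t ≠ 0) :
    SL2Pair.hh (xS h hi') (yS h hi') t * xS h hj u * (SL2Pair.hh (xS h hi') (yS h hi') t)⁻¹ = xS h hj (t⁻¹ * u) := by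
  rw [hh_short h hi' ht]
  unfold xS
  rw [mq_inv, mq_mul, mq_mul]
  apply mq_eq
  rw [diag_conj_rt (fun _ _ => dt_diag _ ht) (h.fix _ (dt_mem h hi' ht)) (short_of hj), dt_apply, dt_apply]
  have vi : ((lo i : Fin n) : ℕ) = i := lo_val i
  have vhi : ((hi i : Fin n) : ℕ) = i + 1 := hi_val_of_not (by omega)
  have vj : ((lo j : Fin n) : ℕ) = i + 1 := by rw [lo_val, hij]
  have vhj : ((hi j : Fin n) : ℕ) = i + 2 := by rw [hi_val_of_not (by omega), hij]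
  have e1 : (lo j : Fin n) = hi i := Fin.ext (by rw [vj, vhi])
  have ne : ∀ {x y : Fin n}, (x : ℕ) ≠ y → x ≠ y := fun h h' => h (congrArg Fin.val h')
  have n1 : (lo j : Fin n) ≠ lo i := ne (by omega)
  have n2 : (lo j : Fin n) ≠ Fin.rev (lo i) := ne (by rw [Fin.val_rev]; omega)
  have n3 : (lo j : Fin n) ≠ Fin.rev (hi i) := ne (by rw [Fin.val_rev]; omega)
  have n4 : (hi j : Fin n) ≠ lo i := ne (by omega)
  have n5 : (hi j : Fin n) ≠ hi i := ne (by omega)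
  have n6 : (hi j : Fin n) ≠ Fin.rev (lo i) := ne (by rw [Fin.val_rev]; omega)
  have n7 : (hi j : Fin n) ≠ Fin.rev (hi i) := ne (by rw [Fin.val_rev]; omega)
  rw [if_neg n1, if_pos e1, if_neg n2, if_neg n3, if_neg n4, if_neg n5, if_neg n6, if_neg n7]
  congr 1
  ring

/-- action of the torus of a short node on the last node in even dimension -/
theorem hh_act_long (h : D.Good G) {κ : F} (hκ : D.LongHyp κ) {i j : Fin (n / 2)} (hij : (j : ℕ) = i + 1)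
    (hi' : 2 * (i : ℕ) + 4 ≤ n) (hj : 2 * (j : ℕ) + 2 = n) (hj' : ¬ 2 * (j : ℕ) + 4 ≤ n) {t : F}
    (u : fixF D.σ) (ht : t ≠ 0) :
    SL2Pair.hh (xS h hi') (yS h hi') t * xL h hκ hj' u * (SL2Pair.hh (xS h hi') (yS h hi') t)⁻¹ =
      xL h hκ hj' ((D.nm t)⁻¹ * u) := by
  rw [hh_short h hi' ht]
  unfold xL
  rw [mq_inv, mq_mul, mq_mul]
  apply mq_eq
  rw [diag_conj_xe (fun _ _ => dt_diag _ ht) (lo_lt_hi j).ne, dt_apply, dt_apply]
  have vi : ((lo i : Fin n) : ℕ) = i := lo_val i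
  have vhi : ((hi i : Fin n) : ℕ) = i + 1 := hi_val_of_not (by omega)
  have vj : ((lo j : Fin n) : ℕ) = i + 1 := by rw [lo_val, hij]
  have vhj : ((hi j : Fin n) : ℕ) = i + 2 := by rw [hi_val_of_not (by omega), hij]
  have e1 : (lo j : Fin n) = hi i := Fin.ext (by rw [vj, vhi])
  have e2 : (hi j : Fin n) = Fin.rev (hi i) := Fin.ext (by rw [Fin.val_rev]; omega)
  have ne : ∀ {x y : Fin n}, (x : ℕ) ≠ y → x ≠ y := fun h h' => h (congrArg Fin.val h')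
  have n1 : (lo j : Fin n) ≠ lo i := ne (by omega)
  have n2 : (lo j : Fin n) ≠ Fin.rev (lo i) := ne (by rw [Fin.val_rev]; omega)
  have n3 : (lo j : Fin n) ≠ Fin.rev (hi i) := ne (by rw [Fin.val_rev]; omega)
  have n4 : (hi j : Fin n) ≠ lo i := ne (by omega)
  have n5 : (hi j : Fin n) ≠ hi i := ne (by omega)
  have n6 : (hi j : Fin n) ≠ Fin.rev (lo i) := ne (by rw [Fin.val_rev]; omega)
  rw [if_neg n1, if_pos e1, if_neg n2, if_neg n3, if_neg n4, if_neg n5, if_neg n6, if_pos e2]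
  congr 1
  rw [Subfield.coe_mul, Subfield.coe_inv, nm_coe, mul_inv]
  ring

/-- the semilinear maps of the short nodes -/
theorem short_semilinear [Finite F] (h : D.Good G) {κ : F} (hκ : D.LongHyp κ)
    {β : MulAut (↥G ⧸ Subgroup.center ↥G)} (hβ : (qd h hκ).Perm β id) :
    ∃ (c : ℕ → Fˣ) (φ : F ≃+* F), ∀ (i : Fin (n / 2)) (hs : 2 * (i : ℕ) + 4 ≤ n) (t : F),
      β (xS h hs t) = xS h hs (c i * φ t) ∧ β (yS h hs t) = yS h hs ((c i : F)⁻¹ * φ t) := by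
  have hex : ∀ i : ℕ, ∃ (c : Fˣ) (φ : F ≃+* F), ∀ (hi' : i < n / 2) (hs : 2 * i + 4 ≤ n) (t : F),
      β (xS h (i := ⟨i, hi'⟩) hs t) = xS h (i := ⟨i, hi'⟩) hs (c * φ t) ∧
      β (yS h (i := ⟨i, hi'⟩) hs t) = yS h (i := ⟨i, hi'⟩) hs ((c : F)⁻¹ * φ t) := by
    intro i
    by_cases hs : 2 * i + 4 ≤ n
    · have hi' : i < n / 2 := by omega
      obtain ⟨c, φ, hc, hcφ⟩ := (pair_short h hκ (i := ⟨i, hi'⟩) hs).field (pair_short h hκ (i := ⟨i, hi'⟩) hs) β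
        (by
          intro t
          obtain ⟨s, hsX, hs'⟩ := mem_qX h hκ ((hβ.pos ⟨i, hi'⟩ _).2 ((inX_short (D := D) (i := ⟨i, hi'⟩) hs t).mem_qX h hκ))
          exact ⟨_, hs'.trans (mq_eq (hsX.short hs))⟩)
        (by
          intro t
          obtain ⟨s, hsX, hs'⟩ := mem_qY h hκ ((hβ.neg ⟨i, hi'⟩ _).2 ((inY_short (D := D) (i := ⟨i, hi'⟩) hs t).mem_qY h hκ))
          obtain ⟨u, hu⟩ := hsX.short hs
          exact ⟨u, hs'.trans (mq_eq hu)⟩)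
      exact ⟨Units.mk0 c hc, φ, fun _ _ t => hcφ t⟩
    · exact ⟨1, RingEquiv.refl F, fun _ hs' => absurd hs' hs⟩
  choose c φ hcφ using hex
  have hφ : ∀ i, ∀ (_ : i < n / 2) (_ : 2 * i + 4 ≤ n), φ i = φ 0 := by
    intro i
    induction i with
    | zero => intro _ _; rfl
    | succ i ih =>
      intro hi' hs
      have hi'' : i < n / 2 := by omega
      have hs'' : 2 * i + 4 ≤ n := by omega
      rw [← ih hi'' hs'']
      ext t
      by_cases ht : t = 0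
      · rw [ht, map_zero, map_zero]
      · exact SL2Pair.compare (x := xS h (i := ⟨i, hi''⟩) hs'') (y := yS h (i := ⟨i, hi''⟩) hs'')
          (x' := xS h (i := ⟨i, hi''⟩) hs'') (y' := yS h (i := ⟨i, hi''⟩) hs'')
          (x₂ := xS h (i := ⟨i + 1, hi'⟩) hs) (x₂' := xS h (i := ⟨i + 1, hi'⟩) hs) (fun t => t)
          (pair_short h hκ (i := ⟨i + 1, hi'⟩) hs).x_inj
          (fun t u ht => hh_act_short h (i := ⟨i, hi''⟩) (j := ⟨i + 1, hi'⟩) rfl hs'' hs u ht)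
          (fun t u ht => hh_act_short h (i := ⟨i, hi''⟩) (j := ⟨i + 1, hi'⟩) rfl hs'' hs u ht)
          (fun _ _ => rfl) (fun _ ht => ht) β (c i).ne_zero (hcφ i hi'' hs'') (c (i + 1)).ne_zero
          (fun t => (hcφ (i + 1) hi' hs t).1) t ht
  refine ⟨c, φ 0, fun i hs t => ?_⟩
  rw [← hφ i i.isLt hs]
  exact hcφ i i.isLt hs t

/-- the automorphism theorem in even dimension -/
theorem main_even [Finite F] (h : D.Good G) {κ : F} (hκ : D.LongHyp κ) (hn : n % 2 = 0) (hn4 : 4 ≤ n)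
    {p : ℕ} [Fact p.Prime] [CharP F p]
    (hdG : D.DG G) (hcomm : ∀ (φ : F ≃+* F) (x : F), φ (D.σ x) = D.σ (φ x))
    (hN : ∀ (φ : F ≃+* F) (ψ : fixF D.σ ≃+* fixF D.σ), (∀ t, t ≠ 0 → ψ (D.nm t) = D.nm (φ t)) →
      ∀ k, (ψ k : F) = φ k)
    (hsur : ∀ c : Fˣ, D.σ (c : F) = c → ∃ s μ : Fˣ, D.σ (μ : F) = μ ∧ (s : F) * D.σ s = μ * c)
    {β : MulAut (↥G ⧸ Subgroup.center ↥G)} (hβ : (qd h hκ).Perm β id) :
    ∃ (d : Fin n → Fˣ) (φ : F ≃+* F) (hd : D.DSim d φ), β = qA (Fd d φ) (hdG d φ hd) := by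
  obtain ⟨c, φ, hcφ⟩ := short_semilinear h hκ hβ
  -- the last two nodes
  have hl : n / 2 - 1 < n / 2 := by omega
  have hi' : n / 2 - 2 < n / 2 := by omega
  have hi2 : 2 * (n / 2 - 2) + 4 ≤ n := by omega
  have hj2 : 2 * (n / 2 - 1) + 2 = n := by omega
  have hj4 : ¬ 2 * (n / 2 - 1) + 4 ≤ n := by omega
  have hQ := pair_long h hκ (i := ⟨n / 2 - 1, hl⟩) hj4
  obtain ⟨cl, ψ, hcl, hψ⟩ := hQ.field hQ β
    (by
      intro t
      obtain ⟨s, hsX, hs'⟩ := mem_qX h hκ ((hβ.pos ⟨n / 2 - 1, hl⟩ _).2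
        ((inX_long (i := ⟨n / 2 - 1, hl⟩) hj4 (lng_mul hκ.lng t)).mem_qX h hκ))
      obtain ⟨h1, h2⟩ := hsX.even hj2
      obtain ⟨k, hk⟩ := mem_xL h hκ (i := ⟨n / 2 - 1, hl⟩) hj4 h1
      exact ⟨k, (hs'.trans (mq_eq h2)).trans hk.symm⟩)
    (by
      intro t
      obtain ⟨s, hsX, hs'⟩ := mem_qY h hκ ((hβ.neg ⟨n / 2 - 1, hl⟩ _).2
        ((inY_long (i := ⟨n / 2 - 1, hl⟩) hj4 (lng_mul (hκ.lng.inv (by omega)) t)).mem_qY h hκ))
      obtain ⟨u, h1, h2⟩ := hsX.even hj2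
      obtain ⟨k, hk⟩ := mem_yL h hκ (i := ⟨n / 2 - 1, hl⟩) hj4 h1
      exact ⟨k, (hs'.trans (mq_eq h2)).trans hk.symm⟩)
  have hψφ : ∀ k, (ψ k : F) = φ k := by
    apply hN
    intro t ht
    refine SL2Pair.compare (x := xS h (i := ⟨n / 2 - 2, hi'⟩) hi2) (y := yS h (i := ⟨n / 2 - 2, hi'⟩) hi2)
      (x' := xS h (i := ⟨n / 2 - 2, hi'⟩) hi2) (y' := yS h (i := ⟨n / 2 - 2, hi'⟩) hi2)
      (x₂ := xL h hκ (i := ⟨n / 2 - 1, hl⟩) hj4) (x₂' := xL h hκ (i := ⟨n / 2 - 1, hl⟩) hj4) D.nm hQ.x_inj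
      ?_ ?_ nm_mul (fun _ => nm_ne) β (c (n / 2 - 2)).ne_zero (hcφ ⟨n / 2 - 2, hi'⟩ hi2) hcl (fun t => (hψ t).1) t ht
    · intro t u ht
      exact hh_act_long h hκ (i := ⟨n / 2 - 2, hi'⟩) (j := ⟨n / 2 - 1, hl⟩) (by simp only; omega) hi2 hj2 hj4 u ht
    · intro t u ht
      exact hh_act_long h hκ (i := ⟨n / 2 - 2, hi'⟩) (j := ⟨n / 2 - 1, hl⟩) (by simp only; omega) hi2 hj2 hj4 u ht
  -- the diagonal element
  have hclF : (cl : F) ≠ 0 := fun h0 => hcl (Subtype.ext h0)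
  have hφκ : φ κ ≠ 0 := fun h0 => hκ.ne ((map_eq_zero φ).1 h0)
  let c' : Fˣ := Units.mk0 ((cl : F) * κ * (φ κ)⁻¹) (mul_ne_zero (mul_ne_zero hclF hκ.ne) (inv_ne_zero hφκ))
  have hlφ : D.Lng (φ κ) := by
    have h1 := hκ.lng
    unfold Lng at h1 ⊢
    have hε : φ (D.ε : F) = D.ε := by
      rw [← D.heec ⟨0, by omega⟩, map_mul, map_e, map_e]
    conv_lhs => rw [h1]
    rw [map_neg, map_mul, hε, hcomm]
  have hc'σ : D.σ (c' : F) = c' := by
    have h1 := lng_div hlφ hφκ hκ.lng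
    rw [mem_fixF] at h1
    show D.σ ((cl : F) * κ * (φ κ)⁻¹) = (cl : F) * κ * (φ κ)⁻¹
    have h2 : (cl : F) * κ * (φ κ)⁻¹ = cl * ((φ κ)⁻¹ * κ) := by ring
    rw [h2, map_mul, h1, mem_fixF.1 cl.2]
  obtain ⟨s, μ, hμ, hsμ⟩ := hsur c' hc'σ
  obtain ⟨dd, hdd1, hdd2⟩ := exists_chain c (n / 2) s
  have hd : D.DSim (D.mkd dd μ 1) φ := ⟨⟨μ, mkd_sim hμ (fun h => by omega)⟩, hcomm φ⟩
  refine ⟨_, φ, hd, ?_⟩
  have hα := hd.perm h hκ (hdG _ φ hd)
  -- values on root elements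
  have v1 : ∀ (i : Fin (n / 2)) (hs : 2 * (i : ℕ) + 4 ≤ n),
      (D.mkd dd μ 1 (lo i) : F) = c i * (D.mkd dd μ 1 (hi i) : F) := by
    intro i hs
    have h1 : ((hi i : Fin n) : ℕ) = i + 1 := hi_val_of_not (by omega)
    rw [mkd_lt (by rw [lo_val]; exact i.isLt), mkd_lt (by rw [h1]; omega), h1, lo_val, hdd2 i (by omega), Units.val_mul]
  have v2 : (D.mkd dd μ 1 (lo ⟨n / 2 - 1, hl⟩) : F) * (D.mkd dd μ 1 (hi ⟨n / 2 - 1, hl⟩) : F)⁻¹ = c' := by
    have h1 : (hi ⟨n / 2 - 1, hl⟩ : Fin n) = Fin.rev (lo ⟨n / 2 - 1, hl⟩) := hi_eq_rev hj4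
    rw [h1, mkd_lt (by rw [lo_val]; exact hl), mkd_gt (by rw [Fin.rev_rev, lo_val]; exact hl), Fin.rev_rev, lo_val]
    simp only [hdd1, Units.val_mul, Units.val_inv_eq_inv_val, Units.coe_map, MonoidHom.coe_coe]
    rw [mul_inv, inv_inv]
    show (s : F) * ((μ : F)⁻¹ * D.σ (s : F)) = _
    have h2 : (s : F) * ((μ : F)⁻¹ * D.σ (s : F)) = ((s : F) * D.σ s) * (μ : F)⁻¹ := by ring
    rw [h2, hsμ, mul_comm, ← mul_assoc, inv_mul_cancel₀ μ.ne_zero, one_mul]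
  have hfix : ((qA (Fd (D.mkd dd μ 1) φ) (hdG _ φ hd))⁻¹ * β) = 1 := by
    apply (qd h hκ).eq_one (qd_isPGroup h hκ (p := p)) (qd_pelt h hκ (p := p))
    · intro i x hx
      show (qA (Fd (D.mkd dd μ 1) φ) (hdG _ φ hd))⁻¹ (β x) = x
      rw [MulAut.inv_apply, MulEquiv.symm_apply_eq]
      obtain ⟨g, hg, rfl⟩ := mem_qX h hκ hx
      rw [qA_mq]
      by_cases hs : 2 * (i : ℕ) + 4 ≤ n
      · have h1 := hg.short hs
        have h2 : mq g (hg.memG h) = xS h hs ((g : Matrix (Fin n) (Fin n) F) (lo i) (hi i)) := mq_eq h1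
        rw [h2, (hcφ i hs _).1]
        apply mq_eq
        conv_rhs => rw [h1]
        rw [hd.rt (short_of hs).ab, v1 i hs]
        congr 1
        have := (D.mkd dd μ 1 (hi i)).ne_zero
        field_simp
      · have hin := i.isLt
        have hil : i = ⟨n / 2 - 1, hl⟩ := Fin.ext (by simp only; omega)
        subst hil
        obtain ⟨h1, h2⟩ := hg.even hj2
        obtain ⟨k, hk⟩ := mem_xL h hκ (i := ⟨n / 2 - 1, hl⟩) hj4 h1
        have h3 : mq g (hg.memG h) = xL h hκ hj4 k := (mq_eq h2).trans hk.symm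
        have h4 : g = xe (lo ⟨n / 2 - 1, hl⟩) (hi ⟨n / 2 - 1, hl⟩) (κ * k) :=
          mq_UU_inj h hκ hg.mem_UU (xe_mem_UU (lo_lt_hi _) _) h3
        rw [h3, (hψ k).1]
        apply mq_eq
        conv_rhs => rw [h4]
        rw [Fd_xe _ _ (lo_lt_hi _).ne, v2]
        congr 1
        show κ * ((cl : F) * (ψ k : F)) = ((cl : F) * κ * (φ κ)⁻¹) * φ (κ * k)
        rw [hψφ, map_mul]
        field_simp
    · intro i x hx
      show (qA (Fd (D.mkd dd μ 1) φ) (hdG _ φ hd))⁻¹ (β x) = x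
      rw [MulAut.inv_apply, MulEquiv.symm_apply_eq]
      obtain ⟨g, hg, rfl⟩ := mem_qY h hκ hx
      rw [qA_mq]
      by_cases hs : 2 * (i : ℕ) + 4 ≤ n
      · obtain ⟨t, h1⟩ := hg.short hs
        have h2 : mq g (hg.memG h) = yS h hs t := mq_eq h1
        rw [h2, (hcφ i hs _).2]
        apply mq_eq
        conv_rhs => rw [h1]
        rw [hd.rt (short_of hs).ab.symm, v1 i hs]
        congr 1
        have h3 := (D.mkd dd μ 1 (hi i)).ne_zero
        have h4 := (c i).ne_zero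
        field_simp
      · have hin := i.isLt
        have hil : i = ⟨n / 2 - 1, hl⟩ := Fin.ext (by simp only; omega)
        subst hil
        obtain ⟨t, h1, h2⟩ := hg.even hj2
        obtain ⟨k, hk⟩ := mem_yL h hκ (i := ⟨n / 2 - 1, hl⟩) hj4 h1
        have h3 : mq g (hg.memG h) = yL h hκ hj4 k := (mq_eq h2).trans hk.symm
        have h4 : g = xe (hi ⟨n / 2 - 1, hl⟩) (lo ⟨n / 2 - 1, hl⟩) (κ⁻¹ * k) :=
          mq_LL_inj h hκ hg.2.1 (xe_mem_LL (lo_lt_hi _) _) h3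
        rw [h3, (hψ k).2]
        apply mq_eq
        conv_rhs => rw [h4]
        rw [Fd_xe _ _ (lo_lt_hi _).ne']
        have v3 : (D.mkd dd μ 1 (hi ⟨n / 2 - 1, hl⟩) : F) * (D.mkd dd μ 1 (lo ⟨n / 2 - 1, hl⟩) : F)⁻¹ = (c' : F)⁻¹ := by
          rw [← v2, mul_inv, inv_inv, mul_comm]
        rw [v3]
        congr 1
        show κ⁻¹ * (((cl⁻¹ : fixF D.σ) : F) * (ψ k : F)) = ((cl : F) * κ * (φ κ)⁻¹)⁻¹ * φ (κ⁻¹ * k)
        rw [hψφ, map_mul, map_inv₀, Subfield.coe_inv]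
        field_simp
    · intro x hx
      show (qA (Fd (D.mkd dd μ 1) φ) (hdG _ φ hd))⁻¹ (β x) ∈ _
      exact (hα.std.inv.mem_B _).2 ((hβ.std.mem_B x).2 hx)
  exact (inv_mul_eq_one.1 hfix).symm

end Cls

end CfsgH6
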