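import Cfsg.Agent.H6.Cls11

set_option autoImplicit false

/-! The full isometry group of determinant one; similarities. -/

namespace CfsgH6

open Matrix

variable {F : Type*} [Field F] {n : ℕ}

/-- the product of a general linear and a field automorphism of `SL_n` -/
def sA (g : GL (Fin n) F) (φ : F ≃+* F) : MulAut (Matrix.SpecialLinearGroup (Fin n) F) :=
  slConj n F g * slField n φ

theorem sA_coe (g : GL (Fin n) F) (φ : F ≃+* F) (s : Matrix.SpecialLinearGroup (Fin n) F) :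
    ((sA g φ s : Matrix.SpecialLinearGroup (Fin n) F) : Matrix (Fin n) (Fin n) F) =
      (g : Matrix (Fin n) (Fin n) F) * (s : Matrix (Fin n) (Fin n) F).map φ *
        ((g⁻¹ : GL (Fin n) F) : Matrix (Fin n) (Fin n) F) := rfl

namespace Cls

variable (D : Cls n F)

/-- the isometry group -/
def fixG : Subgroup (Matrix.SpecialLinearGroup (Fin n) F) where
  carrier := {g | D.τ g = g}
  one_mem' := map_one _
  mul_mem' := fun {a b} (ha : D.τ a = a) (hb : D.τ b = b) => by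
    show D.τ (a * b) = a * b
    rw [map_mul, ha, hb]
  inv_mem' := fun {a} (ha : D.τ a = a) => by
    show D.τ a⁻¹ = a⁻¹
    rw [map_inv, ha]

theorem mem_fixG {g : Matrix.SpecialLinearGroup (Fin n) F} : g ∈ D.fixG ↔ D.τ g = g := Iff.rfl

theorem good_fixG : D.Good D.fixG where
  fix := fun _ hg => hg
  UG := fun _ _ hg => hg
  γG := fun g (hg : D.τ g = g) => by
    show D.τ (D.γ g) = D.γ g
    rw [D.τ_γ, hg]

theorem dg_fixG : D.DG D.fixG := by
  intro d φ hd g hg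
  show D.τ (Fd d φ g) = Fd d φ g
  rw [hd.τ, D.mem_fixG.1 hg]

/-- the Gram matrix -/
def JM : Matrix (Fin n) (Fin n) F := (D.J : Matrix (Fin n) (Fin n) F)

theorem JM_apply (a b : Fin n) : D.JM a b = if a = Fin.rev b then (D.e a : F) else 0 := by
  unfold JM J
  show (Matrix.diagonal (fun i => (D.e i : F)) * revMat n F) a b = _
  rw [Matrix.diagonal_mul, revMat_apply]
  split_ifs <;> simp

/-- `g` multiplies the form by `μ` -/
def IsSimil (g : Matrix (Fin n) (Fin n) F) (μ : F) : Prop := g * D.JM * (g.map D.σ)ᵀ = μ • D.JM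

variable {D}

theorem isSimil_mul {g h : Matrix (Fin n) (Fin n) F} {μ ν : F} (hg : D.IsSimil g μ) (hh : D.IsSimil h ν) :
    D.IsSimil (g * h) (μ * ν) := by
  unfold IsSimil at *
  rw [map_ringEquiv_mul, Matrix.transpose_mul]
  have h1 : g * h * D.JM * ((h.map D.σ)ᵀ * (g.map D.σ)ᵀ) = g * (h * D.JM * (h.map D.σ)ᵀ) * (g.map D.σ)ᵀ := by
    simp only [mul_assoc]
  rw [h1, hh, Matrix.mul_smul, Matrix.smul_mul, hg, smul_smul, mul_comm]

theorem isSimil_coe {g : Matrix.SpecialLinearGroup (Fin n) F} :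
    D.IsSimil (g : Matrix (Fin n) (Fin n) F) 1 ↔ g ∈ D.fixG := by
  rw [mem_fixG]
  unfold IsSimil
  rw [one_smul]
  have h1 : ((D.τ g : Matrix.SpecialLinearGroup (Fin n) F) : Matrix (Fin n) (Fin n) F) =
      D.JM * (((g⁻¹ : Matrix.SpecialLinearGroup (Fin n) F) : Matrix (Fin n) (Fin n) F).map D.σ)ᵀ *
      ((D.J⁻¹ : GL (Fin n) F) : Matrix (Fin n) (Fin n) F) := by
    show ((D.γ (slField n D.σ (slIota n F g)) : Matrix.SpecialLinearGroup (Fin n) F) :
      Matrix (Fin n) (Fin n) F) = _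
    unfold γ JM
    rw [slConj_coe, slField_coe, slIota_apply, Matrix.SpecialLinearGroup.coe_transpose, Matrix.transpose_map]
  have hJJ : ((D.J⁻¹ : GL (Fin n) F) : Matrix (Fin n) (Fin n) F) * D.JM = 1 := by
    show ((D.J⁻¹ : GL (Fin n) F) : Matrix (Fin n) (Fin n) F) * (D.J : Matrix (Fin n) (Fin n) F) = 1
    rw [← Units.val_mul, inv_mul_cancel, Units.val_one]
  have hJJ' : D.JM * ((D.J⁻¹ : GL (Fin n) F) : Matrix (Fin n) (Fin n) F) = 1 := by
    show (D.J : Matrix (Fin n) (Fin n) F) * ((D.J⁻¹ : GL (Fin n) F) : Matrix (Fin n) (Fin n) F) = 1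
    rw [← Units.val_mul, mul_inv_cancel, Units.val_one]
  have hgg : (((g⁻¹ : Matrix.SpecialLinearGroup (Fin n) F) : Matrix (Fin n) (Fin n) F).map D.σ)ᵀ *
      ((g : Matrix (Fin n) (Fin n) F).map D.σ)ᵀ = 1 := by
    rw [← Matrix.transpose_mul, ← map_ringEquiv_mul, ← Matrix.SpecialLinearGroup.coe_mul, mul_inv_cancel,
      Matrix.SpecialLinearGroup.coe_one, map_ringEquiv_one, Matrix.transpose_one]
  have hgg' : ((g : Matrix (Fin n) (Fin n) F).map D.σ)ᵀ * (((g⁻¹ : Matrix.SpecialLinearGroup (Fin n) F) :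
      Matrix (Fin n) (Fin n) F).map D.σ)ᵀ = 1 := by
    rw [← Matrix.transpose_mul, ← map_ringEquiv_mul, ← Matrix.SpecialLinearGroup.coe_mul, inv_mul_cancel,
      Matrix.SpecialLinearGroup.coe_one, map_ringEquiv_one, Matrix.transpose_one]
  constructor
  · intro h
    apply Subtype.ext
    rw [h1]
    conv_lhs => rw [← h]
    have : (g : Matrix (Fin n) (Fin n) F) * D.JM * ((g : Matrix (Fin n) (Fin n) F).map D.σ)ᵀ *
      (((g⁻¹ : Matrix.SpecialLinearGroup (Fin n) F) : Matrix (Fin n) (Fin n) F).map D.σ)ᵀ *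
      ((D.J⁻¹ : GL (Fin n) F) : Matrix (Fin n) (Fin n) F) = (g : Matrix (Fin n) (Fin n) F) *
      (D.JM * (((g : Matrix (Fin n) (Fin n) F).map D.σ)ᵀ * (((g⁻¹ : Matrix.SpecialLinearGroup (Fin n) F) :
        Matrix (Fin n) (Fin n) F).map D.σ)ᵀ) * ((D.J⁻¹ : GL (Fin n) F) : Matrix (Fin n) (Fin n) F)) := by
      simp only [mul_assoc]
    rw [this, hgg', mul_one, hJJ', mul_one]
  · intro h
    have h2 := congrArg (fun x : Matrix.SpecialLinearGroup (Fin n) F => (x : Matrix (Fin n) (Fin n) F)) h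
    simp only [h1] at h2
    have h3 : (g : Matrix (Fin n) (Fin n) F) * D.JM * ((g : Matrix (Fin n) (Fin n) F).map D.σ)ᵀ =
      D.JM * (((g⁻¹ : Matrix.SpecialLinearGroup (Fin n) F) : Matrix (Fin n) (Fin n) F).map D.σ)ᵀ *
      ((D.J⁻¹ : GL (Fin n) F) : Matrix (Fin n) (Fin n) F) * D.JM * ((g : Matrix (Fin n) (Fin n) F).map D.σ)ᵀ :=
      congrArg (fun M => M * D.JM * ((g : Matrix (Fin n) (Fin n) F).map D.σ)ᵀ) h2.symm
    rw [h3]
    have : D.JM * (((g⁻¹ : Matrix.SpecialLinearGroup (Fin n) F) : Matrix (Fin n) (Fin n) F).map D.σ)ᵀ *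
      ((D.J⁻¹ : GL (Fin n) F) : Matrix (Fin n) (Fin n) F) * D.JM * ((g : Matrix (Fin n) (Fin n) F).map D.σ)ᵀ =
      D.JM * ((((g⁻¹ : Matrix.SpecialLinearGroup (Fin n) F) : Matrix (Fin n) (Fin n) F).map D.σ)ᵀ *
      (((D.J⁻¹ : GL (Fin n) F) : Matrix (Fin n) (Fin n) F) * D.JM) * ((g : Matrix (Fin n) (Fin n) F).map D.σ)ᵀ) := by
      simp only [mul_assoc]
    rw [this, hJJ, mul_one, hgg, mul_one]

theorem isSimil_dGL {d : Fin n → Fˣ} {μ : F} (h : ∀ a, (d a : F) * D.σ (d (Fin.rev a)) = μ) :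
    D.IsSimil ((dGL d : GL (Fin n) F) : Matrix (Fin n) (Fin n) F) μ := by
  unfold IsSimil
  have h2 : ((dGL d : GL (Fin n) F) : Matrix (Fin n) (Fin n) F) =
      Matrix.diagonal fun i => (d i : F) := rfl
  rw [h2]
  ext a b
  have h3 : (((Matrix.diagonal fun i => (d i : F)) : Matrix (Fin n) (Fin n) F).map D.σ)ᵀ =
      Matrix.diagonal fun i => D.σ (d i : F) := by
    ext i j
    rw [Matrix.transpose_apply, Matrix.map_apply, Matrix.diagonal_apply, Matrix.diagonal_apply]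
    by_cases hij : i = j
    · subst hij; simp
    · rw [if_neg hij, if_neg (fun h => hij h.symm), map_zero]
  rw [h3, Matrix.mul_diagonal, Matrix.diagonal_mul, Matrix.smul_apply, JM_apply, smul_eq_mul]
  by_cases hab : a = Fin.rev b
  · subst hab
    rw [if_pos rfl]
    have := h (Fin.rev b)
    rw [Fin.rev_rev] at this
    rw [← this]; ring
  · rw [if_neg hab]; ring

/-- every automorphism is the product of an inner one and a standard one -/
theorem exists_perm_id [Finite F] {G : Subgroup (Matrix.SpecialLinearGroup (Fin n) F)}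
    (h : D.Good G) {κ : F} (hκ : D.LongHyp κ) {p : ℕ} [Fact p.Prime] [CharP F p]
    (hlast : ∀ (β : MulAut (↥G ⧸ Subgroup.center ↥G)) (ρ : Fin (n / 2) → Fin (n / 2)), (qd h hκ).Perm β ρ →
      ∀ i : Fin (n / 2), (ρ i : ℕ) + 1 = n / 2 → (i : ℕ) + 1 = n / 2)
    (β : MulAut (↥G ⧸ Subgroup.center ↥G)) :
    ∃ t : ↥G ⧸ Subgroup.center ↥G, (qd h hκ).Perm (MulAut.conj t * β) id := by
  obtain ⟨t, ht⟩ := (qd h hκ).exists_std ((qd h hκ).sylow (qd_isPGroup h hκ (p := p)) (qd_pelt h hκ (p := p))) β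
  obtain ⟨ρ, hρ⟩ := ht.exists_perm
  have := perm_id h hκ hρ (hlast _ ρ hρ)
  subst this
  exact ⟨t, hρ⟩

/-- from diagonal semilinear automorphisms to general ones -/
theorem general_form [Finite F] (hcomm : ∀ (φ : F ≃+* F) (x : F), φ (D.σ x) = D.σ (φ x))
    {β : MulAut (↥D.fixG ⧸ Subgroup.center ↥D.fixG)} {t : ↥D.fixG ⧸ Subgroup.center ↥D.fixG}
    (hβ : ∃ (d : Fin n → Fˣ) (φ : F ≃+* F) (hd : D.DSim d φ), MulAut.conj t * β = qA (Fd d φ) (D.dg_fixG d φ hd)) :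
    ∃ (g : GL (Fin n) F) (φ : F ≃+* F) (μ : F), D.IsSimil (g : Matrix (Fin n) (Fin n) F) μ ∧ μ ≠ 0 ∧
      ∀ (s : Matrix.SpecialLinearGroup (Fin n) F) (hs : s ∈ D.fixG), ∃ hs' : sA g φ s ∈ D.fixG,
        β (mq s hs) = mq (sA g φ s) hs' := by
  obtain ⟨d, φ, hd, hβ⟩ := hβ
  obtain ⟨t0, rfl⟩ : ∃ t0 : ↥D.fixG, QuotientGroup.mk t0 = t := QuotientGroup.mk_surjective t
  obtain ⟨μ, hμ⟩ := hd.sim
  rcases Nat.eq_zero_or_pos n with hn0 | hn0
  · subst hn0
    refine ⟨1, RingEquiv.refl F, 1, ?_, one_ne_zero, ?_⟩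
    · unfold IsSimil
      ext x; exact x.elim0
    · intro s hs
      have h3 : ∀ s : Matrix.SpecialLinearGroup (Fin 0) F, s = 1 := fun s => by
        apply Subtype.ext; ext x; exact x.elim0
      have h1 := h3 s
      subst h1
      have h4 := h3 (sA 1 (RingEquiv.refl F) 1)
      refine ⟨by rw [h4]; exact D.fixG.one_mem, ?_⟩
      have h2 : mq (1 : Matrix.SpecialLinearGroup (Fin 0) F) hs = 1 := rfl
      rw [h2, map_one]
      exact (mq_eq h4.symm : mq 1 D.fixG.one_mem = _)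
  have hG : ((Matrix.SpecialLinearGroup.toGL (t0⁻¹ : ↥D.fixG).1 : GL (Fin n) F) : Matrix (Fin n) (Fin n) F) =
      ((t0⁻¹ : ↥D.fixG).1 : Matrix (Fin n) (Fin n) F) := rfl
  refine ⟨Matrix.SpecialLinearGroup.toGL (t0⁻¹ : ↥D.fixG).1 * dGL d, φ, μ, ?_, ?_, ?_⟩
  · rw [Units.val_mul, hG]
    have h1 := isSimil_mul (isSimil_coe.2 (t0⁻¹ : ↥D.fixG).2) (isSimil_dGL hμ)
    rw [one_mul] at h1
    exact h1
  · intro h0
    have h1 := hμ ⟨0, hn0⟩
    rw [h0] at h1
    rcases mul_eq_zero.1 h1 with h2 | h2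
    · exact (d _).ne_zero h2
    · exact (d _).ne_zero ((map_eq_zero D.σ).1 h2)
  · intro s hs
    have e1 : β (mq s hs) = (MulAut.conj (QuotientGroup.mk t0 : ↥D.fixG ⧸ Subgroup.center ↥D.fixG))⁻¹
        (qA (Fd d φ) (D.dg_fixG d φ hd) (mq s hs)) := by
      rw [← hβ]; simp [mul_assoc]
    have hA : sA (Matrix.SpecialLinearGroup.toGL (t0⁻¹ : ↥D.fixG).1 * dGL d) φ s =
        (t0⁻¹ : ↥D.fixG).1 * Fd d φ s * t0.1 := by
      unfold sA Fd
      rw [map_mul]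
      apply Subtype.ext
      show ((slConj n F (Matrix.SpecialLinearGroup.toGL (t0⁻¹ : ↥D.fixG).1) (slConj n F (dGL d) (slField n φ s)) :
        Matrix.SpecialLinearGroup (Fin n) F) : Matrix (Fin n) (Fin n) F) = _
      rw [slConj_coe, hG]
      have h5 : (((Matrix.SpecialLinearGroup.toGL (t0⁻¹ : ↥D.fixG).1)⁻¹ : GL (Fin n) F) : Matrix (Fin n) (Fin n) F) =
          (t0.1 : Matrix (Fin n) (Fin n) F) := by
        rw [← map_inv]
        have h6 : ((t0⁻¹ : ↥D.fixG).1)⁻¹ = t0.1 := inv_inv t0.1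
        rw [h6]; rfl
      rw [h5]
      rfl
    have hmem : (t0⁻¹ : ↥D.fixG).1 * Fd d φ s * t0.1 ∈ D.fixG :=
      D.fixG.mul_mem (D.fixG.mul_mem (t0⁻¹ : ↥D.fixG).2 (D.dg_fixG d φ hd s hs)) t0.2
    refine ⟨by rw [hA]; exact hmem, ?_⟩
    rw [e1, qA_mq]
    refine Eq.trans ?_ (mq_eq (haG := hmem) hA.symm)
    show (MulAut.conj (QuotientGroup.mk t0 : ↥D.fixG ⧸ Subgroup.center ↥D.fixG))⁻¹
      (mq (Fd d φ s) (D.dg_fixG d φ hd s hs)) = _
    rw [MulAut.conj_inv_apply]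
    rfl

end Cls

end CfsgH6
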