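import Cfsg.Agent.H6.Cls12

set_option autoImplicit false

/-! Elements commuting with the isometry group up to scalars; faithfulness of field automorphisms. -/

namespace CfsgH6

open Matrix

variable {F : Type*} [Field F] {n : ℕ}

namespace Cls

variable {D : Cls n F} {G : Subgroup (Matrix.SpecialLinearGroup (Fin n) F)}

theorem comm_of_scal {p : ℕ} [Fact p.Prime] [CharP F p] (hn : 0 < n) {g : GL (Fin n) F}
    {s : Matrix.SpecialLinearGroup (Fin n) F} (hs : s ^ p ^ n = 1) {r : F}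
    (hr : (g : Matrix (Fin n) (Fin n) F) * s = r • ((s : Matrix (Fin n) (Fin n) F) * g)) :
    (g : Matrix (Fin n) (Fin n) F) * s = (s : Matrix (Fin n) (Fin n) F) * g := by
  have hk : ∀ k : ℕ, (g : Matrix (Fin n) (Fin n) F) * ((s ^ k : Matrix.SpecialLinearGroup (Fin n) F) : Matrix (Fin n) (Fin n) F) =
      r ^ k • (((s ^ k : Matrix.SpecialLinearGroup (Fin n) F) : Matrix (Fin n) (Fin n) F) * g) := by
    intro k
    induction k with
    | zero => simp
    | succ k ih =>
      rw [pow_succ, Matrix.SpecialLinearGroup.coe_mul, ← mul_assoc, ih, Matrix.smul_mul, mul_assoc, hr,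
        Matrix.mul_smul, smul_smul, ← mul_assoc, pow_succ]
  have h1 := hk (p ^ n)
  rw [hs, Matrix.SpecialLinearGroup.coe_one, mul_one, one_mul] at h1
  have hg0 : (g : Matrix (Fin n) (Fin n) F) ≠ 0 := by
    intro h0
    have h2 := g.isUnit
    rw [Matrix.isUnit_iff_isUnit_det, h0] at h2
    have : Nonempty (Fin n) := ⟨⟨0, hn⟩⟩
    rw [Matrix.det_zero] at h2
    exact not_isUnit_zero h2
  have h2 : (1 - r ^ p ^ n) • (g : Matrix (Fin n) (Fin n) F) = 0 := by
    rw [sub_smul, one_smul, ← h1, sub_self]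
  have h3 : r ^ p ^ n = 1 := by
    rcases smul_eq_zero.1 h2 with h4 | h4
    · exact (sub_eq_zero.1 h4).symm
    · exact absurd h4 hg0
  have h4 : r = 1 := by
    apply iterateFrobenius_inj F p n
    rw [iterateFrobenius_def, iterateFrobenius_def, h3, one_pow]
  rw [hr, h4, one_smul]

theorem LL_pow_eq_one {p : ℕ} [Fact p.Prime] [CharP F p]
    {g : Matrix.SpecialLinearGroup (Fin n) F} (hg : g ∈ LL n F) : g ^ p ^ n = 1 := by
  have h1 : slIota n F g ∈ UU n F := mem_LL.1 hg
  have h2 := UU_pow_eq_one (p := p) h1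
  rw [← map_pow] at h2
  exact (MulEquiv.map_eq_one_iff _).1 h2

/-- elements commuting with the isometry group up to scalars are scalars -/
theorem scal_of_comm (h : D.Good G) {κ : F} (hκ : D.LongHyp κ) {p : ℕ} [Fact p.Prime] [CharP F p] (hn : 2 ≤ n)
    {g : GL (Fin n) F}
    (hg : ∀ s ∈ G, ∃ r : F, (g : Matrix (Fin n) (Fin n) F) * s = r • ((s : Matrix (Fin n) (Fin n) F) * g)) :
    ∃ c : F, (g : Matrix (Fin n) (Fin n) F) = Matrix.scalar (Fin n) c := by
  have hn0 : 0 < n := by omega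
  have hgl : ∀ s ∈ G, s ∈ UU n F ∨ s ∈ LL n F →
      (g : Matrix (Fin n) (Fin n) F) * s = (s : Matrix (Fin n) (Fin n) F) * g := by
    intro s hs hsU
    obtain ⟨r, hr⟩ := hg s hs
    rcases hsU with hsU | hsL
    · exact comm_of_scal hn0 (UU_pow_eq_one (p := p) hsU) hr
    · exact comm_of_scal hn0 (LL_pow_eq_one (p := p) hsL) hr
  have hlong : ∀ a : Fin n, a ≠ Fin.rev a →
      (g : Matrix (Fin n) (Fin n) F) * Matrix.single a (Fin.rev a) κ = Matrix.single a (Fin.rev a) κ * (g : Matrix (Fin n) (Fin n) F) := by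
    intro a ha
    have h1 : xe a (Fin.rev a) κ ∈ G ∧ (xe a (Fin.rev a) κ ∈ UU n F ∨ xe a (Fin.rev a) κ ∈ LL n F) := by
      rcases lt_or_gt_of_ne ha with h2 | h2
      · exact ⟨h.UG _ (xe_mem_UU h2 κ) (D.τ_long ha hκ.lng), Or.inl (xe_mem_UU h2 κ)⟩
      · exact ⟨h.LG (xe_mem_LL h2 κ) (D.τ_long ha hκ.lng), Or.inr (xe_mem_LL h2 κ)⟩
    have h2 := hgl _ h1.1 h1.2
    rw [xe_coe ha, mul_add, add_mul, mul_one, one_mul] at h2
    exact add_left_cancel h2
  have hcol : ∀ a x : Fin n, a ≠ Fin.rev a → x ≠ a → (g : Matrix (Fin n) (Fin n) F) x a = 0 := by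
    intro a x ha hx
    have h1 := congrFun (congrFun (hlong a ha) x) (Fin.rev a)
    rw [Matrix.mul_single_apply_same, Matrix.single_mul_apply_of_ne _ _ _ _ _ hx] at h1
    exact (mul_eq_zero.1 h1).resolve_right hκ.ne
  have hrow : ∀ a y : Fin n, a ≠ Fin.rev a → y ≠ Fin.rev a → (g : Matrix (Fin n) (Fin n) F) (Fin.rev a) y = 0 := by
    intro a y ha hy
    have h1 := congrFun (congrFun (hlong a ha) a) y
    rw [Matrix.mul_single_apply_of_ne _ _ _ _ _ hy, Matrix.single_mul_apply_same] at h1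
    exact (mul_eq_zero.1 h1.symm).resolve_left hκ.ne
  have hdiag : ∀ x y : Fin n, x ≠ y → (g : Matrix (Fin n) (Fin n) F) x y = 0 := by
    intro x y hxy
    by_cases hy : y = Fin.rev y
    · have hx : x ≠ Fin.rev x := by
        intro hx
        apply hxy
        have h1 := congrArg Fin.val hx
        have h2 := congrArg Fin.val hy
        rw [Fin.val_rev] at h1 h2
        have := x.isLt
        have := y.isLt
        exact Fin.ext (by omega)
      have h1 := hrow (Fin.rev x) y (by rw [Fin.rev_rev]; exact hx.symm) (by rw [Fin.rev_rev]; exact hxy.symm)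
      rwa [Fin.rev_rev] at h1
    · exact hcol y x hy hxy
  have heq : ∀ {s : Matrix.SpecialLinearGroup (Fin n) F}, s ∈ G → s ∈ UU n F → ∀ {x y : Fin n},
      (s : Matrix (Fin n) (Fin n) F) x y ≠ 0 → (g : Matrix (Fin n) (Fin n) F) x x = (g : Matrix (Fin n) (Fin n) F) y y := by
    intro s hs hsU x y hxy
    have h1 := congrFun (congrFun (hgl s hs (Or.inl hsU)) x) y
    rw [Matrix.mul_apply, Matrix.mul_apply, Finset.sum_eq_single x, Finset.sum_eq_single y] at h1
    · have h2 : (s : Matrix (Fin n) (Fin n) F) x y * ((g : Matrix (Fin n) (Fin n) F) x x - (g : Matrix (Fin n) (Fin n) F) y y) = 0 := by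
        linear_combination h1
      have h3 := (mul_eq_zero.1 h2).resolve_left hxy
      linear_combination h3
    · intro k _ hk
      rw [hdiag k y hk, mul_zero]
    · simp
    · intro k _ hk
      rw [hdiag x k hk.symm, zero_mul]
    · simp
  -- all diagonal entries are equal
  have hstep : ∀ (i : Fin (n / 2)), (g : Matrix (Fin n) (Fin n) F) (lo i) (lo i) =
      (g : Matrix (Fin n) (Fin n) F) (mid i) (mid i) := by
    intro i
    obtain ⟨x, hx, hx0⟩ := exists_X_elt hκ i
    exact heq (hx.memG h) hx.mem_UU hx0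
  have hrev : ∀ a : Fin n, (g : Matrix (Fin n) (Fin n) F) (Fin.rev a) (Fin.rev a) = (g : Matrix (Fin n) (Fin n) F) a a := by
    intro a
    by_cases ha : a = Fin.rev a
    · rw [← ha]
    · have h1 := congrFun (congrFun (hlong a ha) a) (Fin.rev a)
      rw [Matrix.mul_single_apply_same, Matrix.single_mul_apply_same] at h1
      have h2 : κ * ((g : Matrix (Fin n) (Fin n) F) a a - (g : Matrix (Fin n) (Fin n) F) (Fin.rev a) (Fin.rev a)) = 0 := by
        linear_combination h1
      have h3 := (mul_eq_zero.1 h2).resolve_left hκ.ne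
      linear_combination -h3
  have hlow : ∀ (c : ℕ) (hc : c < n), c ≤ n / 2 → (g : Matrix (Fin n) (Fin n) F) ⟨c, hc⟩ ⟨c, hc⟩ =
      (g : Matrix (Fin n) (Fin n) F) ⟨0, hn0⟩ ⟨0, hn0⟩ := by
    intro c
    induction c with
    | zero => intro _ _; rfl
    | succ c ih =>
      intro hc hc2
      have h1 := hstep ⟨c, by omega⟩
      have e1 : (mid ⟨c, by omega⟩ : Fin n) = ⟨c + 1, hc⟩ := rfl
      have e2 : (lo ⟨c, by omega⟩ : Fin n) = ⟨c, by omega⟩ := rfl
      rw [e1, e2] at h1
      rw [← h1]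
      exact ih (by omega) (by omega)
  have hall : ∀ a : Fin n, (g : Matrix (Fin n) (Fin n) F) a a = (g : Matrix (Fin n) (Fin n) F) ⟨0, hn0⟩ ⟨0, hn0⟩ := by
    intro a
    by_cases ha : (a : ℕ) ≤ n / 2
    · exact hlow a a.isLt ha
    · rw [← hrev a]
      have h1 := hlow (Fin.rev a : Fin n) (Fin.rev a).isLt (by rw [Fin.val_rev]; omega)
      exact h1
  refine ⟨(g : Matrix (Fin n) (Fin n) F) ⟨0, hn0⟩ ⟨0, hn0⟩, ?_⟩
  ext x y
  rw [Matrix.scalar_apply]
  by_cases hxy : x = y
  · subst hxy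
    rw [Matrix.diagonal_apply_eq]
    exact hall x
  · rw [Matrix.diagonal_apply_ne _ hxy]
    exact hdiag x y hxy

end Cls

end CfsgH6
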