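import Cfsg.Agent.H6.Cls12

set_option autoImplicit false

/-! The automorphism theorem in odd dimension, part 1: the non-abelian root group. -/

namespace CfsgH6

open Matrix

variable {F : Type*} [Field F] {n : ℕ}

namespace Cls

variable {D : Cls n F} {G : Subgroup (Matrix.SpecialLinearGroup (Fin n) F)}

/-- diagonal elements -/
def IsD (b : Matrix.SpecialLinearGroup (Fin n) F) : Prop :=
  ∀ x y, x ≠ y → (b : Matrix (Fin n) (Fin n) F) x y = 0

theorem IsD.mem_BU {b : Matrix.SpecialLinearGroup (Fin n) F} (hb : IsD b) : b ∈ BU n F :=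
  CfsgH6.mem_BU.2 fun x y hxy => hb x y hxy.ne'

theorem IsD.γ {b : Matrix.SpecialLinearGroup (Fin n) F} (hb : IsD b) : IsD (D.γ b) := by
  intro x y hxy
  rw [γ_apply, hb _ _ (fun h => hxy (Fin.rev_injective h)), mul_zero]

theorem IsD.mul {b c : Matrix.SpecialLinearGroup (Fin n) F} (hb : IsD b) (hc : IsD c) : IsD (b * c) := by
  intro x y hxy
  rw [diag_mul hb, hc x y hxy, mul_zero]

theorem IsD.inv {b : Matrix.SpecialLinearGroup (Fin n) F} (hb : IsD b) : IsD b⁻¹ := by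
  intro x y hxy
  have h1 := diag_mul hb b⁻¹ x y
  rw [mul_inv_cancel, Matrix.SpecialLinearGroup.coe_one, Matrix.one_apply_ne hxy] at h1
  exact (mul_eq_zero.1 h1.symm).resolve_left (diag_ne hb x)

theorem IsD.inv_apply {b : Matrix.SpecialLinearGroup (Fin n) F} (hb : IsD b) (x : Fin n) :
    ((b⁻¹ : Matrix.SpecialLinearGroup (Fin n) F) : Matrix (Fin n) (Fin n) F) x x =
      ((b : Matrix (Fin n) (Fin n) F) x x)⁻¹ := by
  have h1 := diag_mul hb b⁻¹ x x
  rw [mul_inv_cancel, Matrix.SpecialLinearGroup.coe_one, Matrix.one_apply_eq] at h1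
  exact eq_inv_of_mul_eq_one_right h1.symm

theorem IsD.conj_apply {b : Matrix.SpecialLinearGroup (Fin n) F} (hb : IsD b)
    (g : Matrix.SpecialLinearGroup (Fin n) F) (x y : Fin n) :
    ((b * g * b⁻¹ : Matrix.SpecialLinearGroup (Fin n) F) : Matrix (Fin n) (Fin n) F) x y =
      (b : Matrix (Fin n) (Fin n) F) x x * (g : Matrix (Fin n) (Fin n) F) x y * ((b : Matrix (Fin n) (Fin n) F) y y)⁻¹ := by
  rw [mul_diag hb.inv, diag_mul hb, hb.inv_apply]

theorem InX.mul {i : Fin (n / 2)} {x y : Matrix.SpecialLinearGroup (Fin n) F} (hx : D.InX i x) (hy : D.InX i y) :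
    D.InX i (x * y) :=
  ⟨by rw [map_mul, hx.1, hy.1], by rw [map_mul]; exact (LL n F).mul_mem hx.2.1 hy.2.1, by
    rw [map_mul]; exact (PS n F _).mul_mem hx.2.2 hy.2.2⟩

theorem InX.inv {i : Fin (n / 2)} {x : Matrix.SpecialLinearGroup (Fin n) F} (hx : D.InX i x) : D.InX i x⁻¹ :=
  ⟨by rw [map_inv, hx.1], by rw [map_inv]; exact (LL n F).inv_mem hx.2.1, by
    rw [map_inv]; exact (PS n F _).inv_mem hx.2.2⟩

theorem InX.conj {i : Fin (n / 2)} {x b : Matrix.SpecialLinearGroup (Fin n) F} (hx : D.InX i x)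
    (hb : IsD b) (hτ : D.τ b = b) : D.InX i (b * x * b⁻¹) := by
  have h1 : b * x * b⁻¹ ∈ UU n F := BU_norm hb.mem_BU hx.mem_UU
  refine ⟨by rw [map_mul, map_mul, map_inv, hτ, hx.1], D.γ_mem_LL h1, γ_mem_PS_cut_of_UU ?_ (node_le i)⟩
  rintro a c hac ⟨k, h2, h3, h4⟩
  rw [hb.conj_apply, hx.entry hac h2 h3 h4, mul_zero, zero_mul]

/-- the coordinate on the non-abelian root group -/
theorem cmul {i : Fin (n / 2)} (hs : 2 * (i : ℕ) + 3 = n) {x y : Matrix.SpecialLinearGroup (Fin n) F}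
    (hx : x ∈ UU n F) (hy : y ∈ UU n F) :
    ((x * y : Matrix.SpecialLinearGroup (Fin n) F) : Matrix (Fin n) (Fin n) F) (mid i) (hi i) =
      (x : Matrix (Fin n) (Fin n) F) (mid i) (hi i) + (y : Matrix (Fin n) (Fin n) F) (mid i) (hi i) := by
  apply UU_mul_apply_of hx hy (mid_lt_hi hs)
  intro b h1 h2
  exfalso
  have h3 : ((mid i : Fin n) : ℕ) < b := h1
  have h4 : (b : ℕ) < (hi i : Fin n) := h2
  rw [mid_val] at h3
  rw [hi_val_of hs] at h4
  omega

theorem cinv {i : Fin (n / 2)} (hs : 2 * (i : ℕ) + 3 = n) {x : Matrix.SpecialLinearGroup (Fin n) F}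
    (hx : x ∈ UU n F) :
    ((x⁻¹ : Matrix.SpecialLinearGroup (Fin n) F) : Matrix (Fin n) (Fin n) F) (mid i) (hi i) =
      - (x : Matrix (Fin n) (Fin n) F) (mid i) (hi i) :=
  UU_inv_adj hx (by rw [mid_val, hi_val_of hs])

theorem uu_c {i : Fin (n / 2)} (hs : 2 * (i : ℕ) + 3 = n) (c b : F) :
    ((D.uu i c b : Matrix.SpecialLinearGroup (Fin n) F) : Matrix (Fin n) (Fin n) F) (mid i) (hi i) = c := by
  rw [uu_apply hs, if_neg (mid_lt_hi hs).ne, if_neg (fun h => (lo_lt_mid hs).ne' h.1), if_pos ⟨rfl, rfl⟩,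
    if_neg (fun h => (lo_lt_mid hs).ne' h.1)]
  ring

/-- elements with zero coordinate are long root elements -/
theorem InX.long_of {i : Fin (n / 2)} (hs : 2 * (i : ℕ) + 3 = n) {x : Matrix.SpecialLinearGroup (Fin n) F}
    (hx : D.InX i x) (h0 : (x : Matrix (Fin n) (Fin n) F) (mid i) (hi i) = 0) :
    ∃ k, D.Lng k ∧ x = xe (lo i) (hi i) k := by
  obtain ⟨c, b, h1, h2, h3⟩ := hx.odd hs
  rw [h0] at h3
  subst h3
  refine ⟨b, ?_, ?_⟩
  · unfold UC at h1
    unfold Lng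
    rw [ε_odd hs, zero_mul, mul_zero] at *
    rw [one_mul]
    linear_combination h1
  · rw [h2]
    unfold uu
    rw [map_zero, mul_zero, neg_zero, xe_zero, xe_zero, one_mul, one_mul]

theorem long_comm {i : Fin (n / 2)} (hs : 2 * (i : ℕ) + 3 = n) {y : Matrix.SpecialLinearGroup (Fin n) F}
    (hy : D.InX i y) (k : F) : xe (lo i) (hi i) k * y = y * xe (lo i) (hi i) k := by
  obtain ⟨c, b, _, h2, _⟩ := hy.odd hs
  rw [h2]
  unfold uu
  have h1 := lo_lt_mid hs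
  have h3 := mid_lt_hi hs
  have h4 := lo_lt_hi (n := n) i
  have e1 := xe_commute (F := F) h4.ne h1.ne h4.ne' h1.ne' k (-((D.e (lo i) : F) * D.e (mid i) * D.σ c))
  have e2 := xe_commute (F := F) h4.ne h3.ne h3.ne' h4.ne' k c
  have e3 := xe_commute (F := F) h4.ne h4.ne h4.ne' h4.ne' k b
  generalize xe (F := F) (lo i) (hi i) k = K at *
  generalize xe (F := F) (lo i) (mid i) (-((D.e (lo i) : F) * D.e (mid i) * D.σ c)) = A at *
  generalize xe (F := F) (mid i) (hi i) c = B at *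
  generalize xe (F := F) (lo i) (hi i) b = C at *
  calc K * (A * B * C) = (K * A) * B * C := by simp only [mul_assoc]
    _ = A * (K * B) * C := by rw [e1]; simp only [mul_assoc]
    _ = A * B * (K * C) := by rw [e2]; simp only [mul_assoc]
    _ = A * B * C * K := by rw [e3]; simp only [mul_assoc]

theorem tr_uu {κ : F} (hκ : D.LongHyp κ) {i : Fin (n / 2)} (hs : 2 * (i : ℕ) + 3 = n) (c : F) :
    ∃ b, D.UC i c b := hκ.tr (by omega) _ (by
    rw [map_mul, map_mul, map_mul, D.hσe, D.hσe, D.hσ, mul_comm c])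

/-- long root elements are commutators -/
theorem long_commutator {κ : F} (hκ : D.LongHyp κ) {i : Fin (n / 2)} (hs : 2 * (i : ℕ) + 3 = n) {k : F}
    (hk : D.Lng k) : ∃ x y, D.InX i x ∧ D.InX i y ∧ x * y = y * x * xe (lo i) (hi i) k := by
  obtain ⟨a0, ha0⟩ := hκ.tr (by omega) 1 (map_one _)
  have hk' : D.σ k = -k := by
    unfold Lng at hk
    rw [ε_odd hs, one_mul] at hk
    linear_combination hk
  obtain ⟨b1, hb1⟩ := tr_uu hκ hs 1
  obtain ⟨b2, hb2⟩ := tr_uu hκ hs (-((D.e (lo i) : F) * D.e (mid i) * k * a0))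
  have hx := inX_uu hs hb1
  have hy := inX_uu hs hb2
  refine ⟨_, _, hx, hy, ?_⟩
  set c' := -((D.e (lo i) : F) * D.e (mid i) * k * a0) with hc'
  have h1 : D.InX i ((D.uu i c' b2 * D.uu i 1 b1)⁻¹ * (D.uu i 1 b1 * D.uu i c' b2)) :=
    ((hy.mul hx).inv).mul (hx.mul hy)
  have ux := hx.mem_UU
  have uy := hy.mem_UU
  obtain ⟨k', _, h2⟩ := h1.long_of hs (by
    rw [cmul hs ((UU n F).inv_mem ((UU n F).mul_mem uy ux)) ((UU n F).mul_mem ux uy),
      cinv hs ((UU n F).mul_mem uy ux), cmul hs ux uy, cmul hs uy ux]; ring)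
  have h3 : D.uu i 1 b1 * D.uu i c' b2 = D.uu i c' b2 * D.uu i 1 b1 * xe (lo i) (hi i) k' := by
    rw [← h2]; group
  rw [h3]
  congr 2
  -- compare the `(lo, hi)` entries
  have h4 : ((D.uu i 1 b1 * D.uu i c' b2 : Matrix.SpecialLinearGroup (Fin n) F) : Matrix (Fin n) (Fin n) F) (lo i) (hi i) =
      ((D.uu i c' b2 * D.uu i 1 b1 * xe (lo i) (hi i) k' : Matrix.SpecialLinearGroup (Fin n) F) : Matrix (Fin n) (Fin n) F) (lo i) (hi i) := by
    rw [← h3]
  rw [mul_xe_apply (lo_lt_hi i).ne, if_pos rfl, ((UU n F).mul_mem uy ux).1, one_mul] at h4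
  have key : ∀ (c b c' b' : F), ((D.uu i c b * D.uu i c' b' : Matrix.SpecialLinearGroup (Fin n) F) : Matrix (Fin n) (Fin n) F) (lo i) (hi i) =
      (b - (D.e (lo i) : F) * D.e (mid i) * (c * D.σ c)) + (b' - (D.e (lo i) : F) * D.e (mid i) * (c' * D.σ c')) +
      -((D.e (lo i) : F) * D.e (mid i) * D.σ c) * c' := by
    intro c b c' b'
    have hml := (lo_lt_mid hs).ne
    have hmh := (mid_lt_hi hs).ne
    have hlh := (lo_lt_hi i).ne
    rw [Matrix.SpecialLinearGroup.coe_mul, Matrix.mul_apply, sum_three hml hlh hmh]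
    · simp [uu_apply hs, hml, hmh, hlh, hml.symm, hmh.symm, hlh.symm]
      ring
    · intro x h1 h2 h3
      rw [uu_apply hs]
      simp [h1, h2, h3, Ne.symm h1, Ne.symm h2, Ne.symm h3]
  rw [key, key] at h4
  have e1 := D.hec (lo i)
  have e2 := D.hec (mid i)
  have h5 : D.σ c' = ((D.e (lo i) : F) * D.e (mid i) * k * D.σ a0) := by
    rw [hc', map_neg, map_mul, map_mul, map_mul, D.hσe, D.hσe, hk']; ring
  rw [h5, map_one, hc'] at h4
  have h6 : k' = ((D.e (lo i) : F) * D.e (lo i)) * ((D.e (mid i) : F) * D.e (mid i)) * k * (a0 + D.σ a0) := by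
    linear_combination -h4
  rw [h6, e1, e2, ha0]; ring

/-! ### diagonal elements under automorphisms -/

theorem diag_image [Finite F] (h : D.Good G) {κ : F} (hκ : D.LongHyp κ)
    {β : MulAut (↥G ⧸ Subgroup.center ↥G)} (hβ : (qd h hκ).Std β)
    {b : Matrix.SpecialLinearGroup (Fin n) F} (hbG : b ∈ G) (hb : IsD b) :
    ∃ (b' : Matrix.SpecialLinearGroup (Fin n) F) (hb'G : b' ∈ G), IsD b' ∧ β (mq b hbG) = mq b' hb'G := by
  obtain ⟨b', hb'⟩ := QuotientGroup.mk_surjective (β (mq b hbG))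
  refine ⟨b'.1, b'.2, ?_, hb'.symm⟩
  have hZ := (quotHyp h hκ).ZB
  have h1 : β (mq b hbG) ∈ (qd h hκ).B := by
    rw [hβ.mem_B]
    exact ⟨⟨b, hbG⟩, hb.mem_BU, rfl⟩
  rw [← hb'] at h1
  have h1' : b' ∈ (pre h hκ).B := (PreDatum.mem_map_mk_of_le hZ).1 h1
  have h2 : (qd h hκ).γ (β (mq b hbG)) ∈ (qd h hκ).B := by
    have h3 := (hβ.conj_γ).mem_B ((qd h hκ).γ (mq b hbG))
    have h4 : ((qd h hκ).γ * β * (qd h hκ).γ⁻¹) ((qd h hκ).γ (mq b hbG)) = (qd h hκ).γ (β (mq b hbG)) := by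
      simp
    rw [h4] at h3
    rw [h3]
    exact ⟨gG h ⟨b, hbG⟩, (hb.γ (D := D)).mem_BU, rfl⟩
  rw [← hb'] at h2
  have h2' : gG h b' ∈ (pre h hκ).B := (PreDatum.mem_map_mk_of_le hZ).1 h2
  intro x y hxy
  exact diag_of h1' h2' hxy

/-- scalar multiples give the same class -/
theorem mq_of_ratio [Finite F] (h : D.Good G) {κ : F} (hκ : D.LongHyp κ) {b b' : Matrix.SpecialLinearGroup (Fin n) F}
    (hbG : b ∈ G) (hb'G : b' ∈ G) (hb : IsD b) (hb' : IsD b')
    (hr : ∃ r : F, ∀ x, (b' : Matrix (Fin n) (Fin n) F) x x = r * (b : Matrix (Fin n) (Fin n) F) x x) :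
    mq b hbG = mq b' hb'G := by
  obtain ⟨r, hr⟩ := hr
  apply QuotientGroup.eq.2
  rw [mem_center_iff h hκ]
  refine ⟨r, ?_⟩
  show ((b⁻¹ * b' : Matrix.SpecialLinearGroup (Fin n) F) : Matrix (Fin n) (Fin n) F) = _
  ext x y
  rw [Matrix.scalar_apply]
  by_cases hxy : x = y
  · subst hxy
    rw [Matrix.diagonal_apply_eq, diag_mul hb.inv, hb.inv_apply, hr]
    have := diag_ne hb x
    field_simp
  · rw [Matrix.diagonal_apply_ne _ hxy]
    exact (hb.inv.mul hb') x y hxy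

end Cls

end CfsgH6
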