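import Cfsg.Agent.H6.Cls14

set_option autoImplicit false

/-! The automorphism theorem in odd dimension, part 2. -/

namespace CfsgH6

open Matrix

variable {F : Type*} [Field F] {n : ℕ}

/-- an additive map which is semilinear with respect to a generating set is semilinear -/
theorem field_of_add [Finite F] (f : F → F) (hadd : ∀ x y, f (x + y) = f x + f y) (h1 : f 1 ≠ 0) (Λ : Set F)
    (hΛ : ∀ x, x ∈ AddSubgroup.closure Λ) (hmul : ∀ l ∈ Λ, ∃ l', ∀ c, f (l * c) = l' * f c) :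
    ∃ φ : F ≃+* F, ∀ c, f c = f 1 * φ c := by
  have h0 : f 0 = 0 := by
    have := hadd 0 0
    rw [add_zero] at this
    linear_combination -this
  have hneg : ∀ x, f (-x) = - f x := by
    intro x
    have := hadd x (-x)
    rw [add_neg_cancel, h0] at this
    linear_combination -this
  have key : ∀ x, ∀ c, f (x * c) * f 1 = f x * f c := by
    intro x
    refine AddSubgroup.closure_induction (p := fun x _ => ∀ c, f (x * c) * f 1 = f x * f c) ?_ ?_ ?_ ?_ (hΛ x)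
    · intro l hl c
      obtain ⟨l', hl'⟩ := hmul l hl
      have e1 := hl' 1
      rw [mul_one] at e1
      rw [hl', e1]; ring
    · intro c
      rw [zero_mul, h0]; ring
    · intro x y _ _ hx hy c
      rw [add_mul, hadd, hadd, add_mul, hx, hy]; ring
    · intro x _ hx c
      rw [neg_mul, hneg, hneg, neg_mul, hx]; ring
  let φ : F →+* F :=
    { toFun := fun x => f x / f 1
      map_one' := div_self h1
      map_mul' := fun x y => by
        have := key x y
        field_simp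
        exact this
      map_zero' := by rw [h0, zero_div]
      map_add' := fun x y => by rw [hadd, add_div] }
  refine ⟨RingEquiv.ofBijective φ (Finite.injective_iff_bijective.1 φ.injective), fun c => ?_⟩
  show f c = f 1 * (f c / f 1)
  field_simp

namespace Cls

variable {D : Cls n F} {G : Subgroup (Matrix.SpecialLinearGroup (Fin n) F)}

/-- the relation between an element of a root group and its image -/
def RR (h : D.Good G) (β : MulAut (↥G ⧸ Subgroup.center ↥G)) (i : Fin (n / 2))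
    (x s : Matrix.SpecialLinearGroup (Fin n) F) : Prop :=
  ∃ (hx : D.InX i x) (hs : D.InX i s), β (mq x (hx.memG h)) = mq s (hs.memG h)

section RR

variable {h : D.Good G} {β : MulAut (↥G ⧸ Subgroup.center ↥G)} {i : Fin (n / 2)}

theorem RR.ex [Finite F] {κ : F} (hκ : D.LongHyp κ) (hβ : (qd h hκ).Perm β id) {x : Matrix.SpecialLinearGroup (Fin n) F}
    (hx : D.InX i x) : ∃ s, RR h β i x s := by
  obtain ⟨s, hs, hs'⟩ := mem_qX h hκ ((hβ.pos i _).2 (hx.mem_qX h hκ))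
  exact ⟨s, hx, hs, hs'⟩

theorem RR.uniq [Finite F] {κ : F} (hκ : D.LongHyp κ) {x s s' : Matrix.SpecialLinearGroup (Fin n) F}
    (h1 : RR h β i x s) (h2 : RR h β i x s') : s = s' := by
  obtain ⟨hx, hs, e1⟩ := h1
  obtain ⟨hx', hs', e2⟩ := h2
  exact mq_UU_inj h hκ hs.mem_UU hs'.mem_UU (e1.symm.trans e2)

theorem RR.inj [Finite F] {κ : F} (hκ : D.LongHyp κ) {x x' s : Matrix.SpecialLinearGroup (Fin n) F}
    (h1 : RR h β i x s) (h2 : RR h β i x' s) : x = x' := by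
  obtain ⟨hx, hs, e1⟩ := h1
  obtain ⟨hx', hs', e2⟩ := h2
  exact mq_UU_inj h hκ hx.mem_UU hx'.mem_UU (β.injective (e1.trans e2.symm))

theorem RR.surj [Finite F] {κ : F} (hκ : D.LongHyp κ) (hβ : (qd h hκ).Perm β id) {s : Matrix.SpecialLinearGroup (Fin n) F}
    (hs : D.InX i s) : ∃ x, RR h β i x s := by
  obtain ⟨y, hy⟩ := β.surjective (mq s (hs.memG h))
  have h1 : y ∈ (qd h hκ).X i := by
    rw [← hβ.pos, hy]
    exact hs.mem_qX h hκ
  obtain ⟨x, hx, rfl⟩ := mem_qX h hκ h1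
  exact ⟨x, hx, hs, hy⟩

theorem RR.mul {x y s t : Matrix.SpecialLinearGroup (Fin n) F}
    (h1 : RR h β i x s) (h2 : RR h β i y t) : RR h β i (x * y) (s * t) := by
  obtain ⟨hx, hs, e1⟩ := h1
  obtain ⟨hy, ht, e2⟩ := h2
  refine ⟨hx.mul hy, hs.mul ht, ?_⟩
  have e3 : mq (x * y) ((hx.mul hy).memG h) = mq x (hx.memG h) * mq y (hy.memG h) := rfl
  rw [e3, map_mul, e1, e2]
  rfl

theorem RR.inv {x s : Matrix.SpecialLinearGroup (Fin n) F} (h1 : RR h β i x s) : RR h β i x⁻¹ s⁻¹ := by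
  obtain ⟨hx, hs, e1⟩ := h1
  refine ⟨hx.inv, hs.inv, ?_⟩
  have e3 : mq x⁻¹ (hx.inv.memG h) = (mq x (hx.memG h))⁻¹ := rfl
  rw [e3, map_inv, e1]
  rfl

theorem RR.conj {x s b b' : Matrix.SpecialLinearGroup (Fin n) F} (h1 : RR h β i x s) {hbG : b ∈ G} {hb'G : b' ∈ G}
    (hb : IsD b) (hb' : IsD b') (hbb : β (mq b hbG) = mq b' hb'G) : RR h β i (b * x * b⁻¹) (b' * s * b'⁻¹) := by
  obtain ⟨hx, hs, e1⟩ := h1
  refine ⟨hx.conj hb (h.fix b hbG), hs.conj hb' (h.fix b' hb'G), ?_⟩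
  have e3 : mq (b * x * b⁻¹) ((hx.conj hb (h.fix b hbG)).memG h) = mq b hbG * mq x (hx.memG h) * (mq b hbG)⁻¹ := rfl
  rw [e3, map_mul, map_mul, map_inv, e1, hbb]
  rfl

theorem RR.zero [Finite F] {κ : F} (hκ : D.LongHyp κ) (hβ : (qd h hκ).Perm β id) (hs : 2 * (i : ℕ) + 3 = n)
    {x s : Matrix.SpecialLinearGroup (Fin n) F} (h1 : RR h β i x s)
    (h0 : (x : Matrix (Fin n) (Fin n) F) (mid i) (hi i) = 0) : (s : Matrix (Fin n) (Fin n) F) (mid i) (hi i) = 0 := by
  by_contra hne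
  obtain ⟨a, ha⟩ := σ_ne_of_odd hκ (by omega)
  obtain ⟨hx, hsX, e1⟩ := h1
  obtain ⟨k, _, hk⟩ := hx.long_of hs h0
  obtain ⟨c, b, _, h3, h4⟩ := hsX.odd hs
  rw [← h4] at hne
  obtain ⟨b', hb'⟩ := tr_uu hκ hs (c * a)
  obtain ⟨y, hy⟩ := RR.surj (h := h) (β := β) hκ hβ (inX_uu hs hb')
  have h5 : x * y = y * x := by
    rw [hk]; exact long_comm hs hy.1 k
  have h6 := RR.mul ⟨hx, hsX, e1⟩ hy
  have h7 := RR.mul hy ⟨hx, hsX, e1⟩
  rw [← h5] at h7
  have h8 := RR.uniq hκ h6 h7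
  rw [h3] at h8
  refine uu_ncomm hs ?_ h8
  intro h9
  apply ha
  rw [map_mul] at h9
  have hσc : D.σ c ≠ 0 := fun h0 => hne ((map_eq_zero D.σ).1 h0)
  have h10 : c * D.σ c * (D.σ a - a) = 0 := by linear_combination -h9
  rcases mul_eq_zero.1 h10 with h11 | h11
  · exact absurd h11 (mul_ne_zero hne hσc)
  · linear_combination h11

/-- the coordinate map -/
theorem RR.exists_f [Finite F] {κ : F} (hκ : D.LongHyp κ) (hβ : (qd h hκ).Perm β id) (hs : 2 * (i : ℕ) + 3 = n) :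
    ∃ f : F → F, (∀ x s, RR h β i x s → (s : Matrix (Fin n) (Fin n) F) (mid i) (hi i) =
      f ((x : Matrix (Fin n) (Fin n) F) (mid i) (hi i))) ∧ (∀ x y, f (x + y) = f x + f y) := by
  choose b hb using tr_uu hκ hs
  choose s hs' using fun c : F => RR.ex (h := h) (β := β) hκ hβ (inX_uu hs (hb c))
  have key : ∀ x t, RR h β i x t → ∀ x' t', RR h β i x' t' →
      (x : Matrix (Fin n) (Fin n) F) (mid i) (hi i) = (x' : Matrix (Fin n) (Fin n) F) (mid i) (hi i) →
      (t : Matrix (Fin n) (Fin n) F) (mid i) (hi i) = (t' : Matrix (Fin n) (Fin n) F) (mid i) (hi i) := by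
    intro x t h1 x' t' h2 h3
    have h4 := RR.mul h1 h2.inv
    have h5 := h4.zero hκ hβ hs (by
      rw [cmul hs h1.1.mem_UU h2.1.inv.mem_UU, cinv hs h2.1.mem_UU, h3]; ring)
    rw [cmul hs h1.2.1.mem_UU h2.2.1.inv.mem_UU, cinv hs h2.2.1.mem_UU] at h5
    linear_combination h5
  have hf : ∀ x t, RR h β i x t → (t : Matrix (Fin n) (Fin n) F) (mid i) (hi i) =
      (s ((x : Matrix (Fin n) (Fin n) F) (mid i) (hi i)) : Matrix (Fin n) (Fin n) F) (mid i) (hi i) := by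
    intro x t h1
    exact key _ _ h1 _ _ (hs' _) (by rw [uu_c hs])
  refine ⟨fun c => (s c : Matrix (Fin n) (Fin n) F) (mid i) (hi i), hf, ?_⟩
  intro x y
  have h1 := hf _ _ (RR.mul (hs' x) (hs' y))
  rw [cmul hs (hs' x).2.1.mem_UU (hs' y).2.1.mem_UU, cmul hs (hs' x).1.mem_UU (hs' y).1.mem_UU, uu_c hs, uu_c hs] at h1
  exact h1.symm

end RR

end Cls

end CfsgH6
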