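import Cfsg.Agent.H6.Cls15

set_option autoImplicit false

/-! The automorphism theorem in odd dimension, part 3: rigidity. -/

namespace CfsgH6

open Matrix

variable {F : Type*} [Field F] {n : ℕ}

namespace Cls

variable {D : Cls n F} {G : Subgroup (Matrix.SpecialLinearGroup (Fin n) F)}

theorem blk {i : Fin (n / 2)} (hs : 2 * (i : ℕ) + 3 = n) {a : Fin n} (h1 : (i : ℕ) ≤ a) (h2 : (a : ℕ) ≤ i + 2) :
    a = lo i ∨ a = mid i ∨ a = hi i := by
  by_cases h3 : (a : ℕ) = i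
  · left; exact Fin.ext h3
  · by_cases h4 : (a : ℕ) = i + 1
    · right; left; exact Fin.ext h4
    · right; right; exact Fin.ext (by rw [hi_val_of hs]; omega)

theorem InX.blk {i : Fin (n / 2)} (hs : 2 * (i : ℕ) + 3 = n) {x : Matrix.SpecialLinearGroup (Fin n) F} (hx : D.InX i x)
    {a b : Fin n} (hab : a ≠ b) (h0 : (x : Matrix (Fin n) (Fin n) F) a b ≠ 0) :
    (a : ℕ) < b ∧ (i : ℕ) ≤ a ∧ (b : ℕ) ≤ i + 2 := by
  have hlt : a < b := by
    rcases lt_or_gt_of_ne hab with h | h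
    · exact h
    · exact absurd (hx.mem_UU.2 _ _ h) h0
  have hlt' : (a : ℕ) < b := hlt
  refine ⟨hlt', ?_, ?_⟩
  · by_contra h1
    apply h0
    exact hx.entry hlt (c := a) le_rfl hlt' (by rintro (h | h) <;> omega)
  · by_contra h1
    apply h0
    exact hx.entry hlt (c := b - 1) (by omega) (by omega) (by rintro (h | h) <;> omega)

theorem InY.blk {i : Fin (n / 2)} (hs : 2 * (i : ℕ) + 3 = n) {y : Matrix.SpecialLinearGroup (Fin n) F} (hy : D.InY i y)
    {a b : Fin n} (hab : a ≠ b) (h0 : (y : Matrix (Fin n) (Fin n) F) a b ≠ 0) :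
    (b : ℕ) < a ∧ (i : ℕ) ≤ b ∧ (a : ℕ) ≤ i + 2 := by
  have hlt : b < a := by
    rcases lt_or_gt_of_ne hab with h | h
    · exact absurd (LL_zero hy.2.1 h) h0
    · exact h
  have hlt' : (b : ℕ) < a := hlt
  refine ⟨hlt', ?_, ?_⟩
  · by_contra h1
    apply h0
    exact mem_PS.1 hy.2.2 a b hlt ⟨b, le_rfl, hlt', by rintro (h | h) <;> omega⟩
  · by_contra h1
    apply h0
    exact mem_PS.1 hy.2.2 a b hlt ⟨a - 1, by omega, by omega, by rintro (h | h) <;> omega⟩

/-- the Weyl element of the last node -/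
theorem τ_nx {κ : F} (hκ : D.LongHyp κ) {i : Fin (n / 2)} (hs : 2 * (i : ℕ) + 3 = n) :
    D.τ (nx (lo i) (hi i) κ) = nx (lo i) (hi i) κ := by
  have hs' : ¬ 2 * (i : ℕ) + 4 ≤ n := by omega
  have h1 := (inX_long hs' hκ.lng).1
  have h2 := (inY_long hs' ((hκ.lng.inv (by omega)).neg)).1
  unfold nx
  rw [map_mul, map_mul, h1, h2]

theorem nx_G (h : D.Good G) {κ : F} (hκ : D.LongHyp κ) {i : Fin (n / 2)} (hs : 2 * (i : ℕ) + 3 = n) :
    nx (lo i) (hi i) κ ∈ G := by
  have hs' : ¬ 2 * (i : ℕ) + 4 ≤ n := by omega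
  have h1 := (inX_long hs' hκ.lng).memG h
  have h2 := (inY_long hs' ((hκ.lng.inv (by omega)).neg)).memG h
  exact G.mul_mem (G.mul_mem h1 h2) h1

theorem nx_conj_Y {κ : F} (hκ : D.LongHyp κ) {i : Fin (n / 2)} (hs : 2 * (i : ℕ) + 3 = n)
    {y : Matrix.SpecialLinearGroup (Fin n) F} (hy : D.InY i y) :
    D.InX i ((nx (lo i) (hi i) κ)⁻¹ * y * nx (lo i) (hi i) κ) := by
  have hm := nx_mono (lo_lt_hi i).ne hκ.ne
  have hτ := τ_nx hκ hs
  have ml := (lo_lt_mid hs).ne
  have mh := (mid_lt_hi hs).ne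
  have v1 : ((lo i : Fin n) : ℕ) = i := lo_val i
  have v2 : ((mid i : Fin n) : ℕ) = i + 1 := mid_val i
  have v3 : ((hi i : Fin n) : ℕ) = i + 2 := hi_val_of hs
  have hπ : ∀ a : Fin n, a ≠ lo i → a ≠ hi i → Equiv.swap (lo i) (hi i) a = a := fun a h1 h2 =>
    Equiv.swap_apply_of_ne_of_ne h1 h2
  have key : ∀ a b : Fin n, a ≠ b → ((((nx (lo i) (hi i) κ)⁻¹ * y * nx (lo i) (hi i) κ :
      Matrix.SpecialLinearGroup (Fin n) F) : Matrix (Fin n) (Fin n) F) a b ≠ 0) →
      (a : ℕ) < b ∧ (i : ℕ) ≤ a ∧ (b : ℕ) ≤ i + 2 := by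
    intro a b hab h0
    rw [mono_conj_apply' hm] at h0
    have h1 : (y : Matrix (Fin n) (Fin n) F) (Equiv.swap (lo i) (hi i) a) (Equiv.swap (lo i) (hi i) b) ≠ 0 := by
      intro h2
      apply h0
      rw [h2, mul_zero, zero_mul]
    obtain ⟨h2, h3, h4⟩ := hy.blk hs (fun h' => hab ((Equiv.swap (lo i) (hi i)).injective h')) h1
    have h5 := blk hs (a := Equiv.swap (lo i) (hi i) a) (by omega) h4
    have h6 := blk hs (a := Equiv.swap (lo i) (hi i) b) h3 (by omega)
    have ea : a = Equiv.swap (lo i) (hi i) (Equiv.swap (lo i) (hi i) a) := (Equiv.swap_apply_self _ _ a).symm ▸ rfl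
    have eb : b = Equiv.swap (lo i) (hi i) (Equiv.swap (lo i) (hi i) b) := (Equiv.swap_apply_self _ _ b).symm ▸ rfl
    have s1 : Equiv.swap (lo i) (hi i) (lo i : Fin n) = hi i := Equiv.swap_apply_left _ _
    have s2 : Equiv.swap (lo i) (hi i) (hi i : Fin n) = lo i := Equiv.swap_apply_right _ _
    have s3 : Equiv.swap (lo i) (hi i) (mid i : Fin n) = mid i := hπ _ ml.symm mh
    rcases h5 with h5 | h5 | h5 <;> rcases h6 with h6 | h6 | h6 <;> rw [h5, h6] at h2 <;>
      rw [h5] at ea <;> rw [h6] at eb <;> simp only [s1, s2, s3] at ea eb <;> rw [ea, eb] <;>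
      simp only [v1, v2, v3] at h2 ⊢ <;> omega
  have hU : (nx (lo i) (hi i) κ)⁻¹ * y * nx (lo i) (hi i) κ ∈ UU n F := by
    refine ⟨fun a => ?_, fun a b hab => ?_⟩
    · rw [mono_conj_apply' hm, LL_diag hy.2.1, mul_one, inv_mul_cancel₀ (mono_ne_zero hm a)]
    · by_contra h0
      have := (key a b hab.ne' h0).1
      have h2 : (b : ℕ) < a := hab
      omega
  refine ⟨by rw [map_mul, map_mul, map_inv, hτ, hy.1], D.γ_mem_LL hU, γ_mem_PS_cut_of_UU ?_ (node_le i)⟩
  rintro a b hab ⟨c, h1, h2, h3⟩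
  by_contra h0
  obtain ⟨h4, h5, h6⟩ := key a b hab.ne h0
  apply h3
  show c = i ∨ c + i + 2 = n
  omega

/-- elements of the root group commuting with it are long -/
theorem c_zero_of_comm {κ : F} (hκ : D.LongHyp κ) {i : Fin (n / 2)} (hs : 2 * (i : ℕ) + 3 = n)
    {s : Matrix.SpecialLinearGroup (Fin n) F} (hsX : D.InX i s) (hc : ∀ x, D.InX i x → s * x = x * s) :
    (s : Matrix (Fin n) (Fin n) F) (mid i) (hi i) = 0 := by
  by_contra hne
  obtain ⟨a, ha⟩ := σ_ne_of_odd hκ (by omega)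
  obtain ⟨c, b, _, h3, h4⟩ := hsX.odd hs
  rw [← h4] at hne
  obtain ⟨b', hb'⟩ := tr_uu hκ hs (c * a)
  have h8 := hc _ (inX_uu hs hb')
  rw [h3] at h8
  refine uu_ncomm hs ?_ h8
  intro h9
  apply ha
  rw [map_mul] at h9
  have hσc : D.σ c ≠ 0 := fun h0 => hne ((map_eq_zero D.σ).1 h0)
  have h10 : c * D.σ c * (D.σ a - a) = 0 := by linear_combination -h9
  rcases mul_eq_zero.1 h10 with h11 | h11
  · exact absurd h11 (mul_ne_zero hne hσc)
  · linear_combination h11

/-- negative version -/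
theorem Ylong_of_comm {κ : F} (hκ : D.LongHyp κ) {i : Fin (n / 2)} (hs : 2 * (i : ℕ) + 3 = n)
    {y : Matrix.SpecialLinearGroup (Fin n) F} (hy : D.InY i y) (hc : ∀ w, D.InY i w → y * w = w * y) :
    ∃ k, D.Lng k ∧ y = xe (hi i) (lo i) k := by
  have hs' : ¬ 2 * (i : ℕ) + 4 ≤ n := by omega
  have h1 := c_zero_of_comm hκ hs hy.γ (by
    intro x hx
    have h2 := hc _ hx.γ
    have h3 := congrArg D.γ h2
    rwa [map_mul, map_mul, D.γ_γ] at h3)
  obtain ⟨k, hk, h2⟩ := hy.γ.long_of hs h1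
  have h3 := (inX_long hs' hk).γ
  rw [← h2, D.γ_γ] at h3
  have h4 : y = xe (hi i) (lo i) ((D.e (hi i) : F) * (D.e (lo i) : F) * k) := by
    have h5 := congrArg D.γ h2
    rw [D.γ_γ, γ_xe (lo_lt_hi i).ne, rev_lo hs, rev_hi hs] at h5
    exact h5
  refine ⟨_, ?_, h4⟩
  unfold Lng at hk ⊢
  rw [map_mul, map_mul, D.hσe, D.hσe]
  linear_combination ((D.e (hi i) : F) * (D.e (lo i) : F)) * hk

theorem Ylong_comm {i : Fin (n / 2)} (hs : 2 * (i : ℕ) + 3 = n) {w : Matrix.SpecialLinearGroup (Fin n) F}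
    (hw : D.InY i w) (k : F) : xe (hi i) (lo i) k * w = w * xe (hi i) (lo i) k := by
  have h1 := long_comm hs hw.γ ((D.e (lo i) : F) * (D.e (hi i) : F) * k)
  have h2 : D.γ (xe (hi i) (lo i) k) = xe (lo i) (hi i) ((D.e (lo i) : F) * (D.e (hi i) : F) * k) := by
    rw [γ_xe (lo_lt_hi i).ne', rev_lo hs, rev_hi hs]
  rw [← h2, ← map_mul, ← map_mul] at h1
  exact D.γ.injective h1

/-- the rigidity lemma -/
theorem rigid_odd [Finite F] (h : D.Good G) {κ : F} (hκ : D.LongHyp κ) {p : ℕ} [Fact p.Prime] [CharP F p]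
    {i : Fin (n / 2)} (hs : 2 * (i : ℕ) + 3 = n)
    (hν : ∃ b ∈ G, IsD b ∧ (b : Matrix (Fin n) (Fin n) F) (lo i) (lo i) = (b : Matrix (Fin n) (Fin n) F) (hi i) (hi i) ∧
      (b : Matrix (Fin n) (Fin n) F) (mid i) (mid i) ≠ (b : Matrix (Fin n) (Fin n) F) (hi i) (hi i))
    {γ : MulAut (↥G ⧸ Subgroup.center ↥G)} (hγ : (qd h hκ).Perm γ id)
    (hX : ∀ j, j ≠ i → ∀ x ∈ (qd h hκ).X j, γ x = x) (hY : ∀ j, j ≠ i → ∀ x ∈ (qd h hκ).Y j, γ x = x)
    (hc : ∀ x s, RR h γ i x s → (s : Matrix (Fin n) (Fin n) F) (mid i) (hi i) = (x : Matrix (Fin n) (Fin n) F) (mid i) (hi i)) :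
    γ = 1 := by
  have hs' : ¬ 2 * (i : ℕ) + 4 ≤ n := by omega
  have v1 : ((lo i : Fin n) : ℕ) = i := lo_val i
  have v2 : ((mid i : Fin n) : ℕ) = i + 1 := mid_val i
  have v3 : ((hi i : Fin n) : ℕ) = i + 2 := hi_val_of hs
  -- diagonal elements
  have hdiag : ∀ (b : Matrix.SpecialLinearGroup (Fin n) F) (hbG : b ∈ G), IsD b → γ (mq b hbG) = mq b hbG := by
    intro b hbG hb
    obtain ⟨b', hb'G, hb', hbb⟩ := diag_image h hκ hγ.std hbG hb
    rw [hbb]
    symm
    apply mq_of_ratio h hκ hbG hb'G hb hb'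
    have hb0 : ∀ x, (b : Matrix (Fin n) (Fin n) F) x x ≠ 0 := diag_ne hb
    have hb'0 : ∀ x, (b' : Matrix (Fin n) (Fin n) F) x x ≠ 0 := diag_ne hb'
    let e : Fin n → F := fun x => (b' : Matrix (Fin n) (Fin n) F) x x * ((b : Matrix (Fin n) (Fin n) F) x x)⁻¹
    have he : ∀ x, (b' : Matrix (Fin n) (Fin n) F) x x = e x * (b : Matrix (Fin n) (Fin n) F) x x := by
      intro x
      show _ = (b' : Matrix (Fin n) (Fin n) F) x x * ((b : Matrix (Fin n) (Fin n) F) x x)⁻¹ * _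
      rw [mul_assoc, inv_mul_cancel₀ (hb0 x), mul_one]
    have he0 : ∀ x, e x ≠ 0 := fun x => mul_ne_zero (hb'0 x) (inv_ne_zero (hb0 x))
    -- short nodes
    have e1 : ∀ j : Fin (n / 2), j ≠ i → e (lo j) = e (hi j) := by
      intro j hj
      have hj2 := j.isLt
      have hjne : (j : ℕ) ≠ i := fun h' => hj (Fin.ext h')
      have hsj : 2 * (j : ℕ) + 4 ≤ n := by omega
      have hx := inX_short (D := D) hsj 1
      have h1 : γ (mq (D.rt (lo j) (hi j) 1) (hx.memG h)) = mq (D.rt (lo j) (hi j) 1) (hx.memG h) :=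
        hX j hj _ (hx.mem_qX h hκ)
      have h2 := hx.conj hb (h.fix b hbG)
      have h3 : γ (mq _ (h2.memG h)) = mq _ (h2.memG h) := hX j hj _ (h2.mem_qX h hκ)
      have h4 : mq _ (h2.memG h) = mq b hbG * mq (D.rt (lo j) (hi j) 1) (hx.memG h) * (mq b hbG)⁻¹ := rfl
      have h5 := hx.conj hb' (h.fix b' hb'G)
      have h6 : γ (mq _ (h2.memG h)) = mq _ (h5.memG h) := by
        rw [h4, map_mul, map_mul, map_inv, hbb, h1]; rfl
      rw [h3] at h6
      have h7 := mq_UU_inj h hκ h2.mem_UU h5.mem_UU h6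
      rw [diag_conj_rt hb (h.fix b hbG) (short_of hsj), diag_conj_rt hb' (h.fix b' hb'G) (short_of hsj)] at h7
      have h8 := rt_inj (short_of hsj) h7
      rw [he, he] at h8
      have n1 := hb0 (lo j)
      have n2 := hb0 (hi j)
      have n3 := he0 (hi j)
      rw [mul_one, mul_one] at h8
      field_simp at h8
      exact h8.symm
    -- the last node
    have e2 : e (mid i) = e (hi i) := by
      obtain ⟨b1, hb1⟩ := tr_uu hκ hs 1
      obtain ⟨s, hs1⟩ := RR.ex (h := h) (β := γ) hκ hγ (inX_uu hs hb1)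
      have h1 := hc _ _ hs1
      have h2 := hc _ _ (hs1.conj hb hb' hbb)
      rw [hb.conj_apply, hb'.conj_apply, h1, uu_c hs, he, he] at h2
      have n1 := hb0 (mid i)
      have n2 := hb0 (hi i)
      have n3 := he0 (hi i)
      rw [mul_one, mul_one] at h2
      field_simp at h2
      exact h2
    -- symmetry
    have e3 : ∀ x, e x * D.σ (e (Fin.rev x)) = 1 := by
      intro x
      have h1 := diag_sym hb (h.fix b hbG) x
      have h2 := diag_sym hb' (h.fix b' hb'G) x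
      rw [he, he, map_mul] at h2
      linear_combination h2 - e x * D.σ (e (Fin.rev x)) * h1
    have e4 : e (lo i) = e (mid i) := by
      have h1 := e3 (lo i)
      have h2 := e3 (mid i)
      rw [rev_lo hs, ← e2] at h1
      rw [rev_mid hs] at h2
      have h3 : D.σ (e (mid i)) ≠ 0 := fun h0 => he0 _ ((map_eq_zero D.σ).1 h0)
      exact mul_right_cancel₀ h3 (h1.trans h2.symm)
    have e5 : ∀ (d : ℕ) (a : Fin n), (a : ℕ) + d = i → e a = e (mid i) := by
      intro d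
      induction d with
      | zero =>
        intro a ha
        have : a = lo i := Fin.ext ha
        rw [this, e4]
      | succ d ih =>
        intro a ha
        have hj : (a : ℕ) < n / 2 := by omega
        have h1 := e1 ⟨a, hj⟩ (fun h' => by have := congrArg Fin.val h'; simp only at this; omega)
        have h2 : (lo ⟨a, hj⟩ : Fin n) = a := rfl
        have h3 : ((hi ⟨a, hj⟩ : Fin n) : ℕ) = a + 1 := hi_val_of_not (by simp only; omega)
        rw [h2] at h1
        rw [h1]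
        exact ih _ (by rw [h3]; omega)
    refine ⟨e (mid i), fun x => ?_⟩
    rw [he]
    congr 1
    by_cases hx : (x : ℕ) ≤ i
    · exact e5 (i - x) x (by omega)
    · by_cases hx' : (x : ℕ) = i + 1
      · have : x = mid i := Fin.ext hx'
        rw [this]
      · have h1 := e3 x
        have h2 := e3 (mid i)
        rw [rev_mid hs] at h2
        rw [e5 (i - (Fin.rev x : Fin n)) (Fin.rev x) (by have := x.isLt; rw [Fin.val_rev]; omega)] at h1
        have h3 : D.σ (e (mid i)) ≠ 0 := fun h0 => he0 _ ((map_eq_zero D.σ).1 h0)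
        exact mul_right_cancel₀ h3 (h1.trans h2.symm)
  -- decomposition of images
  have hdec : ∀ x s, RR h γ i x s → ∃ k, D.Lng k ∧ s = x * xe (lo i) (hi i) k := by
    intro x s hxs
    have h1 := hc _ _ hxs
    have h2 : D.InX i (x⁻¹ * s) := hxs.1.inv.mul hxs.2.1
    obtain ⟨k, hk, h3⟩ := h2.long_of hs (by
      rw [cmul hs hxs.1.inv.mem_UU hxs.2.1.mem_UU, cinv hs hxs.1.mem_UU, h1]; ring)
    exact ⟨k, hk, by rw [← h3]; group⟩
  -- long root elements are fixed
  have hlong : ∀ k, D.Lng k → RR h γ i (xe (lo i) (hi i) k) (xe (lo i) (hi i) k) := by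
    intro k hk
    obtain ⟨x, y, hx, hy, hxy⟩ := long_commutator hκ hs hk
    obtain ⟨s, hxs⟩ := RR.ex (h := h) (β := γ) hκ hγ hx
    obtain ⟨t, hyt⟩ := RR.ex (h := h) (β := γ) hκ hγ hy
    obtain ⟨z, _, rfl⟩ := hdec _ _ hxs
    obtain ⟨z', _, rfl⟩ := hdec _ _ hyt
    have h1 := ((hyt.mul hxs).inv).mul (hxs.mul hyt)
    have h2 : (y * x)⁻¹ * (x * y) = xe (lo i) (hi i) k := by rw [hxy]; group
    have c1 := long_comm hs hy z
    have c2 := long_comm hs hx z'
    have h3 : (y * xe (lo i) (hi i) z' * (x * xe (lo i) (hi i) z))⁻¹ *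
        (x * xe (lo i) (hi i) z * (y * xe (lo i) (hi i) z')) = (y * x)⁻¹ * (x * y) := by
      have e1 : y * xe (lo i) (hi i) z' * (x * xe (lo i) (hi i) z) = y * x * (xe (lo i) (hi i) z' * xe (lo i) (hi i) z) := by
        calc _ = y * (xe (lo i) (hi i) z' * x) * xe (lo i) (hi i) z := by simp only [mul_assoc]
          _ = _ := by rw [c2]; simp only [mul_assoc]
      have e2 : x * xe (lo i) (hi i) z * (y * xe (lo i) (hi i) z') = x * y * (xe (lo i) (hi i) z' * xe (lo i) (hi i) z) := by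
        calc _ = x * (xe (lo i) (hi i) z * y) * xe (lo i) (hi i) z' := by simp only [mul_assoc]
          _ = _ := by rw [c1, ← xe_add, add_comm z' z, xe_add]; simp only [mul_assoc]
      have e3 : xe (lo i) (hi i) z' * xe (lo i) (hi i) z * (x * y) = (x * y) * (xe (lo i) (hi i) z' * xe (lo i) (hi i) z) := by
        rw [← xe_add]
        exact long_comm hs (hx.mul hy) _
      have e4 : xe (lo i) (hi i) z' * xe (lo i) (hi i) z * (y * x) = (y * x) * (xe (lo i) (hi i) z' * xe (lo i) (hi i) z) := by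
        rw [← xe_add]
        exact long_comm hs (hy.mul hx) _
      rw [e1, e2, ← e3, ← e4]
      group
    rw [h3, h2] at h1
    exact h1
  -- everything in the root group is fixed
  have hfixX : ∀ x, D.InX i x → RR h γ i x x := by
    intro x' hx'
    obtain ⟨b, hbG, hb, hb1, hb2⟩ := hν
    have hne : (b : Matrix (Fin n) (Fin n) F) (hi i) (hi i) ≠ 0 := diag_ne hb _
    have hl1 : (b : Matrix (Fin n) (Fin n) F) (mid i) (mid i) * ((b : Matrix (Fin n) (Fin n) F) (hi i) (hi i))⁻¹ - 1 ≠ 0 := by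
      intro h0
      apply hb2
      field_simp at h0
      linear_combination h0
    set l := (b : Matrix (Fin n) (Fin n) F) (mid i) (mid i) * ((b : Matrix (Fin n) (Fin n) F) (hi i) (hi i))⁻¹ with hl
    set c' := (x' : Matrix (Fin n) (Fin n) F) (mid i) (hi i) with hc'
    obtain ⟨b1, hb1'⟩ := tr_uu hκ hs (c' * (l - 1)⁻¹)
    have hx := inX_uu hs hb1'
    set x := D.uu i (c' * (l - 1)⁻¹) b1 with hxdef
    obtain ⟨s, hxs⟩ := RR.ex (h := h) (β := γ) hκ hγ hx
    have h1 := hxs.conj hb hb (hdiag b hbG hb)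
    have h2 := h1.mul hxs.inv
    obtain ⟨z, _, rfl⟩ := hdec _ _ hxs
    have h3 : b * xe (lo i) (hi i) z * b⁻¹ = xe (lo i) (hi i) z := by
      rw [diag_conj_xe hb (lo_lt_hi i).ne, hb1, mul_inv_cancel₀ hne, one_mul]
    have h4 : b * (x * xe (lo i) (hi i) z) * b⁻¹ * (x * xe (lo i) (hi i) z)⁻¹ = b * x * b⁻¹ * x⁻¹ := by
      have : b * (x * xe (lo i) (hi i) z) * b⁻¹ * (x * xe (lo i) (hi i) z)⁻¹ =
          b * x * b⁻¹ * (b * xe (lo i) (hi i) z * b⁻¹) * (xe (lo i) (hi i) z)⁻¹ * x⁻¹ := by group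
      rw [this, h3]; group
    rw [h4] at h2
    have hy : D.InX i (b * x * b⁻¹ * x⁻¹) := h2.1
    obtain ⟨k, hk, h5⟩ := (hy.inv.mul hx').long_of hs (by
      rw [cmul hs hy.inv.mem_UU hx'.mem_UU, cinv hs hy.mem_UU, cmul hs (hx.conj hb (h.fix b hbG)).mem_UU hx.inv.mem_UU,
        cinv hs hx.mem_UU, hb.conj_apply, hxdef, uu_c hs, ← hc']
      have e1 : (b : Matrix (Fin n) (Fin n) F) (mid i) (mid i) * (c' * (l - 1)⁻¹) * ((b : Matrix (Fin n) (Fin n) F) (hi i) (hi i))⁻¹ =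
        l * (c' * (l - 1)⁻¹) := by rw [hl]; ring
      rw [e1]
      field_simp
      ring)
    have h6 : x' = b * x * b⁻¹ * x⁻¹ * xe (lo i) (hi i) k := by rw [← h5]; group
    rw [h6]
    exact h2.mul (hlong k hk)
  have hfixX' : ∀ x (hx : D.InX i x), γ (mq x (hx.memG h)) = mq x (hx.memG h) := by
    intro x hx
    obtain ⟨_, _, h1⟩ := hfixX x hx
    exact h1
  -- negative long root elements
  have hQ := pair_long h hκ (i := i) hs'
  have hyL : ∀ t, γ (yL h hκ hs' t) = yL h hκ hs' t := by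
    obtain ⟨cl, ψ, hcl, hψ⟩ := hQ.field hQ γ
      (by
        intro t
        exact ⟨t, hfixX' _ (inX_long hs' (lng_mul hκ.lng t))⟩)
      (by
        intro t
        have hy := inY_long hs' (lng_mul (hκ.lng.inv (by omega)) t)
        obtain ⟨y', hy', h1⟩ := mem_qY h hκ ((hγ.neg i _).2 (hy.mem_qY h hκ))
        obtain ⟨k', hk', h2⟩ := Ylong_of_comm hκ hs hy' (by
          intro w hw
          obtain ⟨w0, hw0⟩ := γ.surjective (mq w (hw.memG h))
          have h3 : w0 ∈ (qd h hκ).Y i := by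
            rw [← hγ.neg, hw0]
            exact hw.mem_qY h hκ
          obtain ⟨w1, hw1, rfl⟩ := mem_qY h hκ h3
          have h4 : mq _ (hy.memG h) * mq w1 (hw1.memG h) = mq w1 (hw1.memG h) * mq _ (hy.memG h) := by
            rw [mq_mul, mq_mul]
            exact mq_eq (Ylong_comm hs hw1 _)
          have h5 := congrArg γ h4
          rw [map_mul, map_mul, hw0, h1, mq_mul, mq_mul] at h5
          exact mq_LL_inj h hκ ((LL n F).mul_mem hy'.2.1 hw.2.1) ((LL n F).mul_mem hw.2.1 hy'.2.1) h5)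
        obtain ⟨k, hk⟩ := mem_yL h hκ hs' hk'
        exact ⟨k, (h1.trans (mq_eq h2)).trans hk.symm⟩)
    have h1 : ∀ t, cl * ψ t = t := by
      intro t
      apply hQ.x_inj
      rw [← (hψ t).1]
      exact hfixX' _ (inX_long hs' (lng_mul hκ.lng t))
    have h2 : cl = 1 := by
      have := h1 1
      rwa [map_one, mul_one] at this
    intro t
    have h3 := h1 t
    rw [h2, one_mul] at h3
    rw [(hψ t).2, h2, h3, inv_one, one_mul]
  -- the Weyl element is fixed
  have hn0 : γ (mq (nx (lo i) (hi i) κ) (nx_G h hκ hs)) = mq (nx (lo i) (hi i) κ) (nx_G h hκ hs) := by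
    have h1 : mq (nx (lo i) (hi i) κ) (nx_G h hκ hs) = xL h hκ hs' 1 * yL h hκ hs' (-1) * xL h hκ hs' 1 := by
      rw [xyxL]
      apply mq_eq
      unfold nx
      have e1 : κ * ((1 : fixF D.σ) : F) = κ := by rw [Subfield.coe_one, mul_one]
      have e2 : κ⁻¹ * ((-1 : fixF D.σ) : F) = -κ⁻¹ := by
        rw [Subfield.coe_neg, Subfield.coe_one]; ring
      rw [e1, e2]
    rw [h1, map_mul, map_mul, hyL]
    have h2 : γ (xL h hκ hs' 1) = xL h hκ hs' 1 := hfixX' _ (inX_long hs' (lng_mul hκ.lng 1))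
    rw [h2]
  -- conclusion
  apply (qd h hκ).eq_one (qd_isPGroup h hκ (p := p)) (qd_pelt h hκ (p := p))
  · intro j x hx
    by_cases hj : j = i
    · subst hj
      obtain ⟨g, hg, rfl⟩ := mem_qX h hκ hx
      exact hfixX' g hg
    · exact hX j hj x hx
  · intro j x hx
    by_cases hj : j = i
    · subst hj
      obtain ⟨g, hg, rfl⟩ := mem_qY h hκ hx
      have h1 := hfixX' _ (nx_conj_Y hκ hs hg)
      have h2 : mq _ ((nx_conj_Y hκ hs hg).memG h) = (mq (nx (lo j) (hi j) κ) (nx_G h hκ hs))⁻¹ * mq g (hg.memG h) *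
          mq (nx (lo j) (hi j) κ) (nx_G h hκ hs) := rfl
      rw [h2, map_mul, map_mul, map_inv, hn0] at h1
      exact mul_left_cancel (mul_right_cancel h1)
    · exact hY j hj x hx
  · intro x hx
    exact (hγ.std.mem_B x).2 hx

end Cls

end CfsgH6
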