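import Cfsg.Agent.H6.Cls16

set_option autoImplicit false

/-! The automorphism theorem in odd dimension. -/

namespace CfsgH6

open Matrix

variable {F : Type*} [Field F] {n : ℕ}

theorem Datum.Perm.inv_mul_id {T I : Type*} [Group T] {D : Datum T I} {α β : MulAut T} (hα : D.Perm α id)
    (hβ : D.Perm β id) : D.Perm (α⁻¹ * β) id where
  std := hα.std.inv.mul hβ.std
  pos i x := by
    have e : α ((α⁻¹ * β) x) = β x := by simp
    have h1 := hα.pos i ((α⁻¹ * β) x)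
    rw [e] at h1
    exact h1.symm.trans (hβ.pos i x)
  neg i x := by
    have e : α ((α⁻¹ * β) x) = β x := by simp
    have h1 := hα.neg i ((α⁻¹ * β) x)
    rw [e] at h1
    exact h1.symm.trans (hβ.neg i x)
  inj := Function.injective_id

namespace Cls

variable {D : Cls n F} {G : Subgroup (Matrix.SpecialLinearGroup (Fin n) F)}

theorem main_odd [Finite F] (h : D.Good G) {κ : F} (hκ : D.LongHyp κ) {p : ℕ} [Fact p.Prime] [CharP F p]
    (hdG : D.DG G) (hcomm : ∀ (φ : F ≃+* F) (x : F), φ (D.σ x) = D.σ (φ x))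
    {i : Fin (n / 2)} (hs : 2 * (i : ℕ) + 3 = n)
    (hΛ : ∀ x : F, x ∈ AddSubgroup.closure {l : F | ∃ b ∈ G, IsD b ∧
      l = (b : Matrix (Fin n) (Fin n) F) (mid i) (mid i) * ((b : Matrix (Fin n) (Fin n) F) (hi i) (hi i))⁻¹})
    (hν : ∃ b ∈ G, IsD b ∧ (b : Matrix (Fin n) (Fin n) F) (lo i) (lo i) = (b : Matrix (Fin n) (Fin n) F) (hi i) (hi i) ∧
      (b : Matrix (Fin n) (Fin n) F) (mid i) (mid i) ≠ (b : Matrix (Fin n) (Fin n) F) (hi i) (hi i))
    {β : MulAut (↥G ⧸ Subgroup.center ↥G)} (hβ : (qd h hκ).Perm β id) :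
    ∃ (d : Fin n → Fˣ) (φ : F ≃+* F) (hd : D.DSim d φ), β = qA (Fd d φ) (hdG d φ hd) := by
  have hin := i.isLt
  obtain ⟨c, φs, hcφ⟩ := short_semilinear h hκ hβ
  obtain ⟨f, hf, hadd⟩ := RR.exists_f (h := h) (β := β) hκ hβ hs
  have hf1 : f 1 ≠ 0 := by
    intro h0
    obtain ⟨b1, hb1⟩ := tr_uu hκ hs 1
    have hx := inX_uu hs hb1
    obtain ⟨s, hxs⟩ := RR.ex (h := h) (β := β) hκ hβ hx
    have h1 := hf _ _ hxs
    rw [uu_c hs, h0] at h1
    obtain ⟨k, _, hk⟩ := hxs.2.1.long_of hs h1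
    have h2 := c_zero_of_comm hκ hs hx (by
      intro y hy
      obtain ⟨t, hyt⟩ := RR.ex (h := h) (β := β) hκ hβ hy
      have h3 := hxs.mul hyt
      have h4 := hyt.mul hxs
      rw [hk, long_comm hs hyt.2.1 k] at h3
      rw [hk] at h4
      exact RR.inj hκ h3 h4)
    rw [uu_c hs] at h2
    exact one_ne_zero h2
  have hmulD : ∀ (b : Matrix.SpecialLinearGroup (Fin n) F) (hbG : b ∈ G) (b' : Matrix.SpecialLinearGroup (Fin n) F)
      (hb'G : b' ∈ G), IsD b → IsD b' → β (mq b hbG) = mq b' hb'G → ∀ c,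
      f ((b : Matrix (Fin n) (Fin n) F) (mid i) (mid i) * ((b : Matrix (Fin n) (Fin n) F) (hi i) (hi i))⁻¹ * c) =
      (b' : Matrix (Fin n) (Fin n) F) (mid i) (mid i) * ((b' : Matrix (Fin n) (Fin n) F) (hi i) (hi i))⁻¹ * f c := by
    intro b hbG b' hb'G hb hb' hbb c
    obtain ⟨b1, hb1⟩ := tr_uu hκ hs c
    obtain ⟨s, hxs⟩ := RR.ex (h := h) (β := β) hκ hβ (inX_uu hs hb1)
    have h1 := hf _ _ hxs
    have h2 := hf _ _ (hxs.conj hb hb' hbb)
    rw [hb.conj_apply, hb'.conj_apply, h1, uu_c hs] at h2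
    have e1 : (b : Matrix (Fin n) (Fin n) F) (mid i) (mid i) * ((b : Matrix (Fin n) (Fin n) F) (hi i) (hi i))⁻¹ * c =
      (b : Matrix (Fin n) (Fin n) F) (mid i) (mid i) * c * ((b : Matrix (Fin n) (Fin n) F) (hi i) (hi i))⁻¹ := by ring
    rw [e1, ← h2]; ring
  obtain ⟨φ, hφ⟩ := field_of_add f hadd hf1 _ hΛ (by
    rintro l ⟨b, hbG, hb, rfl⟩
    obtain ⟨b', hb'G, hb', hbb⟩ := diag_image h hκ hβ.std hbG hb
    exact ⟨_, hmulD b hbG b' hb'G hb hb' hbb⟩)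
  have hfinj : ∀ x y, f x = f y → x = y := by
    intro x y hxy
    rw [hφ x, hφ y] at hxy
    exact φ.injective (mul_left_cancel₀ hf1 hxy)
  -- comparison with the short nodes
  have hcmp : 5 ≤ n → φ = φs := by
    intro hn5
    have hj : (i : ℕ) - 1 < n / 2 := by omega
    have hsj : 2 * ((⟨(i : ℕ) - 1, hj⟩ : Fin (n / 2)) : ℕ) + 4 ≤ n := by simp only; omega
    have vj1 : ((lo ⟨(i : ℕ) - 1, hj⟩ : Fin n) : ℕ) = i - 1 := rfl
    have vj2 : ((hi ⟨(i : ℕ) - 1, hj⟩ : Fin n) : ℕ) = i := by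
      rw [hi_val_of_not (by simp only; omega)]; simp only; omega
    have v2 : ((mid i : Fin n) : ℕ) = i + 1 := mid_val i
    have v3 : ((hi i : Fin n) : ℕ) = i + 2 := hi_val_of hs
    have ne : ∀ {x y : Fin n}, (x : ℕ) ≠ y → x ≠ y := fun h h' => h (congrArg Fin.val h')
    have hent : ∀ (t : F) (ht : t ≠ 0), (D.dt (short_of hsj).ab t ht : Matrix (Fin n) (Fin n) F) (mid i) (mid i) = 1 ∧
        (D.dt (short_of hsj).ab t ht : Matrix (Fin n) (Fin n) F) (hi i) (hi i) = D.σ t := by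
      intro t ht
      rw [dt_apply, dt_apply]
      have n1 : (mid i : Fin n) ≠ lo ⟨(i : ℕ) - 1, hj⟩ := ne (by rw [v2, vj1]; omega)
      have n2 : (mid i : Fin n) ≠ hi ⟨(i : ℕ) - 1, hj⟩ := ne (by rw [v2, vj2]; omega)
      have n3 : (mid i : Fin n) ≠ Fin.rev (lo ⟨(i : ℕ) - 1, hj⟩) := ne (by rw [Fin.val_rev, v2, vj1]; omega)
      have n4 : (mid i : Fin n) ≠ Fin.rev (hi ⟨(i : ℕ) - 1, hj⟩) := ne (by rw [Fin.val_rev, v2, vj2]; omega)
      have m1 : (hi i : Fin n) ≠ lo ⟨(i : ℕ) - 1, hj⟩ := ne (by rw [v3, vj1]; omega)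
      have m2 : (hi i : Fin n) ≠ hi ⟨(i : ℕ) - 1, hj⟩ := ne (by rw [v3, vj2]; omega)
      have m3 : (hi i : Fin n) ≠ Fin.rev (lo ⟨(i : ℕ) - 1, hj⟩) := ne (by rw [Fin.val_rev, v3, vj1]; omega)
      have m4 : (hi i : Fin n) = Fin.rev (hi ⟨(i : ℕ) - 1, hj⟩) := Fin.ext (by rw [Fin.val_rev, v3, vj2]; omega)
      rw [if_neg n1, if_neg n2, if_neg n3, if_neg n4, if_neg m1, if_neg m2, if_neg m3, if_pos m4]
      exact ⟨mul_one _, one_mul _⟩
    ext t
    by_cases ht : t = 0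
    · rw [ht, map_zero, map_zero]
    · set j : Fin (n / 2) := ⟨(i : ℕ) - 1, hj⟩ with hjdef
      have hcj := (c j).ne_zero
      have hct : (c j : F) * φs t ≠ 0 := mul_ne_zero hcj (fun h0 => ht ((map_eq_zero φs).1 h0))
      have e1 := SL2Pair.map_hh β (hcφ j hsj) t
      rw [hh_short h hsj ht, hh_short h hsj hct, hh_short h hsj hcj] at e1
      have hb'G : D.dt (short_of hsj).ab _ hct * (D.dt (short_of hsj).ab _ hcj)⁻¹ ∈ G :=
        G.mul_mem (dt_mem h hsj hct) (G.inv_mem (dt_mem h hsj hcj))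
      have e2 := hmulD _ (dt_mem h hsj ht) _ hb'G (fun _ _ => dt_diag _ ht)
        (IsD.mul (fun _ _ => dt_diag _ hct) (IsD.inv fun _ _ => dt_diag _ hcj)) e1 1
      rw [(hent t ht).1, (hent t ht).2, diag_mul (fun _ _ => dt_diag _ hct), diag_mul (fun _ _ => dt_diag _ hct),
        IsD.inv_apply (fun _ _ => dt_diag _ hcj), IsD.inv_apply (fun _ _ => dt_diag _ hcj), (hent _ hct).1, (hent _ hct).2,
        (hent _ hcj).1, (hent _ hcj).2, one_mul, mul_one, hφ (D.σ t)⁻¹, map_inv₀, hcomm, map_mul] at e2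
      have n1 : D.σ (φ t) ≠ 0 := fun h0 => ht ((map_eq_zero φ).1 ((map_eq_zero D.σ).1 h0))
      have n2 : D.σ (c j : F) ≠ 0 := fun h0 => hcj ((map_eq_zero D.σ).1 h0)
      have n3 : D.σ (φs t) ≠ 0 := fun h0 => ht ((map_eq_zero φs).1 ((map_eq_zero D.σ).1 h0))
      field_simp at e2
      exact D.σ.injective e2.symm
  -- the diagonal element
  have hσf1 : D.σ (f 1) ≠ 0 := fun h0 => hf1 ((map_eq_zero D.σ).1 h0)
  obtain ⟨dd, hdd1, hdd2⟩ := exists_chain c (n / 2) (Units.mk0 _ hσf1)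
  have hd : D.DSim (D.mkd dd 1 1) φ := ⟨⟨((1 : Fˣ) : F), mkd_sim (by simp) (fun _ => by simp)⟩, hcomm φ⟩
  refine ⟨_, φ, hd, ?_⟩
  have hα := hd.perm h hκ (hdG _ φ hd)
  have v1 : ∀ (j : Fin (n / 2)) (hs : 2 * (j : ℕ) + 4 ≤ n),
      (D.mkd dd 1 1 (lo j) : F) = c j * (D.mkd dd 1 1 (hi j) : F) := by
    intro j hs
    have h1 : ((hi j : Fin n) : ℕ) = j + 1 := hi_val_of_not (by omega)
    rw [mkd_lt (by rw [lo_val]; exact j.isLt), mkd_lt (by rw [h1]; omega), h1, lo_val, hdd2 j (by omega), Units.val_mul]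
  have v2 : (D.mkd dd 1 1 (mid i) : F) * (D.mkd dd 1 1 (hi i) : F)⁻¹ = f 1 := by
    rw [mkd_mid (by rw [mid_val]; omega) (by omega), mkd_gt (by rw [rev_hi hs, lo_val]; exact i.isLt), rev_hi hs, lo_val]
    have h1 : (i : ℕ) = n / 2 - 1 := by omega
    rw [h1, hdd1]
    simp only [Units.val_mul, Units.val_inv_eq_inv_val, Units.coe_map, MonoidHom.coe_coe, Units.val_one, Units.val_mk0,
      one_mul, inv_inv, D.hσ]
  have hfix : ((qA (Fd (D.mkd dd 1 1) φ) (hdG _ φ hd))⁻¹ * β) = 1 := by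
    apply rigid_odd h hκ (p := p) hs hν (hα.inv_mul_id hβ)
    · intro j hj x hx
      have hj2 := j.isLt
      have hjne : (j : ℕ) ≠ i := fun h' => hj (Fin.ext h')
      have hsj : 2 * (j : ℕ) + 4 ≤ n := by omega
      have hφs := hcmp (by omega)
      show (qA (Fd (D.mkd dd 1 1) φ) (hdG _ φ hd))⁻¹ (β x) = x
      rw [MulAut.inv_apply, MulEquiv.symm_apply_eq]
      obtain ⟨g, hg, rfl⟩ := mem_qX h hκ hx
      rw [qA_mq]
      have h1 := hg.short hsj
      have h2 : mq g (hg.memG h) = xS h hsj ((g : Matrix (Fin n) (Fin n) F) (lo j) (hi j)) := mq_eq h1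
      rw [h2, (hcφ j hsj _).1]
      apply mq_eq
      conv_rhs => rw [h1]
      rw [hd.rt (short_of hsj).ab, v1 j hsj, hφs]
      congr 1
      have := (D.mkd dd 1 1 (hi j)).ne_zero
      field_simp
    · intro j hj x hx
      have hj2 := j.isLt
      have hjne : (j : ℕ) ≠ i := fun h' => hj (Fin.ext h')
      have hsj : 2 * (j : ℕ) + 4 ≤ n := by omega
      have hφs := hcmp (by omega)
      show (qA (Fd (D.mkd dd 1 1) φ) (hdG _ φ hd))⁻¹ (β x) = x
      rw [MulAut.inv_apply, MulEquiv.symm_apply_eq]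
      obtain ⟨g, hg, rfl⟩ := mem_qY h hκ hx
      rw [qA_mq]
      obtain ⟨t, h1⟩ := hg.short hsj
      have h2 : mq g (hg.memG h) = yS h hsj t := mq_eq h1
      rw [h2, (hcφ j hsj _).2]
      apply mq_eq
      conv_rhs => rw [h1]
      rw [hd.rt (short_of hsj).ab.symm, v1 j hsj, hφs]
      congr 1
      have h3 := (D.mkd dd 1 1 (hi j)).ne_zero
      have h4 := (c j).ne_zero
      field_simp
    · rintro x s ⟨hx, hsX, h1⟩
      have h2 : β (mq x (hx.memG h)) = qA (Fd (D.mkd dd 1 1) φ) (hdG _ φ hd) (mq s (hsX.memG h)) := by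
        rw [← h1]
        show _ = qA (Fd (D.mkd dd 1 1) φ) (hdG _ φ hd) ((qA (Fd (D.mkd dd 1 1) φ) (hdG _ φ hd))⁻¹ (β (mq x (hx.memG h))))
        simp
      rw [qA_mq] at h2
      have h3 : D.InX i (Fd (D.mkd dd 1 1) φ s) := by
        have h4 := (hα.pos i _).2 (hsX.mem_qX h hκ)
        rw [qA_mq] at h4
        obtain ⟨s', hs', h5⟩ := mem_qX h hκ h4
        have h6 := mq_UU_inj h hκ (Fd_mem_UU _ _ hsX.mem_UU) hs'.mem_UU h5
        rw [h6]; exact hs'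
      have h4 : RR h β i x (Fd (D.mkd dd 1 1) φ s) := ⟨hx, h3, h2⟩
      have h5 := hf _ _ h4
      rw [Fd_apply, v2, ← hφ] at h5
      exact hfinj _ _ h5
  exact (inv_mul_eq_one.1 hfix).symm

end Cls

end CfsgH6
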