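import Cfsg.Agent.H6.Cls13
import Cfsg.Agent.H6.Cls14

set_option autoImplicit false

/-! Semilinear maps commuting with the isometry group up to scalars are linear. -/

namespace CfsgH6

open Matrix

variable {F : Type*} [Field F] {n : ℕ}

namespace Cls

variable {D : Cls n F} {G : Subgroup (Matrix.SpecialLinearGroup (Fin n) F)}

theorem comm_of_scal' {p : ℕ} [Fact p.Prime] [CharP F p] (hn : 0 < n) {g : GL (Fin n) F}
    {s t : Matrix.SpecialLinearGroup (Fin n) F} (hs : s ^ p ^ n = 1) (ht : t ^ p ^ n = 1) {r : F}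
    (hr : (g : Matrix (Fin n) (Fin n) F) * t = r • ((s : Matrix (Fin n) (Fin n) F) * g)) :
    (g : Matrix (Fin n) (Fin n) F) * t = (s : Matrix (Fin n) (Fin n) F) * g := by
  have hk : ∀ k : ℕ, (g : Matrix (Fin n) (Fin n) F) * ((t ^ k : Matrix.SpecialLinearGroup (Fin n) F) : Matrix (Fin n) (Fin n) F) =
      r ^ k • (((s ^ k : Matrix.SpecialLinearGroup (Fin n) F) : Matrix (Fin n) (Fin n) F) * g) := by
    intro k
    induction k with
    | zero => simp
    | succ k ih =>
      have e1 : ((s ^ (k + 1) : Matrix.SpecialLinearGroup (Fin n) F) : Matrix (Fin n) (Fin n) F) =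
        ((s ^ k : Matrix.SpecialLinearGroup (Fin n) F) : Matrix (Fin n) (Fin n) F) * s := by
          rw [pow_succ, Matrix.SpecialLinearGroup.coe_mul]
      have e2 : ((t ^ (k + 1) : Matrix.SpecialLinearGroup (Fin n) F) : Matrix (Fin n) (Fin n) F) =
        ((t ^ k : Matrix.SpecialLinearGroup (Fin n) F) : Matrix (Fin n) (Fin n) F) * t := by
          rw [pow_succ, Matrix.SpecialLinearGroup.coe_mul]
      rw [e1, e2, ← mul_assoc, ih, Matrix.smul_mul, mul_assoc, hr, Matrix.mul_smul, smul_smul, ← mul_assoc, pow_succ]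
  have h1 := hk (p ^ n)
  rw [hs, ht, Matrix.SpecialLinearGroup.coe_one, mul_one, one_mul] at h1
  have hg0 : (g : Matrix (Fin n) (Fin n) F) ≠ 0 := by
    intro h0
    have h2 := g.isUnit
    rw [Matrix.isUnit_iff_isUnit_det, h0] at h2
    have : Nonempty (Fin n) := ⟨⟨0, hn⟩⟩
    rw [Matrix.det_zero] at h2
    exact not_isUnit_zero h2
  have h2 : (1 - r ^ p ^ n) • (g : Matrix (Fin n) (Fin n) F) = 0 := by
    rw [sub_smul, one_smul, ← h1, sub_self]
  have h3 : r ^ p ^ n = 1 := by
    rcases smul_eq_zero.1 h2 with h4 | h4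
    · exact (sub_eq_zero.1 h4).symm
    · exact absurd h4 hg0
  have h4 : r = 1 := by
    apply iterateFrobenius_inj F p n
    rw [iterateFrobenius_def, iterateFrobenius_def, h3, one_pow]
  rw [hr, h4, one_smul]

theorem slField_pow {φ : F ≃+* F} {s : Matrix.SpecialLinearGroup (Fin n) F} {k : ℕ} (hs : s ^ k = 1) :
    (slField n φ s) ^ k = 1 := by
  rw [← map_pow, hs, map_one]

/-- semilinear maps commuting with the isometry group up to scalars are linear -/
theorem semi_faithful (h : D.Good G) {κ : F} (hκ : D.LongHyp κ) {p : ℕ} [Fact p.Prime] [CharP F p] (hn : 3 ≤ n)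
    {g : GL (Fin n) F} {φ : F ≃+* F}
    (hg : ∀ s ∈ G, ∃ r : F, (g : Matrix (Fin n) (Fin n) F) * (slField n φ s : Matrix.SpecialLinearGroup (Fin n) F) =
      r • ((s : Matrix (Fin n) (Fin n) F) * g)) : φ = 1 := by
  have hn0 : 0 < n := by omega
  have hgl : ∀ s ∈ G, s ∈ UU n F ∨ s ∈ LL n F →
      (g : Matrix (Fin n) (Fin n) F) * (s : Matrix (Fin n) (Fin n) F).map φ = (s : Matrix (Fin n) (Fin n) F) * g := by
    intro s hs hsU
    obtain ⟨r, hr⟩ := hg s hs
    rw [← slField_coe]
    rcases hsU with hsU | hsL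
    · exact comm_of_scal' hn0 (UU_pow_eq_one (p := p) hsU) (slField_pow (UU_pow_eq_one (p := p) hsU)) hr
    · exact comm_of_scal' hn0 (LL_pow_eq_one (p := p) hsL) (slField_pow (LL_pow_eq_one (p := p) hsL)) hr
  have hφκ : φ κ ≠ 0 := fun h0 => hκ.ne ((map_eq_zero φ).1 h0)
  have hlong : ∀ a : Fin n, a ≠ Fin.rev a →
      (g : Matrix (Fin n) (Fin n) F) * Matrix.single a (Fin.rev a) (φ κ) = Matrix.single a (Fin.rev a) κ * (g : Matrix (Fin n) (Fin n) F) := by
    intro a ha
    have h1 : xe a (Fin.rev a) κ ∈ G ∧ (xe a (Fin.rev a) κ ∈ UU n F ∨ xe a (Fin.rev a) κ ∈ LL n F) := by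
      rcases lt_or_gt_of_ne ha with h2 | h2
      · exact ⟨h.UG _ (xe_mem_UU h2 κ) (D.τ_long ha hκ.lng), Or.inl (xe_mem_UU h2 κ)⟩
      · exact ⟨h.LG (xe_mem_LL h2 κ) (D.τ_long ha hκ.lng), Or.inr (xe_mem_LL h2 κ)⟩
    have h2 := hgl _ h1.1 h1.2
    have h3 : (xe a (Fin.rev a) κ : Matrix (Fin n) (Fin n) F).map φ = 1 + Matrix.single a (Fin.rev a) (φ κ) := by
      rw [xe_coe ha]
      ext x y
      rw [Matrix.map_apply, Matrix.add_apply, Matrix.add_apply, map_add, Matrix.one_apply, Matrix.single_apply, Matrix.single_apply]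
      congr 1
      · split_ifs
        · exact map_one φ
        · exact map_zero φ
      · split_ifs
        · rfl
        · exact map_zero φ
    rw [h3, xe_coe ha, mul_add, add_mul, mul_one, one_mul] at h2
    exact add_left_cancel h2
  have hcol : ∀ a x : Fin n, a ≠ Fin.rev a → x ≠ a → (g : Matrix (Fin n) (Fin n) F) x a = 0 := by
    intro a x ha hx
    have h1 := congrFun (congrFun (hlong a ha) x) (Fin.rev a)
    rw [Matrix.mul_single_apply_same, Matrix.single_mul_apply_of_ne _ _ _ _ _ hx] at h1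
    exact (mul_eq_zero.1 h1).resolve_right hφκ
  have hrow : ∀ a y : Fin n, a ≠ Fin.rev a → y ≠ Fin.rev a → (g : Matrix (Fin n) (Fin n) F) (Fin.rev a) y = 0 := by
    intro a y ha hy
    have h1 := congrFun (congrFun (hlong a ha) a) y
    rw [Matrix.mul_single_apply_of_ne _ _ _ _ _ hy, Matrix.single_mul_apply_same] at h1
    exact (mul_eq_zero.1 h1.symm).resolve_left hκ.ne
  have hdiag : ∀ x y : Fin n, x ≠ y → (g : Matrix (Fin n) (Fin n) F) x y = 0 := by
    intro x y hxy
    by_cases hy : y = Fin.rev y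
    · have hx : x ≠ Fin.rev x := by
        intro hx
        apply hxy
        have h1 := congrArg Fin.val hx
        have h2 := congrArg Fin.val hy
        rw [Fin.val_rev] at h1 h2
        have := x.isLt
        have := y.isLt
        exact Fin.ext (by omega)
      have h1 := hrow (Fin.rev x) y (by rw [Fin.rev_rev]; exact hx.symm) (by rw [Fin.rev_rev]; exact hxy.symm)
      rwa [Fin.rev_rev] at h1
    · exact hcol y x hy hxy
  have heq : ∀ {s : Matrix.SpecialLinearGroup (Fin n) F}, s ∈ G → s ∈ UU n F → ∀ {x y : Fin n},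
      (g : Matrix (Fin n) (Fin n) F) x x * φ ((s : Matrix (Fin n) (Fin n) F) x y) =
        (s : Matrix (Fin n) (Fin n) F) x y * (g : Matrix (Fin n) (Fin n) F) y y := by
    intro s hs hsU x y
    have h1 := congrFun (congrFun (hgl s hs (Or.inl hsU)) x) y
    rw [Matrix.mul_apply, Matrix.mul_apply, Finset.sum_eq_single x, Finset.sum_eq_single y] at h1
    · exact h1
    · intro k _ hk
      rw [hdiag k y hk, mul_zero]
    · simp
    · intro k _ hk
      rw [hdiag x k hk.symm, zero_mul]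
    · simp
  -- conclude
  have hfin : ∀ (x y : Fin n) (s : F → Matrix.SpecialLinearGroup (Fin n) F), (∀ t, s t ∈ G ∧ s t ∈ UU n F ∧
      (s t : Matrix (Fin n) (Fin n) F) x y = t) → φ = 1 := by
    intro x y s hs
    have h1 : ∀ t, (g : Matrix (Fin n) (Fin n) F) x x * φ t = t * (g : Matrix (Fin n) (Fin n) F) y y := by
      intro t
      have h2 := heq (hs t).1 (hs t).2.1 (x := x) (y := y)
      rwa [(hs t).2.2] at h2
    have h2 := h1 1
    rw [map_one, mul_one, one_mul] at h2
    have h3 : (g : Matrix (Fin n) (Fin n) F) x x ≠ 0 := by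
      intro h0
      have h4 := g.isUnit
      rw [Matrix.isUnit_iff_isUnit_det] at h4
      apply h4.ne_zero
      apply Matrix.det_eq_zero_of_row_eq_zero x
      intro y
      by_cases hxy : x = y
      · subst hxy; exact h0
      · exact hdiag x y hxy
    ext t
    have h4 := h1 t
    rw [← h2, mul_comm] at h4
    exact mul_right_cancel₀ h3 h4
  have h0 : 0 < n / 2 := by omega
  by_cases hn3 : n = 3
  · have hs : 2 * ((⟨0, h0⟩ : Fin (n / 2)) : ℕ) + 3 = n := by simp only; omega
    choose b hb using tr_uu hκ hs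
    refine hfin (mid ⟨0, h0⟩) (hi ⟨0, h0⟩) (fun t => D.uu ⟨0, h0⟩ t (b t)) (fun t => ?_)
    exact ⟨(inX_uu hs (hb t)).memG h, uu_mem_UU hs _ _, uu_c hs _ _⟩
  · have hs : 2 * ((⟨0, h0⟩ : Fin (n / 2)) : ℕ) + 4 ≤ n := by simp only; omega
    refine hfin (lo ⟨0, h0⟩) (hi ⟨0, h0⟩) (fun t => D.rt (lo ⟨0, h0⟩) (hi ⟨0, h0⟩) t) (fun t => ?_)
    exact ⟨(inX_short hs t).memG h, (inX_short hs t).mem_UU, rt_entry (short_of hs) t⟩

end Cls

end CfsgH6
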