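import Cfsg.Agent.H6.Cls

set_option autoImplicit false

/-! Classical groups in `SL_n(F)`: root elements and the combinatorial axioms. -/

namespace CfsgH6

open Matrix

variable {F : Type*} [Field F] {n : ℕ}

namespace Cls

variable (D : Cls n F)

/-- coefficient of the mirrored entry -/
def mc (a b : Fin n) (t : F) : F := -((D.e (Fin.rev a) : F) * (D.e (Fin.rev b) : F) * D.σ t)

theorem τ_xe {a b : Fin n} (h : a ≠ b) (t : F) :
    D.τ (xe a b t) = xe (Fin.rev b) (Fin.rev a) (D.mc a b t) := by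
  have h' : Fin.rev b ≠ Fin.rev a := fun h' => h (Fin.rev_injective h').symm
  apply Subtype.ext
  ext i j
  rw [τ_apply, xe_inv, xe_apply h, xe_apply h']
  by_cases hij : i = j
  · subst hij
    rw [if_pos rfl, if_pos rfl, if_neg, if_neg]
    · rw [add_zero, map_one, mul_one, hec]
    · rintro ⟨h1, h2⟩; exact h' (h1.trans h2.symm)
    · rintro ⟨h1, h2⟩; exact h (h1.trans h2.symm)
  · have hij' : ¬ Fin.rev j = Fin.rev i := fun h => hij (Fin.rev_injective h).symm
    rw [if_neg hij, if_neg hij']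
    by_cases hab : a = Fin.rev j ∧ b = Fin.rev i
    · obtain ⟨rfl, rfl⟩ := hab
      rw [if_pos ⟨rfl, rfl⟩, if_pos (by simp)]
      unfold mc
      rw [Fin.rev_rev, Fin.rev_rev, zero_add, zero_add, map_neg]
      ring
    · rw [if_neg hab, if_neg, add_zero, map_zero, mul_zero]
      rintro ⟨h1, h2⟩
      apply hab
      rw [← h1, ← h2]
      simp

/-- a short root element -/
def rt (a b : Fin n) (t : F) : Matrix.SpecialLinearGroup (Fin n) F := xe a b t * D.τ (xe a b t)

structure Short (a b : Fin n) : Prop where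
  ab : a ≠ b
  br : b ≠ Fin.rev a
  aa : a ≠ Fin.rev a
  bb : b ≠ Fin.rev b

theorem Short.symm {a b : Fin n} (h : Short a b) : Short b a :=
  ⟨h.ab.symm, fun h' => h.br (by rw [h', Fin.rev_rev]), h.bb, h.aa⟩

theorem Short.ba' {a b : Fin n} (h : Short a b) : Fin.rev b ≠ Fin.rev a :=
  fun h' => h.ab (Fin.rev_injective h').symm

theorem Short.ar {a b : Fin n} (h : Short a b) : a ≠ Fin.rev b := h.symm.br

variable {D}

theorem rt_eq {a b : Fin n} (h : Short a b) (t : F) :
    D.rt a b t = xe a b t * xe (Fin.rev b) (Fin.rev a) (D.mc a b t) := by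
  unfold rt
  rw [D.τ_xe h.ab]

theorem rt_comm {a b : Fin n} (h : Short a b) (t : F) :
    D.rt a b t = D.τ (xe a b t) * xe a b t := by
  unfold rt
  rw [D.τ_xe h.ab]
  exact xe_commute h.ab h.ba' h.bb h.aa.symm _ _

theorem τ_rt {a b : Fin n} (h : Short a b) (t : F) : D.τ (D.rt a b t) = D.rt a b t := by
  conv_rhs => rw [rt_comm h]
  unfold rt
  rw [map_mul, D.τ_τ]

theorem rt_mul_apply {a b : Fin n} (h : Short a b) (t : F) (g : Matrix.SpecialLinearGroup (Fin n) F)
    (i j : Fin n) :
    ((D.rt a b t * g : Matrix.SpecialLinearGroup (Fin n) F) : Matrix (Fin n) (Fin n) F) i j =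
      (g : Matrix (Fin n) (Fin n) F) i j + (if i = a then t * (g : Matrix (Fin n) (Fin n) F) b j else 0) +
      (if i = Fin.rev b then D.mc a b t * (g : Matrix (Fin n) (Fin n) F) (Fin.rev a) j else 0) := by
  rw [rt_eq h, mul_assoc, xe_mul_apply h.ab, xe_mul_apply h.ba', xe_mul_apply h.ba', if_neg h.bb]
  ring

theorem mul_rt_apply {a b : Fin n} (h : Short a b) (t : F) (g : Matrix.SpecialLinearGroup (Fin n) F)
    (i j : Fin n) :
    ((g * D.rt a b t : Matrix.SpecialLinearGroup (Fin n) F) : Matrix (Fin n) (Fin n) F) i j =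
      (g : Matrix (Fin n) (Fin n) F) i j + (if j = b then (g : Matrix (Fin n) (Fin n) F) i a * t else 0) +
      (if j = Fin.rev a then (g : Matrix (Fin n) (Fin n) F) i (Fin.rev b) * D.mc a b t else 0) := by
  rw [rt_eq h, ← mul_assoc, mul_xe_apply h.ba', mul_xe_apply h.ab, mul_xe_apply h.ab, if_neg h.bb.symm]
  ring

theorem rt_apply {a b : Fin n} (h : Short a b) (t : F) (i j : Fin n) :
    ((D.rt a b t : Matrix.SpecialLinearGroup (Fin n) F) : Matrix (Fin n) (Fin n) F) i j =
      (if i = j then 1 else 0) + (if i = a ∧ j = b then t else 0) +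
      (if i = Fin.rev b ∧ j = Fin.rev a then D.mc a b t else 0) := by
  have h1 := rt_mul_apply (D := D) h t 1 i j
  rw [mul_one] at h1
  rw [h1, Matrix.SpecialLinearGroup.coe_one, Matrix.one_apply, Matrix.one_apply, Matrix.one_apply]
  congr 1
  · congr 1
    by_cases hi : i = a
    · by_cases hj : j = b
      · simp [hi, hj]
      · simp [hi, hj, Ne.symm hj]
    · simp [hi]
  · by_cases hi : i = Fin.rev b
    · by_cases hj : j = Fin.rev a
      · simp [hi, hj]
      · simp [hi, hj, Ne.symm hj]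
    · simp [hi]

theorem rt_mem_UU {a b : Fin n} (hab : a < b) (t : F) : D.rt a b t ∈ UU n F := by
  unfold rt
  exact (UU n F).mul_mem (xe_mem_UU hab t) (D.τ_mem_UU (xe_mem_UU hab t))

theorem rt_mem_LL {a b : Fin n} (hab : b < a) (t : F) : D.rt a b t ∈ LL n F := by
  unfold rt
  exact (LL n F).mul_mem (xe_mem_LL hab t) (D.τ_mem_LL (xe_mem_LL hab t))

variable (D)

/-- parameters of the long root elements -/
def Lng (t : F) : Prop := t = -((D.ε : F) * D.σ t)

theorem τ_long {a : Fin n} (ha : a ≠ Fin.rev a) {t : F} (ht : D.Lng t) :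
    D.τ (xe a (Fin.rev a) t) = xe a (Fin.rev a) t := by
  rw [D.τ_xe ha, Fin.rev_rev]
  congr 1
  unfold mc
  rw [Fin.rev_rev, mul_comm (D.e (Fin.rev a) : F), D.heec]
  exact ht.symm

theorem hεc (h : 0 < n) : (D.ε : F) * (D.ε : F) = 1 := by
  have := congrArg Units.val (D.hε h)
  simpa using this

theorem σε (h : 0 < n) : D.σ (D.ε : F) = D.ε := by
  rw [← D.heec ⟨0, h⟩, map_mul, D.hσe, D.hσe]

variable {D}

theorem Lng.inv {t : F} (hn : 0 < n) (ht : D.Lng t) : D.Lng (t⁻¹) := by
  unfold Lng at *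
  have h1 := D.hεc hn
  have hε0 : (D.ε : F) ≠ 0 := D.ε.ne_zero
  have h2 : D.σ t = -((D.ε : F) * t) := by
    conv_rhs => rw [ht]
    have : -((D.ε : F) * -((D.ε : F) * D.σ t)) = (D.ε : F) * D.ε * D.σ t := by ring
    rw [this, h1, one_mul]
  rw [map_inv₀, h2]
  by_cases h0 : t = 0
  · subst h0; simp
  · have h3 : -((D.ε : F) * t) ≠ 0 := neg_ne_zero.2 (mul_ne_zero hε0 h0)
    field_simp

theorem Lng.neg {t : F} (ht : D.Lng t) : D.Lng (-t) := by
  unfold Lng at *
  rw [map_neg]
  linear_combination -ht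

theorem Lng.add {s t : F} (hs : D.Lng s) (ht : D.Lng t) : D.Lng (s + t) := by
  unfold Lng at *
  rw [map_add]
  linear_combination hs + ht

/-- entries of the inverse of a fixed element -/
theorem inv_apply {g : Matrix.SpecialLinearGroup (Fin n) F} (hg : D.τ g = g) (a b : Fin n) :
    ((g⁻¹ : Matrix.SpecialLinearGroup (Fin n) F) : Matrix (Fin n) (Fin n) F) a b =
      (D.e (Fin.rev a) : F) * (D.e (Fin.rev b) : F) *
        D.σ ((g : Matrix (Fin n) (Fin n) F) (Fin.rev b) (Fin.rev a)) := by
  have h1 : D.τ g⁻¹ = g⁻¹ := by rw [map_inv, hg]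
  have h2 := D.τ_apply g⁻¹ a b
  rw [h1, inv_inv] at h2
  rw [h2]
  have h3 : (D.e a : F) * (D.e b : F) = (D.e (Fin.rev a) : F) * (D.e (Fin.rev b) : F) := by
    have e1 := D.heec a
    have e2 := D.heec b
    have e3 := D.hec a
    have e4 := D.hec (Fin.rev b)
    -- `e_a e_{a'} = ε = e_b e_{b'}`
    have e5 : (D.e a : F) * (D.e (Fin.rev a) : F) = (D.e b : F) * (D.e (Fin.rev b) : F) := by rw [e1, e2]
    calc (D.e a : F) * (D.e b : F) = (D.e a : F) * (D.e b : F) * ((D.e (Fin.rev b) : F) * (D.e (Fin.rev b) : F)) := by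
          rw [e4, mul_one]
      _ = (D.e a : F) * ((D.e b : F) * (D.e (Fin.rev b) : F)) * (D.e (Fin.rev b) : F) := by ring
      _ = ((D.e a : F) * (D.e a : F)) * (D.e (Fin.rev a) : F) * (D.e (Fin.rev b) : F) := by rw [← e5]; ring
      _ = _ := by rw [e3, one_mul]
  rw [h3]

/-- isotropy of the columns -/
theorem col_isotropic {g : Matrix.SpecialLinearGroup (Fin n) F} (hg : D.τ g = g) {i j : Fin n}
    (hij : j ≠ Fin.rev i) : ∑ a, (D.e (Fin.rev a) : F) * D.σ ((g : Matrix (Fin n) (Fin n) F) (Fin.rev a) i) *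
      (g : Matrix (Fin n) (Fin n) F) a j = 0 := by
  have h1 : ((g⁻¹ * g : Matrix.SpecialLinearGroup (Fin n) F) : Matrix (Fin n) (Fin n) F) (Fin.rev i) j = 0 := by
    rw [inv_mul_cancel, Matrix.SpecialLinearGroup.coe_one, Matrix.one_apply, if_neg hij.symm]
  rw [Matrix.SpecialLinearGroup.coe_mul, Matrix.mul_apply] at h1
  have h2 : (D.e i : F) * ∑ a, (D.e (Fin.rev a) : F) * D.σ ((g : Matrix (Fin n) (Fin n) F) (Fin.rev a) i) *
      (g : Matrix (Fin n) (Fin n) F) a j = 0 := by
    rw [← h1, Finset.mul_sum]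
    apply Finset.sum_congr rfl
    intro a _
    rw [inv_apply hg, Fin.rev_rev]
    ring
  exact (mul_eq_zero.1 h2).resolve_left (D.e i).ne_zero

/-! ### the axioms -/

theorem ex_neg {π : Equiv.Perm (Fin n)} {w : Matrix.SpecialLinearGroup (Fin n) F} (hw : IsMono π w)
    (hτ : D.τ w = w) : w ∈ BU n F ∨ ∃ i : Fin (n / 2), ∀ y ∈ LL n F, y ∈ PS n F (cut n i) →
      w * y * w⁻¹ ∈ UU n F := by
  have hrev := D.mono_rev hw hτ
  by_cases hex : ∃ (a : ℕ) (ha : a + 1 < n), π ⟨a + 1, ha⟩ < π ⟨a, by omega⟩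
  · right
    -- descents come in mirrored pairs
    have hmir : ∀ (a : ℕ) (ha : a + 1 < n), π ⟨a + 1, ha⟩ < π ⟨a, by omega⟩ →
        ∀ (c : ℕ) (hc : c + 1 < n), c + a + 2 = n → π ⟨c + 1, hc⟩ < π ⟨c, by omega⟩ := by
      intro a ha hlt c hc hca
      have e1 : (⟨c, by omega⟩ : Fin n) = Fin.rev ⟨a + 1, ha⟩ := by
        apply Fin.ext; rw [Fin.val_rev]; simp only; omega
      have e2 : (⟨c + 1, hc⟩ : Fin n) = Fin.rev ⟨a, by omega⟩ := by
        apply Fin.ext; rw [Fin.val_rev]; simp only; omega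
      rw [e1, e2, hrev, hrev, Fin.rev_lt_rev]
      exact hlt
    obtain ⟨i, hi, hi2⟩ : ∃ (i : ℕ) (hi : i + 1 < n), 2 * i + 2 ≤ n ∧ π ⟨i + 1, hi⟩ < π ⟨i, by omega⟩ := by
      obtain ⟨a, ha, hlt⟩ := hex
      by_cases h2 : 2 * a + 2 ≤ n
      · exact ⟨a, ha, h2, hlt⟩
      · exact ⟨n - 2 - a, by omega, by omega, hmir a ha hlt _ _ (by omega)⟩
    have hin : i < n / 2 := by omega
    refine ⟨⟨i, hin⟩, fun y hy hyP => ?_⟩
    have hS : ∀ c : ℕ, cut n i c → ∀ (hc : c + 1 < n), π ⟨c + 1, hc⟩ < π ⟨c, by omega⟩ := by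
      rintro c (rfl | hc') hc
      · exact hi2.2
      · exact hmir i hi hi2.2 c hc hc'
    have hent : ∀ a b : Fin n, π b < π a → (y : Matrix (Fin n) (Fin n) F) a b = 0 := by
      intro a b hab
      rcases lt_trichotomy a b with h | h | h
      · exact LL_zero hy h
      · subst h; exact absurd hab (lt_irrefl _)
      · apply mem_PS.1 hyP a b h
        by_contra hno
        push Not at hno
        exact absurd (perm_desc hS h hno) hab.not_gt
    refine ⟨fun a => ?_, fun a b hab => ?_⟩
    · obtain ⟨a, rfl⟩ := π.surjective a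
      rw [mono_conj_apply hw, LL_diag hy, mul_one, mul_inv_cancel₀ (mono_ne_zero hw a)]
    · obtain ⟨a, rfl⟩ := π.surjective a
      obtain ⟨b, rfl⟩ := π.surjective b
      rw [mono_conj_apply hw, hent a b hab, mul_zero, zero_mul]
  · left
    push Not at hex
    have hπ : π = 1 := by
      apply perm_eq_one_of_lt
      rcases n with _ | k
      · intro i; exact i.elim0
      have hs : StrictMono π := by
        rw [Fin.strictMono_iff_lt_succ]
        intro i
        have h1 := hex i (by omega)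
        refine lt_of_le_of_ne ?_ fun h => (Fin.castSucc_lt_succ (i := i)).ne (π.injective h)
        exact h1
      intro i j hij
      exact hs hij
    subst hπ
    exact mono_one_mem_BU hw

/-- commuting of opposite root groups for different nodes -/
theorem comm_XY {i j : Fin (n / 2)} (hij : i ≠ j) {x y : Matrix.SpecialLinearGroup (Fin n) F}
    (hx : D.γ x ∈ LL n F) (hx' : D.γ x ∈ PS n F (cut n i)) (hy : y ∈ LL n F)
    (hy' : y ∈ PS n F (cut n j)) : x * y = y * x := by
  have hxU : x ∈ UU n F := by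
    have := D.γ_mem_UU hx
    rwa [γ_γ] at this
  have hxe : ∀ a b : Fin n, a < b → (∃ c : ℕ, (a : ℕ) ≤ c ∧ c < b ∧ ¬ cut n i c) →
      (x : Matrix (Fin n) (Fin n) F) a b = 0 := by
    rintro a b hab ⟨c, hc1, hc2, hc3⟩
    have h1 := mem_PS.1 hx' (Fin.rev a) (Fin.rev b) (Fin.rev_lt_rev.2 hab)
      ⟨n - 2 - c, by rw [Fin.val_rev]; have := b.isLt; omega, by
        rw [Fin.val_rev]; have := b.isLt; omega, by
        rintro (h | h)
        · apply hc3; right; have := b.isLt; omega
        · apply hc3; left; have := b.isLt; omega⟩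
    rw [γ_apply, Fin.rev_rev, Fin.rev_rev] at h1
    exact (mul_eq_zero.1 h1).resolve_left (mul_ne_zero (D.e _).ne_zero (D.e _).ne_zero)
  have hcut : ∀ c : ℕ, cut n i c → cut n j c → False := by
    have hi := i.isLt
    have hj := j.isLt
    have hne : (i : ℕ) ≠ j := fun h => hij (Fin.ext h)
    rintro c (h1 | h1) (h2 | h2) <;> omega
  apply Subtype.ext
  ext a c
  rw [Matrix.SpecialLinearGroup.coe_mul, Matrix.SpecialLinearGroup.coe_mul, Matrix.mul_apply, Matrix.mul_apply]
  -- both sides are `x + y - 1`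
  have h1 : ∑ b, (x : Matrix (Fin n) (Fin n) F) a b * (y : Matrix (Fin n) (Fin n) F) b c =
      (x : Matrix (Fin n) (Fin n) F) a c + (y : Matrix (Fin n) (Fin n) F) a c - if a = c then 1 else 0 := by
    have h2 : ∀ b, (x : Matrix (Fin n) (Fin n) F) a b * (y : Matrix (Fin n) (Fin n) F) b c =
        (if b = a then (y : Matrix (Fin n) (Fin n) F) a c else 0) +
        (if b = c then (x : Matrix (Fin n) (Fin n) F) a c else 0) - (if b = a then (if a = c then 1 else 0) else 0) := by
      intro b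
      by_cases hba : b = a
      · subst hba
        rw [hxU.1, one_mul, if_pos rfl, if_pos rfl]
        split_ifs with h3
        · subst h3; rw [hxU.1, LL_diag hy]; ring
        · ring
      · rw [if_neg hba, if_neg hba]
        by_cases hbc : b = c
        · subst hbc
          rw [LL_diag hy, if_pos rfl]; ring
        · rw [if_neg hbc]
          rcases lt_or_gt_of_ne hba with h3 | h3
          · rw [hxU.2 a b h3]; ring
          · rcases lt_or_gt_of_ne hbc with h4 | h4
            · rw [LL_zero hy h4]; ring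
            · -- `a < b`, `c < b`
              have h5 : 0 < (b : ℕ) := lt_of_le_of_lt (Nat.zero_le _) (show (a : ℕ) < b from h3)
              by_cases h6 : cut n i ((b : ℕ) - 1)
              · have h7 : ¬ cut n j ((b : ℕ) - 1) := fun h => hcut _ h6 h
                rw [mem_PS.1 hy' b c h4 ⟨(b : ℕ) - 1, by have : (c : ℕ) < b := h4; omega, by omega, h7⟩]
                ring
              · rw [hxe a b h3 ⟨(b : ℕ) - 1, by have : (a : ℕ) < b := h3; omega, by omega, h6⟩]
                ring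
    rw [Finset.sum_congr rfl fun b _ => h2 b, Finset.sum_sub_distrib, Finset.sum_add_distrib]
    simp only [Finset.sum_ite_eq', Finset.mem_univ, if_true]
    ring
  have h1' : ∑ b, (y : Matrix (Fin n) (Fin n) F) a b * (x : Matrix (Fin n) (Fin n) F) b c =
      (x : Matrix (Fin n) (Fin n) F) a c + (y : Matrix (Fin n) (Fin n) F) a c - if a = c then 1 else 0 := by
    have h2 : ∀ b, (y : Matrix (Fin n) (Fin n) F) a b * (x : Matrix (Fin n) (Fin n) F) b c =
        (if b = a then (x : Matrix (Fin n) (Fin n) F) a c else 0) +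
        (if b = c then (y : Matrix (Fin n) (Fin n) F) a c else 0) - (if b = a then (if a = c then 1 else 0) else 0) := by
      intro b
      by_cases hba : b = a
      · subst hba
        rw [LL_diag hy, one_mul, if_pos rfl, if_pos rfl]
        split_ifs with h3
        · subst h3; rw [hxU.1, LL_diag hy]; ring
        · ring
      · rw [if_neg hba, if_neg hba]
        by_cases hbc : b = c
        · subst hbc
          rw [hxU.1, if_pos rfl]; ring
        · rw [if_neg hbc]
          rcases lt_or_gt_of_ne hba with h3 | h3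
          · rcases lt_or_gt_of_ne hbc with h4 | h4
            · -- `b < a`, `b < c`
              by_cases h6 : cut n i (b : ℕ)
              · have h7 : ¬ cut n j (b : ℕ) := fun h => hcut _ h6 h
                rw [mem_PS.1 hy' a b h3 ⟨(b : ℕ), le_rfl, h3, h7⟩]
                ring
              · rw [hxe b c h4 ⟨(b : ℕ), le_rfl, h4, h6⟩]
                ring
            · rw [hxU.2 b c h4]; ring
          · rw [LL_zero hy h3]; ring
    rw [Finset.sum_congr rfl fun b _ => h2 b, Finset.sum_sub_distrib, Finset.sum_add_distrib]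
    simp only [Finset.sum_ite_eq', Finset.mem_univ, if_true]
  rw [h1, h1']

end Cls

end CfsgH6
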