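import Cfsg.Agent.H6.Cls2

set_option autoImplicit false

/-! Classical groups in `SL_n(F)` with long roots: the remaining axioms. -/

namespace CfsgH6

open Matrix

variable {F : Type*} [Field F] {n : ℕ}

namespace Cls

variable {D : Cls n F}

theorem xe_entry {a b : Fin n} (h : a ≠ b) (t : F) :
    ((xe a b t : Matrix.SpecialLinearGroup (Fin n) F) : Matrix (Fin n) (Fin n) F) a b = t := by
  rw [xe_apply h, if_neg h, if_pos ⟨rfl, rfl⟩, zero_add]

theorem rt_entry {a b : Fin n} (h : Short a b) (t : F) :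
    ((D.rt a b t : Matrix.SpecialLinearGroup (Fin n) F) : Matrix (Fin n) (Fin n) F) a b = t := by
  rw [rt_apply h, if_neg h.ab, if_pos ⟨rfl, rfl⟩, if_neg, zero_add, add_zero]
  rintro ⟨h1, _⟩
  exact h.ar h1

theorem long {κ : F} (hκ0 : κ ≠ 0) (hκ : D.Lng κ) {π : Equiv.Perm (Fin n)}
    {w : Matrix.SpecialLinearGroup (Fin n) F} (hw : IsMono π w) (hτ : D.τ w = w) :
    (∃ x ∈ UU n F, D.τ x = x ∧ x ≠ 1 ∧ w * x * w⁻¹ ∈ UU n F) ∨ ∀ x ∈ UU n F, w * x * w⁻¹ ∈ LL n F := by
  have hrev := D.mono_rev hw hτ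
  have hA : ∀ a : Fin n, a < Fin.rev a → π a < π (Fin.rev a) →
      ∃ x ∈ UU n F, D.τ x = x ∧ x ≠ 1 ∧ w * x * w⁻¹ ∈ UU n F := by
    intro a ha hπ
    refine ⟨xe a (Fin.rev a) κ, xe_mem_UU ha κ, D.τ_long ha.ne hκ, ?_, ?_⟩
    · intro h1
      apply hκ0
      rw [← xe_entry ha.ne κ, h1, Matrix.SpecialLinearGroup.coe_one, Matrix.one_apply, if_neg ha.ne]
    · obtain ⟨c, -, hc⟩ := mono_conj hw ha.ne
      rw [hc]
      exact xe_mem_UU hπ _
  by_cases h : ∃ a b : Fin n, a < b ∧ π a < π b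
  · left
    obtain ⟨a, b, hab, hπ⟩ := h
    by_cases h1 : b = Fin.rev a
    · subst h1; exact hA a hab hπ
    by_cases h2 : a = Fin.rev a
    · -- `a` is the middle
      apply hA (Fin.rev b)
      · rw [Fin.rev_rev]
        have : Fin.rev b < Fin.rev a := Fin.rev_lt_rev.2 hab
        rw [← h2] at this
        exact this.trans hab
      · rw [Fin.rev_rev, hrev]
        have h3 : π a = Fin.rev (π a) := by rw [← hrev, ← h2]
        have h4 : Fin.rev (π b) < Fin.rev (π a) := Fin.rev_lt_rev.2 hπ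
        rw [← h3] at h4
        exact h4.trans hπ
    by_cases h3 : b = Fin.rev b
    · apply hA a
      · have : Fin.rev b < Fin.rev a := Fin.rev_lt_rev.2 hab
        rw [← h3] at this
        exact hab.trans this
      · have h4 : π b = Fin.rev (π b) := by rw [← hrev, ← h3]
        have h5 : Fin.rev (π b) < Fin.rev (π a) := Fin.rev_lt_rev.2 hπ
        rw [← h4] at h5
        rw [hrev]
        exact hπ.trans h5
    have hs : Short a b := ⟨hab.ne, h1, h2, h3⟩
    refine ⟨D.rt a b 1, rt_mem_UU hab 1, τ_rt hs 1, ?_, ?_⟩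
    · intro h4
      apply one_ne_zero (α := F)
      rw [← rt_entry (D := D) hs 1, h4, Matrix.SpecialLinearGroup.coe_one, Matrix.one_apply, if_neg hab.ne]
    · obtain ⟨c, -, hc⟩ := mono_conj hw hab.ne
      have h4 : w * D.rt a b 1 * w⁻¹ = (w * xe a b 1 * w⁻¹) * D.τ (w * xe a b 1 * w⁻¹) := by
        unfold rt
        rw [map_mul, map_mul, map_inv, hτ]
        group
      rw [h4, hc]
      exact (UU n F).mul_mem (xe_mem_UU hπ _) (D.τ_mem_UU (xe_mem_UU hπ _))
  · right
    push Not at h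
    intro x hx
    rw [mem_LL']
    refine ⟨fun a => ?_, fun a b hab => ?_⟩
    · obtain ⟨a, rfl⟩ := π.surjective a
      rw [Matrix.transpose_apply, mono_conj_apply hw, hx.1, mul_one, mul_inv_cancel₀ (mono_ne_zero hw a)]
    · obtain ⟨a, rfl⟩ := π.surjective a
      obtain ⟨b, rfl⟩ := π.surjective b
      rw [Matrix.transpose_apply, mono_conj_apply hw]
      have hba : a < b := by
        rcases lt_trichotomy a b with h1 | h1 | h1
        · exact h1
        · subst h1; exact absurd hab (lt_irrefl _)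
        · exact absurd (h b a h1) hab.not_ge
      rw [hx.2 b a hba, mul_zero, zero_mul]

theorem ncomm_rt {a b : Fin n} (h : Short a b) (r : F) :
    ((D.rt a b 1 * D.rt b a 1 : Matrix.SpecialLinearGroup (Fin n) F) : Matrix (Fin n) (Fin n) F) ≠
      r • ((D.rt b a 1 * D.rt a b 1 : Matrix.SpecialLinearGroup (Fin n) F) : Matrix (Fin n) (Fin n) F) := by
  intro hr
  have e1 := congrFun (congrFun hr a) b
  have e2 := congrFun (congrFun hr a) a
  rw [Matrix.smul_apply, rt_mul_apply h, rt_mul_apply h.symm, rt_apply h, rt_apply h.symm, rt_apply h.symm,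
    rt_apply h.symm] at e1
  rw [Matrix.smul_apply, rt_mul_apply h, rt_mul_apply h.symm, rt_apply h, rt_apply h.symm, rt_apply h.symm,
    rt_apply h.symm] at e2
  have n1 := h.ab
  have n2 := h.ab.symm
  have n3 := h.ar
  have n4 := h.aa
  have n5 := h.bb
  have n6 := h.br
  simp [n1, n2, n3, n4, n5, n6] at e1 e2
  rw [← e1] at e2
  simp at e2

theorem ncomm_xe {a b : Fin n} (h : a ≠ b) {κ : F} (hκ : κ ≠ 0) (r : F) :
    ((xe a b κ * xe b a κ⁻¹ : Matrix.SpecialLinearGroup (Fin n) F) : Matrix (Fin n) (Fin n) F) ≠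
      r • ((xe b a κ⁻¹ * xe a b κ : Matrix.SpecialLinearGroup (Fin n) F) : Matrix (Fin n) (Fin n) F) := by
  intro hr
  have e1 := congrFun (congrFun hr a) b
  have e2 := congrFun (congrFun hr a) a
  rw [Matrix.smul_apply, xe_mul_apply h, xe_mul_apply h.symm, if_pos rfl, if_neg h,
    xe_apply h, xe_apply h.symm, xe_apply h.symm] at e1
  rw [Matrix.smul_apply, xe_mul_apply h, xe_mul_apply h.symm, if_pos rfl, if_neg h,
    xe_apply h, xe_apply h.symm, xe_apply h.symm] at e2
  simp [h, h.symm, hκ] at e1 e2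
  rw [e1] at e2
  simp at e2

/-! ### nodes -/

/-- lower index of a node -/
def lo (i : Fin (n / 2)) : Fin n := ⟨i, by omega⟩

/-- upper index of a node -/
def hi (i : Fin (n / 2)) : Fin n := if h : 2 * (i : ℕ) + 3 = n then ⟨i + 2, by omega⟩ else ⟨i + 1, by omega⟩

theorem lo_val (i : Fin (n / 2)) : ((lo i : Fin n) : ℕ) = i := rfl

theorem hi_val_of {i : Fin (n / 2)} (h : 2 * (i : ℕ) + 3 = n) : ((hi i : Fin n) : ℕ) = i + 2 := by
  unfold hi; rw [dif_pos h]

theorem hi_val_of_not {i : Fin (n / 2)} (h : ¬ 2 * (i : ℕ) + 3 = n) : ((hi i : Fin n) : ℕ) = i + 1 := by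
  unfold hi; rw [dif_neg h]

theorem lo_lt_hi (i : Fin (n / 2)) : (lo i : Fin n) < hi i := by
  show ((lo i : Fin n) : ℕ) < (hi i : Fin n)
  by_cases h : 2 * (i : ℕ) + 3 = n
  · rw [hi_val_of h, lo_val]; omega
  · rw [hi_val_of_not h, lo_val]; omega

theorem short_of {i : Fin (n / 2)} (h : 2 * (i : ℕ) + 4 ≤ n) : Short (lo i : Fin n) (hi i) := by
  have h1 : ((hi i : Fin n) : ℕ) = i + 1 := hi_val_of_not (by omega)
  refine ⟨(lo_lt_hi i).ne, ?_, ?_, ?_⟩
  · intro h'
    have := congrArg Fin.val h'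
    rw [h1, Fin.val_rev, lo_val] at this
    omega
  · intro h'
    have := congrArg Fin.val h'
    rw [Fin.val_rev, lo_val] at this
    omega
  · intro h'
    have := congrArg Fin.val h'
    rw [Fin.val_rev, h1] at this
    omega

theorem hi_eq_rev {i : Fin (n / 2)} (h : ¬ 2 * (i : ℕ) + 4 ≤ n) : (hi i : Fin n) = Fin.rev (lo i) := by
  have := i.isLt
  apply Fin.ext
  rw [Fin.val_rev, lo_val]
  by_cases h' : 2 * (i : ℕ) + 3 = n
  · rw [hi_val_of h']; omega
  · rw [hi_val_of_not h']; omega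

theorem lo_hi_cut (i : Fin (n / 2)) (c : ℕ) (h1 : ((lo i : Fin n) : ℕ) ≤ c) (h2 : c < (hi i : Fin n)) :
    cut n i c := by
  rw [lo_val] at h1
  by_cases h : 2 * (i : ℕ) + 3 = n
  · rw [hi_val_of h] at h2
    rcases Nat.lt_or_ge c (i + 1) with h3 | h3
    · left; omega
    · right; omega
  · rw [hi_val_of_not h] at h2
    left; omega

theorem xe_mem_PS {a b : Fin n} (hab : b < a) {S : ℕ → Prop} [DecidablePred S]
    (h : ∀ c : ℕ, (b : ℕ) ≤ c → c < a → S c) (t : F) : xe a b t ∈ PS n F S := by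
  rw [mem_PS]
  rintro a' b' hab' ⟨c, h1, h2, h3⟩
  rw [xe_apply hab.ne', if_neg hab'.ne', if_neg, add_zero]
  rintro ⟨rfl, rfl⟩
  exact h3 (h c h1 h2)

theorem cut_symm {i c : ℕ} (h : cut n i c) (hc : c + 2 ≤ n) (hi : i + 2 ≤ n) : cut n i (n - 2 - c) := by
  rcases h with h | h
  · right; omega
  · left; omega

theorem τ_mem_PS_cut {i : ℕ} (hi : i + 2 ≤ n) {g : Matrix.SpecialLinearGroup (Fin n) F}
    (hg : g ∈ PS n F (cut n i)) : D.τ g ∈ PS n F (cut n i) := by
  have hg' := (PS n F (cut n i)).inv_mem hg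
  rw [mem_PS] at hg' ⊢
  rintro a b hab ⟨c, h1, h2, h3⟩
  have ha := a.isLt
  rw [τ_apply, hg' _ _ (Fin.rev_lt_rev.2 hab) ⟨n - 2 - c, by rw [Fin.val_rev]; omega, by
    rw [Fin.val_rev]; omega, ?_⟩, map_zero, mul_zero]
  intro h4
  apply h3
  have := cut_symm h4 (by omega) hi
  have e : n - 2 - (n - 2 - c) = c := by omega
  rwa [e] at this

theorem γ_mem_PS_cut_of_UU {i : ℕ} {g : Matrix.SpecialLinearGroup (Fin n) F}
    (h : ∀ a b : Fin n, a < b → (∃ c : ℕ, (a : ℕ) ≤ c ∧ c < b ∧ ¬ cut n i c) →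
      (g : Matrix (Fin n) (Fin n) F) a b = 0) (hi : i + 2 ≤ n) : D.γ g ∈ PS n F (cut n i) := by
  rw [mem_PS]
  rintro a b hab ⟨c, h1, h2, h3⟩
  have ha := a.isLt
  rw [γ_apply, h _ _ (Fin.rev_lt_rev.2 hab) ⟨n - 2 - c, by rw [Fin.val_rev]; omega, by
    rw [Fin.val_rev]; omega, ?_⟩, mul_zero]
  intro h4
  apply h3
  have := cut_symm h4 (by omega) hi
  have e : n - 2 - (n - 2 - c) = c := by omega
  rwa [e] at this

/-- `x` is in the `i`-th positive root group -/
def InX (D : Cls n F) (i : Fin (n / 2)) (x : Matrix.SpecialLinearGroup (Fin n) F) : Prop :=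
  D.τ x = x ∧ D.γ x ∈ LL n F ∧ D.γ x ∈ PS n F (cut n i)

/-- `y` is in the `i`-th negative root group -/
def InY (D : Cls n F) (i : Fin (n / 2)) (y : Matrix.SpecialLinearGroup (Fin n) F) : Prop :=
  D.τ y = y ∧ y ∈ LL n F ∧ y ∈ PS n F (cut n i)

theorem node_le (i : Fin (n / 2)) : (i : ℕ) + 2 ≤ n := by omega

theorem γ_xe {a b : Fin n} (h : a ≠ b) (t : F) :
    D.γ (xe a b t) = xe (Fin.rev a) (Fin.rev b) ((D.e (Fin.rev a) : F) * (D.e (Fin.rev b) : F) * t) := by
  have h' : Fin.rev a ≠ Fin.rev b := fun h' => h (Fin.rev_injective h')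
  apply Subtype.ext
  ext i j
  rw [γ_apply, xe_apply h, xe_apply h']
  by_cases hij : i = j
  · subst hij
    rw [if_pos rfl, if_pos rfl, if_neg, if_neg]
    · rw [add_zero, mul_one, hec]
    · rintro ⟨h1, h2⟩; exact h' (h1.trans h2.symm)
    · rintro ⟨h1, h2⟩; exact h (h1.trans h2.symm)
  · have hij' : ¬ Fin.rev i = Fin.rev j := fun h => hij (Fin.rev_injective h)
    rw [if_neg hij, if_neg hij']
    by_cases hab : a = Fin.rev i ∧ b = Fin.rev j
    · obtain ⟨rfl, rfl⟩ := hab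
      rw [if_pos ⟨rfl, rfl⟩, if_pos (by simp)]
      rw [Fin.rev_rev, Fin.rev_rev, zero_add, zero_add]
    · rw [if_neg hab, if_neg, add_zero, mul_zero]
      rintro ⟨h1, h2⟩
      apply hab
      rw [← h1, ← h2]
      simp

theorem xe_lo_hi_PS (i : Fin (n / 2)) (t : F) : D.γ (xe (lo i) (hi i) t) ∈ PS n F (cut n i) := by
  apply γ_mem_PS_cut_of_UU _ (node_le i)
  rintro a b hab ⟨c, h1, h2, h3⟩
  rw [xe_apply (lo_lt_hi i).ne, if_neg hab.ne, if_neg, add_zero]
  rintro ⟨rfl, rfl⟩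
  exact h3 (lo_hi_cut i c h1 h2)

theorem inX_short {i : Fin (n / 2)} (h : 2 * (i : ℕ) + 4 ≤ n) (t : F) :
    D.InX i (D.rt (lo i) (hi i) t) := by
  refine ⟨τ_rt (short_of h) t, D.γ_mem_LL (rt_mem_UU (lo_lt_hi i) t), ?_⟩
  unfold rt
  rw [map_mul, ← D.τ_γ]
  exact (PS n F (cut n i)).mul_mem (xe_lo_hi_PS i t) (τ_mem_PS_cut (node_le i) (xe_lo_hi_PS i t))

theorem inY_short {i : Fin (n / 2)} (h : 2 * (i : ℕ) + 4 ≤ n) (t : F) :
    D.InY i (D.rt (hi i) (lo i) t) := by
  refine ⟨τ_rt (short_of h).symm t, rt_mem_LL (lo_lt_hi i) t, ?_⟩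
  unfold rt
  have h1 := xe_mem_PS (lo_lt_hi i) (S := cut n i) (lo_hi_cut i) t
  exact (PS n F (cut n i)).mul_mem h1 (τ_mem_PS_cut (node_le i) h1)

theorem inX_long {i : Fin (n / 2)} (h : ¬ 2 * (i : ℕ) + 4 ≤ n) {t : F} (ht : D.Lng t) :
    D.InX i (xe (lo i) (hi i) t) := by
  refine ⟨?_, D.γ_mem_LL (xe_mem_UU (lo_lt_hi i) t), xe_lo_hi_PS i t⟩
  have h1 := (lo_lt_hi i).ne
  rw [hi_eq_rev h] at h1 ⊢
  exact D.τ_long h1 ht

theorem inY_long {i : Fin (n / 2)} (h : ¬ 2 * (i : ℕ) + 4 ≤ n) {t : F} (ht : D.Lng t) :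
    D.InY i (xe (hi i) (lo i) t) := by
  refine ⟨?_, xe_mem_LL (lo_lt_hi i) t, xe_mem_PS (lo_lt_hi i) (lo_hi_cut i) t⟩
  have h1 := D.τ_long (a := hi i) (by
    rw [hi_eq_rev h, Fin.rev_rev]
    have := (lo_lt_hi i).ne'
    rwa [hi_eq_rev h] at this) ht
  have h2 : Fin.rev (hi i) = (lo i : Fin n) := by rw [hi_eq_rev h, Fin.rev_rev]
  rw [h2] at h1
  exact h1

/-- top-left reduction -/
theorem PS_top {i : Fin (n / 2)} {g : Matrix.SpecialLinearGroup (Fin n) F} (hg : D.τ g = g)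
    (hP : g ∈ PS n F (cut n i)) (h0 : ∀ a : Fin n, (i : ℕ) < a → (a : ℕ) ≤ hi i →
      (g : Matrix (Fin n) (Fin n) F) a (lo i) = 0) : g ∈ BU n F := by
  have hi' := i.isLt
  let S' : ℕ → Prop := fun c => c + i + 2 = n ∧ c ≠ i
  have hS' : g ∈ PS n F S' := by
    apply PS_sub hP
    rintro a b hab hall ⟨c, hc1, hc2, hc3⟩
    have hci : c = i := by
      rcases hall c hc1 hc2 with h | h
      · exact h
      · by_contra hne; exact hc3 ⟨h, hne⟩
    subst hci
    have hb : (b : ℕ) = i := by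
      rcases hall b le_rfl hab with h | h
      · exact h
      · omega
    have hbl : b = lo i := Fin.ext hb
    subst hbl
    apply h0 a (by omega)
    by_cases h3 : 2 * (i : ℕ) + 3 = n
    · rw [hi_val_of h3]
      by_contra hlt
      rcases hall (i + 2) (by omega) (by omega) with h | h <;> omega
    · rw [hi_val_of_not h3]
      by_contra hlt
      rcases hall (i + 1) (by omega) (by omega) with h | h <;> omega
  have hinv := (PS n F S').inv_mem hS'
  rw [mem_BU]
  intro a b hab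
  by_cases hall : ∀ c : ℕ, (b : ℕ) ≤ c → c < a → S' c
  · have h1 := hall b le_rfl hab
    have h2 : (a : ℕ) = b + 1 := by
      by_contra hne
      have h3 := hall (b + 1) (by omega) (by have : (b : ℕ) < a := hab; omega)
      have h4 := h1.1
      have h5 := h3.1
      omega
    have ha := a.isLt
    have h3 := mem_PS.1 hinv ⟨(i : ℕ) + 1, by omega⟩ (lo i) (show ((lo i : Fin n) : ℕ) < (i : ℕ) + 1 by
      rw [lo_val]; omega) ⟨i, le_rfl, by simp, fun h => h.2 rfl⟩
    rw [inv_apply hg] at h3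
    have h4 : (g : Matrix (Fin n) (Fin n) F) (Fin.rev (lo i)) (Fin.rev ⟨(i : ℕ) + 1, by omega⟩) = 0 := by
      have h5 := (mul_eq_zero.1 h3).resolve_left (mul_ne_zero (D.e _).ne_zero (D.e _).ne_zero)
      exact (map_eq_zero D.σ).1 h5
    have e1 : a = Fin.rev (lo i) := by
      apply Fin.ext
      rw [Fin.val_rev, lo_val, h2]
      have := h1.1
      omega
    have e2 : b = Fin.rev ⟨(i : ℕ) + 1, by omega⟩ := by
      apply Fin.ext
      rw [Fin.val_rev]
      have := h1.1
      simp only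
      omega
    rw [e1, e2]; exact h4
  · push Not at hall
    exact mem_PS.1 hS' a b hab hall

/-- reduction in the `i`-th parabolic, short node -/
theorem red_short {i : Fin (n / 2)} (h : 2 * (i : ℕ) + 4 ≤ n) {g : Matrix.SpecialLinearGroup (Fin n) F}
    (hg : D.τ g = g) (hP : g ∈ PS n F (cut n i)) :
    ∃ x y, D.InX i x ∧ D.InY i y ∧ y * (x * g) ∈ BU n F := by
  have hs := short_of h
  have hhi : ((hi i : Fin n) : ℕ) = i + 1 := hi_val_of_not (by omega)
  have one_X : D.InX i 1 := ⟨map_one _, by rw [map_one]; exact one_mem _, by rw [map_one]; exact one_mem _⟩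
  have one_Y : D.InY i 1 := ⟨map_one _, one_mem _, one_mem _⟩
  by_cases hβ : (g : Matrix (Fin n) (Fin n) F) (hi i) (lo i) = 0
  · refine ⟨1, 1, one_X, one_Y, ?_⟩
    rw [one_mul, one_mul]
    apply PS_top hg hP
    intro a ha1 ha2
    have : a = hi i := Fin.ext (by rw [hhi] at ha2 ⊢; omega)
    rw [this]; exact hβ
  · set β := (g : Matrix (Fin n) (Fin n) F) (hi i) (lo i) with hβd
    set α := (g : Matrix (Fin n) (Fin n) F) (lo i) (lo i) with hαd
    have hX := inX_short (D := D) h ((β - α) / β)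
    have hY := inY_short (D := D) h (-1)
    refine ⟨_, _, hX, hY, ?_⟩
    have hXP : D.rt (lo i) (hi i) ((β - α) / β) ∈ PS n F (cut n i) :=
      BU_le_PS _ (UU_le_BU (rt_mem_UU (lo_lt_hi i) _))
    apply PS_top (i := i)
    · rw [map_mul, map_mul, hX.1, hY.1, hg]
    · exact (PS n F _).mul_mem hY.2.2 ((PS n F _).mul_mem hXP hP)
    · intro a ha1 ha2
      have : a = hi i := Fin.ext (by rw [hhi] at ha2 ⊢; omega)
      rw [this, rt_mul_apply hs.symm, if_pos rfl, if_neg hs.br, rt_mul_apply hs, rt_mul_apply hs,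
        if_neg hs.ab.symm, if_neg hs.bb, if_pos rfl, if_neg hs.ar, ← hβd, ← hαd]
      field_simp
      ring

/-- the 2-dimensional long node -/
theorem red_even {i : Fin (n / 2)} (h : 2 * (i : ℕ) + 2 = n) {κ : F} (hκ0 : κ ≠ 0) (hκ : D.Lng κ)
    {g : Matrix.SpecialLinearGroup (Fin n) F}
    (hg : D.τ g = g) (hP : g ∈ PS n F (cut n i)) :
    ∃ x y, D.InX i x ∧ D.InY i y ∧ y * (x * g) ∈ BU n F := by
  have hl : ¬ 2 * (i : ℕ) + 4 ≤ n := by omega
  have hhi : ((hi i : Fin n) : ℕ) = i + 1 := hi_val_of_not (by omega)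
  have hn0 : 0 < n := by omega
  have one_X : D.InX i 1 := ⟨map_one _, by rw [map_one]; exact one_mem _, by rw [map_one]; exact one_mem _⟩
  have one_Y : D.InY i 1 := ⟨map_one _, one_mem _, one_mem _⟩
  by_cases hβ : (g : Matrix (Fin n) (Fin n) F) (hi i) (lo i) = 0
  · refine ⟨1, 1, one_X, one_Y, ?_⟩
    rw [one_mul, one_mul]
    apply PS_top hg hP
    intro a ha1 ha2
    have : a = hi i := Fin.ext (by rw [hhi] at ha2 ⊢; omega)
    rw [this]; exact hβ
  · set β := (g : Matrix (Fin n) (Fin n) F) (hi i) (lo i) with hβd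
    set α := (g : Matrix (Fin n) (Fin n) F) (lo i) (lo i) with hαd
    -- isotropy
    have hrev : Fin.rev (lo i) = (hi i : Fin n) := (hi_eq_rev hl).symm
    have hrev' : Fin.rev (hi i) = (lo i : Fin n) := by rw [hi_eq_rev hl, Fin.rev_rev]
    have hiso := col_isotropic hg (i := lo i) (j := lo i) (by rw [hrev]; exact (lo_lt_hi i).ne)
    have hzero : ∀ a : Fin n, (hi i : Fin n) < a → (g : Matrix (Fin n) (Fin n) F) a (lo i) = 0 := by
      intro a ha
      have ha' : ((hi i : Fin n) : ℕ) < a := ha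
      apply mem_PS.1 hP a (lo i) ((lo_lt_hi i).trans ha)
      refine ⟨i + 1, by rw [lo_val]; omega, by omega, ?_⟩
      rintro (h' | h') <;> omega
    rw [Finset.sum_eq_add (lo i) (hi i) (lo_lt_hi i).ne] at hiso
    · rw [hrev, hrev', ← hαd, ← hβd] at hiso
      have hL : D.Lng (κ - α / β) := by
        have h1 : D.Lng (-(α / β)) := by
          apply Lng.neg
          unfold Lng
          rw [map_div₀]
          have hσβ : D.σ β ≠ 0 := by
            intro h0; exact hβ ((map_eq_zero D.σ).1 h0)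
          have e1 := D.heec (hi i)
          rw [hrev'] at e1
          have e2 := D.hec (hi i)
          have e3 := D.hec (lo i)
          -- `e(hi) σβ α + e(lo) σα β = 0`
          have e4 : α * D.σ β = - ((D.ε : F) * D.σ α * β) := by
            have e5 : (D.e (hi i) : F) * ((D.e (hi i) : F) * D.σ β * α + (D.e (lo i) : F) * D.σ α * β) = 0 := by
              rw [hiso, mul_zero]
            have e6 : (D.e (hi i) : F) * ((D.e (hi i) : F) * D.σ β * α + (D.e (lo i) : F) * D.σ α * β) =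
              ((D.e (hi i) : F) * (D.e (hi i) : F)) * (D.σ β * α) +
                ((D.e (hi i) : F) * (D.e (lo i) : F)) * D.σ α * β := by ring
            rw [e6, e2, e1] at e5
            linear_combination e5
          field_simp
          linear_combination e4
        have h2 := Lng.add hκ h1
        rwa [← sub_eq_add_neg] at h2
      have hX := inX_long hl hL
      have hY := inY_long hl ((hκ.inv hn0).neg)
      refine ⟨_, _, hX, hY, ?_⟩
      have hXP : xe (lo i) (hi i) (κ - α / β) ∈ PS n F (cut n i) :=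
        BU_le_PS _ (UU_le_BU (xe_mem_UU (lo_lt_hi i) _))
      apply PS_top (i := i)
      · rw [map_mul, map_mul, hX.1, hY.1, hg]
      · exact (PS n F _).mul_mem hY.2.2 ((PS n F _).mul_mem hXP hP)
      · intro a ha1 ha2
        have : a = hi i := Fin.ext (by rw [hhi] at ha2 ⊢; omega)
        rw [this, xe_mul_apply (lo_lt_hi i).ne', if_pos rfl, xe_mul_apply (lo_lt_hi i).ne,
          xe_mul_apply (lo_lt_hi i).ne, if_neg (lo_lt_hi i).ne', if_pos rfl, ← hβd, ← hαd]
        field_simp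
        ring
    · intro a _ ha
      rcases lt_or_ge (hi i : Fin n) a with h1 | h1
      · rw [hzero a h1, mul_zero]
      · have h2 : (hi i : Fin n) < Fin.rev a := by
          show ((hi i : Fin n) : ℕ) < (Fin.rev a : Fin n)
          have h3 : (a : ℕ) ≤ (hi i : Fin n) := h1
          have h4 : (a : ℕ) ≠ (lo i : Fin n) := fun h => ha.1 (Fin.ext h)
          have h5 : (a : ℕ) ≠ (hi i : Fin n) := fun h => ha.2 (Fin.ext h)
          rw [Fin.val_rev]
          rw [lo_val] at h4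
          omega
        rw [hzero _ h2, map_zero]; ring
    · intro h'; exact absurd (Finset.mem_univ _) h'
    · intro h'; exact absurd (Finset.mem_univ _) h'

end Cls

end CfsgH6
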