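import Cfsg.Agent.H6.Cls3

set_option autoImplicit false

/-! Classical groups in `SL_n(F)` with long roots: odd dimension, centralizers. -/

namespace CfsgH6

open Matrix

variable {F : Type*} [Field F] {n : ℕ}

namespace Cls

variable {D : Cls n F}

/-- middle index -/
def mid (i : Fin (n / 2)) : Fin n := ⟨i + 1, by omega⟩

theorem mid_val (i : Fin (n / 2)) : ((mid i : Fin n) : ℕ) = i + 1 := rfl

section odd

variable {i : Fin (n / 2)} (h : 2 * (i : ℕ) + 3 = n)

include h

theorem rev_mid : Fin.rev (mid i) = (mid i : Fin n) := by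
  apply Fin.ext
  rw [Fin.val_rev, mid_val]; omega

theorem rev_lo : Fin.rev (lo i) = (hi i : Fin n) := (hi_eq_rev (by omega)).symm

theorem rev_hi : Fin.rev (hi i) = (lo i : Fin n) := by rw [← rev_lo h, Fin.rev_rev]

theorem lo_lt_mid : (lo i : Fin n) < mid i := by
  show ((lo i : Fin n) : ℕ) < (mid i : Fin n)
  rw [lo_val, mid_val]; omega

theorem mid_lt_hi : (mid i : Fin n) < hi i := by
  show ((mid i : Fin n) : ℕ) < (hi i : Fin n)
  rw [hi_val_of h, mid_val]; omega

theorem ε_odd : (D.ε : F) = 1 := by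
  have := D.heec (mid i)
  rw [rev_mid h, D.hec] at this
  exact this.symm

theorem e_lo_hi : (D.e (hi i) : F) = D.e (lo i) := by
  have h1 := D.heec (lo i)
  rw [rev_lo h, ε_odd h] at h1
  have h2 := D.hec (lo i)
  calc (D.e (hi i) : F) = ((D.e (lo i) : F) * D.e (lo i)) * D.e (hi i) := by rw [h2, one_mul]
    _ = (D.e (lo i) : F) * (D.e (lo i) * D.e (hi i)) := by ring
    _ = _ := by rw [h1, mul_one]

end odd

/-- an element of the non-abelian root group -/
def uu (D : Cls n F) (i : Fin (n / 2)) (c b : F) : Matrix.SpecialLinearGroup (Fin n) F :=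
  xe (lo i) (mid i) (-((D.e (lo i) : F) * D.e (mid i) * D.σ c)) * xe (mid i) (hi i) c * xe (lo i) (hi i) b

/-- parameters of the non-abelian root group -/
def UC (D : Cls n F) (i : Fin (n / 2)) (c b : F) : Prop :=
  b + D.σ b = (D.e (lo i) : F) * D.e (mid i) * (c * D.σ c)

theorem uu_apply {i : Fin (n / 2)} (h : 2 * (i : ℕ) + 3 = n) (c b : F) (x y : Fin n) :
    ((D.uu i c b : Matrix.SpecialLinearGroup (Fin n) F) : Matrix (Fin n) (Fin n) F) x y =
      (if x = y then 1 else 0) + (if x = lo i ∧ y = mid i then -((D.e (lo i) : F) * D.e (mid i) * D.σ c) else 0)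
        + (if x = mid i ∧ y = hi i then c else 0) +
        (if x = lo i ∧ y = hi i then b - (D.e (lo i) : F) * D.e (mid i) * (c * D.σ c) else 0) := by
  have h1 := (lo_lt_mid h).ne
  have h2 := (mid_lt_hi h).ne
  have h3 := (lo_lt_hi i).ne
  unfold uu
  rw [mul_xe_apply h3, mul_xe_apply h2, mul_xe_apply h2, xe_apply h1, xe_apply h1, xe_apply h1, if_neg h3]
  by_cases hy : y = hi i
  · subst hy
    by_cases hx : x = lo i
    · subst hx
      simp [h1, h2, h3, h1.symm, h2.symm, h3.symm]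
      ring
    · by_cases hx' : x = mid i
      · subst hx'
        simp [h1, h2, h1.symm, h2.symm, hx]
      · have e1 : ¬ (lo i = x) := fun h => hx h.symm
        simp [hx, hx', e1]
  · by_cases hxy : x = y
    · subst hxy
      have e1 : ¬ (lo i = x ∧ mid i = x) := fun h => h1 (h.1.trans h.2.symm)
      have e2 : ¬ (x = lo i ∧ x = mid i) := fun h => h1 (h.1.symm.trans h.2)
      simp [e1, e2, hy]
    · by_cases h4 : x = lo i ∧ y = mid i
      · obtain ⟨rfl, rfl⟩ := h4
        simp [h1, h2]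
      · have e1 : ¬ (lo i = x ∧ mid i = y) := fun h => h4 ⟨h.1.symm, h.2.symm⟩
        simp [e1, h4, hy, hxy]

theorem uu_mem_UU {i : Fin (n / 2)} (h : 2 * (i : ℕ) + 3 = n) (c b : F) : D.uu i c b ∈ UU n F :=
  (UU n F).mul_mem ((UU n F).mul_mem (xe_mem_UU (lo_lt_mid h) _) (xe_mem_UU (mid_lt_hi h) _))
    (xe_mem_UU (lo_lt_hi i) _)

theorem τ_uu {i : Fin (n / 2)} (h : 2 * (i : ℕ) + 3 = n) {c b : F} (hcb : D.UC i c b) :
    D.τ (D.uu i c b) = D.uu i c b := by
  have h1 := (lo_lt_mid h).ne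
  have h2 := (mid_lt_hi h).ne
  have h3 := (lo_lt_hi i).ne
  conv_lhs => unfold uu
  rw [map_mul, map_mul, D.τ_xe h1, D.τ_xe h2, D.τ_xe h3, rev_mid h, rev_lo h, rev_hi h]
  have m1 : D.mc (lo i) (mid i) (-((D.e (lo i) : F) * D.e (mid i) * D.σ c)) = c := by
    unfold mc
    rw [rev_lo h, rev_mid h, map_neg, map_mul, map_mul, D.hσe, D.hσe, D.hσ, e_lo_hi h]
    have e1 := D.hec (lo i)
    have e2 := D.hec (mid i)
    calc _ = ((D.e (lo i) : F) * D.e (lo i)) * ((D.e (mid i) : F) * D.e (mid i)) * c := by ring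
      _ = c := by rw [e1, e2]; ring
  have m2 : D.mc (mid i) (hi i) c = -((D.e (lo i) : F) * D.e (mid i) * D.σ c) := by
    unfold mc
    rw [rev_hi h, rev_mid h]; ring
  have m3 : D.mc (lo i) (hi i) b = - D.σ b := by
    unfold mc
    rw [rev_hi h, rev_lo h, e_lo_hi h, D.hec]; ring
  rw [m1, m2, m3]
  -- `xe mid hi c * xe lo mid a * xe lo hi (-σ b)`
  have key : ∀ a c b : F, (xe (lo i) (mid i) a * xe (mid i) (hi i) c *
      xe (lo i) (hi i) b : Matrix.SpecialLinearGroup (Fin n) F) = xe (mid i) (hi i) c * xe (lo i) (mid i) a *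
      (xe (lo i) (hi i) (a * c) * xe (lo i) (hi i) b) := by
    intro a c b
    have h4 := xe_comm_rel (F := F) h1 h2 h3 a c
    rw [h4]
    have c1 := xe_commute (F := F) h3 h2 h2.symm h3.symm (a * c) c
    have c2 := xe_commute (F := F) h3 h1 h3.symm h1.symm (a * c) a
    generalize xe (F := F) (lo i) (hi i) (a * c) = A at *
    generalize xe (F := F) (mid i) (hi i) c = C at *
    generalize xe (F := F) (lo i) (mid i) a = E at *
    generalize xe (F := F) (lo i) (hi i) b = G at *
    calc A * (C * E) * G = (A * C) * E * G := by simp only [mul_assoc]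
      _ = C * (A * E) * G := by rw [c1]; simp only [mul_assoc]
      _ = C * E * (A * G) := by rw [c2]; simp only [mul_assoc]
  unfold uu
  rw [key, ← xe_add]
  congr 2
  unfold UC at hcb
  linear_combination -hcb

theorem inX_uu {i : Fin (n / 2)} (h : 2 * (i : ℕ) + 3 = n) {c b : F} (hcb : D.UC i c b) :
    D.InX i (D.uu i c b) := by
  refine ⟨τ_uu h hcb, D.γ_mem_LL (uu_mem_UU h c b), ?_⟩
  apply γ_mem_PS_cut_of_UU _ (node_le i)
  rintro x y hxy ⟨c', h1, h2, h3⟩
  rw [uu_apply h, if_neg hxy.ne, if_neg, if_neg, if_neg]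
  · simp
  · rintro ⟨rfl, rfl⟩
    exact h3 (lo_hi_cut i c' h1 h2)
  · rintro ⟨rfl, rfl⟩
    apply h3
    apply lo_hi_cut i c' _ h2
    rw [mid_val] at h1
    rw [lo_val]; omega
  · rintro ⟨rfl, rfl⟩
    apply h3
    apply lo_hi_cut i c' h1
    rw [hi_val_of h]
    rw [mid_val] at h2; omega

theorem sum_three {M : Type*} [AddCommMonoid M] {a b c : Fin n} (hab : a ≠ b) (hac : a ≠ c) (hbc : b ≠ c)
    (f : Fin n → M) (hf : ∀ x, x ≠ a → x ≠ b → x ≠ c → f x = 0) : ∑ x, f x = f a + f b + f c := by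
  rw [← Finset.sum_subset (Finset.subset_univ {a, b, c})]
  · rw [Finset.sum_insert (by simp [hab, hac]), Finset.sum_insert (by simp [hbc]), Finset.sum_singleton,
      add_assoc]
  · intro x _ hx
    simp only [Finset.mem_insert, Finset.mem_singleton, not_or] at hx
    exact hf x hx.1 hx.2.1 hx.2.2

/-- the 3-dimensional node -/
theorem red_odd {i : Fin (n / 2)} (h : 2 * (i : ℕ) + 3 = n) {κ : F} (hκ0 : κ ≠ 0) (hκ : D.Lng κ)
    {g : Matrix.SpecialLinearGroup (Fin n) F}
    (hg : D.τ g = g) (hP : g ∈ PS n F (cut n i)) :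
    ∃ x y, D.InX i x ∧ D.InY i y ∧ y * (x * g) ∈ BU n F := by
  have hl : ¬ 2 * (i : ℕ) + 4 ≤ n := by omega
  have hhi : ((hi i : Fin n) : ℕ) = i + 2 := hi_val_of h
  have hn0 : 0 < n := by omega
  have h1 := (lo_lt_mid h).ne
  have h2 := (mid_lt_hi h).ne
  have h3 := (lo_lt_hi i).ne
  have one_X : D.InX i 1 := ⟨map_one _, by rw [map_one]; exact one_mem _, by rw [map_one]; exact one_mem _⟩
  have one_Y : D.InY i 1 := ⟨map_one _, one_mem _, one_mem _⟩
  set δ := (g : Matrix (Fin n) (Fin n) F) (hi i) (lo i) with hδd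
  set β := (g : Matrix (Fin n) (Fin n) F) (mid i) (lo i) with hβd
  set α := (g : Matrix (Fin n) (Fin n) F) (lo i) (lo i) with hαd
  have hiso := col_isotropic hg (i := lo i) (j := lo i) (by rw [rev_lo h]; exact h3)
  have hzero : ∀ a : Fin n, (hi i : Fin n) < a → (g : Matrix (Fin n) (Fin n) F) a (lo i) = 0 := by
    intro a ha
    have ha' : ((hi i : Fin n) : ℕ) < a := ha
    apply mem_PS.1 hP a (lo i) ((lo_lt_hi i).trans ha)
    refine ⟨i + 2, by rw [lo_val]; omega, by omega, ?_⟩
    rintro (h' | h') <;> omega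
  rw [sum_three h1 h3 h2] at hiso
  · rw [rev_lo h, rev_hi h, rev_mid h, ← hαd, ← hβd, ← hδd, e_lo_hi h] at hiso
    have e2 := D.hec (lo i)
    -- `e (σδ α + σα δ) + e_m σβ β = 0`
    by_cases hδ : δ = 0
    · have hβ0 : β = 0 := by
        rw [hδ] at hiso
        simp only [map_zero, mul_zero, zero_mul, zero_add, add_zero] at hiso
        rcases mul_eq_zero.1 hiso with h' | h'
        · rcases mul_eq_zero.1 h' with h'' | h''
          · exact absurd h'' (D.e _).ne_zero
          · exact (map_eq_zero D.σ).1 h''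
        · exact h'
      refine ⟨1, 1, one_X, one_Y, ?_⟩
      rw [one_mul, one_mul]
      apply PS_top hg hP
      intro a ha1 ha2
      rw [hhi] at ha2
      rcases Nat.lt_or_ge (a : ℕ) (i + 2) with h' | h'
      · have : a = mid i := Fin.ext (by rw [mid_val]; omega)
        rw [this]; exact hβ0
      · have : a = hi i := Fin.ext (by rw [hhi]; omega)
        rw [this]; exact hδ
    · have hσδ : D.σ δ ≠ 0 := fun h0 => hδ ((map_eq_zero D.σ).1 h0)
      have hUC : D.UC i (-(β / δ)) (κ - α / δ) := by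
        unfold UC
        have hκ' : D.σ κ = -κ := by
          have := hκ
          unfold Lng at this
          rw [ε_odd h] at this
          linear_combination this
        rw [map_sub, map_neg, map_div₀, map_div₀, hκ']
        have e5 : (D.e (lo i) : F) * ((D.e (lo i) : F) * D.σ δ * α + (D.e (mid i) : F) * D.σ β * β +
            (D.e (lo i) : F) * D.σ α * δ) = 0 := by
          rw [hiso, mul_zero]
        have e6 : (D.e (lo i) : F) * ((D.e (lo i) : F) * D.σ δ * α + (D.e (mid i) : F) * D.σ β * β +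
            (D.e (lo i) : F) * D.σ α * δ) = ((D.e (lo i) : F) * D.e (lo i)) * (D.σ δ * α + D.σ α * δ) +
            (D.e (lo i) : F) * (D.e (mid i) : F) * D.σ β * β := by ring
        rw [e6, e2] at e5
        field_simp
        linear_combination -e5
      have hX := inX_uu h hUC
      have hY := inY_long hl ((hκ.inv hn0).neg)
      refine ⟨_, _, hX, hY, ?_⟩
      have hXP : D.uu i (-(β / δ)) (κ - α / δ) ∈ PS n F (cut n i) :=
        BU_le_PS _ (UU_le_BU (uu_mem_UU h _ _))
      -- rows of `uu * g` in the column `lo`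
      have hrow : ∀ a : Fin n, ((D.uu i (-(β / δ)) (κ - α / δ) * g : Matrix.SpecialLinearGroup (Fin n) F) :
          Matrix (Fin n) (Fin n) F) a (lo i) = (g : Matrix (Fin n) (Fin n) F) a (lo i) +
          (if a = lo i then (κ - α / δ) * δ - (α) + α else 0) + (if a = mid i then -(β / δ) * δ else 0) := by
        intro a
        unfold uu
        rw [mul_assoc, mul_assoc, xe_mul_apply h1, xe_mul_apply h2, xe_mul_apply h2, xe_mul_apply h3,
          xe_mul_apply h3, xe_mul_apply h3, if_neg h1.symm, if_neg h3.symm, if_pos rfl, ← hδd, ← hβd]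
        by_cases ha : a = lo i
        · subst ha
          rw [if_pos rfl, if_neg h1, if_pos rfl, if_pos rfl, if_neg h1]
          field_simp
          ring
        · rw [if_neg ha, if_neg ha, if_neg ha]
          ring
      apply PS_top (i := i)
      · rw [map_mul, map_mul, hX.1, hY.1, hg]
      · exact (PS n F _).mul_mem hY.2.2 ((PS n F _).mul_mem hXP hP)
      · intro a ha1 ha2
        rw [hhi] at ha2
        rw [xe_mul_apply h3.symm, hrow, hrow, if_pos rfl, if_neg h1, ← hαd]
        rcases Nat.lt_or_ge (a : ℕ) (i + 2) with h' | h'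
        · have : a = mid i := Fin.ext (by rw [mid_val]; omega)
          subst this
          rw [if_neg h1.symm, if_pos rfl, if_neg h2, ← hβd]
          field_simp
          ring
        · have : a = hi i := Fin.ext (by rw [hhi]; omega)
          subst this
          rw [if_neg h3.symm, if_neg h2.symm, if_pos rfl, ← hδd]
          field_simp
          ring
  · intro a ha1 ha2 ha3
    rcases lt_or_ge (hi i : Fin n) a with h4 | h4
    · rw [hzero a h4, mul_zero]
    · have h5 : (hi i : Fin n) < Fin.rev a := by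
        show ((hi i : Fin n) : ℕ) < (Fin.rev a : Fin n)
        have h6 : (a : ℕ) ≤ (hi i : Fin n) := h4
        have h7 : (a : ℕ) ≠ (lo i : Fin n) := fun h => ha1 (Fin.ext h)
        have h8 : (a : ℕ) ≠ (hi i : Fin n) := fun h => ha3 (Fin.ext h)
        have h9 : (a : ℕ) ≠ (mid i : Fin n) := fun h => ha2 (Fin.ext h)
        rw [Fin.val_rev]
        rw [lo_val] at h7
        rw [mid_val] at h9
        omega
      rw [hzero _ h5, map_zero]; ring

theorem red {κ : F} (hκ0 : κ ≠ 0) (hκ : D.Lng κ) (i : Fin (n / 2))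
    {g : Matrix.SpecialLinearGroup (Fin n) F}
    (hg : D.τ g = g) (hP : g ∈ PS n F (cut n i)) :
    ∃ x y, D.InX i x ∧ D.InY i y ∧ y * (x * g) ∈ BU n F := by
  have hi' := i.isLt
  by_cases h1 : 2 * (i : ℕ) + 4 ≤ n
  · exact red_short h1 hg hP
  · by_cases h2 : 2 * (i : ℕ) + 3 = n
    · exact red_odd h2 hκ0 hκ hg hP
    · exact red_even (by omega) hκ0 hκ hg hP

/-! ### centralizers -/

theorem diag_of {b : Matrix.SpecialLinearGroup (Fin n) F} (h1 : b ∈ BU n F) (h2 : D.γ b ∈ BU n F)
    {x y : Fin n} (hxy : x ≠ y) : (b : Matrix (Fin n) (Fin n) F) x y = 0 := by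
  rcases lt_or_gt_of_ne hxy with h | h
  · have h3 := mem_BU.1 h2 (Fin.rev x) (Fin.rev y) (Fin.rev_lt_rev.2 h)
    rw [γ_apply, Fin.rev_rev, Fin.rev_rev] at h3
    exact (mul_eq_zero.1 h3).resolve_left (mul_ne_zero (D.e _).ne_zero (D.e _).ne_zero)
  · exact mem_BU.1 h1 x y h

theorem diag_mul {b : Matrix.SpecialLinearGroup (Fin n) F}
    (hb : ∀ x y, x ≠ y → (b : Matrix (Fin n) (Fin n) F) x y = 0)
    (g : Matrix.SpecialLinearGroup (Fin n) F) (x y : Fin n) :
    ((b * g : Matrix.SpecialLinearGroup (Fin n) F) : Matrix (Fin n) (Fin n) F) x y =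
      (b : Matrix (Fin n) (Fin n) F) x x * (g : Matrix (Fin n) (Fin n) F) x y := by
  rw [Matrix.SpecialLinearGroup.coe_mul, Matrix.mul_apply, Finset.sum_eq_single x]
  · intro k _ hk
    rw [hb x k hk.symm, zero_mul]
  · simp

theorem mul_diag {b : Matrix.SpecialLinearGroup (Fin n) F}
    (hb : ∀ x y, x ≠ y → (b : Matrix (Fin n) (Fin n) F) x y = 0)
    (g : Matrix.SpecialLinearGroup (Fin n) F) (x y : Fin n) :
    ((g * b : Matrix.SpecialLinearGroup (Fin n) F) : Matrix (Fin n) (Fin n) F) x y =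
      (g : Matrix (Fin n) (Fin n) F) x y * (b : Matrix (Fin n) (Fin n) F) y y := by
  rw [Matrix.SpecialLinearGroup.coe_mul, Matrix.mul_apply, Finset.sum_eq_single y]
  · intro k _ hk
    rw [hb k y hk, mul_zero]
  · simp

theorem diag_ne {b : Matrix.SpecialLinearGroup (Fin n) F}
    (hb : ∀ x y, x ≠ y → (b : Matrix (Fin n) (Fin n) F) x y = 0) (x : Fin n) :
    (b : Matrix (Fin n) (Fin n) F) x x ≠ 0 := by
  intro h0
  have : (b : Matrix (Fin n) (Fin n) F).det = 0 := by
    apply Matrix.det_eq_zero_of_column_eq_zero x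
    intro i
    by_cases hi : i = x
    · rw [hi, h0]
    · exact hb i x hi
  rw [Matrix.SpecialLinearGroup.det_coe] at this
  exact one_ne_zero this

/-- if `b` (diagonal) commutes with unipotent `g` up to scalars then entries are equal -/
theorem diag_eq_of_comm {b g : Matrix.SpecialLinearGroup (Fin n) F}
    (hb : ∀ x y, x ≠ y → (b : Matrix (Fin n) (Fin n) F) x y = 0) (hg : g ∈ UU n F) {r : F}
    (h : ((b * g : Matrix.SpecialLinearGroup (Fin n) F) : Matrix (Fin n) (Fin n) F) =
      r • ((g * b : Matrix.SpecialLinearGroup (Fin n) F) : Matrix (Fin n) (Fin n) F)) {x y : Fin n}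
    (hxy : (g : Matrix (Fin n) (Fin n) F) x y ≠ 0) :
    (b : Matrix (Fin n) (Fin n) F) x x = (b : Matrix (Fin n) (Fin n) F) y y := by
  have h1 := congrFun (congrFun h x) x
  rw [Matrix.smul_apply, diag_mul hb, mul_diag hb, hg.1, mul_one, one_mul, smul_eq_mul] at h1
  have hr : r = 1 := by
    have := diag_ne hb x
    have h2 : (b : Matrix (Fin n) (Fin n) F) x x * (r - 1) = 0 := by linear_combination -h1
    linear_combination (mul_eq_zero.1 h2).resolve_left this
  have h2 := congrFun (congrFun h x) y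
  rw [Matrix.smul_apply, diag_mul hb, mul_diag hb, hr, one_smul, mul_comm] at h2
  exact mul_left_cancel₀ hxy h2

/-- the torus elements centralizing the simple root groups are scalars -/
theorem cent_scalar {κ : F} (hκ0 : κ ≠ 0) (hκ : D.Lng κ)
    (htr : n % 2 = 1 → ∀ x, D.σ x = x → ∃ b, b + D.σ b = x)
    {b : Matrix.SpecialLinearGroup (Fin n) F} (hτ : D.τ b = b) (h1 : b ∈ BU n F) (h2 : D.γ b ∈ BU n F)
    (hX : ∀ (i : Fin (n / 2)) x, D.InX i x → ∃ r : F,
      ((b * x : Matrix.SpecialLinearGroup (Fin n) F) : Matrix (Fin n) (Fin n) F) =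
      r • ((x * b : Matrix.SpecialLinearGroup (Fin n) F) : Matrix (Fin n) (Fin n) F)) :
    ∃ r : F, (b : Matrix (Fin n) (Fin n) F) = Matrix.scalar (Fin n) r := by
  have hb : ∀ x y, x ≠ y → (b : Matrix (Fin n) (Fin n) F) x y = 0 := fun x y => diag_of h1 h2
  -- the simple root groups contain elements with non-zero `(c, c+1)` entries
  have hstep : ∀ (i : Fin (n / 2)), (b : Matrix (Fin n) (Fin n) F) (lo i) (lo i) =
      (b : Matrix (Fin n) (Fin n) F) (mid i) (mid i) := by
    intro i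
    have hi' := i.isLt
    by_cases h3 : 2 * (i : ℕ) + 4 ≤ n
    · obtain ⟨r, hr⟩ := hX i _ (inX_short h3 1)
      have hm : (mid i : Fin n) = hi i := Fin.ext (by rw [mid_val, hi_val_of_not (by omega)])
      rw [hm]
      exact diag_eq_of_comm hb (rt_mem_UU (lo_lt_hi i) _) hr (by
        rw [rt_entry (short_of h3)]; exact one_ne_zero)
    · by_cases h4 : 2 * (i : ℕ) + 3 = n
      · obtain ⟨b0, hb0⟩ := htr (by omega) ((D.e (lo i) : F) * D.e (mid i) * (1 * D.σ 1)) (by
          rw [map_mul, map_mul, map_mul, D.hσe, D.hσe, D.hσ, map_one])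
        obtain ⟨r, hr⟩ := hX i _ (inX_uu h4 (c := 1) (b := b0) hb0)
        refine diag_eq_of_comm hb (uu_mem_UU h4 _ _) hr ?_
        rw [uu_apply h4, if_neg (lo_lt_mid h4).ne, if_pos ⟨rfl, rfl⟩, if_neg (fun h => (lo_lt_mid h4).ne h.1),
          if_neg (fun h => (mid_lt_hi h4).ne h.2), map_one]
        simp
      · obtain ⟨r, hr⟩ := hX i _ (inX_long h3 hκ)
        have hm : (mid i : Fin n) = hi i := Fin.ext (by rw [mid_val, hi_val_of_not h4])
        rw [hm]
        exact diag_eq_of_comm hb (xe_mem_UU (lo_lt_hi i) _) hr (by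
          rw [xe_entry (lo_lt_hi i).ne]; exact hκ0)
  -- symmetry
  have hsym : ∀ a, (b : Matrix (Fin n) (Fin n) F) (Fin.rev a) (Fin.rev a) *
      D.σ ((b : Matrix (Fin n) (Fin n) F) a a) = 1 := by
    intro a
    have h3 : ((b⁻¹ * b : Matrix.SpecialLinearGroup (Fin n) F) : Matrix (Fin n) (Fin n) F)
        (Fin.rev a) (Fin.rev a) = 1 := by
      rw [inv_mul_cancel, Matrix.SpecialLinearGroup.coe_one, Matrix.one_apply_eq]
    rw [mul_diag hb, inv_apply hτ, Fin.rev_rev, hec] at h3
    linear_combination h3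
  have hall : ∀ (c : ℕ) (hc : c + 1 < n), (b : Matrix (Fin n) (Fin n) F) ⟨c, by omega⟩ ⟨c, by omega⟩ =
      (b : Matrix (Fin n) (Fin n) F) ⟨c + 1, hc⟩ ⟨c + 1, hc⟩ := by
    intro c hc
    by_cases h3 : c < n / 2
    · exact hstep ⟨c, h3⟩
    · have h4 : n - 2 - c < n / 2 := by omega
      have h5 := hstep ⟨n - 2 - c, h4⟩
      have e1 : (lo ⟨n - 2 - c, h4⟩ : Fin n) = Fin.rev ⟨c + 1, hc⟩ := by
        apply Fin.ext; rw [Fin.val_rev, lo_val]; simp only; omega
      have e2 : (mid ⟨n - 2 - c, h4⟩ : Fin n) = Fin.rev ⟨c, by omega⟩ := by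
        apply Fin.ext; rw [Fin.val_rev, mid_val]; simp only; omega
      rw [e1, e2] at h5
      have s1 := hsym ⟨c + 1, hc⟩
      have s2 := hsym ⟨c, by omega⟩
      rw [h5] at s1
      have h6 : (b : Matrix (Fin n) (Fin n) F) (Fin.rev ⟨c, by omega⟩) (Fin.rev ⟨c, by omega⟩) ≠ 0 :=
        diag_ne hb _
      have h7 := mul_left_cancel₀ h6 (s1.trans s2.symm)
      exact (D.σ.injective h7).symm
  rcases Nat.eq_zero_or_pos n with hn0 | hn0
  · subst hn0
    exact ⟨1, by ext x; exact x.elim0⟩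
  · refine ⟨(b : Matrix (Fin n) (Fin n) F) ⟨0, hn0⟩ ⟨0, hn0⟩, ?_⟩
    have hconst : ∀ (c : ℕ) (hc : c < n), (b : Matrix (Fin n) (Fin n) F) ⟨c, hc⟩ ⟨c, hc⟩ =
        (b : Matrix (Fin n) (Fin n) F) ⟨0, hn0⟩ ⟨0, hn0⟩ := by
      intro c
      induction c with
      | zero => intro _; rfl
      | succ c ih => intro hc; rw [← hall c hc]; exact ih (by omega)
    ext x y
    rw [Matrix.scalar_apply]
    by_cases hxy : x = y
    · subst hxy
      rw [Matrix.diagonal_apply_eq]
      exact hconst x x.isLt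
    · rw [Matrix.diagonal_apply_ne _ hxy]
      exact hb x y hxy

end Cls

end CfsgH6
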