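import Cfsg.Agent.H6.Cls4
import Cfsg.Agent.H6.AbsQuot

set_option autoImplicit false

/-! The BN-datum of a classical group with long roots, realised in `SL_n(F)`. -/

namespace CfsgH6

open Matrix

variable {F : Type*} [Field F] {n : ℕ}

namespace Cls

variable (D : Cls n F)

/-- a group of isometries containing all root groups -/
structure Good (G : Subgroup (Matrix.SpecialLinearGroup (Fin n) F)) : Prop where
  fix : ∀ g ∈ G, D.τ g = g
  UG : ∀ u ∈ UU n F, D.τ u = u → u ∈ G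
  γG : ∀ g ∈ G, D.γ g ∈ G

/-- parameters making the long root groups non-trivial -/
structure LongHyp (κ : F) : Prop where
  ne : κ ≠ 0
  lng : D.Lng κ
  tr : n % 2 = 1 → ∀ x, D.σ x = x → ∃ b, b + D.σ b = x

variable {D} {G : Subgroup (Matrix.SpecialLinearGroup (Fin n) F)}

theorem Good.LG (h : D.Good G) {u : Matrix.SpecialLinearGroup (Fin n) F} (hu : u ∈ LL n F)
    (hτ : D.τ u = u) : u ∈ G := by
  have := h.γG _ (h.UG _ (D.γ_mem_UU hu) (by rw [D.τ_γ, hτ]))
  rwa [D.γ_γ] at this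

/-- the opposition automorphism of `G` -/
def gG (h : D.Good G) : MulAut ↥G where
  toFun g := ⟨D.γ g.1, h.γG g.1 g.2⟩
  invFun g := ⟨D.γ g.1, h.γG g.1 g.2⟩
  left_inv g := Subtype.ext (D.γ_γ g.1)
  right_inv g := Subtype.ext (D.γ_γ g.1)
  map_mul' a b := Subtype.ext (map_mul D.γ a.1 b.1)

theorem gG_coe (h : D.Good G) (g : ↥G) : ((gG h g : ↥G) : Matrix.SpecialLinearGroup (Fin n) F) = D.γ g.1 := rfl

/-- the negative simple root groups -/
def YG (G : Subgroup (Matrix.SpecialLinearGroup (Fin n) F)) (i : Fin (n / 2)) : Subgroup ↥G :=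
  (LL n F ⊓ PS n F (cut n i)).subgroupOf G

theorem mem_YG {i : Fin (n / 2)} {y : ↥G} :
    y ∈ YG G i ↔ y.1 ∈ LL n F ∧ y.1 ∈ PS n F (cut n i) := Iff.rfl

/-- the positive simple root groups -/
def XG (h : D.Good G) (i : Fin (n / 2)) : Subgroup ↥G := (YG G i).comap (gG h).toMonoidHom

theorem mem_XG {h : D.Good G} {i : Fin (n / 2)} {x : ↥G} :
    x ∈ XG h i ↔ D.γ x.1 ∈ LL n F ∧ D.γ x.1 ∈ PS n F (cut n i) := Iff.rfl

theorem InX.mem_UU {i : Fin (n / 2)} {x : Matrix.SpecialLinearGroup (Fin n) F} (hx : D.InX i x) :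
    x ∈ UU n F := by
  have := D.γ_mem_UU hx.2.1
  rwa [D.γ_γ] at this

theorem InX.memG (h : D.Good G) {i : Fin (n / 2)} {x : Matrix.SpecialLinearGroup (Fin n) F}
    (hx : D.InX i x) : x ∈ G := h.UG x hx.mem_UU hx.1

theorem InY.memG (h : D.Good G) {i : Fin (n / 2)} {y : Matrix.SpecialLinearGroup (Fin n) F}
    (hy : D.InY i y) : y ∈ G := h.LG hy.2.1 hy.1

/-- a negative root element with a non-zero entry -/
theorem exists_neg_elt {κ : F} (hκ : D.LongHyp κ) (i : Fin (n / 2)) :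
    ∃ y, D.InY i y ∧ (y : Matrix (Fin n) (Fin n) F) (hi i) (lo i) ≠ 0 := by
  by_cases h : 2 * (i : ℕ) + 4 ≤ n
  · refine ⟨_, inY_short h 1, ?_⟩
    rw [rt_entry (short_of h).symm]
    exact one_ne_zero
  · refine ⟨_, inY_long h hκ.lng, ?_⟩
    rw [xe_entry (lo_lt_hi i).ne']
    exact hκ.ne

theorem γ_iff_UU (g : Matrix.SpecialLinearGroup (Fin n) F) : D.γ g ∈ UU n F ↔ g ∈ LL n F := by
  refine ⟨fun h => ?_, D.γ_mem_UU⟩
  have := D.γ_mem_LL h
  rwa [D.γ_γ] at this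

theorem γ_iff_LL (g : Matrix.SpecialLinearGroup (Fin n) F) : D.γ g ∈ LL n F ↔ g ∈ UU n F := by
  refine ⟨fun h => ?_, D.γ_mem_LL⟩
  have := D.γ_mem_UU h
  rwa [D.γ_γ] at this

/-- the datum of `G` -/
def pre [Finite F] (h : D.Good G) {κ : F} (hκ : D.LongHyp κ) : PreDatum ↥G (Fin (n / 2)) where
  U := (UU n F).subgroupOf G
  L := (LL n F).subgroupOf G
  B := (BU n F).subgroupOf G
  X := XG h
  Y := YG G
  P := fun i => (PS n F (cut n i)).subgroupOf G
  N := {w | ∃ π, IsMono π w.1}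
  γ := gG h
  B_norm := fun b hb u hu => BU_norm hb hu
  U_le_B := fun u hu => UU_le_BU hu
  bruhat := by
    intro t
    obtain ⟨u, hu, hu', v, hv, hv', π, w, hw, hw', ht⟩ := fix_bruhat D.τ (fun u => D.τ_mem_UU)
      (fun u => D.τ_mem_LL) (fun π w hw => ⟨_, D.τ_mono hw⟩) (h.fix t.1 t.2)
    have huG := h.UG u hu hu'
    have hvG := h.UG v hv hv'
    have hwG : w ∈ G := by
      have : w = u⁻¹ * t.1 * v⁻¹ := by rw [ht]; group
      rw [this]
      exact G.mul_mem (G.mul_mem (G.inv_mem huG) t.2) (G.inv_mem hvG)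
    exact ⟨⟨u, huG⟩, hu, ⟨w, hwG⟩, ⟨π, hw⟩, ⟨v, hvG⟩, hv, Subtype.ext ht⟩
  ex_neg := by
    rintro w ⟨π, hw⟩
    rcases ex_neg hw (h.fix w.1 w.2) with h1 | ⟨i, hi⟩
    · exact Or.inl h1
    · exact Or.inr ⟨i, fun y hy => hi y.1 hy.1 hy.2⟩
  long := by
    rintro w ⟨π, hw⟩
    rcases long hκ.ne hκ.lng hw (h.fix w.1 w.2) with ⟨x, hx, hx1, hx2, hx3⟩ | h1
    · exact Or.inl ⟨⟨x, h.UG x hx hx1⟩, hx, fun h' => hx2 (congrArg Subtype.val h'), hx3⟩
    · exact Or.inr fun x hx => h1 x.1 hx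
  inf := fun x h1 h2 => Subtype.ext (UU_inf_LL h1 h2)
  Y_le_L := fun i y hy => hy.1
  B_le_P := fun i b hb => BU_le_PS _ hb
  Y_le_P := fun i y hy => hy.2
  LP := fun i x h1 h2 => ⟨h1, h2⟩
  Y_P := by
    intro i j hij
    obtain ⟨y, hy, hy0⟩ := exists_neg_elt hκ j
    have h1 : y ∈ PS n F (cut n i) := @hij ⟨y, hy.memG h⟩ hy.2
    by_contra hne
    apply hy0
    apply mem_PS.1 h1 _ _ (lo_lt_hi j)
    refine ⟨j, le_rfl, lo_lt_hi j, ?_⟩
    have hi' := i.isLt
    have hj' := j.isLt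
    have hne' : (i : ℕ) ≠ j := fun h => hne (Fin.ext h.symm)
    rintro (h | h) <;> omega
  Y_not_B := by
    intro i
    obtain ⟨y, hy, hy0⟩ := exists_neg_elt hκ i
    exact ⟨⟨y, hy.memG h⟩, hy.2, fun h1 => hy0 (mem_BU.1 h1 _ _ (lo_lt_hi i))⟩
  γU := fun x => γ_iff_UU x.1
  γL := fun x => γ_iff_LL x.1
  γX := by
    intro i x
    show D.γ (D.γ x.1) ∈ LL n F ∧ D.γ (D.γ x.1) ∈ PS n F (cut n i) ↔ _
    rw [D.γ_γ]
    exact Iff.rfl
  γY := fun i x => Iff.rfl
  comm := fun i j hij x hx y hy => Subtype.ext (comm_XY hij hx.1 hx.2 hy.1 hy.2)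
  ncomm := by
    intro i
    by_cases hl : 2 * (i : ℕ) + 4 ≤ n
    · refine ⟨⟨_, (inX_short hl 1).memG h⟩, (inX_short (D := D) hl 1).2, ⟨_, (inY_short hl 1).memG h⟩,
        (inY_short (D := D) hl 1).2, ?_⟩
      intro h1
      apply ncomm_rt (D := D) (short_of hl) 1
      rw [one_smul]
      exact congrArg Subtype.val (congrArg Subtype.val h1)
    · have hn0 : 0 < n := by have := i.isLt; omega
      refine ⟨⟨_, (inX_long hl hκ.lng).memG h⟩, (inX_long hl hκ.lng).2, ⟨_, (inY_long hl (hκ.lng.inv hn0)).memG h⟩,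
        (inY_long hl (hκ.lng.inv hn0)).2, ?_⟩
      intro h1
      apply ncomm_xe (lo_lt_hi i).ne hκ.ne 1
      rw [one_smul]
      exact congrArg Subtype.val (congrArg Subtype.val h1)
  red := by
    intro i g hg
    obtain ⟨x, y, hx, hy, h1⟩ := red hκ.ne hκ.lng i (h.fix g.1 g.2) hg
    refine ⟨⟨y, hy.memG h⟩ * ⟨x, hx.memG h⟩, ?_, ?_⟩
    · apply Subgroup.mul_mem
      · exact (le_sup_right : YG G i ≤ _) hy.2
      · exact (le_sup_left : XG h i ≤ _) hx.2
    · show y * x * g.1 ∈ BU n F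
      rw [mul_assoc]; exact h1

/-! ### the center -/

theorem mem_center_of_scalar {z : Matrix.SpecialLinearGroup (Fin n) F} {r : F}
    (hz : (z : Matrix (Fin n) (Fin n) F) = Matrix.scalar (Fin n) r) (g : Matrix.SpecialLinearGroup (Fin n) F) :
    z * g = g * z := by
  apply Subtype.ext
  rw [Matrix.SpecialLinearGroup.coe_mul, Matrix.SpecialLinearGroup.coe_mul, hz]
  exact (Matrix.scalar_commute r (fun _ => Commute.all _ _) _).eq

theorem scalar_of_center [Finite F] (h : D.Good G) {κ : F} (hκ : D.LongHyp κ) {z : ↥G}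
    (hz : z ∈ Subgroup.center ↥G) :
    ∃ r : F, ((z : Matrix.SpecialLinearGroup (Fin n) F) : Matrix (Fin n) (Fin n) F) =
      Matrix.scalar (Fin n) r := by
  have hz' : ∀ g : ↥G, z * g = g * z := fun g => (Subgroup.mem_center_iff.1 hz g).symm
  apply cent_scalar hκ.ne hκ.lng hκ.tr (h.fix z.1 z.2)
  · exact (pre h hκ).mem_B (t := z) fun u hu => by rw [hz' u, mul_inv_cancel_right]; exact hu
  · exact (pre h hκ).γ_mem_B (t := z) fun u hu => by rw [hz' u, mul_inv_cancel_right]; exact hu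
  · intro i x hx
    refine ⟨1, ?_⟩
    rw [one_smul]
    exact congrArg Subtype.val (congrArg Subtype.val (hz' ⟨x, hx.memG h⟩))

theorem mem_center_iff [Finite F] (h : D.Good G) {κ : F} (hκ : D.LongHyp κ) {z : ↥G} :
    z ∈ Subgroup.center ↥G ↔ ∃ r : F, ((z : Matrix.SpecialLinearGroup (Fin n) F) : Matrix (Fin n) (Fin n) F) =
      Matrix.scalar (Fin n) r := by
  refine ⟨scalar_of_center h hκ, ?_⟩
  rintro ⟨r, hr⟩
  rw [Subgroup.mem_center_iff]
  intro g
  exact Subtype.ext (mem_center_of_scalar hr g.1).symm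

theorem smul_of_center [Finite F] (h : D.Good G) {κ : F} (hκ : D.LongHyp κ) {a b : ↥G}
    (hab : a⁻¹ * b ∈ Subgroup.center ↥G) :
    ∃ r : F, ((b : Matrix.SpecialLinearGroup (Fin n) F) : Matrix (Fin n) (Fin n) F) =
      r • ((a : Matrix.SpecialLinearGroup (Fin n) F) : Matrix (Fin n) (Fin n) F) := by
  obtain ⟨r, hr⟩ := scalar_of_center h hκ hab
  refine ⟨r, ?_⟩
  have h1 : b = a * (a⁻¹ * b) := by group
  have h2 := congrArg (fun x : ↥G => ((x : Matrix.SpecialLinearGroup (Fin n) F) : Matrix (Fin n) (Fin n) F)) h1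
  simp only [Subgroup.coe_mul, Matrix.SpecialLinearGroup.coe_mul] at h2 hr
  rw [h2, hr]
  ext x y
  rw [Matrix.scalar_apply, Matrix.mul_diagonal, Matrix.smul_apply, smul_eq_mul, mul_comm]

theorem one_of_smul {u l : Matrix.SpecialLinearGroup (Fin n) F} (hu : u ∈ UU n F) (hl : l ∈ LL n F) {r : F}
    (h : (u : Matrix (Fin n) (Fin n) F) = r • (l : Matrix (Fin n) (Fin n) F)) : u = 1 := by
  rcases Nat.eq_zero_or_pos n with hn0 | hn0
  · subst hn0
    apply Subtype.ext; ext x; exact x.elim0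
  · have h1 := congrFun (congrFun h ⟨0, hn0⟩) ⟨0, hn0⟩
    rw [Matrix.smul_apply, hu.1, LL_diag hl, smul_eq_mul, mul_one] at h1
    rw [← h1, one_smul] at h
    have h2 : u = l := Subtype.ext h
    rw [← h2] at hl
    exact UU_inf_LL hu hl

theorem quotHyp [Finite F] (h : D.Good G) {κ : F} (hκ : D.LongHyp κ) :
    (pre h hκ).QuotHyp (Subgroup.center ↥G) where
  ZB := by
    intro z hz
    obtain ⟨r, hr⟩ := scalar_of_center h hκ hz
    show z.1 ∈ BU n F
    rw [mem_BU]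
    intro a b hab
    rw [hr, Matrix.scalar_apply, Matrix.diagonal_apply_ne _ hab.ne']
  γZ := by
    intro x
    constructor
    · intro hx
      rw [Subgroup.mem_center_iff] at hx ⊢
      intro g
      have := hx ((pre h hκ).γ g)
      rw [← map_mul, ← map_mul] at this
      exact (pre h hκ).γ.injective this
    · intro hx
      rw [Subgroup.mem_center_iff] at hx ⊢
      intro g
      have := hx ((pre h hκ).γ⁻¹ g)
      have h2 := congrArg (pre h hκ).γ this
      simpa using h2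
  ul := by
    intro u hu l hl hlu
    obtain ⟨r, hr⟩ := smul_of_center h hκ hlu
    exact Subtype.ext (one_of_smul hu hl hr)
  nc := by
    intro i
    by_cases hl : 2 * (i : ℕ) + 4 ≤ n
    · refine ⟨⟨_, (inX_short hl 1).memG h⟩, (inX_short (D := D) hl 1).2, ⟨_, (inY_short hl 1).memG h⟩,
        (inY_short (D := D) hl 1).2, ?_⟩
      intro h1
      obtain ⟨r, hr⟩ := smul_of_center h hκ h1
      exact ncomm_rt (D := D) (short_of hl) r hr
    · have hn0 : 0 < n := by have := i.isLt; omega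
      refine ⟨⟨_, (inX_long hl hκ.lng).memG h⟩, (inX_long hl hκ.lng).2, ⟨_, (inY_long hl (hκ.lng.inv hn0)).memG h⟩,
        (inY_long hl (hκ.lng.inv hn0)).2, ?_⟩
      intro h1
      obtain ⟨r, hr⟩ := smul_of_center h hκ h1
      exact ncomm_xe (lo_lt_hi i).ne hκ.ne r hr
  ct := by
    intro b hb hb' hX
    rw [mem_center_iff h hκ]
    apply cent_scalar hκ.ne hκ.lng hκ.tr (h.fix b.1 b.2) hb hb'
    intro i x hx
    exact smul_of_center h hκ (hX i ⟨x, hx.memG h⟩ hx.2)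

/-- the datum of the central quotient -/
def qd [Finite F] (h : D.Good G) {κ : F} (hκ : D.LongHyp κ) :
    Datum (↥G ⧸ Subgroup.center ↥G) (Fin (n / 2)) := PreDatum.quot (quotHyp h hκ)

theorem pre_isPGroup [Finite F] (h : D.Good G) {κ : F} (hκ : D.LongHyp κ) {p : ℕ} [Fact p.Prime] [CharP F p] :
    IsPGroup p (pre h hκ).U := by
  rintro ⟨u, hu⟩
  refine ⟨n, ?_⟩
  apply Subtype.ext
  apply Subtype.ext
  exact UU_pow_eq_one (p := p) (g := u.1) hu

theorem pre_pelt [Finite F] (h : D.Good G) {κ : F} (hκ : D.LongHyp κ) {p : ℕ} [Fact p.Prime] [CharP F p]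
    (b : ↥G) (hb : b ∈ (pre h hκ).B) (hk : ∃ k : ℕ, b ^ p ^ k ∈ Subgroup.center ↥G) :
    ∃ u ∈ (pre h hκ).U, u⁻¹ * b ∈ Subgroup.center ↥G := by
  obtain ⟨k, hk⟩ := hk
  obtain ⟨r, hr⟩ := scalar_of_center h hκ hk
  have hbB : b.1 ∈ BU n F := hb
  have hpow : ∀ (j : ℕ) (a : Fin n), ((b.1 ^ j : Matrix.SpecialLinearGroup (Fin n) F) :
      Matrix (Fin n) (Fin n) F) a a = ((b.1 : Matrix (Fin n) (Fin n) F) a a) ^ j := by
    intro j a
    induction j with
    | zero => rw [pow_zero, pow_zero, Matrix.SpecialLinearGroup.coe_one, Matrix.one_apply_eq]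
    | succ j ih => rw [pow_succ, pow_succ, BU_mul_diag ((BU n F).pow_mem hbB j) hbB, ih]
  rcases Nat.eq_zero_or_pos n with hn0 | hn0
  · subst hn0
    refine ⟨1, (pre h hκ).U.one_mem, ?_⟩
    have : (1 : ↥G)⁻¹ * b = 1 := by
      apply Subtype.ext; apply Subtype.ext; ext x; exact x.elim0
    rw [this]; exact Subgroup.one_mem _
  set d := (b.1 : Matrix (Fin n) (Fin n) F) ⟨0, hn0⟩ ⟨0, hn0⟩ with hd
  have hdiag : ∀ a, (b.1 : Matrix (Fin n) (Fin n) F) a a = d := by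
    intro a
    have h1 : ((b.1 : Matrix (Fin n) (Fin n) F) a a) ^ p ^ k = d ^ p ^ k := by
      rw [hd, ← hpow, ← hpow]
      have h2 : ((b.1 ^ p ^ k : Matrix.SpecialLinearGroup (Fin n) F) : Matrix (Fin n) (Fin n) F) =
        Matrix.scalar (Fin n) r := hr
      rw [h2, Matrix.scalar_apply, Matrix.diagonal_apply_eq, Matrix.diagonal_apply_eq]
    exact iterateFrobenius_inj F p k h1
  have hprod : ((b.1⁻¹ * b.1 : Matrix.SpecialLinearGroup (Fin n) F) : Matrix (Fin n) (Fin n) F)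
      ⟨0, hn0⟩ ⟨0, hn0⟩ = 1 := by
    rw [inv_mul_cancel, Matrix.SpecialLinearGroup.coe_one, Matrix.one_apply_eq]
  rw [BU_mul_diag ((BU n F).inv_mem hbB) hbB, inv_apply (h.fix b.1 b.2), hec, hdiag, hdiag, one_mul] at hprod
  have hd0 : d ≠ 0 := right_ne_zero_of_mul_eq_one hprod
  have hdn : d ^ n = 1 := by
    have h1 := b.1.det_coe
    rw [Matrix.det_of_isUpperTriangular (fun i j hij => mem_BU.1 hbB i j hij)] at h1
    rw [Finset.prod_congr rfl fun i _ => hdiag i, Finset.prod_const, Finset.card_univ, Fintype.card_fin] at h1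
    exact h1
  -- the scalar
  have hdet : ∀ c : F, c ^ n = 1 → (Matrix.scalar (Fin n) c).det = 1 := by
    intro c hc
    rw [Matrix.scalar_apply, Matrix.det_diagonal, Finset.prod_const, Finset.card_univ, Fintype.card_fin, hc]
  let z : Matrix.SpecialLinearGroup (Fin n) F := ⟨Matrix.scalar (Fin n) d, hdet d hdn⟩
  have hzc : (z : Matrix (Fin n) (Fin n) F) = Matrix.scalar (Fin n) d := rfl
  have hzinv : ((z⁻¹ : Matrix.SpecialLinearGroup (Fin n) F) : Matrix (Fin n) (Fin n) F) =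
      Matrix.scalar (Fin n) d⁻¹ := by
    have h1 : z * ⟨Matrix.scalar (Fin n) d⁻¹, hdet _ (by rw [inv_pow, hdn, inv_one])⟩ = 1 := by
      apply Subtype.ext
      show Matrix.scalar (Fin n) d * Matrix.scalar (Fin n) d⁻¹ = 1
      rw [← map_mul, mul_inv_cancel₀ hd0, map_one]
    rw [inv_eq_of_mul_eq_one_right h1]
  have hzτ : D.τ z = z := by
    apply Subtype.ext
    ext x y
    rw [D.τ_apply, hzinv, hzc, Matrix.scalar_apply, Matrix.scalar_apply]
    by_cases hxy : x = y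
    · subst hxy
      rw [Matrix.diagonal_apply_eq, Matrix.diagonal_apply_eq, hec, one_mul, map_inv₀]
      exact inv_eq_of_mul_eq_one_right hprod
    · rw [Matrix.diagonal_apply_ne _ hxy, Matrix.diagonal_apply_ne, map_zero, mul_zero]
      intro h1
      exact hxy (Fin.rev_injective h1).symm
  have hcomm := mem_center_of_scalar hzc
  have hu : z⁻¹ * b.1 ∈ UU n F := by
    have hval : ∀ x y, ((z⁻¹ * b.1 : Matrix.SpecialLinearGroup (Fin n) F) : Matrix (Fin n) (Fin n) F) x y =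
        d⁻¹ * (b.1 : Matrix (Fin n) (Fin n) F) x y := by
      intro x y
      rw [Matrix.SpecialLinearGroup.coe_mul, hzinv, Matrix.scalar_apply, Matrix.diagonal_mul]
    refine ⟨fun a => ?_, fun a c hac => ?_⟩
    · rw [hval, hdiag, inv_mul_cancel₀ hd0]
    · rw [hval, mem_BU.1 hbB a c hac, mul_zero]
  have huG : z⁻¹ * b.1 ∈ G := h.UG _ hu (by rw [map_mul, map_inv, hzτ, h.fix b.1 b.2])
  have hzG : z ∈ G := by
    have : z = b.1 * (z⁻¹ * b.1)⁻¹ := by group
    rw [this]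
    exact G.mul_mem b.2 (G.inv_mem huG)
  refine ⟨⟨z⁻¹ * b.1, huG⟩, hu, ?_⟩
  rw [mem_center_iff h hκ]
  refine ⟨d, ?_⟩
  have : (((⟨z⁻¹ * b.1, huG⟩ : ↥G)⁻¹ * b : ↥G) : Matrix.SpecialLinearGroup (Fin n) F) = z := by
    show (z⁻¹ * b.1)⁻¹ * b.1 = z
    have h1 : (z⁻¹ * b.1)⁻¹ * b.1 = b.1⁻¹ * (z * b.1) := by group
    rw [h1, hcomm]; group
  rw [this]

theorem qd_isPGroup [Finite F] (h : D.Good G) {κ : F} (hκ : D.LongHyp κ) {p : ℕ} [Fact p.Prime] [CharP F p] :
    IsPGroup p (qd h hκ).U := PreDatum.quot_isPGroup _ (pre_isPGroup h hκ)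

theorem qd_pelt [Finite F] (h : D.Good G) {κ : F} (hκ : D.LongHyp κ) {p : ℕ} [Fact p.Prime] [CharP F p] :
    ∀ b ∈ (qd h hκ).B, (∃ k : ℕ, b ^ p ^ k = 1) → b ∈ (qd h hκ).U :=
  PreDatum.quot_pelt _ (pre_pelt h hκ)

end Cls

end CfsgH6
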