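import Cfsg.Agent.H6.Cls5
import Cfsg.Agent.H6.AbsField
import Cfsg.Agent.H6.FixField

set_option autoImplicit false

/-! Parametrisations of the simple root groups of classical groups with long roots. -/

namespace CfsgH6

open Matrix

variable {F : Type*} [Field F] {n : ℕ}

/-! ### generalities -/

theorem xe_braid {i j : Fin n} (h : i ≠ j) {t s : F} (hts : t * s = -1) :
    (xe i j t * xe j i s * xe i j t : Matrix.SpecialLinearGroup (Fin n) F) = xe j i s * xe i j t * xe j i s := by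
  apply Subtype.ext
  simp only [Matrix.SpecialLinearGroup.coe_mul, xe_coe h, xe_coe h.symm]
  set e : Matrix (Fin n) (Fin n) F := Matrix.single i j t with he
  set f : Matrix (Fin n) (Fin n) F := Matrix.single j i s with hf
  have he2 : e * e = 0 := single_mul_single_zero h.symm t t
  have hf2 : f * f = 0 := single_mul_single_zero h s s
  have hefe : e * f * e = -e := by
    rw [he, hf, Matrix.single_mul_single_same, Matrix.single_mul_single_same, hts]
    ext a b
    simp only [Matrix.single_apply, Matrix.neg_apply]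
    split_ifs <;> simp
  have hfef : f * e * f = -f := by
    rw [he, hf, Matrix.single_mul_single_same, Matrix.single_mul_single_same, mul_comm s t, hts]
    ext a b
    simp only [Matrix.single_apply, Matrix.neg_apply]
    split_ifs <;> simp
  have h1 : (1 + e) * (1 + f) * (1 + e) = 1 + e + f + e + (e * e) + e * f + f * e + e * f * e := by
    noncomm_ring
  have h2 : (1 + f) * (1 + e) * (1 + f) = 1 + f + e + f + (f * f) + f * e + e * f + f * e * f := by
    noncomm_ring
  rw [h1, h2, he2, hf2, hefe, hfef]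
  abel

theorem conv_aux {t s r : F} (ht : t ≠ 0) (e1 : 1 + t * s = r * (1 + t * s))
    (e2 : t + (1 + t * s) * t = r * t) : t * s = -1 := by
  by_contra hne
  have hne' : 1 + t * s ≠ 0 := by
    intro h0
    apply hne
    linear_combination h0
  have hr : r = 1 := by
    have : (1 + t * s) * (r - 1) = 0 := by linear_combination -e1
    rcases mul_eq_zero.1 this with h0 | h0
    · exact absurd h0 hne'
    · linear_combination h0
  subst hr
  apply hne'
  have : t * (1 + t * s) = 0 := by linear_combination e2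
  exact (mul_eq_zero.1 this).resolve_left ht

theorem xe_conv {i j : Fin n} (h : i ≠ j) {t s r : F} (ht : t ≠ 0)
    (hb : ((xe i j t * xe j i s * xe i j t : Matrix.SpecialLinearGroup (Fin n) F) : Matrix (Fin n) (Fin n) F) =
      r • ((xe j i s * xe i j t * xe j i s : Matrix.SpecialLinearGroup (Fin n) F) : Matrix (Fin n) (Fin n) F)) :
    t * s = -1 := by
  have e1 := congrFun (congrFun hb i) i
  have e2 := congrFun (congrFun hb i) j
  rw [Matrix.smul_apply] at e1 e2
  simp only [mul_xe_apply h, mul_xe_apply h.symm, xe_apply h, xe_apply h.symm] at e1 e2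
  simp [h, h.symm] at e1 e2
  exact conv_aux ht e1 e2

theorem diag_conj_xe {b : Matrix.SpecialLinearGroup (Fin n) F}
    (hb : ∀ x y, x ≠ y → (b : Matrix (Fin n) (Fin n) F) x y = 0) {c d : Fin n} (h : c ≠ d) (u : F) :
    b * xe c d u * b⁻¹ = xe c d ((b : Matrix (Fin n) (Fin n) F) c c * ((b : Matrix (Fin n) (Fin n) F) d d)⁻¹ * u) := by
  have hm : IsMono 1 b := fun i j hij => hb i j hij
  apply Subtype.ext
  ext x y
  have h1 := mono_conj_apply hm (xe c d u) x y
  simp only [Equiv.Perm.coe_one, id_eq] at h1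
  rw [h1, xe_apply h, xe_apply h]
  by_cases hxy : x = y
  · subst hxy
    have h2 := Cls.diag_ne hb x
    have h3 : ¬ (c = x ∧ d = x) := fun h' => h (h'.1.trans h'.2.symm)
    rw [if_pos rfl, if_neg h3, if_neg h3, add_zero, mul_one, mul_inv_cancel₀ h2]
  · rw [if_neg hxy, zero_add, zero_add]
    by_cases h3 : c = x ∧ d = y
    · obtain ⟨rfl, rfl⟩ := h3
      rw [if_pos ⟨rfl, rfl⟩, if_pos ⟨rfl, rfl⟩]
      ring
    · rw [if_neg h3, if_neg h3]; ring

namespace Cls

variable {D : Cls n F} {G : Subgroup (Matrix.SpecialLinearGroup (Fin n) F)}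

theorem rt_add {a b : Fin n} (h : Short a b) (s t : F) : D.rt a b (s + t) = D.rt a b s * D.rt a b t := by
  have h1 := rt_comm (D := D) h t
  unfold rt at h1 ⊢
  rw [xe_add, map_mul]
  have h2 : D.τ (xe a b s) * xe a b t = xe a b t * D.τ (xe a b s) := by
    rw [D.τ_xe h.ab]
    exact (xe_commute h.ab h.ba' h.bb h.aa.symm _ _).symm
  calc xe a b s * xe a b t * (D.τ (xe a b s) * D.τ (xe a b t)) =
      xe a b s * (xe a b t * D.τ (xe a b s)) * D.τ (xe a b t) := by simp only [mul_assoc]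
    _ = _ := by rw [← h2]; simp only [mul_assoc]

theorem rt_inj {a b : Fin n} (h : Short a b) {s t : F} (hst : D.rt a b s = D.rt a b t) : s = t := by
  rw [← rt_entry (D := D) h s, hst, rt_entry h]

/-- `xe a b`, `xe b a` commute with their mirror images -/
theorem τ_xe_comm {a b : Fin n} (h : Short a b) (s t : F) :
    D.τ (xe a b s) * xe a b t = xe a b t * D.τ (xe a b s) ∧
    D.τ (xe a b s) * xe b a t = xe b a t * D.τ (xe a b s) := by
  rw [D.τ_xe h.ab]
  exact ⟨(xe_commute h.ab h.ba' h.bb h.aa.symm _ _).symm,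
    (xe_commute h.ab.symm h.ba' h.ar h.br.symm _ _).symm⟩

theorem rt_braid {a b : Fin n} (h : Short a b) {t s : F} (hts : t * s = -1) :
    D.rt a b t * D.rt b a s * D.rt a b t = D.rt b a s * D.rt a b t * D.rt b a s := by
  have hst : s * t = -1 := by rw [mul_comm]; exact hts
  have h1 := xe_braid (F := F) h.ab hts
  have h2 := congrArg D.τ h1
  simp only [map_mul] at h2
  have c1 := (τ_xe_comm (D := D) h t s).2
  have c2 := (τ_xe_comm (D := D) h.symm s t).2
  have c3 := (τ_xe_comm (D := D) h t t).1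
  have c4 := (τ_xe_comm (D := D) h.symm s s).1
  unfold rt
  generalize D.τ (xe a b t) = A' at *
  generalize D.τ (xe b a s) = B' at *
  generalize (xe a b t : Matrix.SpecialLinearGroup (Fin n) F) = A at *
  generalize (xe b a s : Matrix.SpecialLinearGroup (Fin n) F) = B at *
  calc A * A' * (B * B') * (A * A') = A * (A' * B) * (B' * A) * A' := by simp only [mul_assoc]
    _ = A * B * (A' * A) * B' * A' := by rw [c1, c2]; simp only [mul_assoc]
    _ = (A * B * A) * (A' * B' * A') := by rw [c3]; simp only [mul_assoc]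
    _ = (B * A * B) * (B' * A' * B') := by rw [h1, h2]
    _ = B * A * (B * B') * A' * B' := by simp only [mul_assoc]
    _ = B * A * B' * (B * A') * B' := by rw [← c4]; simp only [mul_assoc]
    _ = B * (A * B') * A' * B * B' := by rw [← c1]; simp only [mul_assoc]
    _ = _ := by rw [← c2]; simp only [mul_assoc]

theorem rt_conv {a b : Fin n} (h : Short a b) {t s r : F} (ht : t ≠ 0)
    (hb : ((D.rt a b t * D.rt b a s * D.rt a b t : Matrix.SpecialLinearGroup (Fin n) F) : Matrix (Fin n) (Fin n) F) =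
      r • ((D.rt b a s * D.rt a b t * D.rt b a s : Matrix.SpecialLinearGroup (Fin n) F) : Matrix (Fin n) (Fin n) F)) :
    t * s = -1 := by
  have e1 := congrFun (congrFun hb a) a
  have e2 := congrFun (congrFun hb a) b
  rw [Matrix.smul_apply] at e1 e2
  have n1 := h.ab
  have n2 := h.ab.symm
  have n3 := h.ar
  have n4 := h.aa
  have n5 := h.bb
  have n6 := h.br
  have n7 := h.aa.symm
  have n8 := h.bb.symm
  have n9 := h.ar.symm
  have n10 := h.br.symm
  have n11 := h.ba'
  have n12 := h.ba'.symm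
  simp only [mul_rt_apply h, mul_rt_apply h.symm, rt_apply h, rt_apply h.symm] at e1 e2
  simp [n1, n2, n3, n4, n5, n6, n7, n8, n9, n10, n11, n12] at e1 e2
  exact conv_aux ht e1 e2

/-! ### the group modulo its center -/

theorem mk_smul [Finite F] (h : D.Good G) {κ : F} (hκ : D.LongHyp κ) {a b : ↥G}
    (hab : (QuotientGroup.mk a : ↥G ⧸ Subgroup.center ↥G) = QuotientGroup.mk b) :
    ∃ r : F, ((b : Matrix.SpecialLinearGroup (Fin n) F) : Matrix (Fin n) (Fin n) F) =
      r • ((a : Matrix.SpecialLinearGroup (Fin n) F) : Matrix (Fin n) (Fin n) F) :=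
  smul_of_center h hκ (QuotientGroup.eq.1 hab)

theorem UU_of_smul {u l : Matrix.SpecialLinearGroup (Fin n) F} (hu : u ∈ UU n F) (hl : l ∈ UU n F) {r : F}
    (h : (u : Matrix (Fin n) (Fin n) F) = r • (l : Matrix (Fin n) (Fin n) F)) : u = l := by
  rcases Nat.eq_zero_or_pos n with hn0 | hn0
  · subst hn0
    apply Subtype.ext; ext x; exact x.elim0
  · have h1 := congrFun (congrFun h ⟨0, hn0⟩) ⟨0, hn0⟩
    rw [Matrix.smul_apply, hu.1, hl.1, smul_eq_mul, mul_one] at h1
    rw [← h1, one_smul] at h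
    exact Subtype.ext h

theorem LL_of_smul {u l : Matrix.SpecialLinearGroup (Fin n) F} (hu : u ∈ LL n F) (hl : l ∈ LL n F) {r : F}
    (h : (u : Matrix (Fin n) (Fin n) F) = r • (l : Matrix (Fin n) (Fin n) F)) : u = l := by
  rcases Nat.eq_zero_or_pos n with hn0 | hn0
  · subst hn0
    apply Subtype.ext; ext x; exact x.elim0
  · have h1 := congrFun (congrFun h ⟨0, hn0⟩) ⟨0, hn0⟩
    rw [Matrix.smul_apply, LL_diag hu, LL_diag hl, smul_eq_mul, mul_one] at h1
    rw [← h1, one_smul] at h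
    exact Subtype.ext h

theorem mk_UU_inj [Finite F] (h : D.Good G) {κ : F} (hκ : D.LongHyp κ) {a b : ↥G}
    (ha : a.1 ∈ UU n F) (hb : b.1 ∈ UU n F)
    (hab : (QuotientGroup.mk a : ↥G ⧸ Subgroup.center ↥G) = QuotientGroup.mk b) : a.1 = b.1 := by
  obtain ⟨r, hr⟩ := mk_smul h hκ hab
  exact (UU_of_smul hb ha hr).symm

theorem mk_LL_inj [Finite F] (h : D.Good G) {κ : F} (hκ : D.LongHyp κ) {a b : ↥G}
    (ha : a.1 ∈ LL n F) (hb : b.1 ∈ LL n F)
    (hab : (QuotientGroup.mk a : ↥G ⧸ Subgroup.center ↥G) = QuotientGroup.mk b) : a.1 = b.1 := by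
  obtain ⟨r, hr⟩ := mk_smul h hκ hab
  exact (LL_of_smul hb ha hr).symm

/-- elements of the quotient -/
def mq (s : Matrix.SpecialLinearGroup (Fin n) F) (hs : s ∈ G) : ↥G ⧸ Subgroup.center ↥G :=
  QuotientGroup.mk ⟨s, hs⟩

theorem mq_congr {s s' : Matrix.SpecialLinearGroup (Fin n) F} (hs : s ∈ G) (h : s = s') :
    mq s hs = mq s' (h ▸ hs) := by subst h; rfl

theorem mq_mul {s s' : Matrix.SpecialLinearGroup (Fin n) F} (hs : s ∈ G) (hs' : s' ∈ G) :
    mq s hs * mq s' hs' = mq (s * s') (G.mul_mem hs hs') := rfl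

theorem mq_inv {s : Matrix.SpecialLinearGroup (Fin n) F} (hs : s ∈ G) :
    (mq s hs)⁻¹ = mq s⁻¹ (G.inv_mem hs) := rfl

/-- short positive root elements -/
def xS (h : D.Good G) {i : Fin (n / 2)} (hs : 2 * (i : ℕ) + 4 ≤ n) (t : F) : ↥G ⧸ Subgroup.center ↥G :=
  mq (D.rt (lo i) (hi i) t) ((inX_short hs t).memG h)

/-- short negative root elements -/
def yS (h : D.Good G) {i : Fin (n / 2)} (hs : 2 * (i : ℕ) + 4 ≤ n) (t : F) : ↥G ⧸ Subgroup.center ↥G :=
  mq (D.rt (hi i) (lo i) t) ((inY_short hs t).memG h)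

theorem mq_UU_inj [Finite F] (h : D.Good G) {κ : F} (hκ : D.LongHyp κ) {a b : Matrix.SpecialLinearGroup (Fin n) F}
    {haG : a ∈ G} {hbG : b ∈ G} (ha : a ∈ UU n F) (hb : b ∈ UU n F) (hab : mq a haG = mq b hbG) : a = b :=
  mk_UU_inj h hκ (a := ⟨a, haG⟩) (b := ⟨b, hbG⟩) ha hb hab

theorem mq_LL_inj [Finite F] (h : D.Good G) {κ : F} (hκ : D.LongHyp κ) {a b : Matrix.SpecialLinearGroup (Fin n) F}
    {haG : a ∈ G} {hbG : b ∈ G} (ha : a ∈ LL n F) (hb : b ∈ LL n F) (hab : mq a haG = mq b hbG) : a = b :=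
  mk_LL_inj h hκ (a := ⟨a, haG⟩) (b := ⟨b, hbG⟩) ha hb hab

theorem mq_smul [Finite F] (h : D.Good G) {κ : F} (hκ : D.LongHyp κ) {a b : Matrix.SpecialLinearGroup (Fin n) F}
    {haG : a ∈ G} {hbG : b ∈ G} (hab : mq a haG = mq b hbG) :
    ∃ r : F, (b : Matrix (Fin n) (Fin n) F) = r • (a : Matrix (Fin n) (Fin n) F) :=
  mk_smul h hκ (a := ⟨a, haG⟩) (b := ⟨b, hbG⟩) hab

theorem mq_eq {a b : Matrix.SpecialLinearGroup (Fin n) F} {haG : a ∈ G} {hbG : b ∈ G} (h : a = b) :
    mq a haG = mq b hbG := by subst h; rfl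

theorem xS_add (h : D.Good G) {i : Fin (n / 2)} (hs : 2 * (i : ℕ) + 4 ≤ n) (s t : F) :
    xS h hs (s + t) = xS h hs s * xS h hs t :=
  (mq_eq (rt_add (short_of hs) s t)).trans (mq_mul _ _).symm

theorem yS_add (h : D.Good G) {i : Fin (n / 2)} (hs : 2 * (i : ℕ) + 4 ≤ n) (s t : F) :
    yS h hs (s + t) = yS h hs s * yS h hs t :=
  (mq_eq (rt_add (short_of hs).symm s t)).trans (mq_mul _ _).symm

theorem xyx (h : D.Good G) {i : Fin (n / 2)} (hs : 2 * (i : ℕ) + 4 ≤ n) (s t : F) :
    xS h hs s * yS h hs t * xS h hs s = mq (D.rt (lo i) (hi i) s * D.rt (hi i) (lo i) t * D.rt (lo i) (hi i) s)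
      (G.mul_mem (G.mul_mem ((inX_short hs s).memG h) ((inY_short hs t).memG h)) ((inX_short hs s).memG h)) := rfl

theorem yxy (h : D.Good G) {i : Fin (n / 2)} (hs : 2 * (i : ℕ) + 4 ≤ n) (s t : F) :
    yS h hs s * xS h hs t * yS h hs s = mq (D.rt (hi i) (lo i) s * D.rt (lo i) (hi i) t * D.rt (hi i) (lo i) s)
      (G.mul_mem (G.mul_mem ((inY_short hs s).memG h) ((inX_short hs t).memG h)) ((inY_short hs s).memG h)) := rfl

theorem pair_short [Finite F] (h : D.Good G) {κ : F} (hκ : D.LongHyp κ) {i : Fin (n / 2)}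
    (hs : 2 * (i : ℕ) + 4 ≤ n) : SL2Pair (xS h hs) (yS h hs) where
  x_add := xS_add h hs
  y_add := yS_add h hs
  x_inj := fun s t hst => rt_inj (D := D) (short_of hs) (mq_UU_inj h hκ (rt_mem_UU (lo_lt_hi i) s)
    (rt_mem_UU (lo_lt_hi i) t) hst)
  y_inj := fun s t hst => rt_inj (D := D) (short_of hs).symm (mq_LL_inj h hκ (rt_mem_LL (lo_lt_hi i) s)
    (rt_mem_LL (lo_lt_hi i) t) hst)
  braid := by
    intro t s hts
    rw [xyx, yxy]
    exact mq_eq (rt_braid (short_of hs) hts)
  conv := by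
    intro t s ht hts
    rw [xyx, yxy] at hts
    obtain ⟨r, hr⟩ := mq_smul h hκ hts.symm
    exact rt_conv (D := D) (short_of hs) ht hr

end Cls

end CfsgH6
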