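import Cfsg.Agent.H6.Cls6

set_option autoImplicit false

/-! Elements of the simple root groups of classical groups with long roots. -/

namespace CfsgH6

open Matrix

variable {F : Type*} [Field F] {n : ℕ}

namespace Cls

variable {D : Cls n F} {G : Subgroup (Matrix.SpecialLinearGroup (Fin n) F)}

/-- the entries of an element of a simple root group -/
theorem InX.entry {i : Fin (n / 2)} {x : Matrix.SpecialLinearGroup (Fin n) F} (hx : D.InX i x) {a b : Fin n}
    (hab : a < b) {c : ℕ} (h1 : (a : ℕ) ≤ c) (h2 : c < b) (h3 : ¬ cut n i c) :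
    (x : Matrix (Fin n) (Fin n) F) a b = 0 := by
  have hb := b.isLt
  have h4 := mem_PS.1 hx.2.2 (Fin.rev a) (Fin.rev b) (Fin.rev_lt_rev.2 hab)
    ⟨n - 2 - c, by rw [Fin.val_rev]; omega, by rw [Fin.val_rev]; omega, by
      intro h
      apply h3
      have := cut_symm h (by omega) (node_le i)
      have e : n - 2 - (n - 2 - c) = c := by omega
      rwa [e] at this⟩
  rw [γ_apply, Fin.rev_rev, Fin.rev_rev] at h4
  exact (mul_eq_zero.1 h4).resolve_left (mul_ne_zero (D.e _).ne_zero (D.e _).ne_zero)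

theorem inv_mul_entry (x : Matrix.SpecialLinearGroup (Fin n) F) {a b : Fin n} (hab : a ≠ b) :
    ∑ k, ((x⁻¹ : Matrix.SpecialLinearGroup (Fin n) F) : Matrix (Fin n) (Fin n) F) a k *
      (x : Matrix (Fin n) (Fin n) F) k b = 0 := by
  rw [← Matrix.mul_apply, ← Matrix.SpecialLinearGroup.coe_mul, inv_mul_cancel,
    Matrix.SpecialLinearGroup.coe_one, Matrix.one_apply_ne hab]

/-- inverse entry for adjacent indices -/
theorem UU_inv_adj {x : Matrix.SpecialLinearGroup (Fin n) F} (hx : x ∈ UU n F) {a b : Fin n}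
    (hab : (b : ℕ) = a + 1) :
    ((x⁻¹ : Matrix.SpecialLinearGroup (Fin n) F) : Matrix (Fin n) (Fin n) F) a b =
      - (x : Matrix (Fin n) (Fin n) F) a b := by
  have hlt : a < b := by show (a : ℕ) < b; omega
  have h1 := inv_mul_entry x hlt.ne
  have hx' := (UU n F).inv_mem hx
  rw [← Finset.sum_subset (Finset.subset_univ {a, b})] at h1
  · rw [Finset.sum_insert (by simp [hlt.ne]), Finset.sum_singleton, hx'.1, hx.1, one_mul, mul_one] at h1
    linear_combination h1
  · intro k _ hk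
    simp only [Finset.mem_insert, Finset.mem_singleton, not_or] at hk
    rcases lt_or_gt_of_ne hk.1 with h2 | h2
    · rw [hx'.2 _ _ h2, zero_mul]
    · rcases lt_or_gt_of_ne hk.2 with h3 | h3
      · exfalso
        have h4 : (a : ℕ) < k := h2
        have h5 : (k : ℕ) < b := h3
        omega
      · rw [hx.2 _ _ h3, mul_zero]

theorem InX.short {i : Fin (n / 2)} (hs : 2 * (i : ℕ) + 4 ≤ n) {x : Matrix.SpecialLinearGroup (Fin n) F}
    (hx : D.InX i x) : x = D.rt (lo i) (hi i) ((x : Matrix (Fin n) (Fin n) F) (lo i) (hi i)) := by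
  have hU := hx.mem_UU
  have hhi : ((hi i : Fin n) : ℕ) = i + 1 := hi_val_of_not (by omega)
  have hsh := short_of hs
  set t := (x : Matrix (Fin n) (Fin n) F) (lo i) (hi i) with ht
  have h1 := inv_apply hx.1 (lo i) (hi i)
  rw [UU_inv_adj hU (by rw [hhi, lo_val]), ← ht] at h1
  -- `-t = e e σ (x (rev hi) (rev lo))`
  have h2 : (x : Matrix (Fin n) (Fin n) F) (Fin.rev (hi i)) (Fin.rev (lo i)) = D.mc (lo i) (hi i) t := by
    have h3 := congrArg D.σ h1
    rw [map_neg, map_mul, map_mul, D.hσe, D.hσe, D.hσ] at h3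
    unfold mc
    have e1 := D.hec (Fin.rev (lo i))
    have e2 := D.hec (Fin.rev (hi i))
    have h4 : (D.e (Fin.rev (lo i)) : F) * (D.e (Fin.rev (hi i)) : F) * (-D.σ t) =
        ((D.e (Fin.rev (lo i)) : F) * (D.e (Fin.rev (lo i)) : F)) * ((D.e (Fin.rev (hi i)) : F) *
        (D.e (Fin.rev (hi i)) : F)) * (x : Matrix (Fin n) (Fin n) F) (Fin.rev (hi i)) (Fin.rev (lo i)) := by
      rw [h3]; ring
    rw [e1, e2, one_mul, one_mul] at h4
    rw [← h4]; ring
  apply Subtype.ext
  ext a b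
  rw [rt_apply hsh]
  by_cases hab : a = b
  · subst hab
    rw [hU.1, if_pos rfl, if_neg, if_neg, add_zero, add_zero]
    · rintro ⟨h3, h4⟩; exact hsh.ba' (h3.symm.trans h4)
    · rintro ⟨h3, h4⟩; exact hsh.ab (h3.symm.trans h4)
  · rw [if_neg hab, zero_add]
    rcases lt_or_gt_of_ne hab with hlt | hlt
    · by_cases h3 : a = lo i ∧ b = hi i
      · obtain ⟨rfl, rfl⟩ := h3
        rw [if_pos ⟨rfl, rfl⟩, if_neg (fun h => hsh.ar h.1), add_zero]
      · by_cases h4 : a = Fin.rev (hi i) ∧ b = Fin.rev (lo i)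
        · obtain ⟨rfl, rfl⟩ := h4
          rw [if_neg h3, if_pos ⟨rfl, rfl⟩, zero_add, h2]
        · rw [if_neg h3, if_neg h4, add_zero]
          -- find a cut
          have hlt' : (a : ℕ) < b := hlt
          have hb := b.isLt
          have h3' : ¬ ((a : ℕ) = i ∧ (b : ℕ) = i + 1) := by
            rintro ⟨h5, h6⟩
            exact h3 ⟨Fin.ext h5, Fin.ext (by rw [hhi]; exact h6)⟩
          have h4' : ¬ ((a : ℕ) = n - 2 - i ∧ (b : ℕ) = n - 1 - i) := by
            rintro ⟨h5, h6⟩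
            exact h4 ⟨Fin.ext (by rw [Fin.val_rev, hhi]; omega), Fin.ext (by rw [Fin.val_rev, lo_val]; omega)⟩
          by_cases h5 : cut n i a
          · refine hx.entry hlt (c := a + 1) (by omega) ?_ ?_
            · by_contra h6
              rcases h5 with h7 | h7 <;> omega
            · rintro (h6 | h6) <;> rcases h5 with h7 | h7 <;> omega
          · exact hx.entry hlt le_rfl hlt h5
    · rw [hU.2 _ _ hlt, if_neg, if_neg, add_zero]
      · rintro ⟨rfl, rfl⟩
        have h3 : (Fin.rev (hi i) : Fin n) < Fin.rev (lo i) := Fin.rev_lt_rev.2 (lo_lt_hi i)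
        exact absurd hlt h3.not_gt
      · rintro ⟨rfl, rfl⟩
        exact absurd hlt (lo_lt_hi i).not_gt

theorem InX.even {i : Fin (n / 2)} (hs : 2 * (i : ℕ) + 2 = n) {x : Matrix.SpecialLinearGroup (Fin n) F}
    (hx : D.InX i x) : D.Lng ((x : Matrix (Fin n) (Fin n) F) (lo i) (hi i)) ∧
      x = xe (lo i) (hi i) ((x : Matrix (Fin n) (Fin n) F) (lo i) (hi i)) := by
  have hU := hx.mem_UU
  have hhi : ((hi i : Fin n) : ℕ) = i + 1 := hi_val_of_not (by omega)
  have hl : ¬ 2 * (i : ℕ) + 4 ≤ n := by omega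
  set t := (x : Matrix (Fin n) (Fin n) F) (lo i) (hi i) with ht
  have h1 := inv_apply hx.1 (lo i) (hi i)
  have hr : Fin.rev (hi i) = (lo i : Fin n) := by rw [hi_eq_rev hl, Fin.rev_rev]
  rw [UU_inv_adj hU (by rw [hhi, lo_val]), hr, ← hi_eq_rev hl, ← ht] at h1
  have h2 : (D.e (hi i) : F) * (D.e (lo i) : F) = D.ε := by
    rw [mul_comm, hi_eq_rev hl, D.heec]
  rw [h2] at h1
  refine ⟨by unfold Lng; linear_combination -h1, ?_⟩
  apply Subtype.ext
  ext a b
  rw [xe_apply (lo_lt_hi i).ne]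
  by_cases hab : a = b
  · subst hab
    rw [hU.1, if_pos rfl, if_neg, add_zero]
    rintro ⟨h3, h4⟩; exact (lo_lt_hi i).ne (h3.trans h4.symm)
  · rw [if_neg hab, zero_add]
    rcases lt_or_gt_of_ne hab with hlt | hlt
    · by_cases h3 : lo i = a ∧ hi i = b
      · obtain ⟨rfl, rfl⟩ := h3
        rw [if_pos ⟨rfl, rfl⟩]
      · rw [if_neg h3]
        have hlt' : (a : ℕ) < b := hlt
        have h3' : ¬ ((a : ℕ) = i ∧ (b : ℕ) = i + 1) := by
          rintro ⟨h5, h6⟩
          exact h3 ⟨Fin.ext h5.symm, Fin.ext (by rw [hhi]; exact h6.symm)⟩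
        by_cases h5 : (a : ℕ) = i
        · exact hx.entry hlt (c := a + 1) (by omega) (by omega) (by rintro (h | h) <;> omega)
        · exact hx.entry hlt (c := a) le_rfl hlt (by rintro (h | h) <;> omega)
    · rw [hU.2 _ _ hlt, if_neg]
      rintro ⟨rfl, rfl⟩
      exact absurd hlt (lo_lt_hi i).not_gt

theorem InX.odd {i : Fin (n / 2)} (hs : 2 * (i : ℕ) + 3 = n) {x : Matrix.SpecialLinearGroup (Fin n) F}
    (hx : D.InX i x) : ∃ c b, D.UC i c b ∧ x = D.uu i c b ∧ c = (x : Matrix (Fin n) (Fin n) F) (mid i) (hi i) := by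
  have hU := hx.mem_UU
  have hhi : ((hi i : Fin n) : ℕ) = i + 2 := hi_val_of hs
  have hUi := (UU n F).inv_mem hU
  set c := (x : Matrix (Fin n) (Fin n) F) (mid i) (hi i) with hc
  set s := (x : Matrix (Fin n) (Fin n) F) (lo i) (hi i) with hsd
  have h1 := inv_apply hx.1 (mid i) (hi i)
  rw [UU_inv_adj hU (by rw [hhi, mid_val]), rev_mid hs, rev_hi hs, ← hc] at h1
  have h2 : (x : Matrix (Fin n) (Fin n) F) (lo i) (mid i) = -((D.e (lo i) : F) * D.e (mid i) * D.σ c) := by
    have h3 := congrArg D.σ h1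
    rw [map_neg, map_mul, map_mul, D.hσe, D.hσe, D.hσ] at h3
    have e1 := D.hec (lo i)
    have e2 := D.hec (mid i)
    have h4 : (D.e (lo i) : F) * (D.e (mid i) : F) * (-D.σ c) =
        ((D.e (lo i) : F) * (D.e (lo i) : F)) * ((D.e (mid i) : F) *
        (D.e (mid i) : F)) * (x : Matrix (Fin n) (Fin n) F) (lo i) (mid i) := by
      rw [h3]; ring
    rw [e1, e2, one_mul, one_mul] at h4
    rw [← h4]; ring
  have h3 := inv_apply hx.1 (lo i) (hi i)
  rw [rev_lo hs, rev_hi hs, e_lo_hi hs, D.hec, one_mul, ← hsd] at h3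
  have h4 := inv_mul_entry x (lo_lt_hi i).ne
  have h5 : ((x⁻¹ : Matrix.SpecialLinearGroup (Fin n) F) : Matrix (Fin n) (Fin n) F) (lo i) (mid i) =
      (D.e (lo i) : F) * D.e (mid i) * D.σ c := by
    rw [UU_inv_adj hU (by rw [mid_val, lo_val]), h2, neg_neg]
  rw [sum_three (lo_lt_mid hs).ne (lo_lt_hi i).ne (mid_lt_hi hs).ne] at h4
  · rw [hUi.1, one_mul, h3, hU.1, mul_one, h5, ← hc, ← hsd] at h4
    have hUC : D.UC i c (s + (D.e (lo i) : F) * D.e (mid i) * (c * D.σ c)) := by
      unfold UC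
      rw [map_add, map_mul, map_mul, map_mul, D.hσe, D.hσe, D.hσ]
      linear_combination h4
    refine ⟨c, _, hUC, ?_, rfl⟩
    apply Subtype.ext
    ext a b
    rw [uu_apply hs]
    by_cases hab : a = b
    · subst hab
      rw [hU.1, if_pos rfl, if_neg, if_neg, if_neg, add_zero, add_zero, add_zero]
      · rintro ⟨h6, h7⟩; exact (lo_lt_hi i).ne (h6.symm.trans h7)
      · rintro ⟨h6, h7⟩; exact (mid_lt_hi hs).ne (h6.symm.trans h7)
      · rintro ⟨h6, h7⟩; exact (lo_lt_mid hs).ne (h6.symm.trans h7)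
    · rw [if_neg hab, zero_add]
      rcases lt_or_gt_of_ne hab with hlt | hlt
      · have hlt' : (a : ℕ) < b := hlt
        have hml := (lo_lt_mid hs).ne
        have hmh := (mid_lt_hi hs).ne
        by_cases ha : a = lo i
        · subst ha
          by_cases hb : b = mid i
          · subst hb
            rw [h2]
            simp [hml, hmh]
          · by_cases hb' : b = hi i
            · subst hb'
              simp [hml, hmh.symm]
              ring
            · have hbb : (i : ℕ) + 2 < b := by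
                have e1 : (b : ℕ) ≠ i + 1 := fun h => hb (Fin.ext (by rw [mid_val]; exact h))
                have e2 : (b : ℕ) ≠ i + 2 := fun h => hb' (Fin.ext (by rw [hhi]; exact h))
                rw [lo_val] at hlt'
                omega
              rw [hx.entry hlt (c := i + 2) (by rw [lo_val]; omega) hbb (by rintro (h | h) <;> omega)]
              simp [hb, hb']
        · by_cases ha' : a = mid i
          · subst ha'
            by_cases hb' : b = hi i
            · subst hb'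
              simp [hml.symm]
              exact hc.symm
            · have hbb : (i : ℕ) + 2 < b := by
                have e2 : (b : ℕ) ≠ i + 2 := fun h => hb' (Fin.ext (by rw [hhi]; exact h))
                rw [mid_val] at hlt'
                omega
              rw [hx.entry hlt (c := i + 2) (by rw [mid_val]; omega) hbb (by rintro (h | h) <;> omega)]
              simp [hb', hml.symm]
          · have e1 : (a : ℕ) ≠ i := fun h => ha (Fin.ext h)
            have e2 : (a : ℕ) ≠ i + 1 := fun h => ha' (Fin.ext (by rw [mid_val]; exact h))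
            rw [hx.entry hlt (c := a) le_rfl hlt (by rintro (h | h) <;> omega)]
            simp [ha, ha']
      · rw [hU.2 _ _ hlt, if_neg, if_neg, if_neg, add_zero, add_zero]
        · rintro ⟨rfl, rfl⟩; exact absurd hlt (lo_lt_hi i).not_gt
        · rintro ⟨rfl, rfl⟩; exact absurd hlt (mid_lt_hi hs).not_gt
        · rintro ⟨rfl, rfl⟩; exact absurd hlt (lo_lt_mid hs).not_gt
  · intro a h6 h7 h8
    rcases lt_or_gt_of_ne h6 with h9 | h9
    · rw [hUi.2 _ _ h9, zero_mul]
    · rcases lt_or_gt_of_ne h8 with h10 | h10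
      · exfalso
        have h11 : ((lo i : Fin n) : ℕ) < a := h9
        have h12 : (a : ℕ) < (hi i : Fin n) := h10
        have h13 : (a : ℕ) ≠ (mid i : Fin n) := fun h => h7 (Fin.ext h)
        rw [lo_val] at h11
        rw [hhi] at h12
        rw [mid_val] at h13
        omega
      · rw [hU.2 _ _ h10, mul_zero]

/-- negative root elements are images of positive ones -/
theorem InY.γ {i : Fin (n / 2)} {y : Matrix.SpecialLinearGroup (Fin n) F} (hy : D.InY i y) :
    D.InX i (D.γ y) := by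
  refine ⟨by rw [D.τ_γ, hy.1], ?_, ?_⟩
  · rw [D.γ_γ]; exact hy.2.1
  · rw [D.γ_γ]; exact hy.2.2

theorem InX.γ {i : Fin (n / 2)} {y : Matrix.SpecialLinearGroup (Fin n) F} (hy : D.InX i y) :
    D.InY i (D.γ y) := ⟨by rw [D.τ_γ, hy.1], hy.2.1, hy.2.2⟩

theorem γ_rt {a b : Fin n} (h : Short a b) (t : F) : ∃ s, D.γ (D.rt a b t) = D.rt b a s := by
  have h1 : D.γ (D.rt a b t) = D.rt (Fin.rev a) (Fin.rev b) ((D.e (Fin.rev a) : F) * (D.e (Fin.rev b) : F) * t) := by
    unfold rt
    rw [map_mul, ← D.τ_γ, γ_xe h.ab]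
  have hs : Short (Fin.rev a) (Fin.rev b) := ⟨fun h' => h.ab (Fin.rev_injective h'), by
    rw [Fin.rev_rev]; exact fun h' => h.ar h'.symm, by rw [Fin.rev_rev]; exact h.aa.symm, by
    rw [Fin.rev_rev]; exact h.bb.symm⟩
  refine ⟨D.mc (Fin.rev a) (Fin.rev b) ((D.e (Fin.rev a) : F) * (D.e (Fin.rev b) : F) * t), ?_⟩
  rw [h1, rt_comm hs]
  unfold rt
  rw [D.τ_xe hs.ab, Fin.rev_rev, Fin.rev_rev]
  congr 1
  have h2 := D.τ_τ (xe (Fin.rev a) (Fin.rev b) ((D.e (Fin.rev a) : F) * (D.e (Fin.rev b) : F) * t))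
  rw [D.τ_xe hs.ab, Fin.rev_rev, Fin.rev_rev] at h2
  exact h2.symm

theorem InY.short {i : Fin (n / 2)} (hs : 2 * (i : ℕ) + 4 ≤ n) {y : Matrix.SpecialLinearGroup (Fin n) F}
    (hy : D.InY i y) : ∃ s, y = D.rt (hi i) (lo i) s := by
  have h1 := (hy.γ).short hs
  obtain ⟨s, h2⟩ := γ_rt (D := D) (short_of hs) ((D.γ y : Matrix (Fin n) (Fin n) F) (lo i) (hi i))
  refine ⟨s, ?_⟩
  rw [← h2, ← h1, D.γ_γ]

theorem InY.even {i : Fin (n / 2)} (hs : 2 * (i : ℕ) + 2 = n) {y : Matrix.SpecialLinearGroup (Fin n) F}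
    (hy : D.InY i y) : ∃ s, D.Lng s ∧ y = xe (hi i) (lo i) s := by
  obtain ⟨h1, h2⟩ := (hy.γ).even hs
  have hl : ¬ 2 * (i : ℕ) + 4 ≤ n := by omega
  have hr : Fin.rev (hi i) = (lo i : Fin n) := by rw [hi_eq_rev hl, Fin.rev_rev]
  have h3 : y = D.γ (D.γ y) := (D.γ_γ y).symm
  rw [h2, γ_xe (lo_lt_hi i).ne, hr, ← hi_eq_rev hl] at h3
  refine ⟨_, ?_, h3⟩
  unfold Lng at h1 ⊢
  have h4 : (D.e (hi i) : F) * (D.e (lo i) : F) = D.ε := by
    rw [mul_comm, hi_eq_rev hl, D.heec]
  have hn0 : 0 < n := by omega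
  rw [h4, map_mul, D.σε hn0]
  linear_combination (D.ε : F) * h1

end Cls

end CfsgH6
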