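import Cfsg.Agent.H6.Cls7

set_option autoImplicit false

/-! Torus elements of classical groups with long roots. -/

namespace CfsgH6

open Matrix

variable {F : Type*} [Field F] {n : ℕ}

namespace Cls

variable {D : Cls n F} {G : Subgroup (Matrix.SpecialLinearGroup (Fin n) F)}

/-- the rank one group over `{a, b}` -/
def AB (F : Type*) [Field F] {n : ℕ} (a b : Fin n) : Subgroup (Matrix.SpecialLinearGroup (Fin n) F) :=
  Subgroup.closure (Set.range (fun t : F => xe a b t) ∪ Set.range (fun t : F => xe b a t))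

theorem AB_comm {a b : Fin n} (h : Short a b) {x y : Matrix.SpecialLinearGroup (Fin n) F}
    (hx : x ∈ AB F a b) (hy : y ∈ AB F a b) : D.τ x * y = y * D.τ x := by
  have key : ∀ s t : F, (D.τ (xe a b s) * xe a b t = xe a b t * D.τ (xe a b s)) ∧
      (D.τ (xe a b s) * xe b a t = xe b a t * D.τ (xe a b s)) ∧
      (D.τ (xe b a s) * xe a b t = xe a b t * D.τ (xe b a s)) ∧
      (D.τ (xe b a s) * xe b a t = xe b a t * D.τ (xe b a s)) := fun s t =>
    ⟨(τ_xe_comm h s t).1, (τ_xe_comm h s t).2, (τ_xe_comm h.symm s t).2, (τ_xe_comm h.symm s t).1⟩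
  induction hx using Subgroup.closure_induction with
  | mem x hx =>
    induction hy using Subgroup.closure_induction with
    | mem y hy =>
      rcases hx with ⟨s, rfl⟩ | ⟨s, rfl⟩ <;> rcases hy with ⟨t, rfl⟩ | ⟨t, rfl⟩
      · exact (key s t).1
      · exact (key s t).2.1
      · exact (key s t).2.2.1
      · exact (key s t).2.2.2
    | one => rw [mul_one, one_mul]
    | mul y z _ _ hy hz => rw [← mul_assoc, hy, mul_assoc, hz, mul_assoc]
    | inv y _ hy =>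
      have : Commute (D.τ x) y := hy
      exact this.inv_right
  | one => rw [map_one, mul_one, one_mul]
  | mul x z _ _ hx hz => rw [map_mul, mul_assoc, hz, ← mul_assoc, hx, mul_assoc]
  | inv x _ hx =>
    have : Commute (D.τ x) y := hx
    rw [map_inv]
    exact this.inv_left

theorem xe_mem_AB (a b : Fin n) (t : F) : xe a b t ∈ AB F a b :=
  Subgroup.subset_closure (Or.inl ⟨t, rfl⟩)

theorem xe_mem_AB' (a b : Fin n) (t : F) : xe b a t ∈ AB F a b :=
  Subgroup.subset_closure (Or.inr ⟨t, rfl⟩)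

/-- the monomial element in rank one -/
def nx (a b : Fin n) (t : F) : Matrix.SpecialLinearGroup (Fin n) F := xe a b t * xe b a (-t⁻¹) * xe a b t

theorem nx_mem_AB (a b : Fin n) (t : F) : nx a b t ∈ AB F a b :=
  (AB F a b).mul_mem ((AB F a b).mul_mem (xe_mem_AB a b t) (xe_mem_AB' a b _)) (xe_mem_AB a b t)

theorem nx_inv {a b : Fin n} (_h : a ≠ b) (t : F) : (nx a b t)⁻¹ = nx a b (-t) := by
  unfold nx
  rw [_root_.mul_inv_rev, _root_.mul_inv_rev, xe_inv, xe_inv, neg_neg, inv_neg, neg_neg, mul_assoc]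

theorem nx_apply {a b : Fin n} (h : a ≠ b) {t : F} (ht : t ≠ 0) (x y : Fin n) :
    ((nx a b t : Matrix.SpecialLinearGroup (Fin n) F) : Matrix (Fin n) (Fin n) F) x y =
      if x = a then (if y = b then t else 0) else if x = b then (if y = a then -t⁻¹ else 0)
        else if x = y then 1 else 0 := by
  unfold nx
  rw [mul_xe_apply h, mul_xe_apply h.symm, mul_xe_apply h.symm, xe_apply h, xe_apply h, xe_apply h]
  by_cases hxa : x = a
  · subst hxa
    by_cases hyb : y = b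
    · subst hyb
      simp [h, h.symm, ht]
    · by_cases hya : y = x
      · subst hya
        simp [h, h.symm, ht]
      · simp [h, h.symm, ht, hyb, hya, Ne.symm hyb, Ne.symm hya]
  · by_cases hxb : x = b
    · subst hxb
      by_cases hyb : y = x
      · subst hyb
        simp [h, h.symm, ht]
      · by_cases hya : y = a
        · subst hya
          simp [h, h.symm, ht]
        · simp [h, h.symm, hyb, hya, Ne.symm hyb, Ne.symm hya]
    · by_cases hyb : y = b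
      · subst hyb
        simp [h, h.symm, hxa, hxb, Ne.symm hxa, Ne.symm hxb]
      · by_cases hya : y = a
        · subst hya
          simp [h, h.symm, hxa, hxb, Ne.symm hxa, Ne.symm hxb]
        · simp [hxa, hxb, hyb, hya, Ne.symm hxa]

theorem diag2n_nx {a b : Fin n} (h : a ≠ b) {t : F} (ht : t ≠ 0) :
    Matrix.SpecialLinearGroup.diag2n h t ht = nx a b t * (nx a b 1)⁻¹ := by
  rw [diag2n_eq h ht, nx_inv h]
  unfold nx
  rw [inv_neg, neg_neg, inv_one]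

/-- the torus element of a short root -/
noncomputable def dt {a b : Fin n} (D : Cls n F) (h : a ≠ b) (t : F) (ht : t ≠ 0) : Matrix.SpecialLinearGroup (Fin n) F :=
  Matrix.SpecialLinearGroup.diag2n h t ht * D.τ (Matrix.SpecialLinearGroup.diag2n h t ht)

theorem diag2n_diag {a b : Fin n} (h : a ≠ b) {t : F} (ht : t ≠ 0) {x y : Fin n} (hxy : x ≠ y) :
    ((Matrix.SpecialLinearGroup.diag2n h t ht : Matrix.SpecialLinearGroup (Fin n) F) :
      Matrix (Fin n) (Fin n) F) x y = 0 := by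
  rw [Matrix.SpecialLinearGroup.diag2n_coe, Matrix.diagonal_apply_ne _ hxy]

theorem τ_diag {g : Matrix.SpecialLinearGroup (Fin n) F}
    (hg : ∀ x y, x ≠ y → (g : Matrix (Fin n) (Fin n) F) x y = 0) {x y : Fin n} (hxy : x ≠ y) :
    ((D.τ g : Matrix.SpecialLinearGroup (Fin n) F) : Matrix (Fin n) (Fin n) F) x y = 0 := by
  have hm : IsMono 1 g := fun i j hij => hg i j hij
  rw [τ_apply, mono_inv hm, if_neg, map_zero, mul_zero]
  intro h
  exact hxy (Fin.rev_injective h)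

theorem τ_diag_apply {g : Matrix.SpecialLinearGroup (Fin n) F}
    (hg : ∀ x y, x ≠ y → (g : Matrix (Fin n) (Fin n) F) x y = 0) (x : Fin n) :
    ((D.τ g : Matrix.SpecialLinearGroup (Fin n) F) : Matrix (Fin n) (Fin n) F) x x =
      (D.σ ((g : Matrix (Fin n) (Fin n) F) (Fin.rev x) (Fin.rev x)))⁻¹ := by
  have hm : IsMono 1 g := fun i j hij => hg i j hij
  rw [τ_apply, mono_inv hm, D.hec, one_mul, if_pos (by simp), map_inv₀]
  simp

theorem mul_diag_of {g g' : Matrix.SpecialLinearGroup (Fin n) F}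
    (hg : ∀ x y, x ≠ y → (g : Matrix (Fin n) (Fin n) F) x y = 0)
    (hg' : ∀ x y, x ≠ y → (g' : Matrix (Fin n) (Fin n) F) x y = 0) {x y : Fin n} (hxy : x ≠ y) :
    ((g * g' : Matrix.SpecialLinearGroup (Fin n) F) : Matrix (Fin n) (Fin n) F) x y = 0 := by
  rw [diag_mul hg, hg' x y hxy, mul_zero]

theorem dt_diag {a b : Fin n} (h : a ≠ b) {t : F} (ht : t ≠ 0) {x y : Fin n} (hxy : x ≠ y) :
    ((D.dt h t ht : Matrix.SpecialLinearGroup (Fin n) F) : Matrix (Fin n) (Fin n) F) x y = 0 :=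
  mul_diag_of (fun _ _ => diag2n_diag h ht) (fun _ _ => τ_diag fun _ _ => diag2n_diag h ht) hxy

theorem diag2n_apply {a b : Fin n} (h : a ≠ b) {t : F} (ht : t ≠ 0) (x : Fin n) :
    ((Matrix.SpecialLinearGroup.diag2n h t ht : Matrix.SpecialLinearGroup (Fin n) F) :
      Matrix (Fin n) (Fin n) F) x x = if x = a then t else if x = b then t⁻¹ else 1 := by
  rw [Matrix.SpecialLinearGroup.diag2n_coe, Matrix.diagonal_apply_eq]

theorem dt_apply {a b : Fin n} (h : a ≠ b) {t : F} (ht : t ≠ 0) (x : Fin n) :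
    ((D.dt h t ht : Matrix.SpecialLinearGroup (Fin n) F) : Matrix (Fin n) (Fin n) F) x x =
      (if x = a then t else if x = b then t⁻¹ else 1) *
      (if x = Fin.rev a then (D.σ t)⁻¹ else if x = Fin.rev b then D.σ t else 1) := by
  unfold dt
  rw [diag_mul (fun _ _ => diag2n_diag h ht), τ_diag_apply (fun _ _ => diag2n_diag h ht), diag2n_apply,
    diag2n_apply]
  congr 1
  have e1 : (Fin.rev x = a) ↔ (x = Fin.rev a) := by
    constructor
    · rintro rfl; simp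
    · rintro rfl; simp
  have e2 : (Fin.rev x = b) ↔ (x = Fin.rev b) := by
    constructor
    · rintro rfl; simp
    · rintro rfl; simp
  simp only [e1, e2]
  split_ifs
  · rfl
  · rw [map_inv₀, inv_inv]
  · rw [map_one, inv_one]

theorem rt_nx {a b : Fin n} (h : Short a b) (t : F) :
    D.rt a b t * D.rt b a (-t⁻¹) * D.rt a b t = nx a b t * D.τ (nx a b t) := by
  have c1 := (τ_xe_comm (D := D) h t (-t⁻¹)).2
  have c2 := (τ_xe_comm (D := D) h.symm (-t⁻¹) t).2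
  have c3 := (τ_xe_comm (D := D) h t t).1
  unfold rt nx
  rw [map_mul, map_mul]
  generalize D.τ (xe a b t) = A' at *
  generalize D.τ (xe b a (-t⁻¹)) = B' at *
  generalize (xe a b t : Matrix.SpecialLinearGroup (Fin n) F) = A at *
  generalize (xe b a (-t⁻¹) : Matrix.SpecialLinearGroup (Fin n) F) = B at *
  calc A * A' * (B * B') * (A * A') = A * (A' * B) * (B' * A) * A' := by simp only [mul_assoc]
    _ = A * B * (A' * A) * B' * A' := by rw [c1, c2]; simp only [mul_assoc]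
    _ = (A * B * A) * (A' * B' * A') := by rw [c3]; simp only [mul_assoc]

theorem dt_eq {a b : Fin n} (h : Short a b) {t : F} (ht : t ≠ 0) :
    D.dt h.ab t ht = (D.rt a b t * D.rt b a (-t⁻¹) * D.rt a b t) *
      (D.rt a b 1 * D.rt b a (-1⁻¹) * D.rt a b 1)⁻¹ := by
  rw [rt_nx h, rt_nx h]
  unfold dt
  rw [diag2n_nx h.ab ht, map_mul, map_inv, _root_.mul_inv_rev]
  have c1 := AB_comm (D := D) h (nx_mem_AB a b t) (nx_mem_AB a b 1)
  have c2 := AB_comm (D := D) h (nx_mem_AB a b 1) (nx_mem_AB a b 1)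
  have c1' : Commute (D.τ (nx a b t)) ((nx a b 1)⁻¹) := Commute.inv_right c1
  have c2' : Commute (D.τ (nx a b 1))⁻¹ ((nx a b 1)⁻¹) := Commute.inv_inv c2
  calc nx a b t * (nx a b 1)⁻¹ * (D.τ (nx a b t) * (D.τ (nx a b 1))⁻¹) =
      nx a b t * ((nx a b 1)⁻¹ * D.τ (nx a b t)) * (D.τ (nx a b 1))⁻¹ := by simp only [mul_assoc]
    _ = nx a b t * D.τ (nx a b t) * ((nx a b 1)⁻¹ * (D.τ (nx a b 1))⁻¹) := by
      rw [← c1'.eq]; simp only [mul_assoc]
    _ = _ := by rw [← c2'.eq]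

theorem dt_mem (h : D.Good G) {i : Fin (n / 2)} (hs : 2 * (i : ℕ) + 4 ≤ n) {t : F} (ht : t ≠ 0) :
    D.dt (short_of hs).ab t ht ∈ G := by
  rw [dt_eq (short_of hs) ht]
  have m1 : ∀ t, D.rt (lo i) (hi i) t ∈ G := fun t => (inX_short hs t).memG h
  have m2 : ∀ t, D.rt (hi i) (lo i) t ∈ G := fun t => (inY_short hs t).memG h
  exact G.mul_mem (G.mul_mem (G.mul_mem (m1 _) (m2 _)) (m1 _)) (G.inv_mem (G.mul_mem (G.mul_mem (m1 _) (m2 _)) (m1 _)))

theorem hh_short (h : D.Good G) {i : Fin (n / 2)} (hs : 2 * (i : ℕ) + 4 ≤ n) {t : F} (ht : t ≠ 0) :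
    SL2Pair.hh (xS h hs) (yS h hs) t = mq (D.dt (short_of hs).ab t ht) (dt_mem h hs ht) := by
  have m1 : ∀ t, D.rt (lo i) (hi i) t ∈ G := fun t => (inX_short hs t).memG h
  have m2 : ∀ t, D.rt (hi i) (lo i) t ∈ G := fun t => (inY_short hs t).memG h
  have m3 : D.rt (lo i) (hi i) t * D.rt (hi i) (lo i) (-t⁻¹) * D.rt (lo i) (hi i) t *
      (D.rt (lo i) (hi i) 1 * D.rt (hi i) (lo i) (-1⁻¹) * D.rt (lo i) (hi i) 1)⁻¹ ∈ G :=
    G.mul_mem (G.mul_mem (G.mul_mem (m1 _) (m2 _)) (m1 _)) (G.inv_mem (G.mul_mem (G.mul_mem (m1 _) (m2 _)) (m1 _)))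
  have e1 : SL2Pair.hh (xS h hs) (yS h hs) t = mq (D.rt (lo i) (hi i) t * D.rt (hi i) (lo i) (-t⁻¹) *
      D.rt (lo i) (hi i) t * (D.rt (lo i) (hi i) 1 * D.rt (hi i) (lo i) (-1⁻¹) * D.rt (lo i) (hi i) 1)⁻¹) m3 := rfl
  rw [e1]
  exact mq_eq (dt_eq (short_of hs) ht).symm

/-! ### conjugation by diagonal elements -/

theorem diag_conj_rt {b : Matrix.SpecialLinearGroup (Fin n) F}
    (hb : ∀ x y, x ≠ y → (b : Matrix (Fin n) (Fin n) F) x y = 0) (hτ : D.τ b = b) {c d : Fin n}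
    (h : Short c d) (u : F) :
    b * D.rt c d u * b⁻¹ = D.rt c d ((b : Matrix (Fin n) (Fin n) F) c c * ((b : Matrix (Fin n) (Fin n) F) d d)⁻¹ * u) := by
  unfold rt
  rw [← diag_conj_xe hb h.ab, map_mul, map_mul, map_inv, hτ]
  group

theorem diag_sym {b : Matrix.SpecialLinearGroup (Fin n) F}
    (hb : ∀ x y, x ≠ y → (b : Matrix (Fin n) (Fin n) F) x y = 0) (hτ : D.τ b = b) (x : Fin n) :
    (b : Matrix (Fin n) (Fin n) F) x x * D.σ ((b : Matrix (Fin n) (Fin n) F) (Fin.rev x) (Fin.rev x)) = 1 := by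
  have h1 := τ_diag_apply (D := D) hb x
  rw [hτ] at h1
  rw [h1]
  apply inv_mul_cancel₀
  intro h2
  exact diag_ne hb (Fin.rev x) ((map_eq_zero D.σ).1 h2)

theorem diag_conj_uu {i : Fin (n / 2)} (hs : 2 * (i : ℕ) + 3 = n) {b : Matrix.SpecialLinearGroup (Fin n) F}
    (hb : ∀ x y, x ≠ y → (b : Matrix (Fin n) (Fin n) F) x y = 0) (hτ : D.τ b = b) (c u : F) :
    b * D.uu i c u * b⁻¹ = D.uu i ((b : Matrix (Fin n) (Fin n) F) (mid i) (mid i) *
      ((b : Matrix (Fin n) (Fin n) F) (hi i) (hi i))⁻¹ * c) ((b : Matrix (Fin n) (Fin n) F) (lo i) (lo i) *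
      ((b : Matrix (Fin n) (Fin n) F) (hi i) (hi i))⁻¹ * u) := by
  have h1 := (lo_lt_mid hs).ne
  have h2 := (mid_lt_hi hs).ne
  have h3 := (lo_lt_hi i).ne
  have s1 := diag_sym hb hτ (lo i)
  have s2 := diag_sym hb hτ (mid i)
  rw [rev_lo hs] at s1
  rw [rev_mid hs] at s2
  unfold uu
  have e : b * (xe (lo i) (mid i) (-((D.e (lo i) : F) * D.e (mid i) * D.σ c)) * xe (mid i) (hi i) c *
      xe (lo i) (hi i) u) * b⁻¹ = (b * xe (lo i) (mid i) (-((D.e (lo i) : F) * D.e (mid i) * D.σ c)) * b⁻¹) *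
      (b * xe (mid i) (hi i) c * b⁻¹) * (b * xe (lo i) (hi i) u * b⁻¹) := by group
  rw [e, diag_conj_xe hb h1, diag_conj_xe hb h2, diag_conj_xe hb h3]
  congr 3
  rw [map_mul, map_mul, map_inv₀]
  have n1 := diag_ne hb (mid i)
  have n2 : D.σ ((b : Matrix (Fin n) (Fin n) F) (hi i) (hi i)) ≠ 0 := fun h0 =>
    diag_ne hb (hi i) ((map_eq_zero D.σ).1 h0)
  have n3 : D.σ ((b : Matrix (Fin n) (Fin n) F) (mid i) (mid i)) ≠ 0 := fun h0 =>
    diag_ne hb (mid i) ((map_eq_zero D.σ).1 h0)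
  have s1' : (b : Matrix (Fin n) (Fin n) F) (lo i) (lo i) = (D.σ ((b : Matrix (Fin n) (Fin n) F) (hi i) (hi i)))⁻¹ :=
    eq_inv_of_mul_eq_one_left s1
  have s2' : ((b : Matrix (Fin n) (Fin n) F) (mid i) (mid i))⁻¹ = D.σ ((b : Matrix (Fin n) (Fin n) F) (mid i) (mid i)) :=
    inv_eq_of_mul_eq_one_right s2
  rw [s1', s2']
  ring

/-! ### the long root pair -/

theorem lng_mul {κ : F} (hκ : D.Lng κ) (k : fixF D.σ) : D.Lng (κ * k) := by
  unfold Lng at *
  rw [map_mul, mem_fixF.1 k.2]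
  linear_combination (k : F) * hκ

/-- long positive root elements -/
def xL (h : D.Good G) {κ : F} (hκ : D.LongHyp κ) {i : Fin (n / 2)} (hs : ¬ 2 * (i : ℕ) + 4 ≤ n)
    (k : fixF D.σ) : ↥G ⧸ Subgroup.center ↥G :=
  mq (xe (lo i) (hi i) (κ * k)) ((inX_long hs (lng_mul hκ.lng k)).memG h)

theorem npos (i : Fin (n / 2)) : 0 < n := by have := i.isLt; omega

/-- long negative root elements -/
def yL (h : D.Good G) {κ : F} (hκ : D.LongHyp κ) {i : Fin (n / 2)} (hs : ¬ 2 * (i : ℕ) + 4 ≤ n)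
    (k : fixF D.σ) : ↥G ⧸ Subgroup.center ↥G :=
  mq (xe (hi i) (lo i) (κ⁻¹ * k)) ((inY_long hs (lng_mul (hκ.lng.inv (npos i)) k)).memG h)

theorem xyxL (h : D.Good G) {κ : F} (hκ : D.LongHyp κ) {i : Fin (n / 2)} (hs : ¬ 2 * (i : ℕ) + 4 ≤ n)
    (s t : fixF D.σ) : xL h hκ hs s * yL h hκ hs t * xL h hκ hs s =
      mq (xe (lo i) (hi i) (κ * s) * xe (hi i) (lo i) (κ⁻¹ * t) * xe (lo i) (hi i) (κ * s))
      (G.mul_mem (G.mul_mem ((inX_long hs (lng_mul hκ.lng s)).memG h)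
        ((inY_long hs (lng_mul (hκ.lng.inv (npos i)) t)).memG h)) ((inX_long hs (lng_mul hκ.lng s)).memG h)) := rfl

theorem yxyL (h : D.Good G) {κ : F} (hκ : D.LongHyp κ) {i : Fin (n / 2)} (hs : ¬ 2 * (i : ℕ) + 4 ≤ n)
    (s t : fixF D.σ) : yL h hκ hs s * xL h hκ hs t * yL h hκ hs s =
      mq (xe (hi i) (lo i) (κ⁻¹ * s) * xe (lo i) (hi i) (κ * t) * xe (hi i) (lo i) (κ⁻¹ * s))
      (G.mul_mem (G.mul_mem ((inY_long hs (lng_mul (hκ.lng.inv (npos i)) s)).memG h)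
        ((inX_long hs (lng_mul hκ.lng t)).memG h)) ((inY_long hs (lng_mul (hκ.lng.inv (npos i)) s)).memG h)) := rfl

theorem pair_long [Finite F] (h : D.Good G) {κ : F} (hκ : D.LongHyp κ) {i : Fin (n / 2)}
    (hs : ¬ 2 * (i : ℕ) + 4 ≤ n) : SL2Pair (xL h hκ hs) (yL h hκ hs) where
  x_add s t := by
    refine (mq_eq ?_).trans (mq_mul _ _).symm
    rw [← xe_add, Subfield.coe_add, mul_add]
  y_add s t := by
    refine (mq_eq ?_).trans (mq_mul _ _).symm
    rw [← xe_add, Subfield.coe_add, mul_add]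
  x_inj := by
    intro s t hst
    have h1 := mq_UU_inj h hκ (xe_mem_UU (lo_lt_hi i) _) (xe_mem_UU (lo_lt_hi i) _) hst
    have h2 := xe_injective (lo_lt_hi i).ne h1
    exact Subtype.ext (mul_left_cancel₀ hκ.ne h2)
  y_inj := by
    intro s t hst
    have h1 := mq_LL_inj h hκ (xe_mem_LL (lo_lt_hi i) _) (xe_mem_LL (lo_lt_hi i) _) hst
    have h2 := xe_injective (lo_lt_hi i).ne' h1
    exact Subtype.ext (mul_left_cancel₀ (inv_ne_zero hκ.ne) h2)
  braid := by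
    intro t s hts
    rw [xyxL, yxyL]
    apply mq_eq
    apply xe_braid (lo_lt_hi i).ne
    have h1 : (t : F) * s = -1 := by exact_mod_cast congrArg Subtype.val hts
    have h2 := hκ.ne
    field_simp
    exact h1
  conv := by
    intro t s ht hts
    rw [xyxL, yxyL] at hts
    obtain ⟨r, hr⟩ := mq_smul h hκ hts.symm
    have ht' : (κ * (t : F)) ≠ 0 := mul_ne_zero hκ.ne (fun h0 => ht (Subtype.ext h0))
    have h1 := xe_conv (lo_lt_hi i).ne ht' hr
    have h2 := hκ.ne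
    apply Subtype.ext
    have h3 : κ * (t : F) * (κ⁻¹ * (s : F)) = (t : F) * s := by field_simp
    rw [h3] at h1
    exact_mod_cast h1

theorem lng_div {κ t : F} (hκ : D.Lng κ) (hκ0 : κ ≠ 0) (ht : D.Lng t) : κ⁻¹ * t ∈ fixF D.σ := by
  rw [mem_fixF, map_mul, map_inv₀]
  unfold Lng at *
  have h1 : D.σ κ ≠ 0 := fun h0 => hκ0 ((map_eq_zero D.σ).1 h0)
  have h2 : (D.ε : F) ≠ 0 := D.ε.ne_zero
  have e1 : κ⁻¹ = -((D.ε : F)⁻¹ * (D.σ κ)⁻¹) := by
    conv_lhs => rw [hκ]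
    rw [inv_neg, mul_inv]
  rw [e1]
  conv_rhs => rw [ht]
  field_simp

theorem mem_xL [Finite F] (h : D.Good G) {κ : F} (hκ : D.LongHyp κ) {i : Fin (n / 2)}
    (hs : ¬ 2 * (i : ℕ) + 4 ≤ n) {t : F} (ht : D.Lng t) :
    ∃ k : fixF D.σ, xL h hκ hs k = mq (xe (lo i) (hi i) t) ((inX_long hs ht).memG h) := by
  refine ⟨⟨κ⁻¹ * t, lng_div hκ.lng hκ.ne ht⟩, mq_eq ?_⟩
  congr 1
  show κ * (κ⁻¹ * t) = t
  rw [mul_inv_cancel_left₀ hκ.ne]

theorem mem_yL [Finite F] (h : D.Good G) {κ : F} (hκ : D.LongHyp κ) {i : Fin (n / 2)}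
    (hs : ¬ 2 * (i : ℕ) + 4 ≤ n) {t : F} (ht : D.Lng t) :
    ∃ k : fixF D.σ, yL h hκ hs k = mq (xe (hi i) (lo i) t) ((inY_long hs ht).memG h) := by
  have hn := npos i
  refine ⟨⟨(κ⁻¹)⁻¹ * t, lng_div (hκ.lng.inv hn) (inv_ne_zero hκ.ne) ht⟩, mq_eq ?_⟩
  congr 1
  show κ⁻¹ * ((κ⁻¹)⁻¹ * t) = t
  rw [mul_inv_cancel_left₀ (inv_ne_zero hκ.ne)]

/-! ### membership in the root groups of the quotient -/

theorem mem_qX [Finite F] (h : D.Good G) {κ : F} (hκ : D.LongHyp κ) {i : Fin (n / 2)}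
    {x : ↥G ⧸ Subgroup.center ↥G} (hx : x ∈ (qd h hκ).X i) : ∃ (s : Matrix.SpecialLinearGroup (Fin n) F)
      (hs : D.InX i s), x = mq s (hs.memG h) := by
  obtain ⟨s, hs, rfl⟩ := hx
  exact ⟨s.1, ⟨h.fix s.1 s.2, hs.1, hs.2⟩, rfl⟩

theorem mem_qY [Finite F] (h : D.Good G) {κ : F} (hκ : D.LongHyp κ) {i : Fin (n / 2)}
    {x : ↥G ⧸ Subgroup.center ↥G} (hx : x ∈ (qd h hκ).Y i) : ∃ (s : Matrix.SpecialLinearGroup (Fin n) F)
      (hs : D.InY i s), x = mq s (hs.memG h) := by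
  obtain ⟨s, hs, rfl⟩ := hx
  exact ⟨s.1, ⟨h.fix s.1 s.2, hs.1, hs.2⟩, rfl⟩

theorem InX.mem_qX [Finite F] (h : D.Good G) {κ : F} (hκ : D.LongHyp κ) {i : Fin (n / 2)}
    {s : Matrix.SpecialLinearGroup (Fin n) F} (hs : D.InX i s) : mq s (hs.memG h) ∈ (qd h hκ).X i :=
  ⟨⟨s, hs.memG h⟩, hs.2, rfl⟩

theorem InY.mem_qY [Finite F] (h : D.Good G) {κ : F} (hκ : D.LongHyp κ) {i : Fin (n / 2)}
    {s : Matrix.SpecialLinearGroup (Fin n) F} (hs : D.InY i s) : mq s (hs.memG h) ∈ (qd h hκ).Y i :=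
  ⟨⟨s, hs.memG h⟩, hs.2, rfl⟩

end Cls

end CfsgH6
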