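import Cfsg.Agent.H6.Cls8

set_option autoImplicit false

/-! Triviality of the permutation of the simple root groups, classical groups with long roots. -/

namespace CfsgH6

open Matrix

variable {F : Type*} [Field F] {n : ℕ}

theorem IsMono.mul {π π' : Equiv.Perm (Fin n)} {w w' : Matrix.SpecialLinearGroup (Fin n) F}
    (hw : IsMono π w) (hw' : IsMono π' w') : IsMono (π * π') (w * w') := by
  intro i j hij
  rw [Matrix.SpecialLinearGroup.coe_mul, Matrix.mul_apply]
  apply Finset.sum_eq_zero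
  intro k _
  by_cases h1 : i = π k
  · by_cases h2 : k = π' j
    · exfalso
      apply hij
      rw [h1, h2]; rfl
    · rw [hw' k j h2, mul_zero]
  · rw [hw i k h1, zero_mul]

namespace Cls

variable {D : Cls n F} {G : Subgroup (Matrix.SpecialLinearGroup (Fin n) F)}

theorem nx_mono {a b : Fin n} (h : a ≠ b) {t : F} (ht : t ≠ 0) : IsMono (Equiv.swap a b) (nx a b t) := by
  intro x y hxy
  rw [nx_apply h ht]
  by_cases hxa : x = a
  · subst hxa
    rw [if_pos rfl, if_neg]
    rintro rfl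
    apply hxy
    rw [Equiv.swap_apply_right]
  · rw [if_neg hxa]
    by_cases hxb : x = b
    · subst hxb
      rw [if_pos rfl, if_neg]
      rintro rfl
      apply hxy
      rw [Equiv.swap_apply_left]
    · rw [if_neg hxb, if_neg]
      rintro rfl
      apply hxy
      rw [Equiv.swap_apply_of_ne_of_ne hxa hxb]

/-- entries of products of unitriangular matrices with two-step path -/
theorem UU_mul_apply_of {x y : Matrix.SpecialLinearGroup (Fin n) F} (hx : x ∈ UU n F) (hy : y ∈ UU n F)
    {a c : Fin n} (hac : a < c) (h : ∀ b, a < b → b < c → (x : Matrix (Fin n) (Fin n) F) a b = 0 ∨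
      (y : Matrix (Fin n) (Fin n) F) b c = 0) :
    ((x * y : Matrix.SpecialLinearGroup (Fin n) F) : Matrix (Fin n) (Fin n) F) a c =
      (x : Matrix (Fin n) (Fin n) F) a c + (y : Matrix (Fin n) (Fin n) F) a c := by
  rw [Matrix.SpecialLinearGroup.coe_mul, Matrix.mul_apply, ← Finset.sum_subset (Finset.subset_univ {a, c})]
  · rw [Finset.sum_insert (by simp [hac.ne]), Finset.sum_singleton, hx.1, hy.1, one_mul, mul_one, add_comm]
  · intro b _ hb
    simp only [Finset.mem_insert, Finset.mem_singleton, not_or] at hb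
    rcases lt_or_gt_of_ne hb.1 with h1 | h1
    · rw [hx.2 _ _ h1, zero_mul]
    · rcases lt_or_gt_of_ne hb.2 with h2 | h2
      · rcases h b h1 h2 with h3 | h3
        · rw [h3, zero_mul]
        · rw [h3, mul_zero]
      · rw [hy.2 _ _ h2, mul_zero]

/-- root groups of distant nodes commute -/
theorem comm_XX {i j : Fin (n / 2)} (hij : (i : ℕ) + 2 ≤ j ∨ (j : ℕ) + 2 ≤ i)
    {x y : Matrix.SpecialLinearGroup (Fin n) F} (hx : D.InX i x) (hy : D.InX j y) : x * y = y * x := by
  have hi := i.isLt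
  have hj := j.isLt
  have key : ∀ {i j : Fin (n / 2)}, ((i : ℕ) + 2 ≤ j ∨ (j : ℕ) + 2 ≤ i) → ∀
      {x y : Matrix.SpecialLinearGroup (Fin n) F}, D.InX i x → D.InX j y → ∀ a c b : Fin n, a < b → b < c →
      (x : Matrix (Fin n) (Fin n) F) a b = 0 ∨ (y : Matrix (Fin n) (Fin n) F) b c = 0 := by
    intro i j hij x y hx hy a c b h1 h2
    have hi := i.isLt
    have hj := j.isLt
    have h1' : (a : ℕ) < b := h1
    by_cases h3 : cut n i ((b : ℕ) - 1)
    · right
      apply hy.entry h2 le_rfl h2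
      rintro (h4 | h4) <;> rcases h3 with h5 | h5 <;> rcases hij with h6 | h6 <;> omega
    · left
      exact hx.entry h1 (c := (b : ℕ) - 1) (by omega) (by omega) h3
  have hxU := hx.mem_UU
  have hyU := hy.mem_UU
  apply Subtype.ext
  ext a c
  rcases lt_trichotomy a c with h1 | h1 | h1
  · rw [UU_mul_apply_of hxU hyU h1 (key hij hx hy a c), UU_mul_apply_of hyU hxU h1
      (key hij.symm hy hx a c), add_comm]
  · subst h1
    rw [((UU n F).mul_mem hxU hyU).1, ((UU n F).mul_mem hyU hxU).1]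
  · rw [((UU n F).mul_mem hxU hyU).2 _ _ h1, ((UU n F).mul_mem hyU hxU).2 _ _ h1]

/-- a positive element with a non-zero entry in column `hi`, one step above the diagonal -/
theorem exists_X_elt {κ : F} (hκ : D.LongHyp κ) (i : Fin (n / 2)) :
    ∃ x, D.InX i x ∧ (x : Matrix (Fin n) (Fin n) F) (lo i) (mid i) ≠ 0 := by
  by_cases hs : 2 * (i : ℕ) + 4 ≤ n
  · refine ⟨_, inX_short hs 1, ?_⟩
    have hm : (mid i : Fin n) = hi i := Fin.ext (by rw [mid_val, hi_val_of_not (by omega)])
    rw [hm, rt_entry (short_of hs)]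
    exact one_ne_zero
  · by_cases h3 : 2 * (i : ℕ) + 3 = n
    · obtain ⟨b0, hb0⟩ := hκ.tr (by omega) ((D.e (lo i) : F) * D.e (mid i) * (1 * D.σ 1)) (by
        rw [map_mul, map_mul, map_mul, D.hσe, D.hσe, D.hσ, map_one])
      refine ⟨_, inX_uu h3 (c := 1) (b := b0) hb0, ?_⟩
      rw [uu_apply h3, if_neg (lo_lt_mid h3).ne, if_pos ⟨rfl, rfl⟩, if_neg (fun h => (lo_lt_mid h3).ne h.1),
        if_neg (fun h => (mid_lt_hi h3).ne h.2), map_one]
      simp
    · refine ⟨_, inX_long hs hκ.lng, ?_⟩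
      have hm : (mid i : Fin n) = hi i := Fin.ext (by rw [mid_val, hi_val_of_not h3])
      rw [hm, xe_entry (lo_lt_hi i).ne]
      exact hκ.ne

/-- adjacent root groups do not commute -/
theorem ncomm_adj [Finite F] (h : D.Good G) {κ : F} (hκ : D.LongHyp κ) {i j : Fin (n / 2)} (hij : (j : ℕ) = i + 1) :
    ∃ x ∈ (qd h hκ).X i, ∃ y ∈ (qd h hκ).X j, x * y ≠ y * x := by
  have hj := j.isLt
  obtain ⟨x, hx, hx0⟩ := exists_X_elt hκ i
  obtain ⟨y, hy, hy0⟩ := exists_X_elt hκ j
  refine ⟨_, hx.mem_qX h hκ, _, hy.mem_qX h hκ, ?_⟩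
  intro h1
  rw [mq_mul, mq_mul] at h1
  have hxU := hx.mem_UU
  have hyU := hy.mem_UU
  have h2 := mq_UU_inj h hκ ((UU n F).mul_mem hxU hyU) ((UU n F).mul_mem hyU hxU) h1
  have e1 : (mid i : Fin n) = lo j := Fin.ext (by rw [mid_val, lo_val, hij])
  have hlt : (lo i : Fin n) < mid j := by
    show ((lo i : Fin n) : ℕ) < (mid j : Fin n)
    rw [lo_val, mid_val]; omega
  -- the entry `(lo i, mid j)`
  have h3 : ((y * x : Matrix.SpecialLinearGroup (Fin n) F) : Matrix (Fin n) (Fin n) F) (lo i) (mid j) =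
      (y : Matrix (Fin n) (Fin n) F) (lo i) (mid j) + (x : Matrix (Fin n) (Fin n) F) (lo i) (mid j) := by
    apply UU_mul_apply_of hyU hxU hlt
    intro b hb1 hb2
    left
    have hb1' : ((lo i : Fin n) : ℕ) < b := hb1
    have hb2' : (b : ℕ) < (mid j : Fin n) := hb2
    rw [lo_val] at hb1'
    rw [mid_val] at hb2'
    apply hy.entry hb1 (c := i) (by rw [lo_val]) (by omega)
    rintro (h | h) <;> omega
  have h4 : ((x * y : Matrix.SpecialLinearGroup (Fin n) F) : Matrix (Fin n) (Fin n) F) (lo i) (mid j) =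
      (x : Matrix (Fin n) (Fin n) F) (lo i) (mid j) + (y : Matrix (Fin n) (Fin n) F) (lo i) (mid j) +
      (x : Matrix (Fin n) (Fin n) F) (lo i) (mid i) * (y : Matrix (Fin n) (Fin n) F) (lo j) (mid j) := by
    rw [Matrix.SpecialLinearGroup.coe_mul, Matrix.mul_apply, sum_three (a := lo i) (b := mid i) (c := mid j)]
    · rw [hxU.1, hyU.1, e1]; ring
    · intro h; have := congrArg Fin.val h; rw [lo_val, mid_val] at this; omega
    · exact hlt.ne
    · intro h; have := congrArg Fin.val h; rw [mid_val, mid_val] at this; omega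
    · intro b hb1 hb2 hb3
      rcases lt_or_gt_of_ne hb1 with h5 | h5
      · rw [hxU.2 _ _ h5, zero_mul]
      · rcases lt_or_gt_of_ne hb3 with h6 | h6
        · exfalso
          have h5' : ((lo i : Fin n) : ℕ) < b := h5
          have h6' : (b : ℕ) < (mid j : Fin n) := h6
          have h7 : (b : ℕ) ≠ (mid i : Fin n) := fun h => hb2 (Fin.ext h)
          rw [lo_val] at h5'
          rw [mid_val] at h6' h7
          omega
        · rw [hyU.2 _ _ h6, mul_zero]
  rw [h2, h3] at h4
  have h5 : (x : Matrix (Fin n) (Fin n) F) (lo i) (mid i) * (y : Matrix (Fin n) (Fin n) F) (lo j) (mid j) = 0 := by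
    linear_combination -h4
  rcases mul_eq_zero.1 h5 with h6 | h6
  · exact hx0 h6
  · exact hy0 h6

/-- if the last node is fixed then the permutation is trivial -/
theorem perm_id [Finite F] (h : D.Good G) {κ : F} (hκ : D.LongHyp κ)
    {β : MulAut (↥G ⧸ Subgroup.center ↥G)} {ρ : Fin (n / 2) → Fin (n / 2)} (hβ : (qd h hκ).Perm β ρ)
    (hl : ∀ i : Fin (n / 2), (ρ i : ℕ) + 1 = n / 2 → (i : ℕ) + 1 = n / 2) : ρ = id := by
  have hsurj : Function.Surjective ρ := Finite.surjective_of_injective hβ.inj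
  -- downwards
  have key : ∀ (k : ℕ) (i : Fin (n / 2)), (i : ℕ) + 1 + k = n / 2 → ρ i = i := by
    intro k
    induction k using Nat.strong_induction_on with
    | _ k ih =>
      intro i hik
      rcases Nat.eq_zero_or_pos k with hk | hk
      · subst hk
        obtain ⟨i', hi'⟩ := hsurj i
        have h1 := hl i' (by rw [hi']; omega)
        have h2 : i' = i := Fin.ext (by omega)
        rw [← h2, hi', h2]
      · -- `i + 1` is fixed
        have hlt : (i : ℕ) + 1 < n / 2 := by omega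
        have h1 := ih (k - 1) (by omega) ⟨(i : ℕ) + 1, hlt⟩ (by simp only; omega)
        obtain ⟨x, hx, y, hy, hxy⟩ := ncomm_adj h hκ (i := i) (j := ⟨(i : ℕ) + 1, hlt⟩) rfl
        have h2 := (hβ.pos i x).2 hx
        have h3 := (hβ.pos _ y).2 hy
        rw [h1] at h3
        have hne : ρ i ≠ ⟨(i : ℕ) + 1, hlt⟩ := by
          intro h4
          rw [← h1] at h4
          have := congrArg Fin.val (hβ.inj h4)
          simp only at this
          omega
        have hne2 : ∀ (k' : ℕ) (hk' : k' < k) (j : Fin (n / 2)), (j : ℕ) + 1 + k' = n / 2 → ρ i ≠ j := by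
          intro k' hk' j hj h4
          have h5 := ih k' hk' j hj
          rw [← h5] at h4
          have := congrArg Fin.val (hβ.inj h4)
          omega
        by_contra hne3
        apply hxy
        apply β.injective
        rw [map_mul, map_mul]
        obtain ⟨s, hs, hs'⟩ := mem_qX h hκ h2
        obtain ⟨t, ht, ht'⟩ := mem_qX h hκ h3
        rw [hs', ht', mq_mul, mq_mul]
        apply mq_eq
        apply comm_XX _ hs ht
        have h6 : (ρ i : ℕ) ≤ i := by
          by_contra h7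
          have h8 := (ρ i).isLt
          exact hne2 (n / 2 - 1 - (ρ i : ℕ)) (by omega) (ρ i) (by omega) rfl
        have h7 : (ρ i : ℕ) ≠ i := fun h => hne3 (Fin.ext h)
        left
        simp only
        omega
  funext i
  exact key (n / 2 - 1 - i) i (by have := i.isLt; omega)

/-! ### the last node is fixed: unitary groups -/

theorem σ_ne_of_odd {κ : F} (hκ : D.LongHyp κ) (hn : n % 2 = 1) : ∃ c, D.σ c ≠ c := by
  by_contra h
  push Not at h
  obtain ⟨b, hb⟩ := hκ.tr hn 1 (map_one _)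
  rw [h b] at hb
  have hi : 0 < n := by omega
  have h1 := hκ.lng
  unfold Lng at h1
  rw [h κ] at h1
  have hε : (D.ε : F) = 1 := by
    have h2 := D.heec ⟨n / 2, by omega⟩
    have h3 : Fin.rev (⟨n / 2, by omega⟩ : Fin n) = ⟨n / 2, by omega⟩ := by
      apply Fin.ext; rw [Fin.val_rev]; simp only; omega
    rw [h3, D.hec] at h2
    exact h2.symm
  rw [hε] at h1
  have h2 : κ * (b + b) = 0 := by linear_combination b * h1
  rw [hb, mul_one] at h2
  exact hκ.ne h2

theorem uu_ncomm {i : Fin (n / 2)} (hs : 2 * (i : ℕ) + 3 = n) {c c' b b' : F}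
    (hcc : c' * D.σ c ≠ c * D.σ c') : D.uu i c b * D.uu i c' b' ≠ D.uu i c' b' * D.uu i c b := by
  intro h1
  have h2 := congrArg (fun g : Matrix.SpecialLinearGroup (Fin n) F => (g : Matrix (Fin n) (Fin n) F) (lo i) (hi i)) h1
  simp only [Matrix.SpecialLinearGroup.coe_mul, Matrix.mul_apply] at h2
  have key : ∀ (c b c' b' : F), ∑ x, (D.uu i c b : Matrix (Fin n) (Fin n) F) (lo i) x *
      (D.uu i c' b' : Matrix (Fin n) (Fin n) F) x (hi i) =
      (b - (D.e (lo i) : F) * D.e (mid i) * (c * D.σ c)) + (b' - (D.e (lo i) : F) * D.e (mid i) * (c' * D.σ c')) +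
      -((D.e (lo i) : F) * D.e (mid i) * D.σ c) * c' := by
    intro c b c' b'
    have hml := (lo_lt_mid hs).ne
    have hmh := (mid_lt_hi hs).ne
    have hlh := (lo_lt_hi i).ne
    rw [sum_three hml hlh hmh]
    · simp [uu_apply hs, hml, hmh, hlh, hml.symm, hmh.symm, hlh.symm]
      ring
    · intro x h1 h2 h3
      rw [uu_apply hs]
      simp [h1, h2, h3, Ne.symm h1, Ne.symm h2, Ne.symm h3]
  rw [key, key] at h2
  apply hcc
  have e1 := D.hec (lo i)
  have e2 := D.hec (mid i)
  have h3 : ((D.e (lo i) : F) * D.e (lo i)) * ((D.e (mid i) : F) * D.e (mid i)) * (c' * D.σ c - c * D.σ c') = 0 := by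
    linear_combination -((D.e (lo i) : F) * D.e (mid i)) * h2
  rw [e1, e2, one_mul, one_mul] at h3
  linear_combination h3

theorem last_odd [Finite F] (h : D.Good G) {κ : F} (hκ : D.LongHyp κ) (hn : n % 2 = 1)
    {β : MulAut (↥G ⧸ Subgroup.center ↥G)} {ρ : Fin (n / 2) → Fin (n / 2)} (hβ : (qd h hκ).Perm β ρ)
    (i : Fin (n / 2)) (hi : (ρ i : ℕ) + 1 = n / 2) : (i : ℕ) + 1 = n / 2 := by
  by_contra hne
  have hil := i.isLt
  have hs : 2 * (i : ℕ) + 4 ≤ n := by omega
  have hl : 2 * (ρ i : ℕ) + 3 = n := by omega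
  obtain ⟨c, hc⟩ := σ_ne_of_odd hκ hn
  have htr : ∀ c, ∃ b, D.UC (ρ i) c b := fun c => hκ.tr hn _ (by
    rw [map_mul, map_mul, map_mul, D.hσe, D.hσe, D.hσ, mul_comm c])
  obtain ⟨b, hb⟩ := htr c
  obtain ⟨b1, hb1⟩ := htr 1
  have m1 := (inX_uu hl hb).mem_qX h hκ
  have m2 := (inX_uu hl hb1).mem_qX h hκ
  -- preimages are in `X i`, which is abelian
  obtain ⟨x, hx⟩ := β.surjective (mq (D.uu (ρ i) c b) ((inX_uu hl hb).memG h))
  obtain ⟨y, hy⟩ := β.surjective (mq (D.uu (ρ i) 1 b1) ((inX_uu hl hb1).memG h))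
  rw [← hx, hβ.pos] at m1
  rw [← hy, hβ.pos] at m2
  obtain ⟨s, hsX, hs'⟩ := mem_qX h hκ m1
  obtain ⟨t, htX, ht'⟩ := mem_qX h hκ m2
  have hcomm : x * y = y * x := by
    rw [hs', ht', mq_mul, mq_mul]
    apply mq_eq
    rw [hsX.short hs, htX.short hs, ← rt_add (short_of hs), ← rt_add (short_of hs), add_comm]
  have h1 := congrArg β hcomm
  rw [map_mul, map_mul, hx, hy, mq_mul, mq_mul] at h1
  have u1 := uu_mem_UU (D := D) hl c b
  have u2 := uu_mem_UU (D := D) hl 1 b1
  have h2 := mq_UU_inj h hκ ((UU n F).mul_mem u1 u2) ((UU n F).mul_mem u2 u1) h1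
  refine uu_ncomm hl ?_ h2
  rw [one_mul, map_one, mul_one]
  exact hc

theorem last_even [Finite F] (h : D.Good G) {κ : F} (hκ : D.LongHyp κ) (hn : n % 2 = 0)
    (hσ : ∃ c, D.σ c ≠ c)
    {β : MulAut (↥G ⧸ Subgroup.center ↥G)} {ρ : Fin (n / 2) → Fin (n / 2)} (hβ : (qd h hκ).Perm β ρ)
    (i : Fin (n / 2)) (hi : (ρ i : ℕ) + 1 = n / 2) : (i : ℕ) + 1 = n / 2 := by
  by_contra hne
  have hil := i.isLt
  have hs : 2 * (i : ℕ) + 4 ≤ n := by omega
  have hl : 2 * (ρ i : ℕ) + 2 = n := by omega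
  have hl' : ¬ 2 * (ρ i : ℕ) + 4 ≤ n := by omega
  have hex : ∀ t : F, ∃ k : fixF D.σ, β (xS h hs t) = xL h hκ hl' k := by
    intro t
    have m1 := (hβ.pos i _).2 ((inX_short (D := D) hs t).mem_qX h hκ)
    obtain ⟨s, hsX, hs'⟩ := mem_qX h hκ m1
    obtain ⟨h1, h2⟩ := hsX.even hl
    obtain ⟨k, hk⟩ := mem_xL h hκ hl' h1
    refine ⟨k, ?_⟩
    rw [hk]
    show β (mq _ _) = _
    rw [hs']
    exact mq_eq h2
  choose f hf using hex
  have hinj : Function.Injective f := by
    intro s t hst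
    apply (pair_short h hκ hs).x_inj
    apply β.injective
    rw [hf, hf, hst]
  have h1 : Function.Injective (fun t : F => (f t : F)) := fun s t hst => hinj (Subtype.ext hst)
  have h2 := Finite.surjective_of_injective h1
  obtain ⟨c, hc⟩ := hσ
  obtain ⟨t, ht⟩ := h2 c
  apply hc
  rw [← ht]
  exact mem_fixF.1 (f t).2

/-! ### the last node is fixed: symplectic groups -/

/-- transvections and short root elements are not conjugate up to scalars -/
theorem not_conj {a b c d : Fin n} (hab : a ≠ b) (hcd : Short c d) {s t : F} (hs : s ≠ 0)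
    (g : Matrix.SpecialLinearGroup (Fin n) F) {r : F} (hlt : c < d)
    (hg : ((g * xe a b t * g⁻¹ : Matrix.SpecialLinearGroup (Fin n) F) : Matrix (Fin n) (Fin n) F) =
      r • ((D.rt c d s : Matrix.SpecialLinearGroup (Fin n) F) : Matrix (Fin n) (Fin n) F)) : False := by
  have hn0 : 0 < n := lt_of_le_of_lt (Nat.zero_le _) a.isLt
  set E : Matrix (Fin n) (Fin n) F := Matrix.single a b t with hE
  set A : Matrix (Fin n) (Fin n) F := (g : Matrix (Fin n) (Fin n) F) with hA
  set A' : Matrix (Fin n) (Fin n) F := ((g⁻¹ : Matrix.SpecialLinearGroup (Fin n) F) : Matrix (Fin n) (Fin n) F) with hA'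
  have hAA' : A * A' = 1 := by
    rw [hA, hA', ← Matrix.SpecialLinearGroup.coe_mul, mul_inv_cancel, Matrix.SpecialLinearGroup.coe_one]
  have hA'A : A' * A = 1 := by
    rw [hA, hA', ← Matrix.SpecialLinearGroup.coe_mul, inv_mul_cancel, Matrix.SpecialLinearGroup.coe_one]
  set W : Matrix (Fin n) (Fin n) F := (D.rt c d s : Matrix (Fin n) (Fin n) F) with hW
  have hz : r • W - 1 = A * E * A' := by
    rw [← hg, Matrix.SpecialLinearGroup.coe_mul, Matrix.SpecialLinearGroup.coe_mul, xe_coe hab, ← hA, ← hA', ← hE,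
      mul_add, mul_one, add_mul, hAA']
    abel
  have hP : ∀ M : Matrix (Fin n) (Fin n) F, ∃ k : F, (r • W - 1) * M * (r • W - 1) = k • (r • W - 1) := by
    intro M
    refine ⟨t * (A' * M * A) b a, ?_⟩
    rw [hz]
    have h1 : A * E * A' * M * (A * E * A') = A * (E * (A' * M * A) * E) * A' := by
      simp only [mul_assoc]
    have h2 : E * (A' * M * A) * E = (t * (A' * M * A) b a) • E := by
      generalize A' * M * A = N
      ext x y
      rw [hE, Matrix.smul_apply, smul_eq_mul]
      by_cases hx : x = a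
      · by_cases hy : y = b
        · subst hx hy
          rw [Matrix.mul_single_apply_same, Matrix.single_mul_apply_same, Matrix.single_apply_same]
        · rw [Matrix.mul_single_apply_of_ne _ _ _ _ _ hy, Matrix.single_apply, if_neg (fun h => hy h.2.symm),
            mul_zero]
      · rw [Matrix.single_apply, if_neg (fun h => hx h.1.symm), mul_zero, Matrix.mul_apply]
        apply Finset.sum_eq_zero
        intro k _
        rw [Matrix.single_mul_apply_of_ne _ _ _ _ _ hx, zero_mul]
    rw [h1, h2, Matrix.mul_smul, Matrix.smul_mul]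
  -- `r = 1`
  have hU := rt_mem_UU (D := D) hlt s
  have hr : r = 1 := by
    have h1 : (r • W - 1) * (r • W - 1) = 0 := by
      rw [hz]
      have h2 : A * E * A' * (A * E * A') = A * (E * (A' * A) * E) * A' := by simp only [mul_assoc]
      rw [h2, hA'A, mul_one, hE, single_mul_single_zero hab.symm, mul_zero, zero_mul]
    have h2 := congrFun (congrFun h1 ⟨0, hn0⟩) ⟨0, hn0⟩
    rw [Matrix.mul_apply, Finset.sum_eq_single ⟨0, hn0⟩] at h2
    · simp only [Matrix.sub_apply, Matrix.smul_apply, Matrix.one_apply_eq, smul_eq_mul, hW, hU.1, mul_one,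
        Matrix.zero_apply] at h2
      have := mul_self_eq_zero.1 h2
      linear_combination this
    · intro k _ hk
      have h3 : (r • W - 1 : Matrix (Fin n) (Fin n) F) k ⟨0, hn0⟩ = 0 := by
        have h4 : (⟨0, hn0⟩ : Fin n) < k := by
          show 0 < (k : ℕ)
          rcases Nat.eq_zero_or_pos (k : ℕ) with h | h
          · exact absurd (Fin.ext h) hk
          · exact h
        rw [Matrix.sub_apply, Matrix.smul_apply, hW, hU.2 _ _ h4, Matrix.one_apply_ne h4.ne', smul_zero,
          sub_zero]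
      rw [h3, mul_zero]
    · simp
  subst hr
  rw [one_smul] at hP
  obtain ⟨k, hk⟩ := hP (Matrix.single d c 1)
  have hent : ∀ x y, (W - 1) x y = (if x = c ∧ y = d then s else 0) +
      (if x = Fin.rev d ∧ y = Fin.rev c then D.mc c d s else 0) := by
    intro x y
    rw [Matrix.sub_apply, hW, rt_apply hcd, Matrix.one_apply]
    ring
  have hmul : ∀ x y, ((W - 1) * Matrix.single d c 1 * (W - 1) : Matrix (Fin n) (Fin n) F) x y =
      (W - 1) x d * (W - 1) c y := by
    intro x y
    rw [Matrix.mul_apply, Finset.sum_eq_single c]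
    · rw [Matrix.mul_single_apply_same, mul_one]
    · intro l _ hl
      rw [Matrix.mul_single_apply_of_ne _ _ _ _ _ hl, zero_mul]
    · simp
  have hmc : D.mc c d s ≠ 0 := by
    unfold mc
    apply neg_ne_zero.2
    apply mul_ne_zero (mul_ne_zero (D.e _).ne_zero (D.e _).ne_zero)
    exact fun h0 => hs ((map_eq_zero D.σ).1 h0)
  have k1 := congrFun (congrFun hk (Fin.rev d)) (Fin.rev c)
  have k2 := congrFun (congrFun hk c) d
  rw [hmul, Matrix.smul_apply] at k1 k2
  simp only [hent] at k1 k2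
  have n1 := hcd.ab
  have n2 := hcd.ab.symm
  have n3 := hcd.ar
  have n4 := hcd.aa
  have n5 := hcd.bb
  have n6 := hcd.br
  have n7 := hcd.ba'
  simp [n1, n2, n3, n4, n5, n6, n7, n3.symm, n4.symm, n5.symm, n6.symm, n7.symm, hmc] at k1 k2
  rw [k1] at k2
  simp [hs] at k2

end Cls

end CfsgH6
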