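import Mathlib
import Cfsg.Prelude.Def_LinearParabolics

set_option autoImplicit false

/-! Block labels of compositions, matching lemmas, contingency tables. -/

namespace CfsgH6
namespace Gu

open Cfsg Finset

section label
variable {n : ℕ}

/-- partial sums -/
def ps (μ : Fin n → ℕ) (a : ℕ) : ℕ := ∑ k ∈ univ.filter (fun k : Fin n => k.val < a), μ k

theorem ps_mono (μ : Fin n → ℕ) {a b : ℕ} (h : a ≤ b) : ps μ a ≤ ps μ b := by
  unfold ps
  apply sum_le_sum_of_subset
  intro k hk
  rw [mem_filter] at hk ⊢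
  exact ⟨hk.1, lt_of_lt_of_le hk.2 h⟩

theorem ps_zero (μ : Fin n → ℕ) : ps μ 0 = 0 := by
  unfold ps
  rw [filter_false_of_mem (fun _ _ => by omega), sum_empty]

theorem ps_top (μ : Fin n → ℕ) : ps μ n = ∑ i, μ i := by
  unfold ps
  rw [filter_true_of_mem (fun k _ => k.2)]

theorem ps_succ (μ : Fin n → ℕ) (a : Fin n) : ps μ (a.val + 1) = ps μ a.val + μ a := by
  unfold ps
  have h1 : univ.filter (fun k : Fin n => k.val < a.val + 1) = insert a (univ.filter (fun k : Fin n => k.val < a.val)) := by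
    ext k
    simp only [mem_filter, mem_univ, true_and, mem_insert, Fin.ext_iff]
    omega
  rw [h1, sum_insert (by simp), add_comm]

theorem ps_le (μ : Fin n → ℕ) (a : ℕ) : ps μ a ≤ ∑ i, μ i :=
  sum_le_sum_of_subset (filter_subset _ _)

theorem compLabel_eq (μ : Fin n → ℕ) (i : Fin n) : compLabel μ i = (univ.filter (fun j : Fin n => ps μ (j.val + 1) ≤ i.val)).card := by
  unfold compLabel
  congr 1
  apply filter_congr
  intro j _
  have : ps μ (j.val + 1) = ∑ k ∈ univ.filter (fun k : Fin n => k ≤ j), μ k := by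
    unfold ps
    congr 1
    apply filter_congr
    intro k _
    rw [Fin.le_iff_val_le_val]
    omega
  rw [this]

theorem label_spec {μ : Fin n → ℕ} {i : Fin n} {a : ℕ} (ha : a < n) (h1 : ps μ a ≤ i.val) (h2 : i.val < ps μ (a + 1)) : compLabel μ i = a := by
  rw [compLabel_eq]
  have h3 : univ.filter (fun j : Fin n => ps μ (j.val + 1) ≤ i.val) = univ.filter (fun j : Fin n => j.val < a) := by
    apply filter_congr
    intro j _
    constructor
    · intro h
      by_contra h4
      have := ps_mono μ (show a + 1 ≤ j.val + 1 by omega)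
      omega
    · intro h
      exact (ps_mono μ (show j.val + 1 ≤ a by omega)).trans h1
  rw [h3]
  have h4 : univ.filter (fun j : Fin n => j.val < a) = univ.filter (fun j : Fin n => j < ⟨a, ha⟩) := by
    apply filter_congr
    intro j _
    rw [Fin.lt_def]
  rw [h4]
  have h5 : univ.filter (fun j : Fin n => j < ⟨a, ha⟩) = Iio (⟨a, ha⟩ : Fin n) := by
    ext j; simp
  rw [h5, Fin.card_Iio]

theorem label_ex {μ : Fin n → ℕ} (hμ : ∑ i, μ i = n) (i : Fin n) : ∃ a < n, ps μ a ≤ i.val ∧ i.val < ps μ (a + 1) := by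
  have hex : ∃ a, i.val < ps μ (a + 1) := ⟨n - 1, by
    have : n - 1 + 1 = n := by have := i.2; omega
    rw [this, ps_top, hμ]; exact i.2⟩
  classical
  have h1 := Nat.find_spec hex
  have h2 : Nat.find hex < n := by
    have h3 := Nat.find_min' hex (m := n - 1) (by
      have : n - 1 + 1 = n := by have := i.2; omega
      rw [this, ps_top, hμ]; exact i.2)
    have := i.2; omega
  refine ⟨Nat.find hex, h2, ?_, h1⟩
  rcases Nat.eq_zero_or_pos (Nat.find hex) with h | h
  · rw [h, ps_zero]; omega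
  · have h3 := Nat.find_min hex (m := Nat.find hex - 1) (by omega)
    rw [Nat.sub_add_cancel h] at h3
    omega

theorem label_lt {μ : Fin n → ℕ} (hμ : ∑ i, μ i = n) (i : Fin n) : compLabel μ i < n := by
  obtain ⟨a, ha, h1, h2⟩ := label_ex hμ i
  rw [label_spec ha h1 h2]; exact ha

theorem label_iff {μ : Fin n → ℕ} (hμ : ∑ i, μ i = n) (i : Fin n) {a : ℕ} (ha : a < n) : compLabel μ i = a ↔ ps μ a ≤ i.val ∧ i.val < ps μ (a + 1) := by
  constructor
  · intro h
    obtain ⟨b, hb, h1, h2⟩ := label_ex hμ i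
    have h3 := label_spec hb h1 h2
    rw [h] at h3
    rw [h3]; exact ⟨h1, h2⟩
  · intro h
    exact label_spec ha h.1 h.2

theorem label_mono (μ : Fin n → ℕ) {i j : Fin n} (h : i ≤ j) : compLabel μ i ≤ compLabel μ j := by
  rw [compLabel_eq, compLabel_eq]
  apply card_le_card
  intro k hk
  rw [mem_filter] at hk ⊢
  exact ⟨hk.1, hk.2.trans h⟩

/-- the label as an element of `Fin n` -/
def lab {μ : Fin n → ℕ} (hμ : ∑ i, μ i = n) (i : Fin n) : Fin n := ⟨compLabel μ i, label_lt hμ i⟩

theorem lab_val {μ : Fin n → ℕ} (hμ : ∑ i, μ i = n) (i : Fin n) : (lab hμ i).val = compLabel μ i := rfl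

theorem lab_card {μ : Fin n → ℕ} (hμ : ∑ i, μ i = n) (a : Fin n) : (univ.filter (fun i : Fin n => lab hμ i = a)).card = μ a := by
  have h1 : univ.filter (fun i : Fin n => lab hμ i = a) = univ.filter (fun i : Fin n => ps μ a.val ≤ i.val ∧ i.val < ps μ (a.val + 1)) := by
    apply filter_congr
    intro i _
    rw [Fin.ext_iff, lab_val]
    exact label_iff hμ i a.2
  rw [h1]
  have h2 : (univ.filter (fun i : Fin n => ps μ a.val ≤ i.val ∧ i.val < ps μ (a.val + 1))).map Fin.valEmbedding = Ico (ps μ a.val) (ps μ (a.val + 1)) := by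
    ext x
    simp only [mem_map, mem_filter, mem_univ, true_and, Fin.valEmbedding_apply, mem_Ico]
    constructor
    · rintro ⟨i, hi, rfl⟩; exact hi
    · intro hx
      have := ps_le μ (a.val + 1)
      exact ⟨⟨x, by omega⟩, hx, rfl⟩
  rw [← card_map Fin.valEmbedding, h2, Nat.card_Ico, ps_succ]
  omega

end label

section matching

theorem exists_equiv_fiber {α β γ : Type*} [Fintype α] [Fintype β] [DecidableEq γ] (f : α → γ) (g : β → γ)
    (h : ∀ c, (univ.filter (fun x => f x = c)).card = (univ.filter (fun y => g y = c)).card) : ∃ e : α ≃ β, ∀ x, g (e x) = f x := by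
  classical
  have h1 : ∀ c, Nonempty ({x // f x = c} ≃ {y // g y = c}) := by
    intro c
    apply Fintype.card_eq.1
    rw [Fintype.card_subtype, Fintype.card_subtype, h c]
  refine ⟨(Equiv.sigmaFiberEquiv f).symm.trans ((Equiv.sigmaCongrRight (fun c => (h1 c).some)).trans (Equiv.sigmaFiberEquiv g)), ?_⟩
  intro x
  exact ((h1 (f x)).some ⟨x, rfl⟩).2

variable {n : ℕ}

/-- contingency tables with given margins -/
abbrev Tab (ν μ : Fin n → ℕ) : Type := {m : Fin n → Fin n → ℕ // (∀ a, ∑ b, m a b = ν a) ∧ ∀ b, ∑ a, m a b = μ b}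

/-- the table of a permutation -/
def tabOf {ν μ : Fin n → ℕ} (hν : ∑ i, ν i = n) (hμ : ∑ i, μ i = n) (σ : Equiv.Perm (Fin n)) : Tab ν μ :=
  ⟨fun a b => (univ.filter (fun j => lab hν (σ j) = a ∧ lab hμ j = b)).card, by
    intro a
    rw [← lab_card hν a]
    have h1 : (univ.filter (fun i => lab hν i = a)).card = (univ.filter (fun j => lab hν (σ j) = a)).card := by
      apply card_bij (fun i _ => σ.symm i)
      · intro i hi; simpa using hi
      · intro i _ j _ h; exact σ.symm.injective h
      · intro j hj; exact ⟨σ j, by simpa using hj, by simp⟩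
    rw [h1, card_eq_sum_card_fiberwise (f := lab hμ) (t := univ) (fun _ _ => Finset.mem_coe.2 (mem_univ _))]
    apply sum_congr rfl
    intro b _
    rw [filter_filter], by
    intro b
    rw [← lab_card hμ b]
    rw [card_eq_sum_card_fiberwise (f := fun j => lab hν (σ j)) (t := univ) (fun _ _ => Finset.mem_coe.2 (mem_univ _))]
    apply sum_congr rfl
    intro a _
    rw [filter_filter]
    show (univ.filter (fun j => lab hν (σ j) = a ∧ lab hμ j = b)).card = _
    congr 1
    apply filter_congr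
    intro j _
    exact and_comm⟩

theorem tabOf_eq_of {ν μ : Fin n → ℕ} (hν : ∑ i, ν i = n) (hμ : ∑ i, μ i = n) {σ σ' π : Equiv.Perm (Fin n)}
    (h1 : ∀ j, lab hμ (π j) = lab hμ j) (h2 : ∀ j, lab hν (σ (π j)) = lab hν (σ' j)) : tabOf hν hμ σ' = tabOf hν hμ σ := by
  apply Subtype.ext
  funext a b
  show (univ.filter (fun j => lab hν (σ' j) = a ∧ lab hμ j = b)).card = (univ.filter (fun j => lab hν (σ j) = a ∧ lab hμ j = b)).card
  apply card_bij (fun j _ => π j)
  · intro j hj
    simp only [mem_filter, mem_univ, true_and] at hj ⊢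
    rw [h2, h1]; exact hj
  · intro i _ j _ h; exact π.injective h
  · intro j hj
    refine ⟨π.symm j, ?_, by simp⟩
    simp only [mem_filter, mem_univ, true_and] at hj ⊢
    rw [← h2, ← h1]; simpa using hj

theorem exists_of_tabOf_eq {ν μ : Fin n → ℕ} (hν : ∑ i, ν i = n) (hμ : ∑ i, μ i = n) {σ σ' : Equiv.Perm (Fin n)}
    (h : tabOf hν hμ σ = tabOf hν hμ σ') : ∃ s t : Equiv.Perm (Fin n), (∀ i, lab hν (s i) = lab hν i) ∧ (∀ j, lab hμ (t j) = lab hμ j) ∧ σ' = s * σ * t := by
  obtain ⟨t, ht⟩ := exists_equiv_fiber (fun j => (lab hν (σ' j), lab hμ j)) (fun j => (lab hν (σ j), lab hμ j)) (by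
    rintro ⟨a, b⟩
    have h1 := congrFun (congrFun (congrArg Subtype.val h) a) b
    simp only [Prod.mk.injEq]
    exact h1.symm)
  refine ⟨σ' * t⁻¹ * σ⁻¹, t, ?_, fun j => congrArg Prod.snd (ht j), by group⟩
  intro i
  have h2 := congrArg Prod.fst (ht (t.symm (σ.symm i)))
  simp only [Equiv.apply_symm_apply] at h2
  exact h2.symm

theorem tabOf_surj {ν μ : Fin n → ℕ} (hν : ∑ i, ν i = n) (hμ : ∑ i, μ i = n) : Function.Surjective (tabOf hν hμ) := by
  rintro ⟨m, hm1, hm2⟩
  have hcard : ∀ (p : Fin n × Fin n → Prop) [DecidablePred p],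
      (univ.filter (fun x : Σ ab : Fin n × Fin n, Fin (m ab.1 ab.2) => p x.1)).card = ∑ ab ∈ univ.filter p, m ab.1 ab.2 := by
    intro p _
    have h1 : univ.filter (fun x : Σ ab : Fin n × Fin n, Fin (m ab.1 ab.2) => p x.1) = (univ.filter p).sigma (fun ab => univ) := by
      ext x
      simp
    rw [h1, card_sigma]
    simp
  obtain ⟨e1, he1⟩ := exists_equiv_fiber (fun x : Σ ab : Fin n × Fin n, Fin (m ab.1 ab.2) => x.1.1) (lab hν) (by
    intro a
    rw [lab_card, hcard (fun ab => ab.1 = a), ← hm1 a]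
    symm
    apply sum_bij (fun b _ => (a, b))
    · intro b _; simp
    · intro b _ b' _ h; simpa using h
    · rintro ⟨a', b⟩ h
      simp only [mem_filter, mem_univ, true_and] at h
      exact ⟨b, mem_univ _, by rw [h]⟩
    · intro b _; rfl)
  obtain ⟨e2, he2⟩ := exists_equiv_fiber (fun x : Σ ab : Fin n × Fin n, Fin (m ab.1 ab.2) => x.1.2) (lab hμ) (by
    intro b
    rw [lab_card, hcard (fun ab => ab.2 = b), ← hm2 b]
    symm
    apply sum_bij (fun a _ => (a, b))
    · intro b _; simp
    · intro b _ b' _ h; simpa using h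
    · rintro ⟨a, b'⟩ h
      simp only [mem_filter, mem_univ, true_and] at h
      exact ⟨a, mem_univ _, by rw [h]⟩
    · intro b _; rfl)
  refine ⟨e2.symm.trans e1, ?_⟩
  apply Subtype.ext
  funext a b
  show (univ.filter (fun j => lab hν (e1 (e2.symm j)) = a ∧ lab hμ j = b)).card = m a b
  have h3 : (univ.filter (fun j => lab hν (e1 (e2.symm j)) = a ∧ lab hμ j = b)).card =
      (univ.filter (fun x : Σ ab : Fin n × Fin n, Fin (m ab.1 ab.2) => x.1 = (a, b))).card := by
    apply card_bij (fun j _ => e2.symm j)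
    · intro j hj
      simp only [mem_filter, mem_univ, true_and] at hj ⊢
      rw [he1] at hj
      have h4 := he2 (e2.symm j)
      rw [Equiv.apply_symm_apply] at h4
      rw [h4] at hj
      exact Prod.ext hj.1 hj.2
    · intro i _ j _ h; exact e2.symm.injective h
    · intro x hx
      simp only [mem_filter, mem_univ, true_and] at hx
      refine ⟨e2 x, ?_, by simp⟩
      simp only [mem_filter, mem_univ, true_and, Equiv.symm_apply_apply]
      rw [he1, he2, hx]
      exact ⟨rfl, rfl⟩
  rw [h3, hcard (fun ab => ab = (a, b))]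
  rw [filter_eq', if_pos (mem_univ _), sum_singleton]

end matching

end Gu
end CfsgH6
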