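import Cfsg.Agent.H6.Gu1
import Cfsg.Agent.H6.Bruhat
import Cfsg.Agent.H6.St10

set_option autoImplicit false

/-! Double cosets of parabolic subgroups of `GL_n` and of Young subgroups. -/

namespace CfsgH6
namespace Gu

open Cfsg Finset

section
variable {G : Type*} [Group G]

theorem orbits_eq {X : Type*} (P Q : Subgroup G) (inv : G → X) (h1 : ∀ p ∈ P, ∀ q ∈ Q, ∀ g, inv (p * g * q) = inv g)
    (h2 : ∀ g g', inv g = inv g' → ∃ p ∈ P, ∃ q ∈ Q, g' = p * g * q) (h3 : Function.Surjective inv) :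
    Nat.card (Quotient (MulAction.orbitRel G ((G ⧸ P) × (G ⧸ Q)))) = Nat.card X := by
  symm
  apply Nat.card_congr
  refine Equiv.ofBijective (fun x => (Quotient.mk'' ((QuotientGroup.mk 1, QuotientGroup.mk (Function.surjInv h3 x)) : (G ⧸ P) × (G ⧸ Q)) :
    Quotient (MulAction.orbitRel G ((G ⧸ P) × (G ⧸ Q))))) ⟨?_, ?_⟩
  · intro x y h
    have h4 := Quotient.eq''.1 h
    rw [MulAction.orbitRel_apply, MulAction.mem_orbit_iff] at h4
    obtain ⟨z, hz⟩ := h4
    have h5 : (QuotientGroup.mk (z * 1) : G ⧸ P) = QuotientGroup.mk 1 := congrArg Prod.fst hz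
    have h6 : (QuotientGroup.mk (z * Function.surjInv h3 y) : G ⧸ Q) = QuotientGroup.mk (Function.surjInv h3 x) := congrArg Prod.snd hz
    rw [QuotientGroup.eq] at h5 h6
    have hzP : z ∈ P := by
      have : z = ((z * 1)⁻¹ * 1)⁻¹ := by group
      rw [this]; exact P.inv_mem h5
    have h7 := h1 z hzP _ h6 (Function.surjInv h3 y)
    have h8 : z * Function.surjInv h3 y * ((z * Function.surjInv h3 y)⁻¹ * Function.surjInv h3 x) = Function.surjInv h3 x := by group
    rw [h8] at h7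
    rw [Function.surjInv_eq h3 x, Function.surjInv_eq h3 y] at h7
    exact h7
  · intro ω
    induction ω using Quotient.inductionOn' with
    | h z =>
      obtain ⟨a, c⟩ := z
      induction a using QuotientGroup.induction_on with
      | H a =>
        induction c using QuotientGroup.induction_on with
        | H c =>
          obtain ⟨p, hp, q, hq, h4⟩ := h2 (Function.surjInv h3 (inv (a⁻¹ * c))) (a⁻¹ * c) (Function.surjInv_eq _ _)
          refine ⟨inv (a⁻¹ * c), ?_⟩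
          apply Quotient.eq''.2
          rw [MulAction.orbitRel_apply, MulAction.mem_orbit_iff]
          refine ⟨p⁻¹ * a⁻¹, ?_⟩
          apply Prod.ext
          · show (QuotientGroup.mk (p⁻¹ * a⁻¹ * a) : G ⧸ P) = QuotientGroup.mk 1
            rw [QuotientGroup.eq]
            have : (p⁻¹ * a⁻¹ * a)⁻¹ * 1 = p := by group
            rw [this]; exact hp
          · show (QuotientGroup.mk (p⁻¹ * a⁻¹ * c) : G ⧸ Q) = QuotientGroup.mk (Function.surjInv h3 (inv (a⁻¹ * c)))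
            rw [QuotientGroup.eq]
            have : (p⁻¹ * a⁻¹ * c)⁻¹ * Function.surjInv h3 (inv (a⁻¹ * c)) = q⁻¹ := by
              calc (p⁻¹ * a⁻¹ * c)⁻¹ * Function.surjInv h3 (inv (a⁻¹ * c)) = (a⁻¹ * c)⁻¹ * p * Function.surjInv h3 (inv (a⁻¹ * c)) := by group
                _ = (p * Function.surjInv h3 (inv (a⁻¹ * c)) * q)⁻¹ * p * Function.surjInv h3 (inv (a⁻¹ * c)) := by rw [← h4]
                _ = q⁻¹ := by group
            rw [this]; exact Q.inv_mem hq

theorem inner_table [Fintype G] {X : Type*} (P Q : Subgroup G) (inv : G → X) (h1 : ∀ p ∈ P, ∀ q ∈ Q, ∀ g, inv (p * g * q) = inv g)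
    (h2 : ∀ g g', inv g = inv g' → ∃ p ∈ P, ∃ q ∈ Q, g' = p * g * q) (h3 : Function.Surjective inv) :
    classInner (fixedPointCharacter P) (fixedPointCharacter Q) = (Nat.card X : ℂ) := by
  rw [Stb.inner_fpc, orbits_eq P Q inv h1 h2 h3]
end

variable {n : ℕ}

theorem mem_young {μ : Fin n → ℕ} (hμ : ∑ i, μ i = n) (σ : Equiv.Perm (Fin n)) : σ ∈ youngSubgroup μ ↔ ∀ i, lab hμ (σ i) = lab hμ i := by
  constructor
  · intro h i
    exact Fin.ext (h i)
  · intro h i
    exact congrArg Fin.val (h i)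

theorem inner_young {ν μ : Fin n → ℕ} (hν : ∑ i, ν i = n) (hμ : ∑ i, μ i = n) :
    classInner (fixedPointCharacter (youngSubgroup ν)) (fixedPointCharacter (youngSubgroup μ)) = (Nat.card (Tab ν μ) : ℂ) := by
  apply inner_table _ _ (tabOf hν hμ)
  · intro p hp q hq σ
    rw [mem_young hν] at hp
    rw [mem_young hμ] at hq
    apply tabOf_eq_of hν hμ (π := q) hq
    intro j
    show lab hν (σ (q j)) = lab hν (p (σ (q j)))
    rw [hp]
  · intro σ σ' h
    obtain ⟨s, t, hs, ht, he⟩ := exists_of_tabOf_eq hν hμ h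
    exact ⟨s, (mem_young hν s).2 hs, t, (mem_young hμ t).2 ht, he⟩
  · exact tabOf_surj hν hμ

section MatGL
variable {F : Type*} [Field F]

/-- permutation matrices -/
def pmat (σ : Equiv.Perm (Fin n)) : Matrix (Fin n) (Fin n) F := Matrix.of fun i j => if i = σ j then 1 else 0

theorem pmat_apply (σ : Equiv.Perm (Fin n)) (i j : Fin n) : (pmat σ : Matrix (Fin n) (Fin n) F) i j = if i = σ j then 1 else 0 := rfl

theorem mul_pmat (A : Matrix (Fin n) (Fin n) F) (σ : Equiv.Perm (Fin n)) (i j : Fin n) :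
    ((A * (pmat σ : Matrix (Fin n) (Fin n) F) : Matrix (Fin n) (Fin n) F)) i j = A i (σ j) := by
  rw [Matrix.mul_apply, sum_eq_single (σ j)]
  · rw [pmat_apply, if_pos rfl, mul_one]
  · intro k _ hk
    rw [pmat_apply, if_neg hk, mul_zero]
  · intro h; exact absurd (mem_univ _) h

theorem pmat_mul' (A : Matrix (Fin n) (Fin n) F) (σ : Equiv.Perm (Fin n)) (i j : Fin n) :
    (((pmat σ : Matrix (Fin n) (Fin n) F) * A : Matrix (Fin n) (Fin n) F)) i j = A (σ.symm i) j := by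
  rw [Matrix.mul_apply, sum_eq_single (σ.symm i)]
  · rw [pmat_apply, if_pos (by simp), one_mul]
  · intro k _ hk
    rw [pmat_apply, if_neg (by rintro rfl; exact hk (by simp)), zero_mul]
  · intro h; exact absurd (mem_univ _) h

theorem exists_perm_of_det {M : Matrix (Fin n) (Fin n) F} (h : M.det ≠ 0) : ∃ π : Equiv.Perm (Fin n), ∀ j, M (π j) j ≠ 0 := by
  rw [Matrix.det_apply] at h
  obtain ⟨π, _, hπ⟩ := exists_ne_zero_of_sum_ne_zero h
  refine ⟨π, fun j h0 => hπ ?_⟩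
  have h1 : ∏ i, M (π i) i = 0 := prod_eq_zero (i := j) (mem_univ j) h0
  rw [h1, smul_zero]

theorem pmat_mul (σ τ : Equiv.Perm (Fin n)) : (pmat σ : Matrix (Fin n) (Fin n) F) * pmat τ = pmat (σ * τ) := by
  ext i j
  rw [mul_pmat]
  rfl

theorem pmat_one : (pmat 1 : Matrix (Fin n) (Fin n) F) = 1 := by
  ext i j
  rw [pmat_apply, Matrix.one_apply]
  rfl

def pm (F : Type*) [Field F] (σ : Equiv.Perm (Fin n)) : GL (Fin n) F :=
  ⟨pmat σ, pmat σ⁻¹, by rw [pmat_mul, mul_inv_cancel, pmat_one], by rw [pmat_mul, inv_mul_cancel, pmat_one]⟩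

theorem pm_mul (σ τ : Equiv.Perm (Fin n)) : pm F σ * pm F τ = pm F (σ * τ) := by
  apply Units.ext
  exact pmat_mul σ τ

theorem pm_mem {ν : Fin n → ℕ} (hν : ∑ i, ν i = n) {σ : Equiv.Perm (Fin n)} (h : ∀ i, lab hν (σ i) = lab hν i) : pm F σ ∈ parabolicGL n F ν := by
  show (pmat σ : Matrix (Fin n) (Fin n) F).BlockTriangular (compLabel ν)
  intro i j hij
  show (if i = σ j then (1 : F) else 0) = 0
  rw [if_neg]
  rintro rfl
  have := congrArg Fin.val (h j)
  rw [lab_val, lab_val] at this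
  omega

theorem upper_mem (ν : Fin n → ℕ) {g : GL (Fin n) F} (h : ∀ i j, j < i → (g : Matrix (Fin n) (Fin n) F) i j = 0) : g ∈ parabolicGL n F ν := by
  show (g : Matrix (Fin n) (Fin n) F).BlockTriangular (compLabel ν)
  intro i j hij
  apply h
  by_contra hlt
  push Not at hlt
  have := label_mono ν hlt
  omega

theorem exists_bruhat (g : GL (Fin n) F) : ∃ (σ : Equiv.Perm (Fin n)) (u v : GL (Fin n) F), (∀ ν : Fin n → ℕ, u ∈ parabolicGL n F ν) ∧
    (∀ ν : Fin n → ℕ, v ∈ parabolicGL n F ν) ∧ g = u * pm F σ * v := by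
  have hdet : (g : Matrix (Fin n) (Fin n) F).det ≠ 0 := by
    have := Matrix.GeneralLinearGroup.det_ne_zero g
    exact this
  obtain ⟨u, v, M, σ, hu, hv, hM, h⟩ := bruhat_exists n (g : Matrix (Fin n) (Fin n) F) hdet
  have hMd : M.det ≠ 0 := by
    intro h0
    apply hdet
    rw [h, Matrix.det_mul, Matrix.det_mul, h0]; ring
  have hMne : ∀ j, M (σ j) j ≠ 0 := by
    intro j h0
    apply hMd
    apply Matrix.det_eq_zero_of_column_eq_zero j
    intro i
    by_cases hi : i = σ j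
    · rw [hi]; exact h0
    · exact hM i j hi
  -- diagonal part
  let d : GL (Fin n) F := ⟨Matrix.diagonal (fun j => M (σ j) j), Matrix.diagonal (fun j => (M (σ j) j)⁻¹), by
    rw [Matrix.diagonal_mul_diagonal, ← Matrix.diagonal_one]
    congr 1; funext j; exact mul_inv_cancel₀ (hMne j), by
    rw [Matrix.diagonal_mul_diagonal, ← Matrix.diagonal_one]
    congr 1; funext j; exact inv_mul_cancel₀ (hMne j)⟩
  let u' : GL (Fin n) F := Matrix.GeneralLinearGroup.mkOfDetNeZero u (by rw [isUU_det hu]; exact one_ne_zero)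
  let v' : GL (Fin n) F := Matrix.GeneralLinearGroup.mkOfDetNeZero v (by rw [isUU_det hv]; exact one_ne_zero)
  have hMd' : M = pmat σ * Matrix.diagonal (fun j => M (σ j) j) := by
    ext i j
    rw [Matrix.mul_diagonal]
    show M i j = (if i = σ j then (1 : F) else 0) * M (σ j) j
    by_cases hi : i = σ j
    · rw [if_pos hi, one_mul, hi]
    · rw [if_neg hi, zero_mul, hM i j hi]
  refine ⟨σ, u', d * v', fun ν => upper_mem ν (fun i j hij => hu.2 i j hij), fun ν => Subgroup.mul_mem _ (upper_mem ν ?_) (upper_mem ν (fun i j hij => hv.2 i j hij)), ?_⟩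
  · intro i j hij
    exact Matrix.diagonal_apply_ne _ hij.ne'
  · apply Units.ext
    show (g : Matrix (Fin n) (Fin n) F) = u * pmat σ * (Matrix.diagonal (fun j => M (σ j) j) * v)
    rw [h]
    conv_lhs => rw [hMd']
    simp only [Matrix.mul_assoc]

theorem pm_double {ν μ : Fin n → ℕ} (hν : ∑ i, ν i = n) (hμ : ∑ i, μ i = n) {σ σ' : Equiv.Perm (Fin n)} {p q : GL (Fin n) F}
    (hp : p ∈ parabolicGL n F ν) (hq : q ∈ parabolicGL n F μ) (h : pm F σ' = p * pm F σ * q) :
    ∃ π : Equiv.Perm (Fin n), (∀ j, lab hμ (π j) = lab hμ j) ∧ (∀ j, lab hν (σ (π j)) = lab hν (σ' j)) := by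
  have hdet : (q : Matrix (Fin n) (Fin n) F).det ≠ 0 := Matrix.GeneralLinearGroup.det_ne_zero q
  obtain ⟨π, hπ'⟩ := exists_perm_of_det hdet
  have hpi : p⁻¹ ∈ parabolicGL n F ν := Subgroup.inv_mem _ hp
  have h1 : p⁻¹ * pm F σ' = pm F σ * q := by rw [h]; group
  have h2 : ∀ i j, ((p⁻¹ : GL (Fin n) F) : Matrix (Fin n) (Fin n) F) i (σ' j) = (q : Matrix (Fin n) (Fin n) F) (σ.symm i) j := by
    intro i j
    have h0 : ((p⁻¹ * pm F σ' : GL (Fin n) F) : Matrix (Fin n) (Fin n) F) = ((pm F σ * q : GL (Fin n) F) : Matrix (Fin n) (Fin n) F) := by rw [h1]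
    have h3 : ((p⁻¹ * pm F σ' : GL (Fin n) F) : Matrix (Fin n) (Fin n) F) i j = ((pm F σ * q : GL (Fin n) F) : Matrix (Fin n) (Fin n) F) i j := by rw [h0]
    have h4 : ((p⁻¹ * pm F σ' : GL (Fin n) F) : Matrix (Fin n) (Fin n) F) i j = ((p⁻¹ : GL (Fin n) F) : Matrix (Fin n) (Fin n) F) i (σ' j) :=
      mul_pmat _ σ' i j
    have h5 : ((pm F σ * q : GL (Fin n) F) : Matrix (Fin n) (Fin n) F) i j = (q : Matrix (Fin n) (Fin n) F) (σ.symm i) j :=
      pmat_mul' _ σ i j
    rw [← h4, ← h5]; exact h3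
  have h3 : ∀ j, compLabel μ (π j) ≤ compLabel μ j := by
    intro j
    by_contra hlt
    push Not at hlt
    exact hπ' j (hq hlt)
  have h4 : ∀ j, compLabel ν (σ (π j)) ≤ compLabel ν (σ' j) := by
    intro j
    by_contra hlt
    push Not at hlt
    have h5 : ((p⁻¹ : GL (Fin n) F) : Matrix (Fin n) (Fin n) F) (σ (π j)) (σ' j) = 0 := hpi hlt
    rw [h2, Equiv.symm_apply_apply] at h5
    exact hπ' j h5
  refine ⟨π, ?_, ?_⟩
  · have h5 : ∑ j, compLabel μ (π j) = ∑ j, compLabel μ j := Equiv.sum_comp π (compLabel μ)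
    have h6 := (sum_eq_sum_iff_of_le (fun j _ => h3 j)).1 h5
    intro j
    exact Fin.ext (h6 j (mem_univ _))
  · have h5 : ∑ j, compLabel ν (σ (π j)) = ∑ j, compLabel ν (σ' j) := by
      rw [Equiv.sum_comp π (fun j => compLabel ν (σ j)), Equiv.sum_comp σ (compLabel ν), Equiv.sum_comp σ' (compLabel ν)]
    have h6 := (sum_eq_sum_iff_of_le (fun j _ => h4 j)).1 h5
    intro j
    exact Fin.ext (h6 j (mem_univ _))

theorem grp1 {G : Type*} [Group G] {u' p u m v q v' m' : G} (h : p * (u * m * v) * q = u' * m' * v') : m' = (u'⁻¹ * p * u) * m * (v * q * v'⁻¹) := by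
  have : m' = u'⁻¹ * (u' * m' * v') * v'⁻¹ := by group
  rw [this, ← h]; group

theorem grp2 {G : Type*} [Group G] {g u m v : G} (h : g = u * m * v) : u⁻¹ * g * v⁻¹ = m := by
  rw [h]; group

theorem inner_parab [Fintype F] [DecidableEq F] {ν μ : Fin n → ℕ} (hν : ∑ i, ν i = n) (hμ : ∑ i, μ i = n) :
    classInner (fixedPointCharacter (parabolicGL n F ν)) (fixedPointCharacter (parabolicGL n F μ)) = (Nat.card (Tab ν μ) : ℂ) := by
  choose σ u v hu hv he using (exists_bruhat (n := n) (F := F))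
  apply inner_table _ _ (fun g => tabOf hν hμ (σ g))
  · intro p hp q hq g
    have h1 : pm F (σ (p * g * q)) = ((u (p * g * q))⁻¹ * p * u g) * pm F (σ g) * (v g * q * (v (p * g * q))⁻¹) := by
      apply grp1
      rw [← he g]; exact he _
    obtain ⟨π, hπ1, hπ2⟩ := pm_double hν hμ (Subgroup.mul_mem _ (Subgroup.mul_mem _ (Subgroup.inv_mem _ (hu _ ν)) hp) (hu g ν))
      (Subgroup.mul_mem _ (Subgroup.mul_mem _ (hv g μ) hq) (Subgroup.inv_mem _ (hv _ μ))) h1
    exact tabOf_eq_of hν hμ hπ1 hπ2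
  · intro g g' h
    obtain ⟨s, t, hs, ht, hst⟩ := exists_of_tabOf_eq hν hμ h
    refine ⟨u g' * pm F s * (u g)⁻¹, Subgroup.mul_mem _ (Subgroup.mul_mem _ (hu g' ν) (pm_mem hν hs)) (Subgroup.inv_mem _ (hu g ν)),
      (v g)⁻¹ * pm F t * v g', Subgroup.mul_mem _ (Subgroup.mul_mem _ (Subgroup.inv_mem _ (hv g μ)) (pm_mem hμ ht)) (hv g' μ), ?_⟩
    have h1 : u g' * pm F s * (u g)⁻¹ * g * ((v g)⁻¹ * pm F t * v g') = u g' * (pm F s * ((u g)⁻¹ * g * (v g)⁻¹) * pm F t) * v g' := by group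
    have h2 : (u g)⁻¹ * g * (v g)⁻¹ = pm F (σ g) := grp2 (he g)
    rw [h1, h2, pm_mul, pm_mul, ← hst, ← he g']
  · intro x
    obtain ⟨τ, hτ⟩ := tabOf_surj hν hμ x
    refine ⟨pm F τ, ?_⟩
    have h1 := he (pm F τ)
    obtain ⟨π, hπ1, hπ2⟩ := pm_double hν hμ (hu (pm F τ) ν) (hv (pm F τ) μ) h1
    show tabOf hν hμ (σ (pm F τ)) = x
    rw [← tabOf_eq_of hν hμ hπ1 hπ2, hτ]

end MatGL

end Gu
end CfsgH6
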