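import Mathlib

set_option autoImplicit false

/-! The Cauchy determinant as a polynomial identity. -/

namespace CfsgH6
namespace Gu

open Finset Matrix

section
variable {K : Type*} [Field K] {n : ℕ}

theorem prod_off (f : Fin n → Fin n → K) :
    ∏ i, ∏ k ∈ univ.erase i, f i k = ∏ i, ∏ k ∈ Ioi i, (f i k * f k i) := by
  have h1 : ∀ i, ∏ k ∈ univ.erase i, f i k = (∏ k ∈ Ioi i, f i k) * ∏ k ∈ Iio i, f i k := by
    intro i
    rw [← prod_union (by
      rw [disjoint_left]
      intro k hk hk'
      rw [mem_Ioi] at hk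
      rw [mem_Iio] at hk'
      exact absurd (hk.trans hk') (lt_irrefl _))]
    congr 1
    ext k
    simp only [mem_erase, mem_univ, and_true, mem_union, mem_Ioi, mem_Iio]
    constructor
    · intro h; rcases lt_or_gt_of_ne h with h | h
      · exact Or.inr h
      · exact Or.inl h
    · rintro (h | h)
      · exact h.ne'
      · exact h.ne
  simp_rw [h1, prod_mul_distrib]
  congr 1
  apply prod_comm'
  intro i k
  simp

theorem cauchy_field (x y : Fin n → K) (hy : Function.Injective y) (hy0 : ∀ i, y i ≠ 0) :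
    (Matrix.of fun i j => ∏ k ∈ univ.erase j, (1 - x i * y k) : Matrix (Fin n) (Fin n) K).det = (vandermonde x).det * (vandermonde y).det := by
  have hdeg : ∀ j : Fin n, (∏ k ∈ univ.erase j, (1 - Polynomial.C (y k) * Polynomial.X) : Polynomial K).natDegree < n := by
    intro j
    have h1 : (∏ k ∈ univ.erase j, (1 - Polynomial.C (y k) * Polynomial.X) : Polynomial K).natDegree ≤ ∑ k ∈ univ.erase j, 1 := by
      refine (Polynomial.natDegree_prod_le _ _).trans (sum_le_sum fun k _ => ?_)
      compute_degree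
    rw [sum_const, card_erase_of_mem (mem_univ j), card_univ, Fintype.card_fin, smul_eq_mul, mul_one] at h1
    have := j.2
    omega
  obtain ⟨C, hC⟩ : ∃ C : Matrix (Fin n) (Fin n) K, ∀ x : Fin n → K,
      (Matrix.of fun i j => ∏ k ∈ univ.erase j, (1 - x i * y k) : Matrix (Fin n) (Fin n) K) = vandermonde x * C := by
    refine ⟨Matrix.of fun m j => (∏ k ∈ univ.erase j, (1 - Polynomial.C (y k) * Polynomial.X) : Polynomial K).coeff m, fun x => ?_⟩
    ext i j
    rw [Matrix.mul_apply, Matrix.of_apply]
    have h1 : ∏ k ∈ univ.erase j, (1 - x i * y k) = (∏ k ∈ univ.erase j, (1 - Polynomial.C (y k) * Polynomial.X) : Polynomial K).eval (x i) := by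
      rw [Polynomial.eval_prod]
      apply prod_congr rfl
      intro k _
      simp; ring
    rw [h1, Polynomial.eval_eq_sum_range' (hdeg j), ← Fin.sum_univ_eq_sum_range (fun m => (∏ k ∈ univ.erase j, (1 - Polynomial.C (y k) * Polynomial.X) : Polynomial K).coeff m * x i ^ m) n]
    apply sum_congr rfl
    intro m _
    rw [vandermonde_apply, Matrix.of_apply]; ring
  have hinj : Function.Injective (fun i => (y i)⁻¹) := fun a b h => hy (inv_injective h)
  have hV : (vandermonde (fun i => (y i)⁻¹)).det ≠ 0 := det_vandermonde_ne_zero_iff.2 hinj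
  have h2 : (Matrix.of fun i j => ∏ k ∈ univ.erase j, (1 - (y i)⁻¹ * y k) : Matrix (Fin n) (Fin n) K) =
      Matrix.diagonal (fun i => ∏ k ∈ univ.erase i, (1 - (y i)⁻¹ * y k)) := by
    ext i j
    rw [Matrix.of_apply]
    by_cases hij : i = j
    · subst hij
      rw [Matrix.diagonal_apply_eq]
    · rw [Matrix.diagonal_apply_ne _ hij]
      apply prod_eq_zero (i := i) (by simp [hij])
      rw [inv_mul_cancel₀ (hy0 i), sub_self]
  have h3 := hC (fun i => (y i)⁻¹)
  rw [h2] at h3
  have h4 := congrArg Matrix.det h3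
  rw [Matrix.det_diagonal, Matrix.det_mul, prod_off (fun i k => 1 - (y i)⁻¹ * y k)] at h4
  have h5 : ∏ i : Fin n, ∏ k ∈ Ioi i, ((1 - (y i)⁻¹ * y k) * (1 - (y k)⁻¹ * y i)) = (vandermonde (fun i => (y i)⁻¹)).det * (vandermonde y).det := by
    rw [det_vandermonde, det_vandermonde, ← prod_mul_distrib]
    apply prod_congr rfl
    intro i _
    rw [← prod_mul_distrib]
    apply prod_congr rfl
    intro k _
    have := hy0 i
    have := hy0 k
    field_simp
  rw [h5] at h4
  have h6 := mul_left_cancel₀ hV h4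
  rw [hC x, Matrix.det_mul, ← h6]

end

theorem map_cauchy {A B : Type*} [CommRing A] [CommRing B] {n : ℕ} (f : A →+* B) (x y : Fin n → A) :
    f (Matrix.of fun i j => ∏ k ∈ univ.erase j, (1 - x i * y k) : Matrix (Fin n) (Fin n) A).det =
      (Matrix.of fun i j => ∏ k ∈ univ.erase j, (1 - f (x i) * f (y k)) : Matrix (Fin n) (Fin n) B).det := by
  rw [RingHom.map_det]
  congr 1
  ext i j
  simp [map_prod]

theorem map_vander {A B : Type*} [CommRing A] [CommRing B] {n : ℕ} (f : A →+* B) (x : Fin n → A) :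
    f (vandermonde x).det = (vandermonde (fun i => f (x i))).det := by
  rw [RingHom.map_det]
  congr 1
  ext i j
  simp [vandermonde_apply]

theorem cauchy_comm {R : Type*} [CommRing R] {n : ℕ} (x y : Fin n → R) :
    (Matrix.of fun i j => ∏ k ∈ univ.erase j, (1 - x i * y k) : Matrix (Fin n) (Fin n) R).det = (vandermonde x).det * (vandermonde y).det := by
  -- universal identity
  have huniv : (Matrix.of fun i j => ∏ k ∈ univ.erase j, (1 - MvPolynomial.X (Sum.inl i) * MvPolynomial.X (Sum.inr k)) :
      Matrix (Fin n) (Fin n) (MvPolynomial (Fin n ⊕ Fin n) ℤ)).det =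
      (vandermonde (fun i => (MvPolynomial.X (Sum.inl i) : MvPolynomial (Fin n ⊕ Fin n) ℤ))).det *
        (vandermonde (fun i => (MvPolynomial.X (Sum.inr i) : MvPolynomial (Fin n ⊕ Fin n) ℤ))).det := by
    apply IsFractionRing.injective (MvPolynomial (Fin n ⊕ Fin n) ℤ) (FractionRing (MvPolynomial (Fin n ⊕ Fin n) ℤ))
    rw [map_mul, map_cauchy, map_vander, map_vander]
    apply cauchy_field
    · intro a b h
      have h1 := IsFractionRing.injective (MvPolynomial (Fin n ⊕ Fin n) ℤ) (FractionRing (MvPolynomial (Fin n ⊕ Fin n) ℤ)) h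
      have h2 := MvPolynomial.X_injective h1
      exact Sum.inr_injective h2
    · intro i h
      have h1 : (MvPolynomial.X (Sum.inr i) : MvPolynomial (Fin n ⊕ Fin n) ℤ) = 0 :=
        IsFractionRing.injective (MvPolynomial (Fin n ⊕ Fin n) ℤ) (FractionRing (MvPolynomial (Fin n ⊕ Fin n) ℤ)) (by rw [h, map_zero])
      exact MvPolynomial.X_ne_zero _ h1
  have h1 := congrArg (MvPolynomial.eval₂Hom (Int.castRingHom R) (Sum.elim x y)) huniv
  rw [map_mul, map_cauchy, map_vander, map_vander] at h1
  simpa using h1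

end Gu
end CfsgH6
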