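import Cfsg.Agent.H6.Gu1
import Cfsg.Agent.H6.Gu3

set_option autoImplicit false

/-! Contingency tables as coefficients of a Cauchy product; the alternating sum identity. -/

namespace CfsgH6
namespace Gu

open Finset Matrix

variable {n : ℕ}

/-- tables supported in `E` with margins `d` -/
abbrev TabE (E : Finset (Fin n × Fin n)) (d : Fin n ⊕ Fin n →₀ ℕ) : Type :=
  {m : Fin n × Fin n → ℕ // (∀ e, e ∉ E → m e = 0) ∧ (∀ i, ∑ j, m (i, j) = d (Sum.inl i)) ∧ ∀ j, ∑ i, m (i, j) = d (Sum.inr j)}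

instance (E : Finset (Fin n × Fin n)) (d : Fin n ⊕ Fin n →₀ ℕ) : Finite (TabE E d) := by
  have hle : ∀ (m : TabE E d) (e : Fin n × Fin n), m.1 e < d (Sum.inl e.1) + 1 := by
    intro m e
    rw [← m.2.2.1 e.1]
    have := single_le_sum (f := fun j => m.1 (e.1, j)) (fun j _ => Nat.zero_le _) (mem_univ e.2)
    have h2 : m.1 (e.1, e.2) = m.1 e := rfl
    omega
  apply Finite.of_injective (β := ∀ e : Fin n × Fin n, Fin (d (Sum.inl e.1) + 1)) (fun m e => ⟨m.1 e, hle m e⟩)
  intro m m' h
  apply Subtype.ext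
  funext e
  exact congrArg Fin.val (congrFun h e)

/-- the exponent of `x_i y_j` -/
noncomputable def dl (e : Fin n × Fin n) : Fin n ⊕ Fin n →₀ ℕ := Finsupp.single (Sum.inl e.1) 1 + Finsupp.single (Sum.inr e.2) 1

theorem dl_inl (e : Fin n × Fin n) (i : Fin n) : dl e (Sum.inl i) = if i = e.1 then 1 else 0 := by
  unfold dl
  rw [Finsupp.add_apply, Finsupp.single_apply, Finsupp.single_apply, if_neg (show ¬ (Sum.inr e.2 : Fin n ⊕ Fin n) = Sum.inl i by simp)]
  simp [eq_comm]

theorem dl_inr (e : Fin n × Fin n) (i : Fin n) : dl e (Sum.inr i) = if i = e.2 then 1 else 0 := by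
  unfold dl
  rw [Finsupp.add_apply, Finsupp.single_apply, Finsupp.single_apply, if_neg (show ¬ (Sum.inl e.1 : Fin n ⊕ Fin n) = Sum.inr i by simp)]
  simp [eq_comm]

theorem sum_ind_row (e : Fin n × Fin n) (i : Fin n) : ∑ j, (if (i, j) = e then 1 else 0) = (if i = e.1 then 1 else 0 : ℕ) := by
  by_cases h : i = e.1
  · rw [if_pos h, sum_eq_single e.2]
    · rw [if_pos (show (i, e.2) = e from Prod.ext h rfl)]
    · intro j _ hj
      rw [if_neg]
      rintro rfl; exact hj rfl
    · intro h; exact absurd (mem_univ _) h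
  · rw [if_neg h]
    apply sum_eq_zero
    intro j _
    rw [if_neg]
    rintro rfl; exact h rfl

theorem sum_ind_col (e : Fin n × Fin n) (j : Fin n) : ∑ i, (if (i, j) = e then 1 else 0) = (if j = e.2 then 1 else 0 : ℕ) := by
  by_cases h : j = e.2
  · rw [if_pos h, sum_eq_single e.1]
    · rw [if_pos (show (e.1, j) = e from Prod.ext rfl h)]
    · intro i _ hi
      rw [if_neg]
      rintro rfl; exact hi rfl
    · intro h; exact absurd (mem_univ _) h
  · rw [if_neg h]
    apply sum_eq_zero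
    intro i _
    rw [if_neg]
    rintro rfl; exact h rfl

theorem card_split {X : Type*} [Finite X] (p : X → Prop) : Nat.card X = Nat.card {x // p x} + Nat.card {x // ¬ p x} := by
  classical
  rw [← Nat.card_congr (Equiv.sumCompl p), Nat.card_sum]

theorem step_add {E : Finset (Fin n × Fin n)} {e : Fin n × Fin n} (d' : Fin n ⊕ Fin n →₀ ℕ) :
    Nat.card {m : TabE (insert e E) (d' + dl e) // ¬ m.1 e = 0} = Nat.card (TabE (insert e E) d') := by
  symm
  apply Nat.card_congr
  refine Equiv.ofBijective (fun m => ⟨⟨fun x => m.1 x + if x = e then 1 else 0, ?_, ?_, ?_⟩, ?_⟩) ⟨?_, ?_⟩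
  · intro x hx
    show m.1 x + (if x = e then 1 else 0) = 0
    rw [m.2.1 x hx, if_neg (fun h => hx (by rw [h]; exact mem_insert_self _ _))]
  · intro i
    rw [sum_add_distrib, m.2.2.1, sum_ind_row, Finsupp.add_apply, dl_inl]
  · intro j
    rw [sum_add_distrib, m.2.2.2, sum_ind_col, Finsupp.add_apply, dl_inr]
  · show ¬ (m.1 e + if e = e then 1 else 0) = 0
    rw [if_pos rfl]; omega
  · intro m m' h
    apply Subtype.ext
    funext x
    have h1 := congrFun (congrArg (fun z => z.1.1) h) x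
    simp only at h1
    omega
  · rintro ⟨m, hm⟩
    have hadd : ∀ x, (if x = e then m.1 x - 1 else m.1 x) + (if x = e then 1 else 0) = m.1 x := by
      intro x
      by_cases h : x = e
      · rw [if_pos h, if_pos h, h]; omega
      · rw [if_neg h, if_neg h, add_zero]
    refine ⟨⟨fun x => if x = e then m.1 x - 1 else m.1 x, ?_, ?_, ?_⟩, ?_⟩
    · intro x hx
      show (if x = e then m.1 x - 1 else m.1 x) = 0
      rw [if_neg (fun h => hx (by rw [h]; exact mem_insert_self _ _)), m.2.1 x hx]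
    · intro i
      have h1 := m.2.2.1 i
      rw [← sum_congr rfl (fun j _ => hadd (i, j)), sum_add_distrib, sum_ind_row, Finsupp.add_apply, dl_inl] at h1
      exact Nat.add_right_cancel h1
    · intro j
      have h1 := m.2.2.2 j
      rw [← sum_congr rfl (fun i _ => hadd (i, j)), sum_add_distrib, sum_ind_col, Finsupp.add_apply, dl_inr] at h1
      exact Nat.add_right_cancel h1
    · apply Subtype.ext
      apply Subtype.ext
      funext x
      exact hadd x

theorem step_zero {E : Finset (Fin n × Fin n)} {e : Fin n × Fin n} (he : e ∉ E) (d : Fin n ⊕ Fin n →₀ ℕ) :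
    Nat.card {m : TabE (insert e E) d // m.1 e = 0} = Nat.card (TabE E d) := by
  apply Nat.card_congr
  refine
    { toFun := fun m => ⟨m.1.1, ?_, m.1.2.2.1, m.1.2.2.2⟩
      invFun := fun m => ⟨⟨m.1, ?_, m.2.2.1, m.2.2.2⟩, m.2.1 e he⟩
      left_inv := fun m => rfl
      right_inv := fun m => rfl }
  · intro x hx
    by_cases h : x = e
    · rw [h]; exact m.2
    · exact m.1.2.1 x (by rw [mem_insert]; push Not; exact ⟨h, hx⟩)
  · intro x hx
    exact m.2.1 x (fun h => hx (mem_insert_of_mem h))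

theorem step {E : Finset (Fin n × Fin n)} {e : Fin n × Fin n} (he : e ∉ E) (d : Fin n ⊕ Fin n →₀ ℕ) :
    Nat.card (TabE (insert e E) d) = Nat.card (TabE E d) + if dl e ≤ d then Nat.card (TabE (insert e E) (d - dl e)) else 0 := by
  rw [card_split (fun m : TabE (insert e E) d => m.1 e = 0), step_zero he]
  congr 1
  by_cases h : dl e ≤ d
  · rw [if_pos h]
    have h1 : d = (d - dl e) + dl e := (tsub_add_cancel_of_le h).symm
    conv_lhs => rw [h1]
    exact step_add (d - dl e)
  · rw [if_neg h, Nat.card_eq_zero]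
    left
    constructor
    rintro ⟨m, hm⟩
    apply h
    intro s
    cases s with
    | inl i =>
      rw [dl_inl]
      by_cases hi : i = e.1
      · rw [if_pos hi, ← m.2.2.1 i]
        have := single_le_sum (f := fun j => m.1 (i, j)) (fun j _ => Nat.zero_le _) (mem_univ e.2)
        rw [hi] at this ⊢
        have h2 : m.1 (e.1, e.2) = m.1 e := rfl
        omega
      · rw [if_neg hi]; omega
    | inr j =>
      rw [dl_inr]
      by_cases hj : j = e.2
      · rw [if_pos hj, ← m.2.2.2 j]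
        have := single_le_sum (f := fun i => m.1 (i, j)) (fun i _ => Nat.zero_le _) (mem_univ e.1)
        rw [hj] at this ⊢
        have h2 : m.1 (e.1, e.2) = m.1 e := rfl
        omega
      · rw [if_neg hj]; omega

/-- the generating function of tables supported in `E` -/
noncomputable def FE (E : Finset (Fin n × Fin n)) : MvPowerSeries (Fin n ⊕ Fin n) ℤ := fun d => (Nat.card (TabE E d) : ℤ)

theorem coeff_FE (E : Finset (Fin n × Fin n)) (d : Fin n ⊕ Fin n →₀ ℕ) : MvPowerSeries.coeff d (FE E) = (Nat.card (TabE E d) : ℤ) := rfl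

/-- `x_i y_j` -/
noncomputable def ze (e : Fin n × Fin n) : MvPowerSeries (Fin n ⊕ Fin n) ℤ := MvPowerSeries.X (Sum.inl e.1) * MvPowerSeries.X (Sum.inr e.2)

theorem ze_eq (e : Fin n × Fin n) : ze e = MvPowerSeries.monomial (dl e) 1 := by
  unfold ze dl
  rw [MvPowerSeries.X_def, MvPowerSeries.X_def, MvPowerSeries.monomial_mul_monomial, one_mul]

theorem FE_insert {E : Finset (Fin n × Fin n)} {e : Fin n × Fin n} (he : e ∉ E) : (1 - ze e) * FE (insert e E) = FE E := by
  ext d
  rw [sub_mul, one_mul, map_sub, ze_eq, MvPowerSeries.coeff_monomial_mul, coeff_FE, coeff_FE, step he]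
  by_cases h : dl e ≤ d
  · rw [if_pos h, if_pos h, coeff_FE]; push_cast; ring
  · rw [if_neg h, if_neg h, coeff_FE]; push_cast; ring

theorem FE_empty : (FE ∅ : MvPowerSeries (Fin n ⊕ Fin n) ℤ) = 1 := by
  ext d
  rw [coeff_FE, MvPowerSeries.coeff_one]
  by_cases h : d = 0
  · rw [if_pos h]
    have : Nat.card (TabE (∅ : Finset (Fin n × Fin n)) d) = 1 := by
      rw [Nat.card_eq_one_iff_unique]
      refine ⟨⟨fun m m' => Subtype.ext (funext fun x => by rw [m.2.1 x (notMem_empty _), m'.2.1 x (notMem_empty _)])⟩,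
        ⟨⟨fun _ => 0, fun _ _ => rfl, fun i => by rw [h]; simp, fun i => by rw [h]; simp⟩⟩⟩
    rw [this]; rfl
  · rw [if_neg h]
    have : Nat.card (TabE (∅ : Finset (Fin n × Fin n)) d) = 0 := by
      rw [Nat.card_eq_zero]
      left
      constructor
      intro m
      apply h
      ext s
      cases s with
      | inl i =>
        rw [← m.2.2.1 i]
        simp [m.2.1 _ (notMem_empty _)]
      | inr i =>
        rw [← m.2.2.2 i]
        simp [m.2.1 _ (notMem_empty _)]
    rw [this]; rfl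

theorem FE_prod (E : Finset (Fin n × Fin n)) : (∏ e ∈ E, (1 - ze e)) * FE E = 1 := by
  induction E using Finset.induction_on with
  | empty => rw [prod_empty, one_mul, FE_empty]
  | insert e E he ih =>
    rw [prod_insert he, mul_comm (1 - ze e), mul_assoc, FE_insert he, ih]

theorem FE_sub {E E' : Finset (Fin n × Fin n)} (h : E ⊆ E') : (∏ e ∈ E' \ E, (1 - ze e)) * FE E' = FE E := by
  have h1 := FE_prod E'
  have h2 := FE_prod E
  rw [← prod_sdiff h] at h1
  calc (∏ e ∈ E' \ E, (1 - ze e)) * FE E' = ((∏ e ∈ E' \ E, (1 - ze e)) * FE E') * ((∏ e ∈ E, (1 - ze e)) * FE E) := by rw [h2, mul_one]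
    _ = ((∏ e ∈ E' \ E, (1 - ze e)) * (∏ e ∈ E, (1 - ze e)) * FE E') * FE E := by ring
    _ = FE E := by rw [h1, one_mul]

/-- the graph of a permutation -/
def gr (σ : Equiv.Perm (Fin n)) : Finset (Fin n × Fin n) := univ.image (fun i => (i, σ i))

theorem mem_gr (σ : Equiv.Perm (Fin n)) (e : Fin n × Fin n) : e ∈ gr σ ↔ e.2 = σ e.1 := by
  unfold gr
  rw [mem_image]
  constructor
  · rintro ⟨i, _, rfl⟩; rfl
  · intro h; exact ⟨e.1, mem_univ _, Prod.ext rfl h.symm⟩

/-- the Cauchy identity times the full generating function -/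
theorem cauchy_FE : (vandermonde (fun i : Fin n => (MvPowerSeries.X (Sum.inl i) : MvPowerSeries (Fin n ⊕ Fin n) ℤ))).det *
    (vandermonde (fun i : Fin n => (MvPowerSeries.X (Sum.inr i) : MvPowerSeries (Fin n ⊕ Fin n) ℤ))).det * FE univ =
    ∑ σ : Equiv.Perm (Fin n), Equiv.Perm.sign σ • FE (gr σ) := by
  rw [← cauchy_comm, Matrix.det_apply, sum_mul]
  refine Fintype.sum_equiv (Equiv.inv _) _ _ fun σ => ?_
  rw [Equiv.inv_apply, Equiv.Perm.sign_inv, smul_mul_assoc]
  congr 1
  rw [← FE_sub (subset_univ (gr σ⁻¹))]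
  congr 1
  have h1 : univ \ gr σ⁻¹ = ((univ : Finset (Fin n)).sigma (fun j : Fin n => (univ : Finset (Fin n)).erase j)).image (fun x : (_ : Fin n) × Fin n => (σ x.1, x.2)) := by
    ext ⟨a, b⟩
    rw [mem_sdiff, mem_gr, mem_image]
    constructor
    · rintro ⟨_, h⟩
      refine ⟨⟨σ⁻¹ a, b⟩, ?_, by simp⟩
      rw [mem_sigma]
      exact ⟨mem_univ _, mem_erase.2 ⟨h, mem_univ _⟩⟩
    · rintro ⟨⟨j, k⟩, hx, he⟩
      rw [mem_sigma] at hx
      have hk := (mem_erase.1 hx.2).1
      simp only [Prod.mk.injEq] at he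
      obtain ⟨rfl, rfl⟩ := he
      refine ⟨mem_univ _, ?_⟩
      simpa using hk
  rw [h1, prod_image, prod_sigma]
  · apply prod_congr rfl
    intro j _
    rw [Matrix.of_apply]
    rfl
  · rintro ⟨j, k⟩ _ ⟨j', k'⟩ _ h
    simp only [Prod.mk.injEq, EmbeddingLike.apply_eq_iff_eq] at h
    obtain ⟨rfl, rfl⟩ := h
    rfl

end Gu
end CfsgH6
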