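import Cfsg.Agent.H6.Gu4

set_option autoImplicit false

/-! Orthonormality of the alternating sums of contingency table counts. -/

namespace CfsgH6
namespace Gu

open Finset Matrix

variable {n : ℕ}

noncomputable def expo (α β : Fin n → ℕ) : Fin n ⊕ Fin n →₀ ℕ := Finsupp.equivFunOnFinite.symm (Sum.elim α β)

theorem expo_inl (α β : Fin n → ℕ) (i : Fin n) : expo α β (Sum.inl i) = α i := rfl
theorem expo_inr (α β : Fin n → ℕ) (i : Fin n) : expo α β (Sum.inr i) = β i := rfl

theorem expo_le {α β α' β' : Fin n → ℕ} : expo α β ≤ expo α' β' ↔ (∀ i, α i ≤ α' i) ∧ ∀ j, β j ≤ β' j := by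
  constructor
  · intro h
    exact ⟨fun i => h (Sum.inl i), fun j => h (Sum.inr j)⟩
  · rintro ⟨h1, h2⟩ s
    cases s with
    | inl i => exact h1 i
    | inr j => exact h2 j

theorem expo_sub (α β α' β' : Fin n → ℕ) : expo α β - expo α' β' = expo (fun i => α i - α' i) (fun j => β j - β' j) := by
  ext s
  rw [Finsupp.tsub_apply]
  cases s with
  | inl i => rfl
  | inr j => rfl

theorem prod_X_pow {s : Finset (Fin n)} (f : Fin n → Fin n ⊕ Fin n) (c : Fin n → ℕ) :
    ∏ i ∈ s, (MvPowerSeries.X (f i) : MvPowerSeries (Fin n ⊕ Fin n) ℤ) ^ c i = MvPowerSeries.monomial (∑ i ∈ s, Finsupp.single (f i) (c i)) 1 := by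
  induction s using Finset.induction_on with
  | empty => simp
  | insert a s ha ih =>
    rw [prod_insert ha, sum_insert ha, ih, MvPowerSeries.X_pow_eq, MvPowerSeries.monomial_mul_monomial, one_mul]

theorem expo_sum (α β : Fin n → ℕ) : (∑ i, Finsupp.single (Sum.inl i) (α i)) + (∑ j, Finsupp.single (Sum.inr j) (β j)) = expo α β := by
  classical
  ext s
  rw [Finsupp.add_apply, Finsupp.finsetSum_apply, Finsupp.finsetSum_apply]
  cases s with
  | inl i =>
    rw [expo_inl, sum_eq_single i, sum_eq_zero]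
    · simp
    · intro j _; simp
    · intro j _ hj
      simp [hj]
    · intro h; exact absurd (mem_univ _) h
  | inr i =>
    rw [expo_inr, sum_eq_zero, zero_add, sum_eq_single i]
    · simp
    · intro j _ hj
      simp [hj]
    · intro h; exact absurd (mem_univ _) h
    · intro j _; simp

theorem vander_det {R : Type*} [CommRing R] (x : Fin n → R) :
    (vandermonde x).det = ∑ κ : Equiv.Perm (Fin n), Equiv.Perm.sign κ • ∏ i, x i ^ (κ i : ℕ) := by
  rw [← Matrix.det_transpose, Matrix.det_apply]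
  rfl

theorem coeff_lhs (l l' : Fin n → ℕ) :
    MvPowerSeries.coeff (expo l l') ((vandermonde (fun i : Fin n => (MvPowerSeries.X (Sum.inl i) : MvPowerSeries (Fin n ⊕ Fin n) ℤ))).det *
    (vandermonde (fun i : Fin n => (MvPowerSeries.X (Sum.inr i) : MvPowerSeries (Fin n ⊕ Fin n) ℤ))).det * FE univ) =
    ∑ κ : Equiv.Perm (Fin n), ∑ κ' : Equiv.Perm (Fin n), (Equiv.Perm.sign κ : ℤ) * (Equiv.Perm.sign κ' : ℤ) *
      (if (∀ i, (κ i : ℕ) ≤ l i) ∧ (∀ j, (κ' j : ℕ) ≤ l' j) then (Nat.card (TabE univ (expo (fun i => l i - κ i) (fun j => l' j - κ' j))) : ℤ) else 0) := by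
  rw [vander_det, vander_det, sum_mul_sum, sum_mul, map_sum]
  apply sum_congr rfl
  intro κ _
  rw [sum_mul, map_sum]
  apply sum_congr rfl
  intro κ' _
  rw [smul_mul_smul_comm, smul_mul_assoc, prod_X_pow, prod_X_pow, MvPowerSeries.monomial_mul_monomial, expo_sum, one_mul,
    Units.smul_def, map_zsmul, MvPowerSeries.coeff_monomial_mul, coeff_FE, expo_sub, zsmul_eq_mul]
  have h1 : expo (fun i => (κ i : ℕ)) (fun j => (κ' j : ℕ)) ≤ expo l l' ↔ (∀ i, (κ i : ℕ) ≤ l i) ∧ (∀ j, (κ' j : ℕ) ≤ l' j) := expo_le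
  by_cases h : (∀ i, (κ i : ℕ) ≤ l i) ∧ (∀ j, (κ' j : ℕ) ≤ l' j)
  · rw [if_pos (h1.2 h), if_pos h, one_mul]
    push_cast; rfl
  · rw [if_neg (fun h' => h (h1.1 h')), if_neg h, mul_zero, mul_zero]

theorem card_gr (σ : Equiv.Perm (Fin n)) (l l' : Fin n → ℕ) :
    Nat.card (TabE (gr σ) (expo l l')) = if ∀ i, l i = l' (σ i) then 1 else 0 := by
  have hval : ∀ (m : TabE (gr σ) (expo l l')) (i : Fin n), m.1 (i, σ i) = l i := by
    intro m i
    have h1 := m.2.2.1 i
    rw [expo_inl, sum_eq_single (σ i)] at h1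
    · exact h1
    · intro j _ hj
      apply m.2.1
      rw [mem_gr]; exact hj
    · intro h; exact absurd (mem_univ _) h
  have hval' : ∀ (m : TabE (gr σ) (expo l l')) (i : Fin n), m.1 (i, σ i) = l' (σ i) := by
    intro m i
    have h1 := m.2.2.2 (σ i)
    rw [expo_inr, sum_eq_single i] at h1
    · exact h1
    · intro j _ hj
      apply m.2.1
      rw [mem_gr]
      intro h
      exact hj (σ.injective h).symm
    · intro h; exact absurd (mem_univ _) h
  by_cases h : ∀ i, l i = l' (σ i)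
  · rw [if_pos h, Nat.card_eq_one_iff_unique]
    refine ⟨⟨fun m m' => Subtype.ext (funext fun x => ?_)⟩, ⟨⟨fun x => if x.2 = σ x.1 then l x.1 else 0, ?_, ?_, ?_⟩⟩⟩
    · obtain ⟨i, j⟩ := x
      by_cases hj : j = σ i
      · rw [hj, hval, hval]
      · rw [m.2.1 _ (by rw [mem_gr]; exact hj), m'.2.1 _ (by rw [mem_gr]; exact hj)]
    · intro e he
      rw [mem_gr] at he
      show (if e.2 = σ e.1 then l e.1 else 0) = 0
      rw [if_neg he]
    · intro i
      show ∑ j, (if j = σ i then l i else 0) = l i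
      rw [sum_ite_eq' univ (σ i) (fun _ => l i), if_pos (mem_univ _)]
    · intro j
      show ∑ i, (if j = σ i then l i else 0) = l' j
      rw [sum_eq_single (σ.symm j)]
      · rw [if_pos (by simp), h, Equiv.apply_symm_apply]
      · intro i _ hi
        rw [if_neg]
        rintro rfl
        exact hi (by simp)
      · intro h; exact absurd (mem_univ _) h
  · rw [if_neg h, Nat.card_eq_zero]
    left
    constructor
    intro m
    apply h
    intro i
    rw [← hval m i, hval' m i]

theorem perm_of_strictMono {l l' : Fin n → ℕ} (hl : StrictMono l) (hl' : StrictMono l') {σ : Equiv.Perm (Fin n)} (h : ∀ i, l i = l' (σ i)) : σ = 1 := by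
  have h1 : StrictMono σ := by
    intro a b hab
    have := hl hab
    rw [h, h] at this
    exact hl'.lt_iff_lt.1 this
  have h2 : (⟨σ, fun {a b} => h1.le_iff_le⟩ : Fin n ≃o Fin n) = OrderIso.refl _ := Subsingleton.elim _ _
  ext i
  have h3 := congrArg (fun f : Fin n ≃o Fin n => f i) h2
  exact congrArg Fin.val h3

theorem alt_tabE {l l' : Fin n → ℕ} (hl : StrictMono l) (hl' : StrictMono l') :
    ∑ κ : Equiv.Perm (Fin n), ∑ κ' : Equiv.Perm (Fin n), (Equiv.Perm.sign κ : ℤ) * (Equiv.Perm.sign κ' : ℤ) *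
      (if (∀ i, (κ i : ℕ) ≤ l i) ∧ (∀ j, (κ' j : ℕ) ≤ l' j) then (Nat.card (TabE univ (expo (fun i => l i - κ i) (fun j => l' j - κ' j))) : ℤ) else 0) =
    if l = l' then 1 else 0 := by
  rw [← coeff_lhs, cauchy_FE, map_sum]
  have h1 : ∀ σ : Equiv.Perm (Fin n), MvPowerSeries.coeff (expo l l') (Equiv.Perm.sign σ • FE (gr σ)) =
      if σ = 1 then (if l = l' then 1 else 0) else 0 := by
    intro σ
    rw [Units.smul_def, map_zsmul, coeff_FE, card_gr]
    by_cases h : ∀ i, l i = l' (σ i)
    · have h2 := perm_of_strictMono hl hl' h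
      subst h2
      have h3 : l = l' := funext h
      rw [if_pos h, if_pos rfl, if_pos h3]
      simp
    · rw [if_neg h]
      by_cases h2 : σ = 1
      · subst h2
        rw [if_pos rfl, if_neg (show ¬ l = l' from fun h3 => h (fun i => congrFun h3 i))]
        simp
      · rw [if_neg h2]
        simp
  rw [sum_congr rfl (fun σ _ => h1 σ), sum_ite_eq', if_pos (mem_univ _)]

theorem tab_eq (ν μ : Fin n → ℕ) : Nat.card (Tab ν μ) = Nat.card (TabE univ (expo ν μ)) := by
  apply Nat.card_congr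
  refine
    { toFun := fun m => ⟨fun x => m.1 x.1 x.2, fun e he => absurd (mem_univ e) he, m.2.1, m.2.2⟩
      invFun := fun m => ⟨fun a b => m.1 (a, b), m.2.2.1, m.2.2.2⟩
      left_inv := fun m => rfl
      right_inv := fun m => rfl }

end Gu
end CfsgH6
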