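import Cfsg.Agent.H6.Gu1

set_option autoImplicit false

/-! The index of the standard parabolic subgroups of `GL_n(q)`. -/

namespace CfsgH6
namespace Gu

open Cfsg Finset

/-- `1 + q + ⋯ + q^(r-1)` -/
def Qn (q r : ℕ) : ℕ := ∑ l ∈ range r, q ^ l
/-- the `q`-factorial -/
def Qf (q m : ℕ) : ℕ := ∏ j ∈ range m, Qn q (j + 1)

theorem Qn_mul {q : ℕ} (hq : 1 ≤ q) (r : ℕ) : (q - 1) * Qn q r = q ^ r - 1 := by
  obtain ⟨c, rfl⟩ := Nat.exists_eq_add_of_le hq
  have h := Commute.geom_sum₂_mul (Commute.one_right ((1 : ℤ) + c)) r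
  have h2 := mul_geom_sum ((1 : ℤ) + c) r
  unfold Qn
  zify [Nat.one_le_pow r (1 + c) (by omega), (show 1 ≤ 1 + c by omega)]
  exact h2

/-- the order of `GL_m(q)` -/
def gq (q m : ℕ) : ℕ := ∏ i ∈ range m, (q ^ m - q ^ i)

theorem gq_eq {q : ℕ} (hq : 1 ≤ q) (m : ℕ) : gq q m = q ^ (∑ i ∈ range m, i) * (q - 1) ^ m * Qf q m := by
  unfold gq Qf
  have h1 : ∀ i ∈ range m, q ^ m - q ^ i = q ^ i * (q ^ (m - i) - 1) := by
    intro i hi
    rw [mem_range] at hi
    rw [Nat.mul_sub, mul_one, ← pow_add, Nat.add_sub_cancel' hi.le]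
  rw [prod_congr rfl h1, prod_mul_distrib, prod_pow_eq_pow_sum, mul_assoc]
  congr 1
  have h2 : ∏ i ∈ range m, (q ^ (m - i) - 1) = ∏ j ∈ range m, (q ^ (j + 1) - 1) := by
    rw [← prod_range_reflect (fun j => q ^ (j + 1) - 1) m]
    apply prod_congr rfl
    intro i hi
    rw [mem_range] at hi
    congr 2
    omega
  rw [h2, prod_congr rfl (fun j _ => (Qn_mul hq (j + 1)).symm), prod_mul_distrib, prod_const, card_range]

variable {n : ℕ} {F : Type*} [Field F]

section
variable {ι : Type*} [Fintype ι] [DecidableEq ι]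

theorem card_inv_mat [Fintype F] {m : ℕ} (hm : Fintype.card ι = m) : Nat.card {A : Matrix ι ι F // A.det ≠ 0} = gq (Fintype.card F) m := by
  let e : ι ≃ Fin m := Fintype.equivFinOfCardEq hm
  have h1 : Nat.card {A : Matrix ι ι F // A.det ≠ 0} = Nat.card (GL (Fin m) F) := by
    apply Nat.card_congr
    refine Equiv.trans (Equiv.subtypeEquiv (Matrix.reindex e e) (q := fun A : Matrix (Fin m) (Fin m) F => A.det ≠ 0) ?_) ?_
    · intro A
      rw [Matrix.det_reindex_self]
    · refine
        { toFun := fun A => Matrix.GeneralLinearGroup.mkOfDetNeZero A.1 A.2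
          invFun := fun g => ⟨(g : Matrix (Fin m) (Fin m) F), Matrix.GeneralLinearGroup.det_ne_zero g⟩
          left_inv := fun A => rfl
          right_inv := fun g => Units.ext rfl }
  rw [h1, Matrix.card_GL_field]
  unfold gq
  rw [← Fin.prod_univ_eq_prod_range (fun i => (Fintype.card F) ^ m - (Fintype.card F) ^ i) m]
end

/-- block triangular invertible matrices, decomposed -/
noncomputable def parEquiv (b : Fin n → Fin n) :
    {M : Matrix (Fin n) (Fin n) F // M.BlockTriangular b ∧ M.det ≠ 0} ≃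
      (∀ a : Fin n, {A : Matrix {i // b i = a} {i // b i = a} F // A.det ≠ 0}) × ({x : Fin n × Fin n // b x.1 < b x.2} → F) where
  toFun M := (fun a => ⟨M.1.toSquareBlock b a, by
    have h := M.2.2
    rw [M.2.1.det_fintype] at h
    exact prod_ne_zero_iff.1 h a (mem_univ _)⟩, fun x => M.1 x.1.1 x.1.2)
  invFun u := ⟨Matrix.of fun i j => if h : b i = b j then (u.1 (b j)).1 ⟨i, h⟩ ⟨j, rfl⟩ else if h' : b i < b j then u.2 ⟨(i, j), h'⟩ else 0, by
    have hbt : (Matrix.of fun i j => if h : b i = b j then (u.1 (b j)).1 ⟨i, h⟩ ⟨j, rfl⟩ else if h' : b i < b j then u.2 ⟨(i, j), h'⟩ else 0 :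
      Matrix (Fin n) (Fin n) F).BlockTriangular b := by
      intro i j hij
      rw [Matrix.of_apply, dif_neg (ne_of_gt hij), dif_neg (not_lt_of_gt hij)]
    refine ⟨hbt, ?_⟩
    rw [hbt.det_fintype]
    apply prod_ne_zero_iff.2
    intro a _
    have h1 : (Matrix.of fun i j => if h : b i = b j then (u.1 (b j)).1 ⟨i, h⟩ ⟨j, rfl⟩ else if h' : b i < b j then u.2 ⟨(i, j), h'⟩ else 0 :
      Matrix (Fin n) (Fin n) F).toSquareBlock b a = (u.1 a).1 := by
      ext ⟨i, hi⟩ ⟨j, hj⟩
      subst hj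
      show (if h : b i = b j then (u.1 (b j)).1 ⟨i, h⟩ ⟨j, rfl⟩ else _) = _
      rw [dif_pos hi]
    rw [h1]
    exact (u.1 a).2⟩
  left_inv M := by
    apply Subtype.ext
    ext i j
    show (if h : b i = b j then M.1 i j else if h' : b i < b j then M.1 i j else 0) = M.1 i j
    by_cases h : b i = b j
    · rw [dif_pos h]
    · rw [dif_neg h]
      by_cases h' : b i < b j
      · rw [dif_pos h']
      · rw [dif_neg h']
        exact (M.2.1 (lt_of_le_of_ne (not_lt.1 h') (Ne.symm h))).symm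
  right_inv u := by
    apply Prod.ext
    · funext a
      apply Subtype.ext
      ext ⟨i, hi⟩ ⟨j, hj⟩
      subst hj
      show (if h : b i = b j then (u.1 (b j)).1 ⟨i, h⟩ ⟨j, rfl⟩ else _) = _
      rw [dif_pos hi]
    · funext ⟨⟨i, j⟩, h⟩
      show (if h : b i = b j then (u.1 (b j)).1 ⟨i, h⟩ ⟨j, rfl⟩ else if h' : b i < b j then u.2 ⟨(i, j), h'⟩ else 0) = _
      have h' : b i < b j := h
      rw [dif_neg (ne_of_lt h'), dif_pos h']

theorem card_par [Fintype F] {μ : Fin n → ℕ} (hμ : ∑ i, μ i = n) :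
    Nat.card (parabolicGL n F μ) = (∏ a : Fin n, gq (Fintype.card F) (μ a)) * (Fintype.card F) ^ (univ.filter (fun x : Fin n × Fin n => lab hμ x.1 < lab hμ x.2)).card := by
  have h1 : Nat.card (parabolicGL n F μ) = Nat.card {M : Matrix (Fin n) (Fin n) F // M.BlockTriangular (lab hμ) ∧ M.det ≠ 0} := by
    apply Nat.card_congr
    refine
      { toFun := fun g => ⟨(g.1 : Matrix (Fin n) (Fin n) F), fun i j hij => g.2 (by rw [Fin.lt_def, lab_val, lab_val] at hij; exact hij), Matrix.GeneralLinearGroup.det_ne_zero g.1⟩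
        invFun := fun A => ⟨Matrix.GeneralLinearGroup.mkOfDetNeZero A.1 A.2.2, fun i j hij => A.2.1 (by rw [Fin.lt_def, lab_val, lab_val]; exact hij)⟩
        left_inv := fun g => Subtype.ext (Units.ext rfl)
        right_inv := fun A => rfl }
  rw [h1, Nat.card_congr (parEquiv (F := F) (lab hμ)), Nat.card_prod, Nat.card_pi, Nat.card_fun]
  congr 1
  · apply prod_congr rfl
    intro a _
    apply card_inv_mat
    rw [Fintype.card_subtype, lab_card]
  · rw [Nat.card_eq_fintype_card, Nat.card_eq_fintype_card, Fintype.card_subtype]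

theorem card_filter_half {μ : Fin n → ℕ} (hμ : ∑ i, μ i = n) :
    2 * (univ.filter (fun x : Fin n × Fin n => lab hμ x.1 < lab hμ x.2)).card + ∑ a, μ a * μ a = n * n := by
  have h1 : (univ.filter (fun x : Fin n × Fin n => lab hμ x.1 < lab hμ x.2)).card = (univ.filter (fun x : Fin n × Fin n => lab hμ x.2 < lab hμ x.1)).card := by
    apply card_bij (fun x _ => (x.2, x.1))
    · intro x hx; simpa using hx
    · rintro ⟨a, b⟩ _ ⟨c, d⟩ _ h
      simp only [Prod.mk.injEq] at h
      exact Prod.ext h.2 h.1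
    · rintro ⟨a, b⟩ h
      exact ⟨(b, a), by simpa using h, rfl⟩
  have h2 : ∑ a, μ a * μ a = (univ.filter (fun x : Fin n × Fin n => lab hμ x.1 = lab hμ x.2)).card := by
    rw [card_eq_sum_card_fiberwise (f := fun x : Fin n × Fin n => lab hμ x.1) (t := univ) (fun _ _ => Finset.mem_coe.2 (mem_univ _))]
    apply sum_congr rfl
    intro a _
    rw [← lab_card hμ a, ← card_product]
    congr 1
    ext ⟨i, j⟩
    simp only [mem_product, mem_filter, mem_univ, true_and]
    constructor
    · rintro ⟨h1, h2⟩; exact ⟨by rw [h1, h2], h1⟩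
    · rintro ⟨h1, h2⟩; exact ⟨h2, by rw [← h1, h2]⟩
  have h3 : (univ : Finset (Fin n × Fin n)).card = (univ.filter (fun x : Fin n × Fin n => lab hμ x.1 < lab hμ x.2)).card +
      ((univ.filter (fun x : Fin n × Fin n => lab hμ x.2 < lab hμ x.1)).card + (univ.filter (fun x : Fin n × Fin n => lab hμ x.1 = lab hμ x.2)).card) := by
    rw [← card_union_of_disjoint, ← card_union_of_disjoint]
    · congr 1
      ext x
      simp only [mem_univ, mem_union, mem_filter, true_and, true_iff]
      rcases lt_trichotomy (lab hμ x.1) (lab hμ x.2) with h | h | h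
      · exact Or.inl h
      · exact Or.inr (Or.inr h)
      · exact Or.inr (Or.inl h)
    · rw [disjoint_left]
      intro x hx hx'
      simp only [mem_union, mem_filter, mem_univ, true_and] at hx hx'
      rcases hx' with h | h
      · exact absurd (hx.trans h) (lt_irrefl _)
      · rw [h] at hx; exact lt_irrefl _ hx
    · rw [disjoint_left]
      intro x hx hx'
      simp only [mem_filter, mem_univ, true_and] at hx hx'
      rw [hx'] at hx; exact lt_irrefl _ hx
  rw [card_univ, Fintype.card_prod, Fintype.card_fin] at h3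
  omega

theorem expo_total {μ : Fin n → ℕ} (hμ : ∑ i, μ i = n) :
    (∑ a, ∑ i ∈ range (μ a), i) + (univ.filter (fun x : Fin n × Fin n => lab hμ x.1 < lab hμ x.2)).card = ∑ i ∈ range n, i := by
  have h1 := card_filter_half hμ
  have h2 := sum_range_id_mul_two n
  have h3 : (∑ a, ∑ i ∈ range (μ a), i) * 2 + ∑ a, μ a = ∑ a, μ a * μ a := by
    rw [sum_mul, ← sum_add_distrib]
    apply sum_congr rfl
    intro a _
    rw [sum_range_id_mul_two]
    rcases Nat.eq_zero_or_pos (μ a) with h | h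
    · rw [h]
    · obtain ⟨c, hc⟩ := Nat.exists_eq_add_of_le h
      rw [hc]; simp; ring
  have h4 : n * (n - 1) + n = n * n := by
    rcases Nat.eq_zero_or_pos n with h | h
    · rw [h]
    · obtain ⟨c, hc⟩ := Nat.exists_eq_add_of_le h
      rw [hc]; simp; ring
  omega

theorem index_par [Fintype F] {μ : Fin n → ℕ} (hμ : ∑ i, μ i = n) :
    (parabolicGL n F μ).index * ∏ i : Fin n, Qf (Fintype.card F) (μ i) = Qf (Fintype.card F) n := by
  obtain ⟨q, hq⟩ : ∃ q, q = Fintype.card F := ⟨_, rfl⟩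
  have hq2 : 2 ≤ q := by rw [hq]; exact Fintype.one_lt_card
  have h0 := Subgroup.index_mul_card (parabolicGL n F μ)
  have hG : Nat.card (GL (Fin n) F) = gq q n := by
    rw [Matrix.card_GL_field, hq]
    unfold gq
    rw [← Fin.prod_univ_eq_prod_range (fun i => (Fintype.card F) ^ n - (Fintype.card F) ^ i) n]
  rw [card_par hμ, hG, gq_eq (by omega), ← hq, prod_congr rfl (fun a _ => gq_eq (q := q) (by omega) (μ a))] at h0
  rw [prod_mul_distrib, prod_mul_distrib, prod_pow_eq_pow_sum, prod_pow_eq_pow_sum, hμ, ← expo_total hμ, pow_add] at h0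
  rw [← hq]
  have hpos : 0 < q ^ (∑ a, ∑ i ∈ range (μ a), i) * q ^ (univ.filter (fun x : Fin n × Fin n => lab hμ x.1 < lab hμ x.2)).card * (q - 1) ^ n := by
    have : 0 < q := by omega
    have : 0 < q - 1 := by omega
    positivity
  apply Nat.eq_of_mul_eq_mul_left hpos
  rw [← h0]
  ring

end Gu
end CfsgH6
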