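import Cfsg.Agent.H6.Gu2
import Cfsg.Agent.H6.Gu5
import Cfsg.Agent.H6.Gu6

set_option autoImplicit false

/-! The unipotent characters of `GL_n(q)`: orthonormality, degrees, irreducibility. -/

namespace CfsgH6
namespace Gu

open Cfsg Finset CfsgH4
open scoped ComplexConjugate

variable {n : ℕ} {F : Type*} [Field F]

/-- coefficient -/
noncomputable def cf (ν : Fin n → ℕ) (κ : Equiv.Perm (Fin n)) : ℤ := if ∀ i : Fin n, (κ i).val ≤ ν i + i.val then (Equiv.Perm.sign κ : ℤ) else 0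

theorem uni_eq (ν : Fin n → ℕ) : unipotentCharacterGL n F ν =
    ∑ κ : Equiv.Perm (Fin n), ((cf ν κ : ℤ) : ℂ) • fixedPointCharacter (parabolicGL n F fun i => ν i + i.val - (κ i).val) := by
  funext g
  unfold unipotentCharacterGL cf
  rw [Finset.sum_apply]
  apply sum_congr rfl
  intro κ _
  rw [Pi.smul_apply, smul_eq_mul]
  by_cases h : ∀ i : Fin n, (κ i).val ≤ ν i + i.val
  · rw [if_pos h, if_pos h]
  · rw [if_neg h, if_neg h]; simp

theorem comp_sum {ν : Fin n → ℕ} (hsum : ∑ i, ν i = n) {κ : Equiv.Perm (Fin n)} (h : ∀ i : Fin n, (κ i).val ≤ ν i + i.val) :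
    ∑ i : Fin n, (ν i + i.val - (κ i).val) = n := by
  have h1 : ∑ i : Fin n, (ν i + i.val - (κ i).val) + ∑ i : Fin n, (κ i).val = ∑ i, ν i + ∑ i : Fin n, i.val := by
    rw [← sum_add_distrib, ← sum_add_distrib]
    apply sum_congr rfl
    intro i _
    exact Nat.sub_add_cancel (h i)
  rw [Equiv.sum_comp κ (fun i => i.val)] at h1
  omega

theorem strictMono_shift {ν : Fin n → ℕ} (h : Monotone ν) : StrictMono (fun i : Fin n => ν i + i.val) := by
  intro a b hab
  have := h hab.le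
  have := Fin.lt_def.1 hab
  show ν a + a.val < ν b + b.val
  omega

theorem inner_uni [Fintype F] [DecidableEq F] {ν ν' : Fin n → ℕ} (hν : Monotone ν) (hs : ∑ i, ν i = n) (hν' : Monotone ν') (hs' : ∑ i, ν' i = n) :
    classInner (unipotentCharacterGL n F ν) (unipotentCharacterGL n F ν') = if ν = ν' then 1 else 0 := by
  have h1 := alt_tabE (strictMono_shift hν) (strictMono_shift hν')
  have h2 : classInner (unipotentCharacterGL n F ν) (unipotentCharacterGL n F ν') =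
      ((∑ κ : Equiv.Perm (Fin n), ∑ κ' : Equiv.Perm (Fin n), (Equiv.Perm.sign κ : ℤ) * (Equiv.Perm.sign κ' : ℤ) *
      (if (∀ i, (κ i : ℕ) ≤ ν i + i.val) ∧ (∀ j, (κ' j : ℕ) ≤ ν' j + j.val) then
        (Nat.card (TabE univ (expo (fun i => ν i + i.val - κ i) (fun j => ν' j + j.val - κ' j))) : ℤ) else 0) : ℤ) : ℂ) := by
    rw [uni_eq, uni_eq, classInner_sum_left, Int.cast_sum]
    apply sum_congr rfl
    intro κ _
    rw [classInner_sum_right, Int.cast_sum]
    apply sum_congr rfl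
    intro κ' _
    rw [classInner_smul_left, classInner_smul_right]
    unfold cf
    by_cases h3 : ∀ i : Fin n, (κ i).val ≤ ν i + i.val
    · by_cases h4 : ∀ i : Fin n, (κ' i).val ≤ ν' i + i.val
      · rw [if_pos h3, if_pos h4, if_pos (show (∀ i : Fin n, (κ i).val ≤ ν i + i.val) ∧ ∀ j : Fin n, (κ' j).val ≤ ν' j + j.val from ⟨h3, h4⟩),
          inner_parab (comp_sum hs h3) (comp_sum hs' h4), tab_eq, map_intCast (starRingEnd ℂ)]
        push_cast
        ring
      · rw [if_neg h4, if_neg (show ¬ ((∀ i : Fin n, (κ i).val ≤ ν i + i.val) ∧ ∀ j : Fin n, (κ' j).val ≤ ν' j + j.val) from fun h => h4 h.2)]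
        simp
    · rw [if_neg h3, if_neg (show ¬ ((∀ i : Fin n, (κ i).val ≤ ν i + i.val) ∧ ∀ j : Fin n, (κ' j).val ≤ ν' j + j.val) from fun h => h3 h.1)]
      simp
  rw [h2, h1]
  by_cases h : ν = ν'
  · subst h; simp
  · have h3 : ¬ (fun i : Fin n => ν i + i.val) = (fun i : Fin n => ν' i + i.val) := by
      intro h4
      apply h
      funext i
      have h5 : ν i + i.val = ν' i + i.val := congrFun h4 i
      omega
    rw [if_neg h3, if_neg h]
    simp

theorem stmt_2422 [Fintype F] (ν ν' : Fin n → ℕ) (hmono : Monotone ν) (hsum : ∑ i, ν i = n)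
    (hmono' : Monotone ν') (hsum' : ∑ i, ν' i = n) (h : unipotentCharacterGL n F ν = unipotentCharacterGL n F ν') : ν = ν' := by
  classical
  have h1 := inner_uni (F := F) hmono hsum hmono' hsum'
  rw [← h, inner_uni hmono hsum hmono hsum, if_pos rfl] at h1
  by_contra h2
  rw [if_neg h2] at h1
  exact one_ne_zero h1

/-! ### degrees -/

theorem Qf_succ (q m : ℕ) : Qf q (m + 1) = Qf q m * Qn q (m + 1) := by
  unfold Qf
  rw [prod_range_succ]

theorem Qn_split (q a b : ℕ) : Qn q (a + b) = Qn q a + q ^ a * Qn q b := by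
  unfold Qn
  rw [sum_range_add, mul_sum]
  congr 1
  apply sum_congr rfl
  intro i _
  rw [pow_add]

theorem Qn_pos {q : ℕ} (hq : 1 ≤ q) {r : ℕ} (hr : 1 ≤ r) : 0 < Qn q r := by
  unfold Qn
  apply sum_pos
  · intro i _; positivity
  · exact ⟨0, mem_range.2 hr⟩

theorem Qf_pos {q : ℕ} (hq : 1 ≤ q) (m : ℕ) : 0 < Qf q m := by
  unfold Qf
  apply prod_pos
  intro j _
  exact Qn_pos hq (by omega)

theorem Qn_lt {q : ℕ} (hq : 1 ≤ q) {a b : ℕ} (h : a < b) : Qn q a < Qn q b := by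
  obtain ⟨c, rfl⟩ := Nat.exists_eq_add_of_lt h
  rw [add_assoc, Qn_split]
  have h1 := Qn_pos hq (show 1 ≤ c + 1 by omega)
  have : 0 < q ^ a * Qn q (c + 1) := by positivity
  omega

/-- falling product -/
theorem falling (q : ℕ) (l : ℕ) : ∀ j : ℕ, j ≤ l → ((q : ℂ) ^ (∑ i ∈ range j, i)) * (Qf q l : ℂ) =
    (Qf q (l - j) : ℂ) * ∏ k ∈ range j, ((Qn q l : ℂ) - (Qn q k : ℂ)) := by
  intro j
  induction j with
  | zero => intro _; simp
  | succ j ih =>
    intro hj
    rw [sum_range_succ, pow_add, prod_range_succ, ← mul_assoc (Qf q (l - (j + 1)) : ℂ)]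
    have h1 := ih (by omega)
    have h2 : Qf q (l - j) = Qf q (l - (j + 1)) * Qn q (l - j) := by
      have : l - j = (l - (j + 1)) + 1 := by omega
      rw [this, Qf_succ]
    have h3 : (Qn q l : ℂ) - (Qn q j : ℂ) = (q : ℂ) ^ j * (Qn q (l - j) : ℂ) := by
      have h4 : Qn q l = Qn q j + q ^ j * Qn q (l - j) := by
        rw [← Qn_split, Nat.add_sub_cancel' (by omega)]
      rw [h4]; push_cast; ring
    rw [h3]
    rw [h2] at h1
    push_cast at h1
    calc (q : ℂ) ^ (∑ i ∈ range j, i) * (q : ℂ) ^ j * (Qf q l : ℂ) = (q : ℂ) ^ j * ((q : ℂ) ^ (∑ i ∈ range j, i) * (Qf q l : ℂ)) := by ring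
      _ = _ := by rw [h1]; ring

theorem falling_zero (q : ℕ) {l j : ℕ} (h : l < j) : ∏ k ∈ range j, ((Qn q l : ℂ) - (Qn q k : ℂ)) = 0 := by
  apply prod_eq_zero (i := l) (mem_range.2 h)
  rw [sub_self]

theorem det_falling (q : ℕ) (l : Fin n → ℕ) :
    ∑ κ : Equiv.Perm (Fin n), ((Equiv.Perm.sign κ : ℤ) : ℂ) * ∏ i, ∏ k ∈ range (κ i).val, ((Qn q (l i) : ℂ) - (Qn q k : ℂ)) =
      ∏ i : Fin n, ∏ j ∈ Ioi i, ((Qn q (l j) : ℂ) - (Qn q (l i) : ℂ)) := by
  have h1 := Matrix.det_eval_matrixOfPolynomials_eq_det_vandermonde (fun i : Fin n => (Qn q (l i) : ℂ))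
    (fun j : Fin n => ∏ k ∈ range j.val, (Polynomial.X - Polynomial.C (Qn q k : ℂ)))
    (fun j => by
      rw [Polynomial.natDegree_prod_of_monic _ _ (fun k _ => Polynomial.monic_X_sub_C _),
        sum_congr rfl (fun k _ => Polynomial.natDegree_X_sub_C _)]
      simp)
    (fun j => Polynomial.monic_prod_of_monic _ _ (fun k _ => Polynomial.monic_X_sub_C _))
  rw [Matrix.det_vandermonde] at h1
  rw [h1, ← Matrix.det_transpose, Matrix.det_apply]
  apply sum_congr rfl
  intro κ _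
  rw [Units.smul_def, zsmul_eq_mul]
  congr 1
  apply prod_congr rfl
  intro i _
  rw [Matrix.transpose_apply, Matrix.of_apply, Polynomial.eval_prod]
  simp

theorem sum_triangle (n : ℕ) : ∑ j ∈ range n, ∑ i ∈ range j, i = n * (n - 1) * (n - 2) / 6 := by
  have h : ∀ n : ℕ, 6 * ∑ j ∈ range n, ∑ i ∈ range j, i = n * (n - 1) * (n - 2) := by
    intro n
    induction n with
    | zero => rfl
    | succ n ih =>
      rw [sum_range_succ, mul_add, ih]
      have h1 := sum_range_id_mul_two n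
      rcases n with _ | _ | n
      · rfl
      · simp
      · have h2 : n + 1 + 1 - 1 = n + 1 := rfl
        have h3 : n + 1 + 1 - 2 = n := rfl
        have h4 : n + 1 + 1 + 1 - 1 = n + 2 := rfl
        have h5 : n + 1 + 1 + 1 - 2 = n + 1 := rfl
        rw [h2] at h1
        rw [h2, h3, h4, h5]
        nlinarith [h1]
  rw [← h n]
  omega

theorem stmt_2424 [Fintype F] {q : ℕ} (hq : Fintype.card F = q) (ν : Fin n → ℕ) (hsum : ∑ i, ν i = n) :
    unipotentCharacterGL n F ν 1 * (q : ℂ) ^ (n * (n - 1) * (n - 2) / 6) * ∏ i : Fin n, (Qf q (ν i + i.val) : ℂ) =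
      (Qf q n : ℂ) * ∏ i : Fin n, ∏ j ∈ univ.filter (fun j : Fin n => i < j), ((Qn q (ν j + j.val) : ℂ) - (Qn q (ν i + i.val) : ℂ)) := by
  have hq2 : 1 ≤ q := by rw [← hq]; exact Fintype.card_pos
  have h1 : ∏ i : Fin n, ∏ j ∈ univ.filter (fun j : Fin n => i < j), ((Qn q (ν j + j.val) : ℂ) - (Qn q (ν i + i.val) : ℂ)) =
      ∏ i : Fin n, ∏ j ∈ Ioi i, ((Qn q (ν j + j.val) : ℂ) - (Qn q (ν i + i.val) : ℂ)) := by
    apply prod_congr rfl
    intro i _
    congr 1
    ext j; simp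
  rw [h1, ← det_falling q (fun i => ν i + i.val), mul_sum]
  have h2 : unipotentCharacterGL n F ν 1 = ∑ κ : Equiv.Perm (Fin n), if ∀ i : Fin n, (κ i).val ≤ ν i + i.val then
      ((Equiv.Perm.sign κ : ℤ) : ℂ) * fixedPointCharacter (parabolicGL n F fun i => ν i + i.val - (κ i).val) 1 else 0 := rfl
  rw [h2, sum_mul, sum_mul]
  apply sum_congr rfl
  intro κ _
  have hq0 : (q : ℂ) ^ (n * (n - 1) * (n - 2) / 6) = ∏ i : Fin n, (q : ℂ) ^ (∑ k ∈ range (κ i).val, k) := by
    rw [prod_pow_eq_pow_sum, Equiv.sum_comp κ (fun i : Fin n => ∑ k ∈ range i.val, k), Fin.sum_univ_eq_sum_range (fun i => ∑ k ∈ range i, k) n, sum_triangle]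
  by_cases h : ∀ i : Fin n, (κ i).val ≤ ν i + i.val
  · rw [if_pos h, Stb.fpc_one]
    have h3 := index_par (F := F) (comp_sum hsum h)
    rw [hq] at h3
    have h3' : (((parabolicGL n F fun i => ν i + i.val - (κ i).val).index : ℕ) : ℂ) * ∏ i : Fin n, (Qf q (ν i + i.val - (κ i).val) : ℂ) = (Qf q n : ℂ) := by
      rw [← h3]; push_cast; rfl
    have h4 : (q : ℂ) ^ (n * (n - 1) * (n - 2) / 6) * ∏ i : Fin n, (Qf q (ν i + i.val) : ℂ) =
        (∏ i : Fin n, (Qf q (ν i + i.val - (κ i).val) : ℂ)) * ∏ i : Fin n, ∏ k ∈ range (κ i).val, ((Qn q (ν i + i.val) : ℂ) - (Qn q k : ℂ)) := by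
      rw [hq0, ← prod_mul_distrib, ← prod_mul_distrib]
      apply prod_congr rfl
      intro i _
      exact falling q (ν i + i.val) (κ i).val (h i)
    calc _ = ((Equiv.Perm.sign κ : ℤ) : ℂ) * (((parabolicGL n F fun i => ν i + i.val - (κ i).val).index : ℕ) : ℂ) *
          ((q : ℂ) ^ (n * (n - 1) * (n - 2) / 6) * ∏ i : Fin n, (Qf q (ν i + i.val) : ℂ)) := by ring
      _ = _ := by rw [h4, ← h3']; ring
  · rw [if_neg h, zero_mul, zero_mul]
    push Not at h
    obtain ⟨i, hi⟩ := h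
    rw [prod_eq_zero (mem_univ i) (falling_zero q hi)]
    ring

theorem isGen_uni [Fintype F] [DecidableEq F] (ν : Fin n → ℕ) : IsGeneralizedCharacter (GL (Fin n) F) (unipotentCharacterGL n F ν) := by
  rw [uni_eq]
  apply isGen_sum
  intro κ _
  exact isGen_int_smul (IsCharacter.isGen (Stb.isCharacter_fpc _)) _

theorem stmt_2421 [Fintype F] (ν : Fin n → ℕ) (hmono : Monotone ν) (hsum : ∑ i, ν i = n) :
    IsIrrCharacter (GL (Fin n) F) (unipotentCharacterGL n F ν) := by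
  classical
  have h1 := inner_uni (F := F) hmono hsum hmono hsum
  rw [if_pos rfl] at h1
  rcases IsGen.norm_one (isGen_uni ν) h1 with h | h
  · exact h
  · exfalso
    obtain ⟨m, hm⟩ := IsCharacter.one_nat (IsIrr.isCharacter h)
    rw [Pi.neg_apply] at hm
    obtain ⟨q, hq⟩ : ∃ q, Fintype.card F = q := ⟨_, rfl⟩
    have hq1 : 1 ≤ q := by rw [← hq]; exact Fintype.card_pos
    have h2 := stmt_2424 hq ν hsum
    have h3 : unipotentCharacterGL n F ν 1 = -(m : ℂ) := by rw [← hm]; ring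
    rw [h3] at h2
    -- both sides are real; compare signs
    have h4 : ((Qf q n : ℕ) : ℝ) * ∏ i : Fin n, ∏ j ∈ univ.filter (fun j : Fin n => i < j), (((Qn q (ν j + j.val) : ℕ) : ℝ) - ((Qn q (ν i + i.val) : ℕ) : ℝ)) =
        -(m : ℝ) * (q : ℝ) ^ (n * (n - 1) * (n - 2) / 6) * ∏ i : Fin n, ((Qf q (ν i + i.val) : ℕ) : ℝ) := by
      have := h2.symm
      exact_mod_cast this
    have h5 : 0 < ((Qf q n : ℕ) : ℝ) * ∏ i : Fin n, ∏ j ∈ univ.filter (fun j : Fin n => i < j), (((Qn q (ν j + j.val) : ℕ) : ℝ) - ((Qn q (ν i + i.val) : ℕ) : ℝ)) := by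
      apply mul_pos
      · exact_mod_cast Qf_pos hq1 n
      · apply prod_pos
        intro i _
        apply prod_pos
        intro j hj
        have hij : i < j := (mem_filter.1 hj).2
        rw [sub_pos]
        exact_mod_cast Qn_lt hq1 (strictMono_shift hmono hij)
    rw [h4] at h5
    have h6 : 0 ≤ (m : ℝ) * (q : ℝ) ^ (n * (n - 1) * (n - 2) / 6) * ∏ i : Fin n, ((Qf q (ν i + i.val) : ℕ) : ℝ) := by positivity
    linarith

end Gu
end CfsgH6
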