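import Cfsg.Agent.H6.FixField

set_option autoImplicit false

/-! Centralizers of graph-field automorphisms: unitary groups. -/

namespace CfsgH6

open Matrix

universe u

variable {F : Type u} [Field F] {m : ℕ}

/-- an automorphism of order two of a finite field is a power map -/
theorem sigma_eq_pow [Fintype F] {p f : ℕ} [Fact p.Prime] (hF : Fintype.card F = p ^ f)
    {σ : F ≃+* F} (hr : orderOf σ = 2) (a : F) : σ a = a ^ (p ^ (f / 2)) := by
  classical
  have hp : p.Prime := Fact.out
  set q0 := p ^ (f / 2) with hq0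
  have hcard := (card_fixF hF hr (by norm_num)).2
  rw [← hq0] at hcard
  have hfF : Finite (fixF σ) := inferInstance
  have : Fintype (fixF σ) := Fintype.ofFinite _
  have hcard' : Fintype.card (fixF σ) = q0 := by rw [← hcard, Nat.card_eq_fintype_card]
  have hσ : ∀ x, σ (σ x) = x := by
    intro x
    have := pow_orderOf_eq_one σ
    rw [hr, pow_two] at this
    exact DFunLike.congr_fun this x
  -- characteristic
  have hchar : CharP F p := by
    obtain ⟨p', hp'⟩ := CharP.exists F
    obtain ⟨n, hprime, hn⟩ := FiniteField.card F p'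
    have h1 : p' ∣ p ^ f := by
      rw [← hF, hn]; exact dvd_pow_self _ n.pos.ne'
    have h2 : p' = p := (Nat.prime_dvd_prime_iff_eq hprime hp).1 (hprime.dvd_of_dvd_pow h1)
    rw [← h2]; exact hp'
  have hfix : ∀ x, σ x = x → x ^ q0 = x := by
    intro x hx
    have h1 := FiniteField.pow_card (⟨x, mem_fixF.2 hx⟩ : fixF σ)
    rw [hcard'] at h1
    exact congrArg Subtype.val h1
  have hq1 : 1 < q0 := by
    have : Fintype.card (fixF σ) > 1 := Fintype.one_lt_card
    omega
  have hconv : ∀ x, x ^ q0 = x → σ x = x := by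
    intro x hx
    by_contra hne
    -- roots of `X^q0 - X`
    let P : Polynomial F := Polynomial.X ^ q0 - Polynomial.X
    have hP0 : P ≠ 0 := FiniteField.X_pow_card_sub_X_ne_zero F hq1
    have hPd : P.natDegree = q0 := FiniteField.X_pow_card_sub_X_natDegree_eq F hq1
    have h1 : insert x (Finset.univ.image (fun y : fixF σ => (y : F))) ⊆ P.roots.toFinset := by
      intro y hy
      rw [Multiset.mem_toFinset, Polynomial.mem_roots hP0, Polynomial.IsRoot.def]
      rcases Finset.mem_insert.1 hy with rfl | hy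
      · simp [P, hx]
      · obtain ⟨z, _, rfl⟩ := Finset.mem_image.1 hy
        have := hfix _ (mem_fixF.1 z.2)
        simp [P, this]
    have h2 := Finset.card_le_card h1
    rw [Finset.card_insert_of_notMem, Finset.card_image_of_injective _ Subtype.val_injective,
      Finset.card_univ, hcard'] at h2
    · have h3 := Multiset.toFinset_card_le P.roots
      have h4 := Polynomial.card_roots' P
      omega
    · intro hmem
      obtain ⟨z, _, hz⟩ := Finset.mem_image.1 hmem
      apply hne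
      rw [← hz]
      exact mem_fixF.1 z.2
  have hadd : ∀ x y : F, (x + y) ^ q0 = x ^ q0 + y ^ q0 := by
    intro x y
    rw [hq0]
    exact add_pow_char_pow x y p (f / 2)
  have hsub : ∀ x y : F, (x - y) ^ q0 = x ^ q0 - y ^ q0 := by
    intro x y
    have := hadd (x - y) y
    rw [sub_add_cancel] at this
    rw [this]; ring
  have h1 := hfix (a + σ a) (by rw [map_add, hσ, add_comm])
  have h2 := hfix (a * σ a) (by rw [map_mul, hσ, mul_comm])
  rw [hadd] at h1
  rw [mul_pow] at h2
  have h3 : (a ^ q0 - a) * (a ^ q0 - σ a) = 0 := by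
    have : (a ^ q0 - a) * (a ^ q0 - σ a) = a ^ q0 * (a ^ q0 - (a + σ a)) + a * σ a := by ring
    rw [this, ← h1, ← h2]; ring
  rcases mul_eq_zero.1 h3 with h4 | h4
  · have h5 : a ^ q0 = a := sub_eq_zero.1 h4
    rw [hconv a h5, h5]
  · exact (sub_eq_zero.1 h4).symm

theorem mem_GU_iff [Finite F] {q0 : ℕ} {σ : F ≃+* F} (hσ : ∀ x, σ (σ x) = x)
    (hpow : ∀ a, σ a = a ^ q0) (g : GL (Fin m) F) :
    g ∈ Cfsg.GU m F q0 ↔ (g : Matrix (Fin m) (Fin m) F) * st σ (g : Matrix (Fin m) (Fin m) F) = 1 := by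
  have hform : ∀ u v : Fin m → F, Cfsg.hermForm m F q0 u v = u ⬝ᵥ (fun i => σ (v i)) := by
    intro u v
    unfold Cfsg.hermForm dotProduct
    apply Finset.sum_congr rfl
    intro i _
    show u i * v i ^ q0 = u i * σ (v i)
    rw [hpow]
  have hmv : ∀ (M : Matrix (Fin m) (Fin m) F) (v : Fin m → F),
      (fun i => σ ((M *ᵥ v) i)) = (M.map σ) *ᵥ (fun i => σ (v i)) := by
    intro M v
    ext i
    simp only [Matrix.mulVec, dotProduct, map_sum, map_mul, Matrix.map_apply]
  have key : g ∈ Cfsg.GU m F q0 ↔ (g : Matrix (Fin m) (Fin m) F)ᵀ * (g : Matrix (Fin m) (Fin m) F).map σ = 1 := by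
    set G := (g : Matrix (Fin m) (Fin m) F) with hG
    have e : ∀ u v : Fin m → F, Cfsg.hermForm m F q0 (G *ᵥ u) (G *ᵥ v) =
        u ⬝ᵥ ((Gᵀ * G.map σ) *ᵥ (fun i => σ (v i))) := by
      intro u v
      rw [hform, hmv, ← Matrix.mulVec_mulVec, Matrix.dotProduct_mulVec u Gᵀ, Matrix.vecMul_transpose]
    constructor
    · intro h
      have h1 : ∀ u v : Fin m → F, Cfsg.hermForm m F q0 (G *ᵥ u) (G *ᵥ v) = Cfsg.hermForm m F q0 u v := h
      ext i j
      have h2 := h1 (Pi.single i 1) (Pi.single j 1)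
      rw [e, hform] at h2
      have h3 : (fun k => σ ((Pi.single j (1 : F) : Fin m → F) k)) = Pi.single j 1 := by
        ext k
        by_cases hk : k = j
        · subst hk; simp
        · simp [hk]
      rw [h3] at h2
      simp only [Matrix.mulVec_single_one, single_one_dotProduct] at h2
      rw [Matrix.one_apply]
      rw [Matrix.col_apply] at h2
      rw [h2, Pi.single_apply]
    · intro h u v
      show Cfsg.hermForm m F q0 (G *ᵥ u) (G *ᵥ v) = Cfsg.hermForm m F q0 u v
      rw [e, h, Matrix.one_mulVec, hform]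
  rw [key]
  constructor
  · intro h
    have h1 := congrArg (fun M => M.map σ) h
    simp only [map_ringEquiv_mul, map_ringEquiv_one, Matrix.map_map] at h1
    have h2 : (⇑σ ∘ ⇑σ) = id := by ext x; exact hσ x
    rw [h2, Matrix.map_id] at h1
    exact mul_eq_one_comm.1 h1
  · intro h
    have h0 := mul_eq_one_comm.1 h
    have h1 := congrArg (fun M => M.map σ) h0
    simp only [map_ringEquiv_mul, map_ringEquiv_one] at h1
    have h2 : (st σ (g : Matrix (Fin m) (Fin m) F)).map σ = (g : Matrix (Fin m) (Fin m) F)ᵀ := by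
      ext i j
      rw [Matrix.map_apply, st_apply, hσ]; rfl
    rw [h2] at h1
    exact h1

theorem gf_mul_cAut (σ : F ≃+* F) (b : GL (Fin m) F) : (fAut m σ * iT m F) * cAut m F b =
      cAut m F (glField m σ (glIota m b)) * (fAut m σ * iT m F) := by
  rw [mul_assoc, iT_mul_cAut, ← mul_assoc, fAut_mul_cAut, mul_assoc]

/-- an element whose conjugation commutes with the graph-field involution is a scalar times a
unitary matrix -/
theorem commute_gf_iff [Finite F] (hm : 2 ≤ m) {σ : F ≃+* F} (hσ : ∀ x, σ (σ x) = x)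
    (hne : σ ≠ RingEquiv.refl F)
    (g : GL (Fin m) F) (h : cAut m F g * (fAut m σ * iT m F) = (fAut m σ * iT m F) * cAut m F g) :
    ∃ (c : Fˣ) (g0 : GL (Fin m) F),
      (g0 : Matrix (Fin m) (Fin m) F) * st σ (g0 : Matrix (Fin m) (Fin m) F) = 1 ∧ g = sGL m c * g0 := by
  rw [gf_mul_cAut] at h
  have h1 : cAut m F (g * (glField m σ (glIota m g))⁻¹) = 1 := by
    rw [map_mul, map_inv]
    have := mul_right_cancel h
    rw [← this, mul_inv_cancel]
  obtain ⟨c, hc⟩ := (cAut_eq_one_iff hm).1 h1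
  obtain ⟨u, rfl⟩ := exists_unit_of_scalar (by omega) hc
  set G := (g : Matrix (Fin m) (Fin m) F) with hG
  have h2 : G * st σ G = Matrix.scalar (Fin m) (u : F) := by
    rw [← hc, Units.val_mul, ← glField_inv, glField_coe, glIota_inv_coe]
    rfl
  have hu : σ (u : F) = u := by
    have e1 := congrArg (fun M => st σ M) h2
    simp only [st_mul, st_st hσ] at e1
    rw [h2] at e1
    have e2 := congrFun (congrFun e1 ⟨0, by omega⟩) ⟨0, by omega⟩
    rw [st_apply, Matrix.scalar_apply, Matrix.diagonal_apply_eq] at e2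
    exact e2.symm
  have ho := orderOf_eq_two_of hσ hne
  obtain ⟨ν, hν⟩ := snorm_surj ho (by norm_num) u hu
  have hν' : (ν : F) * σ (ν : F) = u := by
    rw [← hν, snorm_coe, Finset.prod_range_succ, Finset.prod_range_succ, Finset.prod_range_zero,
      one_mul]
    rfl
  refine ⟨ν, sGL m ν⁻¹ * g, ?_, ?_⟩
  · rw [sGL_mul_coe]
    have e1 : st σ (((ν⁻¹ : Fˣ) : F) • G) = σ ((ν⁻¹ : Fˣ) : F) • st σ G := by
      ext a b
      rw [st_apply, Matrix.smul_apply, Matrix.smul_apply, st_apply]
      simp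
    rw [e1, Matrix.smul_mul, Matrix.mul_smul, smul_smul, h2, Matrix.scalar_apply,
      ← Matrix.smul_one_eq_diagonal, smul_smul, ← hν']
    have e2 : ((ν⁻¹ : Fˣ) : F) * σ ((ν⁻¹ : Fˣ) : F) * ((ν : F) * σ (ν : F)) = 1 := by
      rw [Units.val_inv_eq_inv_val, map_inv₀]
      have hν0 : (ν : F) ≠ 0 := ν.ne_zero
      have hσν : σ (ν : F) ≠ 0 := by
        intro h0; exact hν0 ((map_eq_zero σ).1 h0)
      field_simp
    rw [e2, one_smul]
  · apply Units.ext
    rw [sGL_mul_coe, sGL_mul_coe, smul_smul, ← Units.val_mul, mul_inv_cancel, Units.val_one, one_smul]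

theorem commute_of_unitary {σ : F ≃+* F}
    (g : GL (Fin m) F) (hg : (g : Matrix (Fin m) (Fin m) F) * st σ (g : Matrix (Fin m) (Fin m) F) = 1) :
    cAut m F g * (fAut m σ * iT m F) = (fAut m σ * iT m F) * cAut m F g := by
  rw [gf_mul_cAut]
  congr 2
  have h1 : g * (glField m σ (glIota m g))⁻¹ = 1 := by
    apply Units.ext
    rw [Units.val_mul, ← glField_inv, glField_coe, glIota_inv_coe]
    exact hg
  exact mul_inv_eq_one.1 h1

/-- norm one units -/
def nU (σ : F ≃+* F) : Subgroup Fˣ := (snorm σ 2).ker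

theorem mem_nU {σ : F ≃+* F} {u : Fˣ} : u ∈ nU σ ↔ (u : F) * σ (u : F) = 1 := by
  unfold nU
  rw [MonoidHom.mem_ker, Units.ext_iff, snorm_coe, Finset.prod_range_succ, Finset.prod_range_succ,
    Finset.prod_range_zero, one_mul]
  rfl

theorem index_nU [Fintype F] {p f : ℕ} [Fact p.Prime] (hF : Fintype.card F = p ^ f)
    {σ : F ≃+* F} (hr : orderOf σ = 2) : (nU σ).index = p ^ (f / 2) - 1 := by
  unfold nU
  rw [Subgroup.index_ker, ← card_fixU hF hr (by norm_num)]
  have : (snorm σ 2).range = fixU σ := by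
    ext u
    constructor
    · rintro ⟨v, rfl⟩
      exact map_snorm σ hr v
    · intro hu
      exact snorm_surj hr (by norm_num) u hu
  rw [this]

theorem st_diagonal (σ : F ≃+* F) (d : Fin m → F) :
    st σ (Matrix.diagonal d) = Matrix.diagonal (fun i => σ (d i)) := by
  unfold st
  rw [Matrix.diagonal_map (map_zero σ), Matrix.diagonal_transpose]

theorem det_cent_gf [Finite F] (hm : 2 ≤ m) {σ : F ≃+* F} (hσ : ∀ x, σ (σ x) = x)
    (hne : σ ≠ RingEquiv.refl F) :
    ((Subgroup.centralizer {fAut m σ * iT m F}).comap (cAut m F)).map Matrix.GeneralLinearGroup.det ⊔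
        (powMonoidHom m : Fˣ →* Fˣ).range = nU σ ⊔ (powMonoidHom m : Fˣ →* Fˣ).range := by
  apply le_antisymm
  · apply sup_le _ le_sup_right
    rintro _ ⟨g, hg, rfl⟩
    have hg' := Subgroup.mem_centralizer_singleton_iff.1 hg
    obtain ⟨c, g0, hg0, rfl⟩ := commute_gf_iff hm hσ hne g hg'
    rw [map_mul, det_sGL]
    apply Subgroup.mul_mem
    · exact Subgroup.mem_sup_right ⟨c, rfl⟩
    · apply Subgroup.mem_sup_left
      rw [mem_nU]
      have := congrArg Matrix.det hg0
      rw [Matrix.det_mul, st_det, Matrix.det_one] at this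
      exact this
  · apply sup_le _ le_sup_right
    intro u hu
    apply Subgroup.mem_sup_left
    refine ⟨duHom m F ⟨0, by omega⟩ u, ?_, det_duHom _ u⟩
    refine Subgroup.mem_centralizer_singleton_iff.2 (commute_of_unitary _ ?_)
    show Matrix.diagonal _ * st σ (Matrix.diagonal _) = 1
    rw [st_diagonal, Matrix.diagonal_mul_diagonal, ← Matrix.diagonal_one]
    congr 1
    ext i
    show (((if i = (⟨0, by omega⟩ : Fin m) then u else 1 : Fˣ) : F)) *
      σ ((if i = (⟨0, by omega⟩ : Fin m) then u else 1 : Fˣ) : F) = 1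
    split_ifs
    · exact mem_nU.1 hu
    · simp

/-- the centralizer of a graph-field involution in `Inndiag` -/
theorem cent_gf_iso [Finite F] (hm : 2 ≤ m) {q0 : ℕ} {σ : F ≃+* F} (hσ : ∀ x, σ (σ x) = x)
    (hne : σ ≠ RingEquiv.refl F) (hpow : ∀ a, σ a = a ^ q0) :
    Nonempty (↥(DD m F ⊓ Subgroup.centralizer {fAut m σ * iT m F}) ≃* Cfsg.PGU m F q0) := by
  let Φ : ↥(Cfsg.GU m F q0) →* MulAut (Matrix.ProjectiveSpecialLinearGroup (Fin m) F) :=
    (cAut m F).comp (Cfsg.GU m F q0).subtype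
  have hker : Φ.ker = (Cfsg.Geo.scalars (Fin m) F).subgroupOf (Cfsg.GU m F q0) := by
    ext g
    rw [MonoidHom.mem_ker, Subgroup.mem_subgroupOf, Cfsg.Geo.mem_scalars_iff]
    constructor
    · intro h
      obtain ⟨c, hc⟩ := (cAut_eq_one_iff hm).1 h
      obtain ⟨u, rfl⟩ := exists_unit_of_scalar (by omega) hc
      refine ⟨u, ?_⟩
      refine hc.trans ?_
      rw [Matrix.scalar_apply, Matrix.smul_one_eq_diagonal]
    · rintro ⟨c, hc⟩
      apply (cAut_eq_one_iff hm).2
      refine ⟨c, ?_⟩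
      refine Eq.trans hc ?_
      rw [Matrix.scalar_apply, Matrix.smul_one_eq_diagonal]
  have hrange : Φ.range = DD m F ⊓ Subgroup.centralizer {fAut m σ * iT m F} := by
    apply le_antisymm
    · rintro _ ⟨g, rfl⟩
      refine ⟨⟨_, rfl⟩, ?_⟩
      refine Subgroup.mem_centralizer_singleton_iff.2 ?_
      exact commute_of_unitary _ ((mem_GU_iff hσ hpow _).1 g.2)
    · rintro _ ⟨⟨g, rfl⟩, hg⟩
      have hg' := Subgroup.mem_centralizer_singleton_iff.1 hg
      obtain ⟨c, g0, hg0, rfl⟩ := commute_gf_iff hm hσ hne g hg'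
      refine ⟨⟨g0, (mem_GU_iff hσ hpow _).2 hg0⟩, ?_⟩
      show cAut m F _ = cAut m F _
      rw [cAut_sGL_mul]
      rfl
  have e1 : Cfsg.PGU m F q0 ≃* ↥(Cfsg.GU m F q0) ⧸ Φ.ker :=
    QuotientGroup.quotientMulEquivOfEq hker.symm
  exact ⟨((e1.trans (QuotientGroup.quotientKerEquivRange Φ)).trans (MulEquiv.subgroupCongr hrange)).symm⟩

/-- every `Aut`-conjugate of the graph-field involution is an `Inndiag`-conjugate -/
theorem gf_conj_DD [Fintype F] (hm : 2 ≤ m) {p f : ℕ} [Fact p.Prime] (hF : Fintype.card F = p ^ f)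
    {σ : F ≃+* F} (hr : orderOf σ = 2)
    (β : MulAut (Matrix.ProjectiveSpecialLinearGroup (Fin m) F)) :
    ∃ a ∈ DD m F, β * (fAut m σ * iT m F) * β⁻¹ = a * (fAut m σ * iT m F) * a⁻¹ := by
  obtain ⟨g, τ, e, rfl⟩ := good_all' hm β
  refine ⟨_, ⟨g, rfl⟩, ?_⟩
  have hcomm : τ * σ = σ * τ := by
    ext x
    show τ (σ x) = σ (τ x)
    rw [sigma_eq_pow hF hr, sigma_eq_pow hF hr, map_pow]
  have h1 : fAut m τ * fAut m σ = fAut m σ * fAut m τ := by
    have := congrArg (fun x => fHom m F x) hcomm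
    simp only [map_mul] at this
    exact this
  have h2 : iT m F * (fAut m σ * iT m F) = (fAut m σ * iT m F) * iT m F := by
    rw [← mul_assoc, iT_mul_fAut]
  have h3 : fAut m τ * (fAut m σ * iT m F) = (fAut m σ * iT m F) * fAut m τ := by
    rw [← mul_assoc, h1, mul_assoc, mul_assoc, iT_mul_fAut]
  set s := fAut m τ * (if e then iT m F else 1) with hs
  have h4 : s * (fAut m σ * iT m F) = (fAut m σ * iT m F) * s := by
    rw [hs]
    cases e
    · simpa using h3
    · simp only [if_true]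
      rw [mul_assoc, h2, ← mul_assoc, h3]
      simp only [mul_assoc]
  rw [mul_assoc (cAut m F g), ← hs, _root_.mul_inv_rev]
  have h5 : s * (fAut m σ * iT m F) * s⁻¹ = fAut m σ * iT m F := by rw [h4, mul_inv_cancel_right]
  calc cAut m F g * s * (fAut m σ * iT m F) * (s⁻¹ * (cAut m F g)⁻¹) =
      cAut m F g * (s * (fAut m σ * iT m F) * s⁻¹) * (cAut m F g)⁻¹ := by group
    _ = _ := by rw [h5]

end CfsgH6
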