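import Cfsg.Agent.H6.Cls12
import Cfsg.Prelude.Def_LieTypeDatum

set_option autoImplicit false

/-! The symplectic groups as isometry groups of an antidiagonal form; automorphisms of `PSp`. -/

namespace CfsgH6

open Matrix

variable {F : Type*} [Field F]

/-- the symplectic form datum -/
def spD (m : ℕ) (F : Type*) [Field F] : Cls (2 * m) F where
  σ := RingEquiv.refl F
  hσ := fun _ => rfl
  e := fun a => if (a : ℕ) < m then -1 else 1
  ε := -1
  he := fun a => by split_ifs <;> simp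
  hee := fun a => by
    have h1 := Fin.val_rev a
    have h2 := a.isLt
    by_cases h : (a : ℕ) < m
    · rw [if_pos h, if_neg (by omega), mul_one]
    · rw [if_neg h, if_pos (by omega), one_mul]
  hσe := fun _ => rfl

/-- the ordering of the symplectic basis -/
def rSp (m : ℕ) : Fin m ⊕ Fin m ≃ Fin (2 * m) where
  toFun x := match x with
    | .inl i => ⟨i, by omega⟩
    | .inr i => ⟨2 * m - 1 - i, by omega⟩
  invFun a := if h : (a : ℕ) < m then .inl ⟨a, h⟩ else .inr ⟨2 * m - 1 - a, by omega⟩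
  left_inv := by
    rintro (i | i)
    · simp
    · have := i.isLt
      have h1 : ¬ (2 * m - 1 - (i : ℕ) < m) := by omega
      simp only [h1, dif_neg, not_false_eq_true]
      congr 1
      apply Fin.ext
      simp only
      omega
  right_inv := by
    intro a
    have := a.isLt
    by_cases h : (a : ℕ) < m
    · simp [h]
    · simp only [h, dif_neg, not_false_eq_true]
      apply Fin.ext
      simp only
      omega

theorem rSp_inl {m : ℕ} (i : Fin m) : ((rSp m (.inl i) : Fin (2 * m)) : ℕ) = i := rfl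

theorem rSp_inr {m : ℕ} (i : Fin m) : ((rSp m (.inr i) : Fin (2 * m)) : ℕ) = 2 * m - 1 - i := rfl

theorem spD_JM (m : ℕ) (x y : Fin m ⊕ Fin m) : (spD m F).JM (rSp m x) (rSp m y) = Matrix.J (Fin m) F x y := by
  rw [Cls.JM_apply]
  have key : ∀ a b : Fin (2 * m), a = Fin.rev b ↔ (a : ℕ) + b + 1 = 2 * m := by
    intro a b
    have := b.isLt
    rw [Fin.ext_iff, Fin.val_rev]; omega
  simp only [key]
  rcases x with i | i <;> rcases y with j | j
  · have h1 := i.isLt
    have h2 := j.isLt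
    rw [rSp_inl, rSp_inl, if_neg (by omega)]
    rfl
  · have h1 := i.isLt
    have h2 := j.isLt
    rw [rSp_inl, rSp_inr]
    show _ = (-1 : Matrix (Fin m) (Fin m) F) i j
    rw [Matrix.neg_apply, Matrix.one_apply]
    have h3 : ((i : ℕ) + (2 * m - 1 - j) + 1 = 2 * m) ↔ i = j := by rw [Fin.ext_iff]; omega
    simp only [h3]
    split_ifs
    · show (((if ((rSp m (.inl i) : Fin (2 * m)) : ℕ) < m then (-1 : Fˣ) else 1 : Fˣ)) : F) = -1
      rw [rSp_inl, if_pos h1]; simp
    · simp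
  · have h1 := i.isLt
    have h2 := j.isLt
    rw [rSp_inl, rSp_inr]
    show _ = (1 : Matrix (Fin m) (Fin m) F) i j
    rw [Matrix.one_apply]
    have h3 : (2 * m - 1 - (i : ℕ) + j + 1 = 2 * m) ↔ i = j := by rw [Fin.ext_iff]; omega
    simp only [h3]
    split_ifs
    · show (((if ((rSp m (.inr i) : Fin (2 * m)) : ℕ) < m then (-1 : Fˣ) else 1 : Fˣ)) : F) = 1
      rw [rSp_inr, if_neg (by omega)]; simp
    · rfl
  · have h1 := i.isLt
    have h2 := j.isLt
    rw [rSp_inr, rSp_inr, if_neg (by omega)]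
    rfl

theorem spD_JM' (m : ℕ) : (spD m F).JM = Matrix.reindex (rSp m) (rSp m) (Matrix.J (Fin m) F) := by
  ext a b
  obtain ⟨x, rfl⟩ := (rSp m).surjective a
  obtain ⟨y, rfl⟩ := (rSp m).surjective b
  rw [spD_JM]
  simp

theorem reindex_mul' {m : ℕ} (A B : Matrix (Fin m ⊕ Fin m) (Fin m ⊕ Fin m) F) :
    Matrix.reindex (rSp m) (rSp m) (A * B) = Matrix.reindex (rSp m) (rSp m) A * Matrix.reindex (rSp m) (rSp m) B := by
  simp only [Matrix.reindex_apply]
  rw [Matrix.submatrix_mul_equiv]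

theorem spD_map (m : ℕ) (A : Matrix (Fin (2 * m)) (Fin (2 * m)) F) : A.map (spD m F).σ = A := by
  ext a b; rfl

theorem isSimil_reindex {m : ℕ} {A : Matrix (Fin m ⊕ Fin m) (Fin m ⊕ Fin m) F} {μ : F} :
    (spD m F).IsSimil (Matrix.reindex (rSp m) (rSp m) A) μ ↔
      A * Matrix.J (Fin m) F * Aᵀ = μ • Matrix.J (Fin m) F := by
  unfold Cls.IsSimil
  rw [spD_map, spD_JM', Matrix.transpose_reindex, ← reindex_mul', ← reindex_mul']
  constructor
  · intro h
    apply (Matrix.reindex (rSp m) (rSp m)).injective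
    rw [h]; rfl
  · intro h
    rw [h]; rfl

/-- the symplectic group in antidiagonal form -/
def spIso (m : ℕ) (F : Type*) [Field F] : Matrix.symplecticGroup (Fin m) F ≃* ↥(spD m F).fixG where
  toFun A := ⟨⟨Matrix.reindex (rSp m) (rSp m) A.1, by
      rw [Matrix.det_reindex_self]; exact SymplecticGroup.det_eq_one A.2⟩, by
    apply Cls.isSimil_coe.1
    show (spD m F).IsSimil (Matrix.reindex (rSp m) (rSp m) A.1) 1
    rw [isSimil_reindex, one_smul]
    exact A.2⟩
  invFun g := ⟨(Matrix.reindex (rSp m) (rSp m)).symm g.1.1, by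
    show _ * Matrix.J (Fin m) F * _ = Matrix.J (Fin m) F
    have h1 := Cls.isSimil_coe.2 g.2
    have h2 : (g.1 : Matrix (Fin (2 * m)) (Fin (2 * m)) F) =
      Matrix.reindex (rSp m) (rSp m) ((Matrix.reindex (rSp m) (rSp m)).symm g.1.1) := by
        rw [Equiv.apply_symm_apply]
    rw [h2, isSimil_reindex, one_smul] at h1
    exact h1⟩
  left_inv A := Subtype.ext (Equiv.symm_apply_apply _ _)
  right_inv g := Subtype.ext (Subtype.ext (Equiv.apply_symm_apply _ _))
  map_mul' A B := Subtype.ext (Subtype.ext (reindex_mul' A.1 B.1))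

theorem spIso_coe {m : ℕ} (A : Matrix.symplecticGroup (Fin m) F) :
    (((spIso m F A : ↥(spD m F).fixG) : Matrix.SpecialLinearGroup (Fin (2 * m)) F) :
      Matrix (Fin (2 * m)) (Fin (2 * m)) F) = Matrix.reindex (rSp m) (rSp m) A.1 := rfl

theorem map_center_of_equiv {G H : Type*} [Group G] [Group H] (e : G ≃* H) :
    (Subgroup.center G).map e.toMonoidHom = Subgroup.center H := by
  ext x
  constructor
  · rintro ⟨y, hy, rfl⟩
    rw [Subgroup.mem_center_iff]
    intro g
    obtain ⟨g, rfl⟩ := e.surjective g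
    show e g * e y = e y * e g
    rw [← map_mul, ← map_mul, Subgroup.mem_center_iff.1 hy g]
  · intro hx
    refine ⟨e.symm x, ?_, e.apply_symm_apply x⟩
    rw [SetLike.mem_coe, Subgroup.mem_center_iff]
    intro g
    apply e.injective
    rw [map_mul, map_mul, e.apply_symm_apply]
    exact Subgroup.mem_center_iff.1 hx (e g)

/-- `PSp` in antidiagonal form -/
def pspIso (m : ℕ) (F : Type*) [Field F] :
    Cfsg.PSp m F ≃* (↥(spD m F).fixG ⧸ Subgroup.center ↥(spD m F).fixG) :=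
  QuotientGroup.congr _ _ (spIso m F) (map_center_of_equiv _)

theorem pspIso_mk {m : ℕ} (A : Matrix.symplecticGroup (Fin m) F) :
    pspIso m F (QuotientGroup.mk A) = QuotientGroup.mk (spIso m F A) := rfl

theorem spD_long (m : ℕ) : (spD m F).LongHyp 1 where
  ne := one_ne_zero
  lng := by
    show (1 : F) = -(((-1 : Fˣ) : F) * 1)
    simp
  tr := fun h => by omega

/-- similarities on the two sides -/
theorem simil_transpose {m : ℕ} {A : Matrix (Fin m ⊕ Fin m) (Fin m ⊕ Fin m) F} {μ : F} (hμ : μ ≠ 0)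
    (h : A * Matrix.J (Fin m) F * Aᵀ = μ • Matrix.J (Fin m) F) :
    Aᵀ * Matrix.J (Fin m) F * A = μ • Matrix.J (Fin m) F := by
  have hJ := Matrix.J_squared (Fin m) F
  have h1 : A * (Matrix.J (Fin m) F * Aᵀ * (-(μ⁻¹ • Matrix.J (Fin m) F))) = 1 := by
    have : A * (Matrix.J (Fin m) F * Aᵀ * (-(μ⁻¹ • Matrix.J (Fin m) F))) =
        (A * Matrix.J (Fin m) F * Aᵀ) * (-(μ⁻¹ • Matrix.J (Fin m) F)) := by simp only [mul_assoc]
    rw [this, h, Matrix.mul_neg, Matrix.smul_mul, Matrix.mul_smul, hJ, smul_smul, mul_inv_cancel₀ hμ, one_smul, neg_neg]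
  have h2 := mul_eq_one_comm.1 h1
  have h3 : Matrix.J (Fin m) F * (Matrix.J (Fin m) F * Aᵀ * (-(μ⁻¹ • Matrix.J (Fin m) F)) * A) = Matrix.J (Fin m) F := by
    rw [h2, mul_one]
  have h4 : Matrix.J (Fin m) F * (Matrix.J (Fin m) F * Aᵀ * (-(μ⁻¹ • Matrix.J (Fin m) F)) * A) =
      μ⁻¹ • (Aᵀ * Matrix.J (Fin m) F * A) := by
    have : Matrix.J (Fin m) F * (Matrix.J (Fin m) F * Aᵀ * (-(μ⁻¹ • Matrix.J (Fin m) F)) * A) =
        (Matrix.J (Fin m) F * Matrix.J (Fin m) F) * (Aᵀ * (-(μ⁻¹ • Matrix.J (Fin m) F)) * A) := by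
      simp only [mul_assoc]
    rw [this, hJ, Matrix.mul_neg, Matrix.mul_smul]
    simp [Matrix.smul_mul]
  rw [h4] at h3
  calc Aᵀ * Matrix.J (Fin m) F * A = μ • (μ⁻¹ • (Aᵀ * Matrix.J (Fin m) F * A)) := by
        rw [smul_smul, mul_inv_cancel₀ hμ, one_smul]
    _ = μ • Matrix.J (Fin m) F := by rw [h3]

theorem sympForm_mul {m : ℕ} (A : Matrix (Fin m ⊕ Fin m) (Fin m ⊕ Fin m) F) (u v : Fin m ⊕ Fin m → F) :
    Cfsg.sympForm m F (A *ᵥ u) (A *ᵥ v) = u ⬝ᵥ ((Aᵀ * Matrix.J (Fin m) F * A) *ᵥ v) := by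
  unfold Cfsg.sympForm
  rw [← Matrix.mulVec_mulVec, ← Matrix.mulVec_mulVec, Matrix.dotProduct_mulVec u, Matrix.vecMul_transpose]

theorem mem_GSp_of {m : ℕ} {g : GL (Fin m ⊕ Fin m) F} {μ : F} (hμ : μ ≠ 0)
    (h : (g : Matrix (Fin m ⊕ Fin m) (Fin m ⊕ Fin m) F)ᵀ * Matrix.J (Fin m) F *
      (g : Matrix (Fin m ⊕ Fin m) (Fin m ⊕ Fin m) F) = μ • Matrix.J (Fin m) F) : g ∈ Cfsg.GSp m F := by
  refine ⟨Units.mk0 μ hμ, fun u v => ?_⟩
  rw [sympForm_mul, h, Matrix.smul_mulVec, dotProduct_smul]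
  rfl

/-- transport of general linear elements -/
def rGL (m : ℕ) (F : Type*) [Field F] : GL (Fin (2 * m)) F ≃* GL (Fin m ⊕ Fin m) F :=
  Units.mapEquiv (Matrix.reindexAlgEquiv F F (rSp m).symm).toMulEquiv

theorem rGL_coe {m : ℕ} (g : GL (Fin (2 * m)) F) :
    (g : Matrix (Fin (2 * m)) (Fin (2 * m)) F) =
      Matrix.reindex (rSp m) (rSp m) (rGL m F g : Matrix (Fin m ⊕ Fin m) (Fin m ⊕ Fin m) F) := by
  show _ = Matrix.reindex (rSp m) (rSp m) (Matrix.reindex (rSp m).symm (rSp m).symm _)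
  simp

/-- every automorphism is the product of an inner one and a standard one -/
theorem sp_form [Finite F] {m : ℕ} (hm : 2 ≤ m) {p : ℕ} [Fact p.Prime] [CharP F p] (h4 : m = 2 → p ≠ 2)
    (β : MulAut (↥(spD m F).fixG ⧸ Subgroup.center ↥(spD m F).fixG)) :
    ∃ (g : GL (Fin (2 * m)) F) (φ : F ≃+* F) (μ : F), (spD m F).IsSimil (g : Matrix _ _ F) μ ∧ μ ≠ 0 ∧
      ∀ (s : Matrix.SpecialLinearGroup (Fin (2 * m)) F) (hs : s ∈ (spD m F).fixG), ∃ hs' : sA g φ s ∈ (spD m F).fixG,
        β (Cls.mq s hs) = Cls.mq (sA g φ s) hs' := by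
  have hcomm : ∀ (φ : F ≃+* F) (x : F), φ ((spD m F).σ x) = (spD m F).σ (φ x) := fun _ _ => rfl
  have hg := (spD m F).good_fixG
  have hκ := spD_long (F := F) m
  obtain ⟨t, ht⟩ := Cls.exists_perm_id hg hκ (p := p) (by
    intro β ρ hβ i hi
    by_cases h6 : 6 ≤ 2 * m
    · exact Cls.last_sp_ge hg hκ (by omega) h6 hβ i hi
    · refine Cls.last_sp_four hg hκ (by omega) ?_ hβ i hi
      have hp : p ≠ 2 := h4 (by omega)
      intro h2
      have h3 : ((2 : ℕ) : F) = 0 := by exact_mod_cast h2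
      rw [CharP.cast_eq_zero_iff F p 2] at h3
      exact hp ((Nat.prime_dvd_prime_iff_eq (Fact.out : p.Prime) Nat.prime_two).1 h3)) β
  refine Cls.general_form hcomm (Cls.main_even hg hκ (by omega) (by omega) (p := p) (spD m F).dg_fixG hcomm ?_ ?_ ht)
  · intro φ ψ hψ k
    -- compare on squares
    have hall : ∀ x : F, x ∈ fixF (spD m F).σ := fun x => mem_fixF.2 rfl
    let f : F → F := fun x => (ψ ⟨x, hall x⟩ : F)
    have hadd : ∀ x y, f (x + y) = f x + f y := by
      intro x y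
      have : (⟨x + y, hall _⟩ : fixF (spD m F).σ) = ⟨x, hall x⟩ + ⟨y, hall y⟩ := rfl
      show (ψ _ : F) = _
      rw [this, map_add]; rfl
    have hsq : ∀ t, f (t * t) = φ t * φ t := by
      intro t
      by_cases ht : t = 0
      · subst ht
        have h0 : f 0 = 0 := by
          show (ψ ⟨0, hall 0⟩ : F) = 0
          have : (⟨0, hall 0⟩ : fixF (spD m F).σ) = 0 := rfl
          rw [this, map_zero]; rfl
        rw [mul_zero, h0, map_zero, mul_zero]
      · exact congrArg Subtype.val (hψ t ht)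
    have hneg : ∀ x, f (-x) = - f x := by
      intro x
      have h1 := hadd x (-x)
      have h0 : f 0 = 0 := by
        have := hsq 0
        rwa [map_zero, mul_zero] at this
      rw [add_neg_cancel, h0] at h1
      linear_combination -h1
    show f k = φ k
    by_cases h2 : (2 : F) = 0
    · -- every element is a square
      have hch : CharP F 2 := CharTwo.of_one_ne_zero_of_two_eq_zero one_ne_zero h2
      obtain ⟨y, hy⟩ : ∃ y : F, y * y = k := by
        have hinj : Function.Injective (fun y : F => y * y) := by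
          intro a b hab
          have hab' : a * a = b * b := hab
          have h3 : (a + b) * (a + b) = 0 := by linear_combination hab' + (a * b + b * b) * h2
          have h4 := mul_self_eq_zero.1 h3
          linear_combination h4 - b * h2
        exact Finite.surjective_of_injective hinj k
      rw [← hy, hsq, map_mul]
    · have h1 : f ((k + 1) * (k + 1)) - f (((k : F) - 1) * (k - 1)) = φ (k + 1) * φ (k + 1) - φ ((k : F) - 1) * φ (k - 1) := by
        rw [hsq, hsq]
      have e1 : ((k : F) + 1) * (k + 1) = (k * k + 1 * 1) + (k + k) := by ring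
      have e2 : ((k : F) - 1) * (k - 1) = (k * k + 1 * 1) + -(k + k) := by ring
      rw [e1, e2, hadd, hadd (k * k + 1 * 1), hneg, hadd k k, map_add, map_sub, map_one] at h1
      have h3 : (2 * 2 : F) * (f k - φ k) = 0 := by linear_combination h1
      rcases mul_eq_zero.1 h3 with h4 | h4
      · exact absurd (mul_self_eq_zero.1 h4) h2
      · linear_combination h4
  · intro c _
    refine ⟨1, c⁻¹, rfl, ?_⟩
    show ((1 : Fˣ) : F) * ((1 : Fˣ) : F) = _
    simp

theorem psp_aut [Finite F] {m : ℕ} (hm : 2 ≤ m) {p : ℕ} [Fact p.Prime] [CharP F p] (h4 : m = 2 → p ≠ 2)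
    (β : MulAut (Cfsg.PSp m F)) :
    ∃ (g : GL (Fin m ⊕ Fin m) F) (φ : F ≃+* F), g ∈ Cfsg.GSp m F ∧ Cfsg.IsInducedBySemilinearPSp g φ β := by
  obtain ⟨g, φ, μ, hg, hμ, hβ⟩ := sp_form hm (p := p) h4 ((pspIso m F).symm.trans (β.trans (pspIso m F)))
  refine ⟨rGL m F g, φ, ?_, ?_⟩
  · rw [rGL_coe, isSimil_reindex] at hg
    exact mem_GSp_of hμ (simil_transpose hμ hg)
  · intro s s' hss
    apply (pspIso m F).injective
    obtain ⟨hs', h1⟩ := hβ (spIso m F s).1 (spIso m F s).2
    have h2 : ((pspIso m F).symm.trans (β.trans (pspIso m F))) (Cls.mq (spIso m F s).1 (spIso m F s).2) =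
        pspIso m F (β (QuotientGroup.mk s)) := by
      have h3 : Cls.mq (spIso m F s).1 (spIso m F s).2 = pspIso m F (QuotientGroup.mk s) := rfl
      rw [h3]
      simp
    rw [← h2, h1, pspIso_mk]
    show Cls.mq _ _ = Cls.mq (spIso m F s').1 (spIso m F s').2
    apply Cls.mq_eq
    apply Subtype.ext
    rw [sA_coe, spIso_coe, spIso_coe, hss, reindex_mul', reindex_mul', ← rGL_coe]
    congr 1
    · have h5 : ((rGL m F g)⁻¹ : GL (Fin m ⊕ Fin m) F) = rGL m F g⁻¹ := (map_inv (rGL m F) g).symm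
      rw [h5, ← rGL_coe]

end CfsgH6
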