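import Cfsg.Agent.H6.PSpA
import Cfsg.Agent.H6.SemiB
import Cfsg.Agent.H6.Alt
import Cfsg.Agent.H6.Cls13
import Cfsg.Agent.H6.FixField

set_option autoImplicit false

/-! Classes of field automorphisms of `PSp`. -/

namespace CfsgH6

open Matrix

variable {F : Type*} [Field F] {m : ℕ}

/-- the inclusion of the symplectic group -/
def spE (m : ℕ) (F : Type*) [Field F] : Matrix.symplecticGroup (Fin m) F →* GL (Fin m ⊕ Fin m) F where
  toFun A := ⟨A.1, (A⁻¹).1, by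
      have h := congrArg Subtype.val (mul_inv_cancel A)
      exact h, by
      have h := congrArg Subtype.val (inv_mul_cancel A)
      exact h⟩
  map_one' := Units.ext rfl
  map_mul' A B := Units.ext rfl

theorem spE_coe (A : Matrix.symplecticGroup (Fin m) F) : ((spE m F A : GL _ F) : Matrix _ _ F) = A.1 := rfl

theorem spE_inj : Function.Injective (spE m F) := by
  intro A B h
  exact Subtype.ext (congrArg Units.val h)

theorem mem_spE {x : GL (Fin m ⊕ Fin m) F} :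
    x ∈ (spE m F).range ↔ (x : Matrix (Fin m ⊕ Fin m) (Fin m ⊕ Fin m) F) * Matrix.J (Fin m) F * (x : Matrix (Fin m ⊕ Fin m) (Fin m ⊕ Fin m) F)ᵀ = Matrix.J (Fin m) F := by
  constructor
  · rintro ⟨A, rfl⟩
    exact A.2
  · intro h
    exact ⟨⟨x, h⟩, Units.ext rfl⟩

theorem simil_transpose_iff {A : Matrix (Fin m ⊕ Fin m) (Fin m ⊕ Fin m) F} {μ : F} (hμ : μ ≠ 0) :
    A * Matrix.J (Fin m) F * Aᵀ = μ • Matrix.J (Fin m) F ↔ Aᵀ * Matrix.J (Fin m) F * A = μ • Matrix.J (Fin m) F := by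
  constructor
  · exact simil_transpose hμ
  · intro h
    have h1 := simil_transpose (A := Aᵀ) hμ (by rw [Matrix.transpose_transpose]; exact h)
    rwa [Matrix.transpose_transpose] at h1

theorem mem_GSp_iff {g : GL (Fin m ⊕ Fin m) F} : g ∈ Cfsg.GSp m F ↔ ∃ μ : Fˣ,
    (g : Matrix (Fin m ⊕ Fin m) (Fin m ⊕ Fin m) F) * Matrix.J (Fin m) F * (g : Matrix (Fin m ⊕ Fin m) (Fin m ⊕ Fin m) F)ᵀ =
      (μ : F) • Matrix.J (Fin m) F := by
  constructor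
  · rintro ⟨c, hc⟩
    refine ⟨c, ?_⟩
    rw [simil_transpose_iff c.ne_zero]
    ext i j
    have h1 := hc (Pi.single i 1) (Pi.single j 1)
    rw [sympForm_mul] at h1
    unfold Cfsg.sympForm at h1
    rw [Matrix.smul_apply, smul_eq_mul]
    simpa using h1
  · rintro ⟨μ, h⟩
    exact mem_GSp_of μ.ne_zero (simil_transpose μ.ne_zero h)

theorem J_ne (hm : 0 < m) : Matrix.J (Fin m) F ≠ 0 := by
  intro h
  have := congrFun (congrFun h (.inr ⟨0, hm⟩)) (.inl ⟨0, hm⟩)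
  simp [Matrix.J] at this

theorem mult_unique (hm : 0 < m) {μ ν : F} (h : μ • Matrix.J (Fin m) F = ν • Matrix.J (Fin m) F) : μ = ν := by
  have h1 : (μ - ν) • Matrix.J (Fin m) F = 0 := by rw [sub_smul, h, sub_self]
  rcases smul_eq_zero.1 h1 with h2 | h2
  · exact sub_eq_zero.1 h2
  · exact absurd h2 (J_ne hm)

/-- the multiplier -/
noncomputable def spθ (hm : 0 < m) : ↥(Cfsg.GSp m F) →* Fˣ where
  toFun g := Classical.choose (mem_GSp_iff.1 g.2)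
  map_one' := by
    apply Units.ext
    apply mult_unique hm
    rw [← Classical.choose_spec (mem_GSp_iff.1 (1 : ↥(Cfsg.GSp m F)).2)]
    show (1 : Matrix (Fin m ⊕ Fin m) (Fin m ⊕ Fin m) F) * _ * (1 : Matrix (Fin m ⊕ Fin m) (Fin m ⊕ Fin m) F)ᵀ = _
    rw [Matrix.transpose_one, one_mul, mul_one, Units.val_one, one_smul]
  map_mul' a b := by
    apply Units.ext
    apply mult_unique hm
    rw [← Classical.choose_spec (mem_GSp_iff.1 (a * b).2)]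
    have h1 := Classical.choose_spec (mem_GSp_iff.1 a.2)
    have h2 := Classical.choose_spec (mem_GSp_iff.1 b.2)
    generalize Classical.choose (mem_GSp_iff.1 a.2) = μ at h1 ⊢
    generalize Classical.choose (mem_GSp_iff.1 b.2) = ν at h2 ⊢
    show ((a.1 : Matrix (Fin m ⊕ Fin m) (Fin m ⊕ Fin m) F) * (b.1 : Matrix (Fin m ⊕ Fin m) (Fin m ⊕ Fin m) F)) * _ * ((a.1 : Matrix (Fin m ⊕ Fin m) (Fin m ⊕ Fin m) F) * (b.1 : Matrix (Fin m ⊕ Fin m) (Fin m ⊕ Fin m) F))ᵀ = _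
    rw [Matrix.transpose_mul]
    have e1 : ((a.1 : Matrix (Fin m ⊕ Fin m) (Fin m ⊕ Fin m) F) * (b.1 : Matrix (Fin m ⊕ Fin m) (Fin m ⊕ Fin m) F)) * Matrix.J (Fin m) F * ((b.1 : Matrix (Fin m ⊕ Fin m) (Fin m ⊕ Fin m) F)ᵀ * (a.1 : Matrix (Fin m ⊕ Fin m) (Fin m ⊕ Fin m) F)ᵀ) =
      (a.1 : Matrix (Fin m ⊕ Fin m) (Fin m ⊕ Fin m) F) * ((b.1 : Matrix (Fin m ⊕ Fin m) (Fin m ⊕ Fin m) F) * Matrix.J (Fin m) F * (b.1 : Matrix (Fin m ⊕ Fin m) (Fin m ⊕ Fin m) F)ᵀ) * (a.1 : Matrix (Fin m ⊕ Fin m) (Fin m ⊕ Fin m) F)ᵀ := by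
      simp only [mul_assoc]
    rw [e1, h2, Matrix.mul_smul, Matrix.smul_mul, h1, smul_smul, Units.val_mul, mul_comm]

theorem spθ_spec (hm : 0 < m) (g : ↥(Cfsg.GSp m F)) :
    (g.1 : Matrix (Fin m ⊕ Fin m) (Fin m ⊕ Fin m) F) * Matrix.J (Fin m) F * (g.1 : Matrix (Fin m ⊕ Fin m) (Fin m ⊕ Fin m) F)ᵀ =
      ((spθ hm g : Fˣ) : F) • Matrix.J (Fin m) F := Classical.choose_spec (mem_GSp_iff.1 g.2)

theorem spθ_eq (hm : 0 < m) (g : ↥(Cfsg.GSp m F)) {μ : Fˣ}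
    (h : (g.1 : Matrix (Fin m ⊕ Fin m) (Fin m ⊕ Fin m) F) * Matrix.J (Fin m) F * (g.1 : Matrix (Fin m ⊕ Fin m) (Fin m ⊕ Fin m) F)ᵀ =
      (μ : F) • Matrix.J (Fin m) F) : spθ hm g = μ := by
  apply Units.ext
  apply mult_unique hm
  rw [← spθ_spec, h]

theorem sG_mem_GSp (u : Fˣ) : sG (Fin m ⊕ Fin m) u ∈ Cfsg.GSp m F := by
  rw [mem_GSp_iff]
  refine ⟨u * u, ?_⟩
  rw [sG_coe, Matrix.scalar_apply, Matrix.diagonal_transpose, ← Matrix.smul_eq_diagonal_mul, ← Matrix.op_smul_eq_mul_diagonal,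
    op_smul_eq_smul, smul_smul, Units.val_mul]

theorem spθ_sG (hm : 0 < m) (u : Fˣ) : spθ hm ⟨sG (Fin m ⊕ Fin m) u, sG_mem_GSp u⟩ = u ^ 2 := by
  apply spθ_eq
  rw [sG_coe, Matrix.scalar_apply, Matrix.diagonal_transpose, ← Matrix.smul_eq_diagonal_mul, ← Matrix.op_smul_eq_mul_diagonal,
    op_smul_eq_smul, smul_smul, Units.val_pow_eq_pow_val, pow_two]

theorem map_J (σ : F ≃+* F) : (Matrix.J (Fin m) F).map σ = Matrix.J (Fin m) F := by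
  ext x y
  rcases x with i | i <;> rcases y with j | j <;> simp [Matrix.J, Matrix.one_apply]

theorem map_J' {K : Type*} [Field K] (j : K →+* F) : (Matrix.J (Fin m) K).map j = Matrix.J (Fin m) F := by
  ext x y
  rcases x with i | i <;> rcases y with k | k <;> simp [Matrix.J, Matrix.one_apply, apply_ite j]

theorem fGL_simil (σ : F ≃+* F) {g : GL (Fin m ⊕ Fin m) F} {μ : F}
    (h : (g : Matrix (Fin m ⊕ Fin m) (Fin m ⊕ Fin m) F) * Matrix.J (Fin m) F * (g : Matrix (Fin m ⊕ Fin m) (Fin m ⊕ Fin m) F)ᵀ = μ • Matrix.J (Fin m) F) :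
    ((fGL σ g : GL (Fin m ⊕ Fin m) F) : Matrix (Fin m ⊕ Fin m) (Fin m ⊕ Fin m) F) * Matrix.J (Fin m) F *
      ((fGL σ g : GL (Fin m ⊕ Fin m) F) : Matrix (Fin m ⊕ Fin m) (Fin m ⊕ Fin m) F)ᵀ = σ μ • Matrix.J (Fin m) F := by
  have h1 := congrArg (fun M : Matrix (Fin m ⊕ Fin m) (Fin m ⊕ Fin m) F => M.map σ) h
  simp only [mapMul, map_J] at h1
  rw [fGL_coe]
  have h2 : (μ • Matrix.J (Fin m) F).map σ = σ μ • Matrix.J (Fin m) F := by
    ext x y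
    show σ (μ * Matrix.J (Fin m) F x y) = σ μ * Matrix.J (Fin m) F x y
    have h3 : σ (Matrix.J (Fin m) F x y) = Matrix.J (Fin m) F x y := congrFun (congrFun (map_J σ) x) y
    rw [map_mul, h3]
  rw [h2] at h1
  exact h1

theorem fGL_GSp (σ : F ≃+* F) : ∀ g ∈ Cfsg.GSp m F, fGL σ g ∈ Cfsg.GSp m F := by
  intro g hg
  obtain ⟨μ, hμ⟩ := mem_GSp_iff.1 hg
  exact mem_GSp_iff.2 ⟨Units.map (σ : F →* F) μ, fGL_simil σ hμ⟩

theorem fGL_spE (σ : F ≃+* F) : ∀ g ∈ (spE m F).range, fGL σ g ∈ (spE m F).range := by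
  intro g hg
  rw [mem_spE] at hg ⊢
  have h1 := fGL_simil σ (μ := 1) (by rw [one_smul]; exact hg)
  rwa [map_one, one_smul] at h1

theorem spE_le_GSp : (spE m F).range ≤ Cfsg.GSp m F := by
  intro x hx
  rw [mem_spE] at hx
  exact mem_GSp_iff.2 ⟨1, by rw [Units.val_one, one_smul]; exact hx⟩

theorem mem_spE_iff_θ (hm : 0 < m) (g : ↥(Cfsg.GSp m F)) : g.1 ∈ (spE m F).range ↔ spθ hm g = 1 := by
  rw [mem_spE]
  constructor
  · intro h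
    exact spθ_eq hm g (by rw [Units.val_one, one_smul]; exact h)
  · intro h
    rw [spθ_spec hm, h, Units.val_one, one_smul]

theorem conj_spE' (hm : 0 < m) (g x : ↥(Cfsg.GSp m F)) (hx : x.1 ∈ (spE m F).range) :
    (g * x * g⁻¹).1 ∈ (spE m F).range := by
  rw [mem_spE_iff_θ hm] at hx ⊢
  rw [map_mul, map_mul, hx, map_inv, mul_one, mul_inv_cancel]

theorem conj_spE (hm : 0 < m) : ∀ g ∈ Cfsg.GSp m F, ∀ x ∈ (spE m F).range, g * x * g⁻¹ ∈ (spE m F).range :=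
  fun g hg x hx => conj_spE' hm ⟨g, hg⟩ ⟨x, spE_le_GSp hx⟩ hx

theorem spS (hm : 0 < m) : ∀ g ∈ Cfsg.GSp m F, MulAut.conj g ∈ stab (spE m F) := conj_mem_stab (conj_spE hm)

theorem spst (σ : F ≃+* F) : fGL σ ∈ stab (spE m F) := fGL_mem_stab fGL_spE σ

theorem sp_comm (hm : 0 < m) {p : ℕ} [Fact p.Prime] [CharP F p] (g : GL (Fin m ⊕ Fin m) F)
    (hg : ∀ x : Matrix.symplecticGroup (Fin m) F, ∃ u : Fˣ, g * spE m F x = sG (Fin m ⊕ Fin m) u * (spE m F x * g)) :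
    ∃ u : Fˣ, g = sG (Fin m ⊕ Fin m) u := by
  have h1 := (spD m F).scal_of_comm (G := (spD m F).fixG) ((spD m F).good_fixG) (spD_long (F := F) m) (p := p) (by omega)
    (g := (rGL m F).symm g) (by
      intro s hs
      obtain ⟨A, hA⟩ := (spIso m F).surjective ⟨s, hs⟩
      obtain ⟨u, hu⟩ := hg A
      refine ⟨u, ?_⟩
      have h2 := congrArg (fun x : GL (Fin m ⊕ Fin m) F => Matrix.reindex (rSp m) (rSp m) (x : Matrix (Fin m ⊕ Fin m) (Fin m ⊕ Fin m) F)) hu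
      simp only [sG_mul_coe] at h2
      rw [Units.val_mul, Units.val_mul, spE_coe] at h2
      rw [rGL_coe, MulEquiv.apply_symm_apply]
      have h3 : (s : Matrix (Fin (2 * m)) (Fin (2 * m)) F) = Matrix.reindex (rSp m) (rSp m) A.1 := by
        rw [← spIso_coe, hA]
      rw [h3, ← reindex_mul', ← reindex_mul', h2]
      rfl)
  obtain ⟨c, hc⟩ := h1
  rw [rGL_coe, MulEquiv.apply_symm_apply] at hc
  have h2 : (g : Matrix (Fin m ⊕ Fin m) (Fin m ⊕ Fin m) F) = Matrix.scalar (Fin m ⊕ Fin m) c := by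
    ext x y
    have := congrFun (congrFun hc (rSp m x)) (rSp m y)
    rw [Matrix.scalar_apply] at this ⊢
    rw [Matrix.reindex_apply, Matrix.submatrix_apply, Equiv.symm_apply_apply, Equiv.symm_apply_apply] at this
    rw [this]
    by_cases hxy : x = y
    · subst hxy
      rw [Matrix.diagonal_apply_eq, Matrix.diagonal_apply_eq]
    · rw [Matrix.diagonal_apply_ne _ hxy, Matrix.diagonal_apply_ne _ (fun h => hxy ((rSp m).injective h))]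
  have hc0 : c ≠ 0 := by
    rintro rfl
    have h3 := g.isUnit
    rw [h2, Matrix.isUnit_iff_isUnit_det, map_zero] at h3
    have : Nonempty (Fin m ⊕ Fin m) := ⟨.inl ⟨0, hm⟩⟩
    rw [Matrix.det_zero] at h3
    exact not_isUnit_zero h3
  exact ⟨Units.mk0 c hc0, Units.ext h2⟩

/-- the center of the symplectic group -/
theorem sp_center (hm : 0 < m) {p : ℕ} [Fact p.Prime] [CharP F p] :
    ∀ z ∈ Subgroup.center (Matrix.symplecticGroup (Fin m) F), ∃ u : Fˣ, spE m F z = sG (Fin m ⊕ Fin m) u := by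
  intro z hz
  apply sp_comm hm (p := p)
  intro x
  refine ⟨1, ?_⟩
  rw [map_one, one_mul, ← map_mul, ← map_mul, Subgroup.mem_center_iff.1 hz x]

theorem J_alt (w : Fin m ⊕ Fin m → F) : w ⬝ᵥ (Matrix.J (Fin m) F *ᵥ w) = 0 := by
  unfold Matrix.J
  rw [Matrix.fromBlocks_mulVec, dotProduct, Fintype.sum_sum_type]
  simp only [Sum.elim_inl, Sum.elim_inr, Matrix.zero_mulVec, zero_add, add_zero, Matrix.one_mulVec, Matrix.neg_mulVec,
    Pi.neg_apply, Function.comp_apply]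
  rw [← Finset.sum_add_distrib]
  apply Finset.sum_eq_zero
  intro i _
  ring

theorem fGL_map_subtype {σ : F ≃+* F} {ι : Type*} [Fintype ι] [DecidableEq ι] (k : GL ι (fixF σ)) :
    fGL σ (Matrix.GeneralLinearGroup.map (fixF σ).subtype k) = Matrix.GeneralLinearGroup.map (fixF σ).subtype k := by
  apply Units.ext
  ext x y
  show σ (((k : Matrix ι ι (fixF σ)) x y : fixF σ) : F) = _
  exact mem_fixF.1 ((k : Matrix ι ι (fixF σ)) x y).2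

theorem spθ_gN (hm : 0 < m) {σ : F ≃+* F} (g : ↥(Cfsg.GSp m F)) : ∀ k, ∃ h : gN σ g.1 k ∈ Cfsg.GSp m F,
    spθ hm ⟨gN σ g.1 k, h⟩ = snorm σ k (spθ hm g) := by
  intro k
  induction k with
  | zero =>
    refine ⟨(Cfsg.GSp m F).one_mem, ?_⟩
    rw [snorm_zero]
    exact map_one _
  | succ k ih =>
    obtain ⟨h, hh⟩ := ih
    refine ⟨(Cfsg.GSp m F).mul_mem g.2 (fGL_GSp σ _ h), ?_⟩
    have e1 : (⟨gN σ g.1 (k + 1), (Cfsg.GSp m F).mul_mem g.2 (fGL_GSp σ _ h)⟩ : ↥(Cfsg.GSp m F)) =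
        g * ⟨fGL σ (gN σ g.1 k), fGL_GSp σ _ h⟩ := rfl
    rw [e1, map_mul, snorm_succ]
    congr 1
    apply spθ_eq
    rw [← hh]
    exact fGL_simil σ (spθ_spec hm ⟨gN σ g.1 k, h⟩)

/-- an alternating matrix fixed by `σ` has a standard form over the fixed field -/
theorem alt_std_fix {σ : F ≃+* F} (B : Matrix (Fin m ⊕ Fin m) (Fin m ⊕ Fin m) F) (hB : ∀ x y, σ (B x y) = B x y)
    (halt : ∀ v, v ⬝ᵥ (B *ᵥ v) = 0) (hdet : B.det ≠ 0) :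
    ∃ k : GL (Fin m ⊕ Fin m) F, fGL σ k = k ∧ B = (k : Matrix _ _ F) * Matrix.J (Fin m) F * (k : Matrix (Fin m ⊕ Fin m) (Fin m ⊕ Fin m) F)ᵀ := by
  let B0 : Matrix (Fin m ⊕ Fin m) (Fin m ⊕ Fin m) (fixF σ) := Matrix.of fun x y => ⟨B x y, mem_fixF.2 (hB x y)⟩
  have hB0 : B0.map (fixF σ).subtype = B := rfl
  obtain ⟨k, hk⟩ := alt_std B0 (by
    intro v
    have h1 := halt (fun x => (v x : F))
    rw [← hB0] at h1
    apply Subtype.ext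
    have h2 : (fixF σ).subtype (v ⬝ᵥ (B0 *ᵥ v)) = (fun x => (v x : F)) ⬝ᵥ (B0.map (fixF σ).subtype *ᵥ fun x => (v x : F)) := by
      rw [dotProduct, map_sum, dotProduct]
      apply Finset.sum_congr rfl
      intro x _
      rw [map_mul, RingHom.map_mulVec]
      rfl
    exact h2.trans h1) (by
    intro h0
    apply hdet
    rw [← hB0]
    have := RingHom.map_det (fixF σ).subtype B0
    rw [h0, map_zero] at this
    exact this.symm)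
  refine ⟨Matrix.GeneralLinearGroup.map (fixF σ).subtype k, fGL_map_subtype k, ?_⟩
  have h1 := congrArg (fun M : Matrix (Fin m ⊕ Fin m) (Fin m ⊕ Fin m) (fixF σ) => M.map (fixF σ).subtype) hk
  simp only [Matrix.map_mul, map_J', hB0] at h1
  exact h1

/-- solving `g = a σ(a)⁻¹` in `GSp` -/
theorem sp_s3 {σ : F ≃+* F} {r : ℕ} (hm : 0 < m) (hr : orderOf σ = r) (hr0 : 0 < r) :
    ∀ g ∈ Cfsg.GSp m F, gN σ g r = 1 → ∃ a ∈ Cfsg.GSp m F, g = a * (fGL σ a)⁻¹ := by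
  intro g hg hgN
  obtain ⟨h, hh⟩ := hilbert90G hr hr0 g hgN
  obtain ⟨h1, h2⟩ := spθ_gN hm (σ := σ) ⟨g, hg⟩ r
  have h3 : snorm σ r (spθ hm ⟨g, hg⟩) = 1 := by
    rw [← h2]
    have : (⟨gN σ g r, h1⟩ : ↥(Cfsg.GSp m F)) = 1 := Subtype.ext hgN
    rw [this, map_one]
  obtain ⟨ν, hν⟩ := hilbert90_scalar hr hr0 _ h3
  have hμ := spθ_spec hm ⟨g, hg⟩
  generalize spθ hm ⟨g, hg⟩ = μ at hν hμ
  have hμ' : (g : Matrix (Fin m ⊕ Fin m) (Fin m ⊕ Fin m) F) * Matrix.J (Fin m) F * (g : Matrix (Fin m ⊕ Fin m) (Fin m ⊕ Fin m) F)ᵀ = (μ : F) • Matrix.J (Fin m) F := hμ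
  -- the matrix `B`
  have hgh : (fGL σ h)⁻¹ = h⁻¹ * g := by rw [hh]; group
  have hgh' : ((h⁻¹ : GL (Fin m ⊕ Fin m) F) : Matrix (Fin m ⊕ Fin m) (Fin m ⊕ Fin m) F).map σ =
      ((h⁻¹ : GL (Fin m ⊕ Fin m) F) : Matrix (Fin m ⊕ Fin m) (Fin m ⊕ Fin m) F) * (g : Matrix (Fin m ⊕ Fin m) (Fin m ⊕ Fin m) F) := by
    rw [← Units.val_mul, ← hgh, ← map_inv]; rfl
  have hhi : (h : Matrix (Fin m ⊕ Fin m) (Fin m ⊕ Fin m) F) * ((h⁻¹ : GL (Fin m ⊕ Fin m) F) : Matrix (Fin m ⊕ Fin m) (Fin m ⊕ Fin m) F) = 1 :=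
    h.mul_inv
  have hhi' : ((h⁻¹ : GL (Fin m ⊕ Fin m) F) : Matrix (Fin m ⊕ Fin m) (Fin m ⊕ Fin m) F)ᵀ * (h : Matrix (Fin m ⊕ Fin m) (Fin m ⊕ Fin m) F)ᵀ = 1 := by
    rw [← Matrix.transpose_mul, hhi, Matrix.transpose_one]
  generalize hHi : ((h⁻¹ : GL (Fin m ⊕ Fin m) F) : Matrix (Fin m ⊕ Fin m) (Fin m ⊕ Fin m) F) = Hi at hgh' hhi hhi'
  let B : Matrix (Fin m ⊕ Fin m) (Fin m ⊕ Fin m) F := Hi * Matrix.J (Fin m) F * Hiᵀ
  have hσB : B.map σ = (μ : F) • B := by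
    have e1 : B.map σ = Hi.map σ * Matrix.J (Fin m) F * (Hi.map σ)ᵀ := by
      show (Hi * Matrix.J (Fin m) F * Hiᵀ).map σ = _
      rw [mapMul, mapMul, map_J]
      rfl
    rw [e1, hgh', Matrix.transpose_mul]
    have e2 : Hi * (g : Matrix (Fin m ⊕ Fin m) (Fin m ⊕ Fin m) F) * Matrix.J (Fin m) F * ((g : Matrix (Fin m ⊕ Fin m) (Fin m ⊕ Fin m) F)ᵀ * Hiᵀ) =
      Hi * ((g : Matrix (Fin m ⊕ Fin m) (Fin m ⊕ Fin m) F) * Matrix.J (Fin m) F * (g : Matrix (Fin m ⊕ Fin m) (Fin m ⊕ Fin m) F)ᵀ) * Hiᵀ := by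
      simp only [mul_assoc]
    rw [e2, hμ', Matrix.mul_smul, Matrix.smul_mul]
  have hBalt : ∀ v, v ⬝ᵥ (B *ᵥ v) = 0 := by
    intro v
    have e1 : v ⬝ᵥ (B *ᵥ v) = (Hiᵀ *ᵥ v) ⬝ᵥ (Matrix.J (Fin m) F *ᵥ (Hiᵀ *ᵥ v)) := by
      show v ⬝ᵥ ((Hi * Matrix.J (Fin m) F * Hiᵀ) *ᵥ v) = _
      rw [← Matrix.mulVec_mulVec, ← Matrix.mulVec_mulVec, Matrix.dotProduct_mulVec, Matrix.mulVec_transpose]
    rw [e1, J_alt]
  have hBh : (h : Matrix (Fin m ⊕ Fin m) (Fin m ⊕ Fin m) F) * B * (h : Matrix (Fin m ⊕ Fin m) (Fin m ⊕ Fin m) F)ᵀ = Matrix.J (Fin m) F := by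
    have e1 : (h : Matrix (Fin m ⊕ Fin m) (Fin m ⊕ Fin m) F) * B * (h : Matrix (Fin m ⊕ Fin m) (Fin m ⊕ Fin m) F)ᵀ =
      ((h : Matrix (Fin m ⊕ Fin m) (Fin m ⊕ Fin m) F) * Hi) * Matrix.J (Fin m) F * (Hiᵀ * (h : Matrix (Fin m ⊕ Fin m) (Fin m ⊕ Fin m) F)ᵀ) := by
      show (h : Matrix (Fin m ⊕ Fin m) (Fin m ⊕ Fin m) F) * (Hi * Matrix.J (Fin m) F * Hiᵀ) * (h : Matrix (Fin m ⊕ Fin m) (Fin m ⊕ Fin m) F)ᵀ = _
      simp only [mul_assoc]
    rw [e1, hhi, hhi', one_mul, mul_one]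
  have hBdet : ((ν : F) • B).det ≠ 0 := by
    intro h0
    have e1 : (h : Matrix (Fin m ⊕ Fin m) (Fin m ⊕ Fin m) F) * ((ν : F) • B) * (h : Matrix (Fin m ⊕ Fin m) (Fin m ⊕ Fin m) F)ᵀ = (ν : F) • Matrix.J (Fin m) F := by
      rw [Matrix.mul_smul, Matrix.smul_mul, hBh]
    have e2 := congrArg Matrix.det e1
    rw [Matrix.det_mul, Matrix.det_mul, h0, mul_zero, zero_mul, Matrix.det_smul] at e2
    have e3 := Matrix.isUnit_det_J (Fin m) F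
    exact (mul_ne_zero (pow_ne_zero _ ν.ne_zero) e3.ne_zero) e2.symm
  obtain ⟨k, hk1, hk2⟩ := alt_std_fix (σ := σ) ((ν : F) • B) (by
    intro x y
    have e1 : σ (B x y) = (μ : F) * B x y := congrFun (congrFun hσB x) y
    show σ ((ν : F) * B x y) = (ν : F) * B x y
    rw [map_mul, e1, ← hν, ]
    have e2 : σ ((μ : F) * σ (ν : F)) = σ (ν : F) := by rw [hν]
    rw [e2]; ring) (by
    intro v
    rw [Matrix.smul_mulVec, dotProduct_smul, hBalt, smul_zero]) hBdet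
  refine ⟨h * k, ?_, ?_⟩
  · rw [mem_GSp_iff]
    refine ⟨ν, ?_⟩
    rw [Units.val_mul, Matrix.transpose_mul]
    have e1 : (h : Matrix (Fin m ⊕ Fin m) (Fin m ⊕ Fin m) F) * (k : Matrix (Fin m ⊕ Fin m) (Fin m ⊕ Fin m) F) * Matrix.J (Fin m) F *
        ((k : Matrix (Fin m ⊕ Fin m) (Fin m ⊕ Fin m) F)ᵀ * (h : Matrix (Fin m ⊕ Fin m) (Fin m ⊕ Fin m) F)ᵀ) =
      (h : Matrix (Fin m ⊕ Fin m) (Fin m ⊕ Fin m) F) * ((k : Matrix (Fin m ⊕ Fin m) (Fin m ⊕ Fin m) F) * Matrix.J (Fin m) F *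
        (k : Matrix (Fin m ⊕ Fin m) (Fin m ⊕ Fin m) F)ᵀ) * (h : Matrix (Fin m ⊕ Fin m) (Fin m ⊕ Fin m) F)ᵀ := by
      simp only [mul_assoc]
    rw [e1, ← hk2, Matrix.mul_smul, Matrix.smul_mul, hBh]
  · rw [map_mul, hk1, hh]; group

end CfsgH6
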