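import Cfsg.Agent.H6.PSpB

set_option autoImplicit false

/-! Classes of field automorphisms of `PSp`, part 2. -/

namespace CfsgH6

open Matrix

universe u

variable {F : Type u} [Field F] {m : ℕ}

/-- conjugation by `GSp` on `PSp` -/
noncomputable def spC (hm : 0 < m) : ↥(Cfsg.GSp m F) →* MulAut (Cfsg.PSp m F) := cT spE_inj (spS hm)

/-- field automorphisms of `PSp` -/
noncomputable def spF (m : ℕ) (σ : F ≃+* F) : MulAut (Cfsg.PSp m F) := fT spE_inj (spst σ)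

theorem spC_ker (hm : 0 < m) {p : ℕ} [Fact p.Prime] [CharP F p] (g : ↥(Cfsg.GSp m F)) (h : spC hm g = 1) :
    ∃ u : Fˣ, g.1 = sG (Fin m ⊕ Fin m) u :=
  ker_cT spE_inj (sp_center hm (p := p)) (sp_comm hm (p := p)) (spS hm) g h

theorem sp_induced_iff (hm : 0 < m) {g : GL (Fin m ⊕ Fin m) F} (hg : g ∈ Cfsg.GSp m F) (σ : F ≃+* F)
    (β : MulAut (Cfsg.PSp m F)) : Cfsg.IsInducedBySemilinearPSp g σ β ↔ β = spC hm ⟨g, hg⟩ * spF m σ :=
  induced_iff spE_inj (spS hm) hg (spst σ) β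

theorem sp_refl : spF m (RingEquiv.refl F) = 1 := fT_one spE_inj (spst (RingEquiv.refl F))

theorem sp_std_iff (hm : 0 < m) (σ : F ≃+* F) (β : MulAut (Cfsg.PSp m F)) :
    Cfsg.IsStdFieldAutPSp σ β ↔ β = spF m σ := by
  have h1 := sp_induced_iff hm (Cfsg.GSp m F).one_mem σ β
  have h2 : (⟨1, (Cfsg.GSp m F).one_mem⟩ : ↥(Cfsg.GSp m F)) = 1 := rfl
  rw [h2, map_one, one_mul] at h1
  rw [← h1]
  unfold Cfsg.IsStdFieldAutPSp Cfsg.IsInducedBySemilinearPSp
  simp only [Units.val_one, inv_one, one_mul, mul_one]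

theorem inndiagPSp_eq (hm : 0 < m) : Cfsg.inndiagPSp m F = (spC (F := F) hm).range := by
  apply le_antisymm
  · unfold Cfsg.inndiagPSp Cfsg.autSubgroupOf
    rw [Subgroup.closure_le]
    rintro β ⟨g, hg, hβ⟩
    have h1 := (sp_induced_iff hm hg _ β).1 hβ
    rw [sp_refl, mul_one] at h1
    exact ⟨_, h1.symm⟩
  · rintro _ ⟨g, rfl⟩
    refine Subgroup.subset_closure ⟨g.1, g.2, ?_⟩
    refine (sp_induced_iff hm g.2 _ _).2 ?_
    rw [sp_refl, mul_one]

/-- inner automorphisms -/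
theorem spC_Inn (hm : 0 < m) {p : ℕ} [Fact p.Prime] [CharP F p] (g : ↥(Cfsg.GSp m F)) :
    spθ hm g ∈ (powMonoidHom 2 : Fˣ →* Fˣ).range ↔ spC hm g ∈ Cfsg.Inn (Cfsg.PSp m F) := by
  have key : ∀ A : Matrix.symplecticGroup (Fin m) F, ∃ h : spE m F A ∈ Cfsg.GSp m F,
      spC hm ⟨spE m F A, h⟩ = MulAut.conj (QuotientGroup.mk A : Cfsg.PSp m F) := by
    intro A
    refine ⟨spE_le_GSp ⟨A, rfl⟩, ?_⟩
    apply MulEquiv.ext
    intro x
    induction x using QuotientGroup.induction_on with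
    | H s =>
      show (QuotientGroup.mk (actG spE_inj ⟨MulAut.conj (spE m F A), _⟩ s) : Cfsg.PSp m F) =
        QuotientGroup.mk (A * s * A⁻¹)
      congr 1
      apply spE_inj
      rw [actG_spec, map_mul, map_mul, map_inv]
      rfl
  constructor
  · rintro ⟨c, hc⟩
    have h1 : spθ hm (⟨sG (Fin m ⊕ Fin m) c, sG_mem_GSp c⟩⁻¹ * g) = 1 := by
      rw [map_mul, map_inv, spθ_sG, ← hc, powMonoidHom_apply, inv_mul_cancel]
    obtain ⟨A, hA⟩ := (mem_spE_iff_θ hm _).2 h1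
    obtain ⟨h2, h3⟩ := key A
    have h4 : g = ⟨sG (Fin m ⊕ Fin m) c, sG_mem_GSp c⟩ * ⟨spE m F A, h2⟩ := by
      have e1 : (⟨spE m F A, h2⟩ : ↥(Cfsg.GSp m F)) = ⟨sG (Fin m ⊕ Fin m) c, sG_mem_GSp c⟩⁻¹ * g := Subtype.ext hA
      rw [e1, mul_inv_cancel_left]
    rw [h4, map_mul]
    have h5 : spC hm ⟨sG (Fin m ⊕ Fin m) c, sG_mem_GSp c⟩ = (1 : MulAut (Cfsg.PSp m F)) := ker'_cT spE_inj (spS hm) c _
    rw [h5, one_mul, h3]
    exact ⟨_, rfl⟩
  · rintro ⟨t, ht⟩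
    obtain ⟨A, rfl⟩ := QuotientGroup.mk_surjective t
    obtain ⟨h2, h3⟩ := key A
    have h4 : spC hm (⟨spE m F A, h2⟩⁻¹ * g) = 1 := by
      rw [map_mul, map_inv, h3]
      have ht' : spC hm g = MulAut.conj (QuotientGroup.mk A : Cfsg.PSp m F) := ht.symm
      rw [ht', inv_mul_cancel]
    obtain ⟨u, hu⟩ := spC_ker hm (p := p) _ h4
    refine ⟨u, ?_⟩
    have h5 : g = ⟨spE m F A, h2⟩ * ⟨sG (Fin m ⊕ Fin m) u, sG_mem_GSp u⟩ := by
      have e1 : (⟨sG (Fin m ⊕ Fin m) u, sG_mem_GSp u⟩ : ↥(Cfsg.GSp m F)) = ⟨spE m F A, h2⟩⁻¹ * g := Subtype.ext hu.symm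
      rw [e1, mul_inv_cancel_left]
    rw [h5, map_mul, spθ_sG, (mem_spE_iff_θ hm _).1 ⟨A, rfl⟩, one_mul, powMonoidHom_apply]

theorem Inn_le_sp (hm : 0 < m) : Cfsg.Inn (Cfsg.PSp m F) ≤ (spC (F := F) hm).range := by
  rintro _ ⟨t, rfl⟩
  obtain ⟨A, rfl⟩ := QuotientGroup.mk_surjective t
  refine ⟨⟨spE m F A, spE_le_GSp ⟨A, rfl⟩⟩, ?_⟩
  apply MulEquiv.ext
  intro x
  induction x using QuotientGroup.induction_on with
  | H s =>
    show (QuotientGroup.mk (actG spE_inj ⟨MulAut.conj (spE m F A), _⟩ s) : Cfsg.PSp m F) =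
      QuotientGroup.mk (A * s * A⁻¹)
    congr 1
    apply spE_inj
    rw [actG_spec, map_mul, map_mul, map_inv]
    rfl

/-- the inner-diagonal group is normal -/
theorem inndiagPSp_normal [Finite F] (hm : 2 ≤ m) {p : ℕ} [Fact p.Prime] [CharP F p] :
    ((spC (F := F) (show 0 < m by omega)).range).Normal := by
  have hm0 : 0 < m := by omega
  by_cases h2 : p = 2
  · subst h2
    have h1 : (spC (F := F) hm0).range = Cfsg.Inn (Cfsg.PSp m F) := by
      apply le_antisymm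
      · rintro _ ⟨g, rfl⟩
        rw [← spC_Inn hm0 (p := 2)]
        have hinj : Function.Injective (powMonoidHom 2 : Fˣ →* Fˣ) := by
          intro a b hab
          apply Units.ext
          have h3 : (a : F) ^ 2 = (b : F) ^ 2 := congrArg Units.val hab
          exact frobenius_inj F 2 h3
        exact Finite.surjective_of_injective hinj _
      · exact Inn_le_sp hm0
    rw [h1]
    infer_instance
  · apply range_normal spE_inj (spS hm0) spst fGL_GSp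
    intro β
    obtain ⟨g, φ, hg, h1⟩ := psp_aut hm (p := p) (fun _ => h2) β
    exact ⟨⟨g, hg⟩, φ, (sp_induced_iff hm0 hg φ β).1 h1⟩

/-- faithfulness -/
theorem spF_faithful (hm : 0 < m) {p : ℕ} [Fact p.Prime] [CharP F p] (σ : F ≃+* F) (h : spF m σ = 1) : σ = 1 := by
  have hU : ∀ t : F, ∃ A : Matrix.symplecticGroup (Fin m) F, A.1 = Matrix.fromBlocks 1 (Matrix.diagonal fun _ => t) 0 1 := by
    intro t
    refine ⟨⟨Matrix.fromBlocks 1 (Matrix.diagonal fun _ => t) 0 1, ?_⟩, rfl⟩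
    show _ * Matrix.J (Fin m) F * _ = _
    unfold Matrix.J
    rw [Matrix.fromBlocks_transpose, Matrix.fromBlocks_multiply, Matrix.fromBlocks_multiply]
    simp
  ext t
  show σ t = t
  obtain ⟨A, hA⟩ := hU t
  obtain ⟨z, hz, h1⟩ := actT_eq_one spE_inj (A := ⟨fGL σ, spst σ⟩) h A
  obtain ⟨u, hu⟩ := sp_center hm (p := p) z hz
  rw [hu, ← sG_comm] at h1
  have h2 := congrArg (fun x : GL (Fin m ⊕ Fin m) F => (x : Matrix (Fin m ⊕ Fin m) (Fin m ⊕ Fin m) F)) h1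
  simp only [sG_mul_coe] at h2
  have h3 : ((fGL σ (spE m F A) : GL (Fin m ⊕ Fin m) F) : Matrix (Fin m ⊕ Fin m) (Fin m ⊕ Fin m) F) = A.1.map σ := rfl
  have h4 : A.1.map σ = (u : F) • A.1 := h2
  have h5 := congrFun (congrFun h4 (.inl ⟨0, hm⟩)) (.inl ⟨0, hm⟩)
  have h6 := congrFun (congrFun h4 (.inl ⟨0, hm⟩)) (.inr ⟨0, hm⟩)
  rw [Matrix.map_apply, Matrix.smul_apply, hA] at h5 h6
  simp only [Matrix.fromBlocks_apply₁₁, Matrix.fromBlocks_apply₁₂, Matrix.one_apply_eq, Matrix.diagonal_apply_eq,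
    map_one, smul_eq_mul, mul_one] at h5 h6
  rw [h6, ← h5, one_mul]

theorem orderOf_spF (hm : 0 < m) {p : ℕ} [Fact p.Prime] [CharP F p] (σ : F ≃+* F) :
    orderOf (spF m σ) = orderOf σ :=
  orderOf_fT spE_inj spst (spF_faithful hm (p := p)) σ

/-- the class package -/
theorem sp_srep [Finite F] (hm : 0 < m) {p : ℕ} [Fact p.Prime] [CharP F p] {σ : F ≃+* F} {r : ℕ}
    (hr : orderOf σ = r) (hr0 : 0 < r) : SRep (Cfsg.GSp m F) (Cfsg.PSp m F) (spC hm) σ (spF m σ) r where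
  ker := spC_ker hm (p := p)
  ker' := ker'_cT spE_inj (spS hm)
  σS := fGL_GSp σ
  comm := fT_mul_cT spE_inj (spS hm) (spst σ) (fGL_GSp σ)
  hr := hr
  hr0 := hr0
  fr := by
    have h1 := pow_orderOf_eq_one (spF m σ)
    rwa [orderOf_spF hm (p := p), hr] at h1
  s1 := by
    intro u _ hu
    obtain ⟨ν, hν⟩ := snorm_surj hr hr0 u⁻¹ (by rw [Units.val_inv_eq_inv_val, map_inv₀, hu])
    exact ⟨ν, sG_mem_GSp ν, hν⟩
  s2 := by
    intro u _ hu
    obtain ⟨ν, hν⟩ := hilbert90_scalar hr hr0 u hu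
    exact ⟨ν, sG_mem_GSp ν, hν⟩
  s3 := sp_s3 hm hr hr0

/-- a diagonal similarity -/
theorem exists_simil (hm : 0 < m) (u : Fˣ) : ∃ g : ↥(Cfsg.GSp m F), spθ hm g = u ∧
    ∀ σ : F ≃+* F, σ u = u → fGL σ g.1 = g.1 := by
  let g : GL (Fin m ⊕ Fin m) F := ⟨Matrix.fromBlocks 1 0 0 (Matrix.diagonal fun _ => (u : F)),
    Matrix.fromBlocks 1 0 0 (Matrix.diagonal fun _ => ((u⁻¹ : Fˣ) : F)), by
      rw [Matrix.fromBlocks_multiply]; simp, by
      rw [Matrix.fromBlocks_multiply]; simp⟩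
  have hg : (g : Matrix (Fin m ⊕ Fin m) (Fin m ⊕ Fin m) F) * Matrix.J (Fin m) F * (g : Matrix (Fin m ⊕ Fin m) (Fin m ⊕ Fin m) F)ᵀ =
      (u : F) • Matrix.J (Fin m) F := by
    show Matrix.fromBlocks 1 0 0 (Matrix.diagonal fun _ => (u : F)) * Matrix.J (Fin m) F * (Matrix.fromBlocks 1 0 0 (Matrix.diagonal fun _ => (u : F)))ᵀ = _
    unfold Matrix.J
    rw [Matrix.fromBlocks_transpose, Matrix.fromBlocks_multiply, Matrix.fromBlocks_multiply, Matrix.fromBlocks_smul]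
    simp [Matrix.smul_one_eq_diagonal]
  refine ⟨⟨g, mem_GSp_iff.2 ⟨u, hg⟩⟩, spθ_eq hm _ hg, ?_⟩
  intro σ hσ
  apply Units.ext
  show (Matrix.fromBlocks 1 0 0 (Matrix.diagonal fun _ => (u : F))).map σ = Matrix.fromBlocks 1 0 0 (Matrix.diagonal fun _ => (u : F))
  rw [Matrix.fromBlocks_map, Matrix.diagonal_map (map_zero σ), hσ]
  congr 1
  · exact mapOne σ
  · ext i j; exact map_zero σ
  · ext i j; exact map_zero σ

theorem spθ_surj (hm : 0 < m) : Function.Surjective (spθ (F := F) hm) := by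
  intro u
  obtain ⟨g, hg, _⟩ := exists_simil hm u
  exact ⟨g, hg⟩

/-- the multipliers of the elements commuting with the field automorphism -/
theorem spθ_cent [Finite F] (hm : 0 < m) {p : ℕ} [Fact p.Prime] [CharP F p] {σ : F ≃+* F} {r : ℕ}
    (hr : orderOf σ = r) (hr0 : 0 < r) :
    ((Subgroup.centralizer {spF m σ}).comap (spC hm)).map (spθ hm) ⊔ (powMonoidHom 2 : Fˣ →* Fˣ).range =
      fixU σ ⊔ (powMonoidHom 2 : Fˣ →* Fˣ).range := by
  have : Nonempty (Fin m ⊕ Fin m) := ⟨.inl ⟨0, hm⟩⟩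
  have hrep := sp_srep (F := F) hm (p := p) hr hr0
  apply le_antisymm
  · apply sup_le _ le_sup_right
    rintro _ ⟨g, hg, rfl⟩
    have hg' := Subgroup.mem_centralizer_singleton_iff.1 hg
    obtain ⟨ν, hν, g0, hg0, rfl⟩ := hrep.commute_field g hg'
    rw [map_mul, spθ_sG]
    apply Subgroup.mul_mem
    · exact Subgroup.mem_sup_right ⟨ν, rfl⟩
    · apply Subgroup.mem_sup_left
      rw [mem_fixU]
      have h1 := fGL_simil σ (spθ_spec hm g0)
      rw [hg0, spθ_spec hm] at h1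
      exact (mult_unique hm h1).symm
  · apply sup_le _ le_sup_right
    intro u hu
    apply Subgroup.mem_sup_left
    obtain ⟨g, hg, hgσ⟩ := exists_simil hm u
    refine ⟨g, ?_, hg⟩
    rw [SetLike.mem_coe, Subgroup.mem_comap, Subgroup.mem_centralizer_singleton_iff, hrep.comm]
    congr 2
    exact Subtype.ext (hgσ σ hu).symm

/-- reduction to a standard field automorphism -/
theorem sp_field_std (hm : 0 < m) {p : ℕ} [Fact p.Prime] [CharP F p] {x : MulAut (Cfsg.PSp m F)}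
    (hx : Cfsg.IsFieldAutClassPSp x) {r : ℕ} (hxr : orderOf x = r) :
    ∃ (α : MulAut (Cfsg.PSp m F)) (σ : F ≃+* F), α * x * α⁻¹ = spF m σ ∧ orderOf σ = r := by
  obtain ⟨α, σ, _, h1⟩ := hx
  have h2 := (sp_std_iff hm σ _).1 h1
  refine ⟨α, σ, h2, ?_⟩
  rw [← orderOf_spF hm (p := p), ← h2, ← hxr]
  exact orderOf_injective (MulAut.conj α).toMonoidHom (MulAut.conj α).injective x

/-- abstract form of the coset conjugacy theorem -/
theorem coset_core {A : Type*} [Group A] {D : Subgroup A} (hD : D.Normal) (x x' α : A) (hx : α * x * α⁻¹ = x')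
    {r : ℕ} (hx' : orderOf x = r)
    (key : ∀ g ∈ D, (g * x') ^ r = 1 → ∃ a ∈ D, g * x' = a * x' * a⁻¹) (δ : A) (hδ : δ ∈ D) :
    orderOf (δ * x) = r ↔ Cfsg.IsConjUnder D x (δ * x) := by
  constructor
  · intro h
    have h1 : (α * δ * α⁻¹ * x') ^ r = 1 := by
      have e1 : α * δ * α⁻¹ * x' = α * (δ * x) * α⁻¹ := by rw [← hx]; group
      rw [e1, conj_pow, ← h, pow_orderOf_eq_one]; group
    obtain ⟨a, ha, h2⟩ := key _ (hD.conj_mem δ hδ α) h1
    refine ⟨α⁻¹ * a * α, by simpa using hD.conj_mem a ha α⁻¹, ?_⟩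
    have e2 : δ * x = α⁻¹ * (α * δ * α⁻¹ * x') * α := by rw [← hx]; group
    rw [e2, h2, ← hx]; group
  · rintro ⟨h, hh, h1⟩
    rw [h1]
    have : orderOf (MulAut.conj h x) = orderOf x := orderOf_injective (MulAut.conj h).toMonoidHom (MulAut.conj h).injective x
    rw [← hx', ← this]; rfl

/-- parity of `(q^r - 1)/(q - 1)` -/
theorem gcd_geom {q r : ℕ} (hq : 2 ≤ q) : Nat.gcd ((q ^ r - 1) / (q - 1)) (Nat.gcd (q ^ r - 1) 2) =
    Nat.gcd (Nat.gcd 2 (q ^ r - 1)) r := by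
  rw [← Nat.geomSum_eq hq]
  rcases Nat.even_or_odd q with he | ho
  · rcases Nat.eq_zero_or_pos r with h0 | h0
    · subst h0; simp
    · have h1 : Odd (q ^ r - 1) := by
        rw [Nat.odd_iff]
        have h2 : Even (q ^ r) := (Nat.even_pow.2 ⟨he, h0.ne'⟩)
        have h3 : 0 < q ^ r := by positivity
        rw [Nat.even_iff] at h2
        omega
      have h2 : Nat.gcd (q ^ r - 1) 2 = 1 := Nat.coprime_two_right.2 h1
      rw [h2, Nat.gcd_comm 2, h2]; simp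
  · have h1 : 2 ∣ q ^ r - 1 := by
      have h2 : Odd (q ^ r) := ho.pow
      rw [Nat.odd_iff] at h2
      omega
    rw [Nat.gcd_eq_right h1, Nat.gcd_eq_left h1, Nat.gcd_comm 2]
    have h2 : (∑ k ∈ Finset.range r, q ^ k) % 2 = r % 2 := by
      rw [Finset.sum_nat_mod]
      have h3 : ∀ k ∈ Finset.range r, q ^ k % 2 = 1 := by
        intro k _
        exact Nat.odd_iff.1 ho.pow
      rw [Finset.sum_congr rfl h3]
      simp
    have h3 : ∀ a : ℕ, Nat.gcd a 2 = Nat.gcd (a % 2) 2 := by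
      intro a
      rw [Nat.gcd_comm a, Nat.gcd_rec 2 a, ]
    rw [h3, h2, ← h3]

theorem charP_of_card [Fintype F] {p f : ℕ} [Fact p.Prime] (hF : Fintype.card F = p ^ f) (hf : 1 ≤ f) : CharP F p := by
  obtain ⟨q, hq⟩ := CharP.exists F
  have hqp : q.Prime := CharP.char_is_prime F q
  have : Fact q.Prime := ⟨hqp⟩
  obtain ⟨n, hn1, hn2⟩ := FiniteField.card F q
  rw [hF] at hn2
  have h2 : p = q := by
    have h3 : p ∣ q ^ (n : ℕ) := by rw [← hn2]; exact dvd_pow_self _ (by omega)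
    exact (Nat.prime_dvd_prime_iff_eq (Fact.out : p.Prime) hqp).1 ((Fact.out : p.Prime).dvd_of_dvd_pow h3)
  rw [h2]; exact hq

theorem exists_charP (F : Type*) [Field F] [Finite F] : ∃ p : ℕ, p.Prime ∧ CharP F p := by
  obtain ⟨q, hq⟩ := CharP.exists F
  exact ⟨q, CharP.char_is_prime F q, hq⟩

/-- base change of the conformal group -/
theorem GSp_map_iff (hm : 0 < m) {F₀ : Type*} [Field F₀] (j : F₀ →+* F) {σ : F ≃+* F} (hj : ∀ x, σ x = x ↔ ∃ y, j y = x)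
    (g : GL (Fin m ⊕ Fin m) F₀) : g ∈ Cfsg.GSp m F₀ ↔ Matrix.GeneralLinearGroup.map j g ∈ Cfsg.GSp m F := by
  have hsm : ∀ c : F₀, (c • Matrix.J (Fin m) F₀).map j = j c • Matrix.J (Fin m) F := by
    intro c
    rw [← map_J' j]
    ext a b
    show j (c * _) = j c * j _
    rw [map_mul]
  have hg : ((Matrix.GeneralLinearGroup.map j g : GL (Fin m ⊕ Fin m) F) : Matrix (Fin m ⊕ Fin m) (Fin m ⊕ Fin m) F) * Matrix.J (Fin m) F *
      ((Matrix.GeneralLinearGroup.map j g : GL (Fin m ⊕ Fin m) F) : Matrix (Fin m ⊕ Fin m) (Fin m ⊕ Fin m) F)ᵀ =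
      ((g : Matrix (Fin m ⊕ Fin m) (Fin m ⊕ Fin m) F₀) * Matrix.J (Fin m) F₀ * (g : Matrix (Fin m ⊕ Fin m) (Fin m ⊕ Fin m) F₀)ᵀ).map j := by
    rw [Matrix.map_mul, Matrix.map_mul, map_J']
    rfl
  rw [mem_GSp_iff, mem_GSp_iff, hg]
  constructor
  · rintro ⟨μ, hμ⟩
    exact ⟨Units.map (j : F₀ →* F) μ, by rw [hμ, hsm]; rfl⟩
  · rintro ⟨μ, hμ⟩
    have h4 : fGL σ (Matrix.GeneralLinearGroup.map j g) = Matrix.GeneralLinearGroup.map j g := by
      apply Units.ext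
      ext a b
      exact (hj _).2 ⟨_, rfl⟩
    have hμ' := hμ
    rw [← hg] at hμ'
    have h5 := fGL_simil σ hμ'
    rw [h4, hμ'] at h5
    have h6 := mult_unique hm h5
    obtain ⟨μ0, hμ0⟩ := (hj _).1 h6.symm
    have hμ1 : μ0 ≠ 0 := by
      rintro rfl
      rw [map_zero] at hμ0
      exact μ.ne_zero hμ0.symm
    refine ⟨Units.mk0 μ0 hμ1, ?_⟩
    apply Matrix.map_injective j.injective
    show Matrix.map _ _ = Matrix.map _ _
    rw [hμ, Units.val_mk0, hsm, hμ0]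

end CfsgH6
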