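import Cfsg.Agent.H6.Cls17
import Cfsg.Agent.H6.PSLUnit
import Cfsg.Agent.H6.PSpC

set_option autoImplicit false

/-! The special unitary groups as isometry groups of an antidiagonal form. -/

namespace CfsgH6

open Matrix

variable {F : Type*} [Field F]

/-- the unitary form datum -/
def suD (n : ℕ) {F : Type*} [Field F] (σ : F ≃+* F) (hσ : ∀ x, σ (σ x) = x) : Cls n F where
  σ := σ
  hσ := hσ
  e := fun _ => 1
  ε := 1
  he := fun _ => by simp
  hee := fun _ => by simp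
  hσe := fun _ => by simp

theorem exists_ne_of_ne_refl {σ : F ≃+* F} (hne : σ ≠ RingEquiv.refl F) : ∃ c, σ c ≠ c := by
  by_contra h
  push Not at h
  exact hne (RingEquiv.ext h)

theorem suD_long (n : ℕ) {σ : F ≃+* F} (hσ : ∀ x, σ (σ x) = x) (hne : σ ≠ RingEquiv.refl F) :
    ∃ κ : F, (suD n σ hσ).LongHyp κ := by
  obtain ⟨c, hc⟩ := exists_ne_of_ne_refl hne
  refine ⟨c - σ c, sub_ne_zero.2 (Ne.symm hc), ?_, ?_⟩
  · show c - σ c = -(((1 : Fˣ) : F) * σ (c - σ c))
    rw [map_sub, hσ, Units.val_one]; ring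
  · intro _ x hx
    obtain ⟨t, ht⟩ := exists_trace_ne hσ hne (z := (1 : F)) one_ne_zero
    rw [map_one, mul_one, mul_one] at ht
    refine ⟨t * (t + σ t)⁻¹ * x, ?_⟩
    have hx' : σ x = x := hx
    show t * (t + σ t)⁻¹ * x + σ (t * (t + σ t)⁻¹ * x) = x
    rw [map_mul, map_mul, map_inv₀, map_add, hσ, hx', add_comm (σ t) t]
    field_simp

/-- ring automorphisms of a finite field commute -/
theorem ringAut_comm [Finite F] (φ σ : F ≃+* F) (x : F) : φ (σ x) = σ (φ x) := by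
  classical
  have : Fintype F := Fintype.ofFinite F
  obtain ⟨p, hp, hch⟩ := exists_charP F
  have : Fact p.Prime := ⟨hp⟩
  obtain ⟨f, _, hf⟩ := FiniteField.card F p
  obtain ⟨e⟩ := ringAut_equiv hf
  have h1 : φ * σ = σ * φ := by
    apply e.injective
    rw [map_mul, map_mul, mul_comm]
  exact DFunLike.congr_fun h1 x

/-- additive generation by powers -/
theorem closure_pow_top [Fintype F] {q : ℕ} (hF : Fintype.card F = q ^ 2) (hq : 3 ≤ q) (M : Submonoid F)
    (hM : ∀ t : F, t ≠ 0 → t ^ (2 * q - 1) ∈ M) (x : F) : x ∈ AddSubgroup.closure (M : Set F) := by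
  classical
  have hcl : ∀ y, y ∈ Subring.closure (M : Set F) ↔ y ∈ AddSubgroup.closure (M : Set F) := by
    intro y
    rw [Subring.mem_closure_iff, Submonoid.closure_eq]
  rw [← hcl]
  let K : Subfield F :=
    { Subring.closure (M : Set F) with
      inv_mem' := by
        intro y hy
        by_cases h0 : y = 0
        · rw [h0, _root_.inv_zero]; exact Subring.zero_mem _
        · have h1 : y⁻¹ = y ^ (Fintype.card F - 2) := by
            have h2 := FiniteField.pow_card_sub_one_eq_one y h0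
            have h3 : Fintype.card F - 1 = (Fintype.card F - 2) + 1 := by
              have : 3 ^ 2 ≤ q ^ 2 := Nat.pow_le_pow_left hq 2
              omega
            rw [h3, pow_succ] at h2
            exact (eq_inv_of_mul_eq_one_left h2).symm
          rw [h1]
          exact Subring.pow_mem _ hy _ }
  have hK : ∀ y, y ∈ K ↔ y ∈ Subring.closure (M : Set F) := fun y => Iff.rfl
  rw [← hK]
  by_contra hx
  have hfK : Fintype K := Fintype.ofFinite _
  have hcard : Fintype.card F = Fintype.card K ^ Module.finrank K F := Module.card_eq_pow_finrank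
  set k := Fintype.card K with hk
  have hk2 : 1 < k := Fintype.one_lt_card
  have hkF : k < Fintype.card F := by
    have h1 : (Finset.univ.image (fun y : K => (y : F))).card < (Finset.univ : Finset F).card := by
      apply Finset.card_lt_card
      refine ⟨Finset.subset_univ _, fun h => hx ?_⟩
      obtain ⟨y, _, hy⟩ := Finset.mem_image.1 (h (Finset.mem_univ x))
      rw [← hy]; exact y.2
    rwa [Finset.card_image_of_injective _ Subtype.val_injective, Finset.card_univ, Finset.card_univ] at h1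
  have hd : 2 ≤ Module.finrank K F := by
    rcases Nat.lt_or_ge (Module.finrank K F) 2 with h | h
    · exfalso
      rw [hcard] at hkF
      interval_cases hh : Module.finrank K F
      · simp at hkF; omega
      · simp at hkF
    · exact h
  have hkq : k ≤ q := by
    have h1 : k ^ 2 ≤ q ^ 2 := by
      rw [← hF, hcard]
      exact Nat.pow_le_pow_right (by omega) hd
    exact (Nat.pow_le_pow_iff_left (by norm_num)).1 h1
  obtain ⟨g, hg⟩ := IsCyclic.exists_generator (α := Fˣ)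
  have hog : orderOf g = q ^ 2 - 1 := by
    rw [orderOf_eq_card_of_forall_mem_zpowers hg, Nat.card_eq_fintype_card, Fintype.card_units, hF]
  have h1 : g ^ ((2 * q - 1) * (k - 1)) = 1 := by
    apply Units.ext
    rw [Units.val_pow_eq_pow_val, Units.val_one, pow_mul]
    have h2 : (g : F) ^ (2 * q - 1) ∈ K := Subring.subset_closure (hM _ g.ne_zero)
    have h3 : (⟨(g : F) ^ (2 * q - 1), h2⟩ : K) ≠ 0 := by
      intro h
      have := congrArg Subtype.val h
      exact pow_ne_zero _ g.ne_zero this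
    have h4 := FiniteField.pow_card_sub_one_eq_one _ h3
    exact congrArg Subtype.val h4
  have h2 := orderOf_dvd_of_pow_eq_one h1
  rw [hog] at h2
  have h3 : q ^ 2 - 1 ∣ 3 * (k - 1) := by
    have e1 : (2 * q + 1) * ((2 * q - 1) * (k - 1)) = 4 * (q ^ 2 - 1) * (k - 1) + 3 * (k - 1) := by
      have e2 : (2 * q + 1) * (2 * q - 1) = 4 * (q ^ 2 - 1) + 3 := by
        obtain ⟨s, rfl⟩ : ∃ s, q = s + 1 := ⟨q - 1, by omega⟩
        have : (s + 1) ^ 2 - 1 = s * s + 2 * s := by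
          have : (s + 1) ^ 2 = s * s + 2 * s + 1 := by ring
          omega
        rw [this]
        have : 2 * (s + 1) - 1 = 2 * s + 1 := by omega
        rw [this]; ring
      rw [← mul_assoc, e2]; ring
    have h4 : q ^ 2 - 1 ∣ (2 * q + 1) * ((2 * q - 1) * (k - 1)) := Dvd.dvd.mul_left h2 _
    rw [e1] at h4
    exact (Nat.dvd_add_right (Dvd.dvd.mul_right (Dvd.dvd.mul_left (dvd_refl _) _) _)).1 h4
  have h4 := Nat.le_of_dvd (by omega) h3
  obtain ⟨s, rfl⟩ : ∃ s, q = s + 3 := ⟨q - 3, by omega⟩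
  have h5 : (s + 3) ^ 2 - 1 = s * s + 6 * s + 8 := by
    have : (s + 3) ^ 2 = s * s + 6 * s + 8 + 1 := by ring
    omega
  rw [h5] at h4
  have h6 : s * s ≥ 0 := Nat.zero_le _
  omega

/-- a diagonal element of `SL₃` -/
def dg3 (a b c : F) (h : a * b * c = 1) : Matrix.SpecialLinearGroup (Fin 3) F :=
  ⟨Matrix.diagonal ![a, b, c], by
    rw [Matrix.det_diagonal, Fin.prod_univ_three]
    simpa using h⟩

theorem dg3_ne {a b c : F} (h : a * b * c = 1) {x y : Fin 3} (hxy : x ≠ y) :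
    (dg3 a b c h : Matrix (Fin 3) (Fin 3) F) x y = 0 := by
  show Matrix.diagonal _ x y = 0
  rw [Matrix.diagonal_apply_ne _ hxy]

theorem dg3_apply {a b c : F} (h : a * b * c = 1) (x : Fin 3) :
    (dg3 a b c h : Matrix (Fin 3) (Fin 3) F) x x = ![a, b, c] x := by
  show Matrix.diagonal _ x x = _
  rw [Matrix.diagonal_apply_eq]

theorem dg3_fix {σ : F ≃+* F} (hσ : ∀ x, σ (σ x) = x) {a b c : F} (h : a * b * c = 1)
    (h1 : a * σ c = 1) (h2 : b * σ b = 1) : dg3 a b c h ∈ (suD 3 σ hσ).fixG := by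
  show (suD 3 σ hσ).τ _ = _
  apply Subtype.ext
  ext x y
  by_cases hxy : x = y
  · subst hxy
    rw [Cls.τ_diag_apply (fun _ _ => dg3_ne h), dg3_apply, dg3_apply]
    show (σ _)⁻¹ = _
    fin_cases x
    · show (σ c)⁻¹ = a
      exact (eq_inv_of_mul_eq_one_left h1).symm
    · show (σ b)⁻¹ = b
      exact (eq_inv_of_mul_eq_one_left h2).symm
    · show (σ a)⁻¹ = c
      have h3 : c * σ a = 1 := by
        have := congrArg σ h1
        rw [map_mul, hσ, map_one] at this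
        rw [mul_comm]; exact this
      exact (eq_inv_of_mul_eq_one_left h3).symm
  · rw [dg3_ne h hxy, Cls.τ_diag (fun _ _ => dg3_ne h) hxy]

theorem suD_odd_hyps [Fintype F] {q : ℕ} (hF : Fintype.card F = q ^ 2) {σ : F ≃+* F} (hσ : ∀ x, σ (σ x) = x)
    (hpow : ∀ a, σ a = a ^ q) (hne : σ ≠ RingEquiv.refl F) {n : ℕ} (hn : 3 ≤ n) (hs : ¬ (n = 3 ∧ q = 2))
    {i : Fin (n / 2)} (hi : 2 * (i : ℕ) + 3 = n) :
    (∀ x : F, x ∈ AddSubgroup.closure {l : F | ∃ b ∈ (suD n σ hσ).fixG, Cls.IsD b ∧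
      l = (b : Matrix (Fin n) (Fin n) F) (Cls.mid i) (Cls.mid i) * ((b : Matrix (Fin n) (Fin n) F) (Cls.hi i) (Cls.hi i))⁻¹}) ∧
    (∃ b ∈ (suD n σ hσ).fixG, Cls.IsD b ∧ (b : Matrix (Fin n) (Fin n) F) (Cls.lo i) (Cls.lo i) = (b : Matrix (Fin n) (Fin n) F) (Cls.hi i) (Cls.hi i) ∧
      (b : Matrix (Fin n) (Fin n) F) (Cls.mid i) (Cls.mid i) ≠ (b : Matrix (Fin n) (Fin n) F) (Cls.hi i) (Cls.hi i)) := by
  have hg := (suD n σ hσ).good_fixG
  have hq2 : 2 ≤ q := by
    by_contra hlt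
    have h1 : 1 < Fintype.card F := Fintype.one_lt_card
    rw [hF] at h1
    interval_cases q <;> simp at h1
  rcases Nat.lt_or_ge 3 n with hn5 | hn3
  · -- use the torus of a short root
    have hin := i.isLt
    have hj : (i : ℕ) - 1 < n / 2 := by omega
    have hsj : 2 * ((⟨(i : ℕ) - 1, hj⟩ : Fin (n / 2)) : ℕ) + 4 ≤ n := by simp only; omega
    have vj1 : ((Cls.lo ⟨(i : ℕ) - 1, hj⟩ : Fin n) : ℕ) = i - 1 := rfl
    have vj2 : ((Cls.hi ⟨(i : ℕ) - 1, hj⟩ : Fin n) : ℕ) = i := by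
      rw [Cls.hi_val_of_not (by simp only; omega)]; simp only; omega
    have v1 : ((Cls.lo i : Fin n) : ℕ) = i := rfl
    have v2 : ((Cls.mid i : Fin n) : ℕ) = i + 1 := Cls.mid_val i
    have v3 : ((Cls.hi i : Fin n) : ℕ) = i + 2 := Cls.hi_val_of hi
    have ne : ∀ {x y : Fin n}, (x : ℕ) ≠ y → x ≠ y := fun h h' => h (congrArg Fin.val h')
    have hent : ∀ (t : F) (ht : t ≠ 0),
        ((suD n σ hσ).dt (Cls.short_of hsj).ab t ht : Matrix (Fin n) (Fin n) F) (Cls.mid i) (Cls.mid i) = 1 ∧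
        ((suD n σ hσ).dt (Cls.short_of hsj).ab t ht : Matrix (Fin n) (Fin n) F) (Cls.hi i) (Cls.hi i) = σ t ∧
        ((suD n σ hσ).dt (Cls.short_of hsj).ab t ht : Matrix (Fin n) (Fin n) F) (Cls.lo i) (Cls.lo i) = t⁻¹ := by
      intro t ht
      rw [Cls.dt_apply, Cls.dt_apply, Cls.dt_apply]
      have n1 : (Cls.mid i : Fin n) ≠ Cls.lo ⟨(i : ℕ) - 1, hj⟩ := ne (by rw [v2, vj1]; omega)
      have n2 : (Cls.mid i : Fin n) ≠ Cls.hi ⟨(i : ℕ) - 1, hj⟩ := ne (by rw [v2, vj2]; omega)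
      have n3 : (Cls.mid i : Fin n) ≠ Fin.rev (Cls.lo ⟨(i : ℕ) - 1, hj⟩) := ne (by rw [Fin.val_rev, v2, vj1]; omega)
      have n4 : (Cls.mid i : Fin n) ≠ Fin.rev (Cls.hi ⟨(i : ℕ) - 1, hj⟩) := ne (by rw [Fin.val_rev, v2, vj2]; omega)
      have m1 : (Cls.hi i : Fin n) ≠ Cls.lo ⟨(i : ℕ) - 1, hj⟩ := ne (by rw [v3, vj1]; omega)
      have m2 : (Cls.hi i : Fin n) ≠ Cls.hi ⟨(i : ℕ) - 1, hj⟩ := ne (by rw [v3, vj2]; omega)
      have m3 : (Cls.hi i : Fin n) ≠ Fin.rev (Cls.lo ⟨(i : ℕ) - 1, hj⟩) := ne (by rw [Fin.val_rev, v3, vj1]; omega)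
      have m4 : (Cls.hi i : Fin n) = Fin.rev (Cls.hi ⟨(i : ℕ) - 1, hj⟩) := Fin.ext (by rw [Fin.val_rev, v3, vj2]; omega)
      have l1 : (Cls.lo i : Fin n) ≠ Cls.lo ⟨(i : ℕ) - 1, hj⟩ := ne (by rw [v1, vj1]; omega)
      have l2 : (Cls.lo i : Fin n) = Cls.hi ⟨(i : ℕ) - 1, hj⟩ := Fin.ext (by rw [v1, vj2])
      have l3 : (Cls.lo i : Fin n) ≠ Fin.rev (Cls.lo ⟨(i : ℕ) - 1, hj⟩) := ne (by rw [Fin.val_rev, v1, vj1]; omega)
      have l4 : (Cls.lo i : Fin n) ≠ Fin.rev (Cls.hi ⟨(i : ℕ) - 1, hj⟩) := ne (by rw [Fin.val_rev, v1, vj2]; omega)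
      rw [if_neg n1, if_neg n2, if_neg n3, if_neg n4, if_neg m1, if_neg m2, if_neg m3, if_pos m4,
        if_neg l1, if_pos l2, if_neg l3, if_neg l4]
      exact ⟨mul_one _, one_mul _, mul_one _⟩
    refine ⟨fun x => ?_, ?_⟩
    · by_cases hx : x = 0
      · rw [hx]; exact AddSubgroup.zero_mem _
      · apply AddSubgroup.subset_closure
        have hsx : σ x⁻¹ ≠ 0 := fun h0 => (inv_ne_zero hx) ((map_eq_zero σ).1 h0)
        refine ⟨(suD n σ hσ).dt (Cls.short_of hsj).ab _ hsx, Cls.dt_mem hg hsj hsx, fun _ _ => Cls.dt_diag _ hsx, ?_⟩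
        rw [(hent _ hsx).1, (hent _ hsx).2.1, hσ, inv_inv, one_mul]
    · obtain ⟨c, hc⟩ := exists_ne_of_ne_refl hne
      have hc0 : c ≠ 0 := by rintro rfl; exact hc (map_zero σ)
      have hsc0 : σ c ≠ 0 := fun h0 => hc0 ((map_eq_zero σ).1 h0)
      have ht : c * (σ c)⁻¹ ≠ 0 := mul_ne_zero hc0 (inv_ne_zero hsc0)
      refine ⟨(suD n σ hσ).dt (Cls.short_of hsj).ab _ ht, Cls.dt_mem hg hsj ht, fun _ _ => Cls.dt_diag _ ht, ?_, ?_⟩
      · rw [(hent _ ht).2.2, (hent _ ht).2.1, map_mul, map_inv₀, hσ]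
        field_simp
      · rw [(hent _ ht).1, (hent _ ht).2.1, map_mul, map_inv₀, hσ]
        intro h1
        apply hc
        field_simp at h1
        exact h1.symm
  · obtain rfl : n = 3 := by omega
    have hq3 : 3 ≤ q := by
      rcases Nat.lt_or_ge 2 q with h | h
      · exact h
      · exact absurd ⟨rfl, by omega⟩ hs
    have hlo : (Cls.lo i : Fin 3) = 0 := Fin.ext (by rw [Cls.lo_val]; simp only [Fin.val_zero]; omega)
    have hmid : (Cls.mid i : Fin 3) = 1 := Fin.ext (by rw [Cls.mid_val]; show (i : ℕ) + 1 = 1; omega)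
    have hhi : (Cls.hi i : Fin 3) = 2 := Fin.ext (by rw [Cls.hi_val_of hi]; show (i : ℕ) + 2 = 2; omega)
    rw [hlo, hmid, hhi]
    refine ⟨?_, ?_⟩
    · let M : Submonoid F :=
        { carrier := {l : F | ∃ b ∈ (suD 3 σ hσ).fixG, Cls.IsD b ∧
            l = (b : Matrix (Fin 3) (Fin 3) F) 1 1 * ((b : Matrix (Fin 3) (Fin 3) F) 2 2)⁻¹}
          one_mem' := ⟨1, Subgroup.one_mem _, fun x y hxy => by
            rw [Matrix.SpecialLinearGroup.coe_one, Matrix.one_apply_ne hxy], by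
            rw [Matrix.SpecialLinearGroup.coe_one, Matrix.one_apply_eq, Matrix.one_apply_eq, inv_one, mul_one]⟩
          mul_mem' := by
            rintro a b ⟨g, hgG, hgD, rfl⟩ ⟨g', hgG', hgD', rfl⟩
            refine ⟨g * g', Subgroup.mul_mem _ hgG hgG', hgD.mul hgD', ?_⟩
            rw [Cls.diag_mul hgD, Cls.diag_mul hgD, mul_inv]
            ring }
      intro x
      refine closure_pow_top hF hq3 M ?_ x
      intro t ht
      have hst : σ t ≠ 0 := fun h0 => ht ((map_eq_zero σ).1 h0)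
      have hdet : t * (σ t * t⁻¹) * (σ t)⁻¹ = 1 := by field_simp
      refine ⟨dg3 t (σ t * t⁻¹) (σ t)⁻¹ hdet, dg3_fix hσ hdet ?_ ?_, fun _ _ => dg3_ne hdet, ?_⟩
      · rw [map_inv₀, hσ, mul_inv_cancel₀ ht]
      · rw [map_mul, map_inv₀, hσ]; field_simp
      · rw [dg3_apply, dg3_apply]
        show t ^ (2 * q - 1) = σ t * t⁻¹ * ((σ t)⁻¹)⁻¹
        rw [inv_inv, hpow]
        have h1 : t ^ (2 * q - 1) * t = t ^ q * t ^ q := by
          rw [← pow_succ, ← pow_add]
          congr 1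
          omega
        field_simp
        linear_combination h1
    · classical
      obtain ⟨g, hg⟩ := IsCyclic.exists_generator (α := Fˣ)
      have hog : orderOf g = q ^ 2 - 1 := by
        rw [orderOf_eq_card_of_forall_mem_zpowers hg, Nat.card_eq_fintype_card, Fintype.card_units, hF]
      have hgσ : σ ((g ^ (q - 1) : Fˣ) : F) = ((g ^ (q - 1) : Fˣ) : F)⁻¹ := by
        apply eq_inv_of_mul_eq_one_right
        rw [hpow, ← Units.val_pow_eq_pow_val, ← Units.val_mul, ← pow_mul, ← pow_add]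
        have e1 : (q - 1) + (q - 1) * q = q ^ 2 - 1 := by
          obtain ⟨s, rfl⟩ : ∃ s, q = s + 1 := ⟨q - 1, by omega⟩
          have : (s + 1) ^ 2 = s * s + 2 * s + 1 := by ring
          rw [this]
          simp only [Nat.add_sub_cancel]
          ring
        rw [e1, ← hog, pow_orderOf_eq_one, Units.val_one]
      set u : F := ((g ^ (q - 1) : Fˣ) : F) with hu
      have hu0 : u ≠ 0 := Units.ne_zero _
      have hdet : u * (u⁻¹ * u⁻¹) * u = 1 := by field_simp
      refine ⟨dg3 u (u⁻¹ * u⁻¹) u hdet, dg3_fix hσ hdet ?_ ?_, fun _ _ => dg3_ne hdet, ?_, ?_⟩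
      · rw [hgσ, mul_inv_cancel₀ hu0]
      · rw [map_mul, map_inv₀, hgσ]; field_simp
      · rw [dg3_apply, dg3_apply]; rfl
      · rw [dg3_apply, dg3_apply]
        show u⁻¹ * u⁻¹ ≠ u
        intro h1
        have h2 : u ^ 3 = 1 := by
          field_simp at h1
          linear_combination -h1
        have h3 : g ^ (3 * (q - 1)) = 1 := by
          apply Units.ext
          rw [mul_comm, pow_mul, Units.val_pow_eq_pow_val, ← hu, h2, Units.val_one]
        have h4 := Nat.le_of_dvd (by omega) (orderOf_dvd_of_pow_eq_one h3)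
        rw [hog] at h4
        obtain ⟨s, rfl⟩ : ∃ s, q = s + 3 := ⟨q - 3, by omega⟩
        have h5 : (s + 3) ^ 2 - 1 = s * s + 6 * s + 8 := by
          have : (s + 3) ^ 2 = s * s + 6 * s + 8 + 1 := by ring
          omega
        rw [h5] at h4
        have h6 : s * s ≥ 0 := Nat.zero_le _
        omega

/-- every automorphism is the product of an inner one and a standard one -/
theorem su_form [Fintype F] {q : ℕ} (hF : Fintype.card F = q ^ 2) {σ : F ≃+* F} (hσ : ∀ x, σ (σ x) = x)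
    (hpow : ∀ a, σ a = a ^ q) (hne : σ ≠ RingEquiv.refl F) {n : ℕ} (hn : 3 ≤ n) (hs : ¬ (n = 3 ∧ q = 2))
    (β : MulAut (↥(suD n σ hσ).fixG ⧸ Subgroup.center ↥(suD n σ hσ).fixG)) :
    ∃ (g : GL (Fin n) F) (φ : F ≃+* F) (μ : F), (suD n σ hσ).IsSimil (g : Matrix _ _ F) μ ∧ μ ≠ 0 ∧
      ∀ (s : Matrix.SpecialLinearGroup (Fin n) F) (hs : s ∈ (suD n σ hσ).fixG), ∃ hs' : sA g φ s ∈ (suD n σ hσ).fixG,
        β (Cls.mq s hs) = Cls.mq (sA g φ s) hs' := by
  obtain ⟨p, hp, hch⟩ := exists_charP F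
  have : Fact p.Prime := ⟨hp⟩
  have hcomm : ∀ (φ : F ≃+* F) (x : F), φ ((suD n σ hσ).σ x) = (suD n σ hσ).σ (φ x) := fun φ x => ringAut_comm φ σ x
  have hg := (suD n σ hσ).good_fixG
  obtain ⟨κ, hκ⟩ := suD_long n hσ hne
  rcases Nat.mod_two_eq_zero_or_one n with hn2 | hn2
  · obtain ⟨t, ht⟩ := Cls.exists_perm_id hg hκ (p := p) (by
      intro β ρ hβ i hi
      exact Cls.last_even hg hκ hn2 (exists_ne_of_ne_refl hne) hβ i hi) β
    refine Cls.general_form hcomm (Cls.main_even hg hκ hn2 (by omega) (p := p) (suD n σ hσ).dg_fixG hcomm ?_ ?_ ht)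
    · intro φ ψ hψ k
      by_cases hk : k = 0
      · rw [hk, map_zero]
        show (0 : F) = φ 0
        rw [map_zero]
      · have hkF : (k : F) ≠ 0 := fun h0 => hk (Subtype.ext h0)
        obtain ⟨u, hu0, hu⟩ := exists_norm_eq hσ hne hkF (mem_fixF.1 k.2)
        have h1 : k = (suD n σ hσ).nm u := Subtype.ext hu.symm
        rw [h1, hψ u hu0]
        show φ u * σ (φ u) = φ (u * σ u)
        rw [map_mul, ringAut_comm φ σ u]
    · intro c hc
      obtain ⟨u, hu0, hu⟩ := exists_norm_eq hσ hne c.ne_zero hc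
      refine ⟨Units.mk0 u hu0, 1, ?_, ?_⟩
      · rw [Units.val_one, map_one]
      · rw [Units.val_one, one_mul]; exact hu
  · obtain ⟨t, ht⟩ := Cls.exists_perm_id hg hκ (p := p) (by
      intro β ρ hβ i hi
      exact Cls.last_odd hg hκ hn2 hβ i hi) β
    have hi : 2 * ((⟨n / 2 - 1, by omega⟩ : Fin (n / 2)) : ℕ) + 3 = n := by simp only; omega
    obtain ⟨h1, h2⟩ := suD_odd_hyps hF hσ hpow hne hn hs hi
    exact Cls.general_form hcomm (Cls.main_odd hg hκ (p := p) (suD n σ hσ).dg_fixG hcomm hi h1 h2 ht)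

end CfsgH6
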