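import Cfsg.Agent.H6.SUA

set_option autoImplicit false

/-! Automorphisms of `PSU` (standard form). -/

namespace CfsgH6

open Matrix

universe u

variable {F : Type u} [Field F] {n q : ℕ}

/-- the inclusion of the special unitary group -/
def suE (n : ℕ) (F : Type u) [Field F] (q : ℕ) : ↥(Cfsg.SU n F q) →* GL (Fin n) F :=
  Matrix.SpecialLinearGroup.toGL.comp (Cfsg.SU n F q).subtype

theorem suE_coe (A : ↥(Cfsg.SU n F q)) : ((suE n F q A : GL (Fin n) F) : Matrix (Fin n) (Fin n) F) =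
    ((A : Matrix.SpecialLinearGroup (Fin n) F) : Matrix (Fin n) (Fin n) F) := rfl

theorem suE_inj : Function.Injective (suE n F q) := by
  intro A B h
  apply Subtype.ext
  apply Subtype.ext
  exact congrArg Units.val h

theorem mem_suE {x : GL (Fin n) F} : x ∈ (suE n F q).range ↔ x ∈ Cfsg.GU n F q ∧ (x : Matrix (Fin n) (Fin n) F).det = 1 := by
  constructor
  · rintro ⟨A, rfl⟩
    exact ⟨A.2, A.1.2⟩
  · rintro ⟨h1, h2⟩
    exact ⟨⟨⟨(x : Matrix (Fin n) (Fin n) F), h2⟩, h1⟩, Units.ext rfl⟩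

theorem suE_le : (suE n F q).range ≤ Cfsg.GU n F q := fun _ hx => (mem_suE.1 hx).1

theorem fGL_GU (σ : F ≃+* F) :
    ∀ g ∈ Cfsg.GU n F q, fGL σ g ∈ Cfsg.GU n F q := by
  intro g hg u v
  have h1 := hg (fun i => σ.symm (u i)) (fun i => σ.symm (v i))
  have h2 := congrArg σ h1
  have key : ∀ a b : Fin n → F, σ (Cfsg.hermForm n F q a b) = Cfsg.hermForm n F q (fun i => σ (a i)) (fun i => σ (b i)) := by
    intro a b
    unfold Cfsg.hermForm
    rw [map_sum]
    apply Finset.sum_congr rfl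
    intro i _
    rw [map_mul, map_pow]
  have key2 : ∀ a : Fin n → F, (fun i => σ (((g : Matrix (Fin n) (Fin n) F) *ᵥ (fun i => σ.symm (a i))) i)) =
      ((g : Matrix (Fin n) (Fin n) F).map σ) *ᵥ a := by
    intro a
    ext i
    simp only [Matrix.mulVec, dotProduct, map_sum, map_mul, Matrix.map_apply, RingEquiv.apply_symm_apply]
  rw [key, key] at h2
  simp only [RingEquiv.apply_symm_apply] at h2
  have e1 := key2 u
  have e2 := key2 v
  simp only [Units.coeHom_apply] at h2 ⊢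
  rw [fGL_coe, ← e1, ← e2]
  exact h2

theorem fGL_suE (σ : F ≃+* F) :
    ∀ g ∈ (suE n F q).range, fGL σ g ∈ (suE n F q).range := by
  intro g hg
  rw [mem_suE] at hg ⊢
  refine ⟨fGL_GU σ g hg.1, ?_⟩
  rw [fGL_coe]
  have := (RingHom.map_det σ.toRingHom (g : Matrix (Fin n) (Fin n) F)).symm
  rw [hg.2, map_one] at this
  exact this

theorem det_conj' (g x : GL (Fin n) F) : ((g * x * g⁻¹ : GL (Fin n) F) : Matrix (Fin n) (Fin n) F).det =
    (x : Matrix (Fin n) (Fin n) F).det := by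
  have h1 : Matrix.GeneralLinearGroup.det (g * x * g⁻¹) = Matrix.GeneralLinearGroup.det x := by
    rw [map_mul, map_mul, map_inv, mul_comm, ← mul_assoc, inv_mul_cancel, one_mul]
  exact congrArg Units.val h1

theorem suS : ∀ g ∈ Cfsg.GU n F q, MulAut.conj g ∈ stab (suE n F q) := by
  apply conj_mem_stab
  intro g hg x hx
  rw [mem_suE] at hx ⊢
  exact ⟨(Cfsg.GU n F q).mul_mem ((Cfsg.GU n F q).mul_mem hg hx.1) ((Cfsg.GU n F q).inv_mem hg), by
    rw [det_conj']; exact hx.2⟩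

theorem sust (σ : F ≃+* F) : fGL σ ∈ stab (suE n F q) :=
  fGL_mem_stab fGL_suE σ

theorem mem_SU_iff [Finite F] {τ : F ≃+* F} (hτ : ∀ x, τ (τ x) = x) (hpow : ∀ a, τ a = a ^ q)
    (s : Matrix.SpecialLinearGroup (Fin n) F) :
    s ∈ Cfsg.SU n F q ↔ (s : Matrix (Fin n) (Fin n) F) * st τ (s : Matrix (Fin n) (Fin n) F) = 1 :=
  mem_GU_iff hτ hpow (Matrix.SpecialLinearGroup.toGL s)

/-- the Gram matrix of the antidiagonal form is congruent to the identity -/
theorem exists_gram [Finite F] {τ : F ≃+* F} (hτ : ∀ x, τ (τ x) = x) (hne : τ ≠ RingEquiv.refl F) :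
    ∃ a : GL (Fin n) F, (suD n τ hτ).JM = (a : Matrix (Fin n) (Fin n) F) * st τ (a : Matrix (Fin n) (Fin n) F) := by
  obtain ⟨a, ha, h⟩ := herm_std hτ hne n (suD n τ hτ).JM (by
    unfold Cls.JM
    have := ((suD n τ hτ).J).isUnit
    rw [Matrix.isUnit_iff_isUnit_det] at this
    exact this.ne_zero) (by
    ext i j
    rw [st_apply, Cls.JM_apply, Cls.JM_apply]
    have h1 : (j = Fin.rev i) ↔ (i = Fin.rev j) := by
      constructor
      · rintro rfl; rw [Fin.rev_rev]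
      · rintro rfl; rw [Fin.rev_rev]
    simp only [h1]
    split_ifs
    · show τ ((1 : Fˣ) : F) = ((1 : Fˣ) : F)
      rw [Units.val_one, map_one]
    · exact map_zero τ)
  exact ⟨Matrix.GeneralLinearGroup.mkOfDetNeZero a ha, h⟩

theorem st_smul (τ : F ≃+* F) (c : F) (M : Matrix (Fin n) (Fin n) F) : st τ (c • M) = τ c • st τ M := by
  ext i j
  rw [st_apply, Matrix.smul_apply, Matrix.smul_apply, st_apply, smul_eq_mul, smul_eq_mul, map_mul]

section gram

variable {τ : F ≃+* F} (hτ : ∀ x, τ (τ x) = x) {a : GL (Fin n) F}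
  (ha : (suD n τ hτ).JM = (a : Matrix (Fin n) (Fin n) F) * st τ (a : Matrix (Fin n) (Fin n) F))

include ha

theorem gram_iff (g : GL (Fin n) F) (μ : F) :
    (suD n τ hτ).IsSimil ((a * g * a⁻¹ : GL (Fin n) F) : Matrix (Fin n) (Fin n) F) μ ↔
      (g : Matrix (Fin n) (Fin n) F) * st τ (g : Matrix (Fin n) (Fin n) F) = μ • (1 : Matrix (Fin n) (Fin n) F) := by
  have h1 : (a : Matrix (Fin n) (Fin n) F) * ((a⁻¹ : GL (Fin n) F) : Matrix (Fin n) (Fin n) F) = 1 := a.mul_inv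
  have h2 : ((a⁻¹ : GL (Fin n) F) : Matrix (Fin n) (Fin n) F) * (a : Matrix (Fin n) (Fin n) F) = 1 := a.inv_mul
  rw [Units.val_mul, Units.val_mul]
  generalize ((a⁻¹ : GL (Fin n) F) : Matrix (Fin n) (Fin n) F) = Ai at h1 h2 ⊢
  have h3 : st τ (a : Matrix (Fin n) (Fin n) F) * st τ Ai = 1 := by rw [← st_mul, h2, st_one]
  have h4 : st τ Ai * st τ (a : Matrix (Fin n) (Fin n) F) = 1 := by rw [← st_mul, h1, st_one]
  unfold Cls.IsSimil
  have e1 : ∀ M : Matrix (Fin n) (Fin n) F, (M.map (suD n τ hτ).σ)ᵀ = st τ M := fun _ => rfl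
  rw [e1, ha, st_mul, st_mul]
  generalize (a : Matrix (Fin n) (Fin n) F) = A at h1 h2 h3 h4
  generalize (g : Matrix (Fin n) (Fin n) F) = X
  have e2 : A * X * Ai * (A * st τ A) * (st τ Ai * (st τ X * st τ A)) = A * (X * st τ X) * st τ A := by
    calc _ = A * X * (Ai * A) * (st τ A * st τ Ai) * (st τ X * st τ A) := by simp only [mul_assoc]
      _ = _ := by rw [h2, h3]; simp only [mul_assoc, one_mul, mul_one]
  rw [e2]
  constructor
  · intro h
    calc X * st τ X = (Ai * A) * (X * st τ X) * (st τ A * st τ Ai) := by rw [h2, h3, one_mul, mul_one]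
      _ = Ai * (A * (X * st τ X) * st τ A) * st τ Ai := by simp only [mul_assoc]
      _ = μ • ((Ai * A) * (st τ A * st τ Ai)) := by
        rw [h, Matrix.mul_smul, Matrix.smul_mul]; simp only [mul_assoc]
      _ = _ := by rw [h2, h3, one_mul]
  · intro h
    rw [h, Matrix.mul_smul, Matrix.smul_mul, mul_one]

theorem gram_iff' (g : GL (Fin n) F) (μ : F) :
    (suD n τ hτ).IsSimil (g : Matrix (Fin n) (Fin n) F) μ ↔
      ((a⁻¹ * g * a : GL (Fin n) F) : Matrix (Fin n) (Fin n) F) * st τ ((a⁻¹ * g * a : GL (Fin n) F) : Matrix (Fin n) (Fin n) F) =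
        μ • (1 : Matrix (Fin n) (Fin n) F) := by
  rw [← gram_iff hτ ha]
  have : a * (a⁻¹ * g * a) * a⁻¹ = g := by group
  rw [this]

variable [Finite F] (hpow : ∀ x, τ x = x ^ q)

theorem gram_mem (hpow : ∀ x, τ x = x ^ q) (s : Matrix.SpecialLinearGroup (Fin n) F) :
    slConj n F a s ∈ (suD n τ hτ).fixG ↔ s ∈ Cfsg.SU n F q := by
  rw [mem_SU_iff hτ hpow]
  have h1 := gram_iff hτ ha (Matrix.SpecialLinearGroup.toGL s) 1
  rw [one_smul] at h1
  have h2 : (suD n τ hτ).IsSimil ((slConj n F a s : Matrix.SpecialLinearGroup (Fin n) F) : Matrix (Fin n) (Fin n) F) 1 ↔ _ := h1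
  exact Cls.isSimil_coe.symm.trans h2

/-- the two models of the special unitary group -/
def suIso : ↥(Cfsg.SU n F q) ≃* ↥(suD n τ hτ).fixG where
  toFun s := ⟨slConj n F a s.1, (gram_mem hτ ha hpow s.1).2 s.2⟩
  invFun g := ⟨(slConj n F a)⁻¹ g.1, (gram_mem hτ ha hpow _).1 (by
    have : slConj n F a ((slConj n F a)⁻¹ g.1) = g.1 := by simp
    rw [this]; exact g.2)⟩
  left_inv s := Subtype.ext (by simp)
  right_inv g := Subtype.ext (by simp)
  map_mul' s t := Subtype.ext (map_mul _ s.1 t.1)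

/-- the two models of `PSU` -/
def psuIso : Cfsg.PSU n F q ≃* (↥(suD n τ hτ).fixG ⧸ Subgroup.center ↥(suD n τ hτ).fixG) :=
  QuotientGroup.congr _ _ (suIso hτ ha hpow) (map_center_of_equiv _)

theorem psuIso_mk (s : ↥(Cfsg.SU n F q)) :
    psuIso hτ ha hpow (QuotientGroup.mk s) = QuotientGroup.mk (suIso hτ ha hpow s) := rfl

end gram

theorem exists_tau [Fintype F] {p f : ℕ} [Fact p.Prime] (hq : q = p ^ f) (hf : 1 ≤ f) (hF : Fintype.card F = q ^ 2) :
    ∃ τ : F ≃+* F, (∀ x, τ (τ x) = x) ∧ (∀ x, τ x = x ^ q) ∧ τ ≠ RingEquiv.refl F := by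
  have hF' : Fintype.card F = p ^ (2 * f) := by rw [hF, hq, ← pow_mul, mul_comm]
  have hch := charP_of_card hF' (by omega)
  have hp : p.Prime := Fact.out
  let τ : F ≃+* F := iterateFrobeniusEquiv F p f
  have hτ : ∀ x, τ x = x ^ q := by
    intro x
    rw [hq]
    exact iterateFrobeniusEquiv_def F p f x
  have hq2 : 2 ≤ q := by
    rw [hq]
    calc 2 ≤ p := hp.two_le
      _ = p ^ 1 := (pow_one p).symm
      _ ≤ p ^ f := Nat.pow_le_pow_right hp.pos hf
  refine ⟨τ, ?_, hτ, ?_⟩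
  · intro x
    rw [hτ, hτ, ← pow_mul, ← pow_two, ← hF]
    exact FiniteField.pow_card x
  · intro h
    classical
    obtain ⟨g, hg⟩ := IsCyclic.exists_generator (α := Fˣ)
    have hog : orderOf g = q ^ 2 - 1 := by
      rw [orderOf_eq_card_of_forall_mem_zpowers hg, Nat.card_eq_fintype_card, Fintype.card_units, hF]
    have h1 : (g : F) ^ q = g := by rw [← hτ, h]; rfl
    have h2 : g ^ (q - 1) = 1 := by
      apply Units.ext
      have h3 : (g : F) ^ (q - 1) * g = 1 * g := by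
        rw [← pow_succ, Nat.sub_add_cancel (by omega), h1, one_mul]
      have h4 := mul_right_cancel₀ g.ne_zero h3
      rw [Units.val_pow_eq_pow_val, h4, Units.val_one]
    have h3 := Nat.le_of_dvd (by omega) (orderOf_dvd_of_pow_eq_one h2)
    rw [hog] at h3
    have h4 : q * 2 ≤ q * q := Nat.mul_le_mul_left q hq2
    have h5 : q ^ 2 = q * q := pow_two q
    omega

/-- every automorphism of `PSU` is induced by a semilinear similarity -/
theorem psu_aut [Fintype F] {p f : ℕ} [Fact p.Prime] (hq : q = p ^ f) (hf : 1 ≤ f) (hF : Fintype.card F = q ^ 2)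
    (hn : 3 ≤ n) (hs : ¬ (n = 3 ∧ q = 2)) (β : MulAut (Cfsg.PSU n F q)) :
    ∃ (g : GL (Fin n) F) (φ : F ≃+* F), g ∈ Cfsg.GU n F q ∧ Cfsg.IsInducedBySemilinearPSU g φ β := by
  obtain ⟨τ, hτ, hpow, hne⟩ := exists_tau hq hf hF
  obtain ⟨a, ha⟩ := exists_gram (n := n) hτ hne
  obtain ⟨g, φ, μ, hg, hμ, hβ⟩ := su_form hF hτ hpow hne hn hs
    ((psuIso hτ ha hpow).symm.trans (β.trans (psuIso hτ ha hpow)))
  have hg1 := (gram_iff' hτ ha g μ).1 hg
  -- `φ` of the Gram matrix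
  have hφJ : (suD n τ hτ).JM.map φ = (suD n τ hτ).JM := by
    ext i j
    rw [Matrix.map_apply, Cls.JM_apply]
    split_ifs
    · show φ ((1 : Fˣ) : F) = ((1 : Fˣ) : F)
      rw [Units.val_one, map_one]
    · exact map_zero φ
  have hφst : ∀ M : Matrix (Fin n) (Fin n) F, (st τ M).map φ = st τ (M.map φ) := by
    intro M
    ext i j
    rw [Matrix.map_apply, st_apply, st_apply, Matrix.map_apply, ringAut_comm]
  have hφa : (suD n τ hτ).JM = ((fGL φ a : GL (Fin n) F) : Matrix (Fin n) (Fin n) F) *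
      st τ ((fGL φ a : GL (Fin n) F) : Matrix (Fin n) (Fin n) F) := by
    rw [fGL_coe, ← hφst, ← mapMul, ← ha, hφJ]
  -- the matrix `a⁻¹ g φ(a)`
  have hg2 : ((a⁻¹ * g * fGL φ a : GL (Fin n) F) : Matrix (Fin n) (Fin n) F) *
      st τ ((a⁻¹ * g * fGL φ a : GL (Fin n) F) : Matrix (Fin n) (Fin n) F) = μ • (1 : Matrix (Fin n) (Fin n) F) := by
    rw [← hg1]
    have e1 : ∀ b : GL (Fin n) F, ((a⁻¹ * g * b : GL (Fin n) F) : Matrix (Fin n) (Fin n) F) *
        st τ ((a⁻¹ * g * b : GL (Fin n) F) : Matrix (Fin n) (Fin n) F) =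
        ((a⁻¹ * g : GL (Fin n) F) : Matrix (Fin n) (Fin n) F) * ((b : Matrix (Fin n) (Fin n) F) * st τ (b : Matrix (Fin n) (Fin n) F)) *
          st τ ((a⁻¹ * g : GL (Fin n) F) : Matrix (Fin n) (Fin n) F) := by
      intro b
      rw [Units.val_mul (a⁻¹ * g) b, st_mul]
      simp only [mul_assoc]
    rw [e1, e1, ← ha, ← hφa]
  have hμτ : τ μ = μ := by
    have h1 := congrArg (st τ) hg2
    rw [st_mul, st_st hτ, hg2, st_smul, st_one] at h1
    have h2 := congrFun (congrFun h1 ⟨0, by omega⟩) ⟨0, by omega⟩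
    rw [Matrix.smul_apply, Matrix.smul_apply, Matrix.one_apply_eq, smul_eq_mul, smul_eq_mul, mul_one, mul_one] at h2
    exact h2.symm
  obtain ⟨u, hu0, hu⟩ := exists_norm_eq hτ hne (inv_ne_zero hμ) (by rw [map_inv₀, hμτ])
  refine ⟨sG (Fin n) (Units.mk0 u hu0) * (a⁻¹ * g * fGL φ a), φ, ?_, ?_⟩
  · rw [mem_GU_iff hτ hpow, sG_mul_coe, Units.val_mk0, st_smul, Matrix.smul_mul, Matrix.mul_smul, hg2, smul_smul,
      smul_smul, hu, inv_mul_cancel₀ hμ, one_smul]
  · intro s s' hss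
    apply (psuIso hτ ha hpow).injective
    obtain ⟨hs', h1⟩ := hβ (suIso hτ ha hpow s).1 (suIso hτ ha hpow s).2
    have h2 : ((psuIso hτ ha hpow).symm.trans (β.trans (psuIso hτ ha hpow)))
        (Cls.mq (suIso hτ ha hpow s).1 (suIso hτ ha hpow s).2) = psuIso hτ ha hpow (β (QuotientGroup.mk s)) := by
      have h3 : Cls.mq (suIso hτ ha hpow s).1 (suIso hτ ha hpow s).2 = psuIso hτ ha hpow (QuotientGroup.mk s) := rfl
      rw [h3]
      simp
    rw [← h2, h1, psuIso_mk]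
    show Cls.mq _ _ = Cls.mq (suIso hτ ha hpow s').1 (suIso hτ ha hpow s').2
    apply Cls.mq_eq
    have hGL : ∀ x y : Matrix.SpecialLinearGroup (Fin n) F, Matrix.SpecialLinearGroup.toGL x = Matrix.SpecialLinearGroup.toGL y → x = y := by
      intro x y hxy
      apply Subtype.ext
      exact congrArg Units.val hxy
    apply hGL
    have e1 : Matrix.SpecialLinearGroup.toGL (sA g φ (suIso hτ ha hpow s).1) =
        g * fGL φ (Matrix.SpecialLinearGroup.toGL (suIso hτ ha hpow s).1) * g⁻¹ := Units.ext rfl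
    have e2 : ∀ t : ↥(Cfsg.SU n F q), Matrix.SpecialLinearGroup.toGL (suIso hτ ha hpow t).1 = a * suE n F q t * a⁻¹ :=
      fun t => Units.ext rfl
    have e3 : suE n F q s' = (sG (Fin n) (Units.mk0 u hu0) * (a⁻¹ * g * fGL φ a)) * fGL φ (suE n F q s) *
        (sG (Fin n) (Units.mk0 u hu0) * (a⁻¹ * g * fGL φ a))⁻¹ := Units.ext hss
    have e4 : ∀ x y : GL (Fin n) F, sG (Fin n) (Units.mk0 u hu0) * x * y * (sG (Fin n) (Units.mk0 u hu0) * x)⁻¹ = x * y * x⁻¹ := by
      intro x y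
      rw [_root_.mul_inv_rev]
      have : sG (Fin n) (Units.mk0 u hu0) * x * y * (x⁻¹ * (sG (Fin n) (Units.mk0 u hu0))⁻¹) =
        sG (Fin n) (Units.mk0 u hu0) * (x * y * x⁻¹) * (sG (Fin n) (Units.mk0 u hu0))⁻¹ := by group
      rw [this, sG_comm, mul_inv_cancel_right]
    rw [e1, e2, e2, e3, e4, map_mul, map_mul, map_inv]
    group

end CfsgH6
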