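import Cfsg.Agent.H6.SemiB
import Cfsg.Prelude.Def_KGroupFacts

set_option autoImplicit false

/-! Inner automorphisms in the semilinear framework. -/

namespace CfsgH6

open Matrix

universe u v

section

variable {F : Type u} [Field F] {ι : Type} [Fintype ι] [DecidableEq ι] {G : Type v} [Group G]
  {e : G →* GL ι F} (he : Function.Injective e)

include he

theorem cT_e {S : Subgroup (GL ι F)} (hS : ∀ g ∈ S, MulAut.conj g ∈ stab e) (A : G) (h : e A ∈ S) :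
    cT he hS ⟨e A, h⟩ = MulAut.conj (QuotientGroup.mk A : G ⧸ Subgroup.center G) := by
  apply MulEquiv.ext
  intro x
  induction x using QuotientGroup.induction_on with
  | H s =>
    show (QuotientGroup.mk (actG he ⟨MulAut.conj (e A), _⟩ s) : G ⧸ Subgroup.center G) =
      QuotientGroup.mk (A * s * A⁻¹)
    congr 1
    apply he
    rw [actG_spec, map_mul, map_mul, map_inv]
    rfl

theorem Inn_le_cT {S : Subgroup (GL ι F)} (hS : ∀ g ∈ S, MulAut.conj g ∈ stab e) (hle : e.range ≤ S) :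
    Cfsg.Inn (G ⧸ Subgroup.center G) ≤ (cT he hS).range := by
  rintro _ ⟨t, rfl⟩
  obtain ⟨A, rfl⟩ := QuotientGroup.mk_surjective t
  exact ⟨⟨e A, hle ⟨A, rfl⟩⟩, cT_e he hS A _⟩

theorem cT_Inn_iff {S : Subgroup (GL ι F)} (hS : ∀ g ∈ S, MulAut.conj g ∈ stab e) (hle : e.range ≤ S)
    (hk : ∀ g : ↥S, cT he hS g = 1 → ∃ u : Fˣ, g.1 = sG ι u) (g : ↥S) :
    cT he hS g ∈ Cfsg.Inn (G ⧸ Subgroup.center G) ↔ ∃ (A : G) (u : Fˣ), g.1 = sG ι u * e A := by
  constructor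
  · rintro ⟨t, ht⟩
    obtain ⟨A, rfl⟩ := QuotientGroup.mk_surjective t
    have h3 : cT he hS (g * ⟨e A, hle ⟨A, rfl⟩⟩⁻¹) = 1 := by
      rw [map_mul, map_inv, cT_e he hS A]
      have ht' : cT he hS g = MulAut.conj (QuotientGroup.mk A : G ⧸ Subgroup.center G) := ht.symm
      rw [ht', mul_inv_cancel]
    obtain ⟨u, hu⟩ := hk _ h3
    refine ⟨A, u, ?_⟩
    have h4 : g.1 * (e A)⁻¹ = sG ι u := hu
    rw [← h4, inv_mul_cancel_right]
  · rintro ⟨A, u, hA⟩
    have hu : sG ι u ∈ S := by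
      have h1 : sG ι u = g.1 * (e A)⁻¹ := by rw [hA, mul_inv_cancel_right]
      rw [h1]
      exact S.mul_mem g.2 (S.inv_mem (hle ⟨A, rfl⟩))
    have h2 : g = ⟨sG ι u, hu⟩ * ⟨e A, hle ⟨A, rfl⟩⟩ := Subtype.ext hA
    rw [h2, map_mul, ker'_cT, one_mul, cT_e he hS A]
    exact ⟨_, rfl⟩

/-- the central quotient has trivial center -/
theorem center_quot (hz : ∀ z ∈ Subgroup.center G, ∃ u : Fˣ, e z = sG ι u)
    (hc : ∀ g : GL ι F, (∀ x : G, ∃ u : Fˣ, g * e x = sG ι u * (e x * g)) → ∃ u : Fˣ, g = sG ι u) :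
    Subgroup.center (G ⧸ Subgroup.center G) = ⊥ := by
  rw [eq_bot_iff]
  intro t ht
  obtain ⟨A, rfl⟩ := QuotientGroup.mk_surjective t
  rw [Subgroup.mem_bot, QuotientGroup.eq_one_iff]
  obtain ⟨u, hu⟩ := hc (e A) (by
    intro x
    have h1 := Subgroup.mem_center_iff.1 ht (QuotientGroup.mk x)
    have h2 : (QuotientGroup.mk (x * A) : G ⧸ Subgroup.center G) = QuotientGroup.mk (A * x) := h1
    obtain ⟨v, hv⟩ := hz _ (QuotientGroup.eq.1 h2)
    refine ⟨v, ?_⟩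
    have h3 : e A * e x = e x * e A * e ((x * A)⁻¹ * (A * x)) := by
      rw [← map_mul, ← map_mul, ← map_mul, mul_inv_cancel_left]
    rw [h3, hv, sG_comm])
  rw [Subgroup.mem_center_iff]
  intro g
  apply he
  rw [map_mul, map_mul, hu, sG_comm]

/-- faithfulness of field automorphisms modulo the inner-diagonal ones -/
theorem semi_comm {S : Subgroup (GL ι F)} (hS : ∀ g ∈ S, MulAut.conj g ∈ stab e) {σ : F ≃+* F}
    (hσ : fGL σ ∈ stab e) (hz : ∀ z ∈ Subgroup.center G, ∃ u : Fˣ, e z = sG ι u) {g : ↥S}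
    (hg : cT he hS g * fT he hσ = 1) (x : G) : ∃ u : Fˣ, g.1 * fGL σ (e x) = sG ι u * (e x * g.1) := by
  have h2 : (cT he hS g * fT he hσ) (QuotientGroup.mk x) = QuotientGroup.mk x := by rw [hg]; rfl
  have h3 : (cT he hS g * fT he hσ) (QuotientGroup.mk x) =
    QuotientGroup.mk (actG he ⟨MulAut.conj g.1, hS g.1 g.2⟩ (actG he ⟨fGL σ, hσ⟩ x)) := rfl
  rw [h3] at h2
  have h4 := QuotientGroup.eq.1 h2.symm
  obtain ⟨u, hu⟩ := hz _ h4
  refine ⟨u, ?_⟩
  rw [map_mul, map_inv, actG_spec, actG_spec] at hu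
  have h5 : g.1 * fGL σ (e x) * g.1⁻¹ = e x * sG ι u := by
    have h6 : (e x)⁻¹ * (g.1 * fGL σ (e x) * g.1⁻¹) = sG ι u := hu
    rw [← h6, mul_inv_cancel_left]
  rw [← sG_comm, mul_inv_eq_iff_eq_mul] at h5
  rw [h5, mul_assoc]

/-- field automorphisms as a homomorphism -/
noncomputable def fHomG (hst : ∀ σ : F ≃+* F, fGL σ ∈ stab e) : (F ≃+* F) →* MulAut (G ⧸ Subgroup.center G) where
  toFun σ := fT he (hst σ)
  map_one' := fT_one he _
  map_mul' σ τ := by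
    unfold fT
    rw [← map_mul]
    rfl

end

end CfsgH6
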