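import Cfsg.Agent.H6.SUB
import Cfsg.Agent.H6.SemiC
import Cfsg.Agent.H6.OutGen
import Cfsg.Agent.H6.Cls18

set_option autoImplicit false

/-! Automorphisms of `PSU`: diagonal and field automorphisms. -/

namespace CfsgH6

open Matrix

universe u

variable {F : Type u} [Field F] {n q : ℕ}

/-- the standing hypotheses -/
structure SUHyp (n : ℕ) (F : Type u) [Field F] [Fintype F] (q p f : ℕ) : Prop where
  hp : p.Prime
  hq : q = p ^ f
  hf : 1 ≤ f
  hF : Fintype.card F = q ^ 2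
  hn : 3 ≤ n
  hs : ¬ (n = 3 ∧ q = 2)

theorem SUHyp.tau [Fintype F] {p f : ℕ} (h : SUHyp n F q p f) :
    ∃ τ : F ≃+* F, (∀ x, τ (τ x) = x) ∧ (∀ x, τ x = x ^ q) ∧ τ ≠ RingEquiv.refl F := by
  have : Fact p.Prime := ⟨h.hp⟩
  exact exists_tau h.hq h.hf h.hF

theorem sG_mem_GU [Finite F] {τ : F ≃+* F} (hτ : ∀ x, τ (τ x) = x) (hpow : ∀ a, τ a = a ^ q) (u : Fˣ) (hn : 0 < n) :
    sG (Fin n) u ∈ Cfsg.GU n F q ↔ u ∈ nU τ := by
  rw [mem_GU_iff hτ hpow, mem_nU]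
  have e1 : ((sG (Fin n) u : GL (Fin n) F) : Matrix (Fin n) (Fin n) F) = (u : F) • (1 : Matrix (Fin n) (Fin n) F) := by
    rw [sG_coe, Matrix.smul_one_eq_diagonal, Matrix.scalar_apply]
  rw [e1, st_smul, st_one, Matrix.smul_mul, Matrix.mul_smul, mul_one, smul_smul]
  constructor
  · intro h
    have := congrFun (congrFun h ⟨0, hn⟩) ⟨0, hn⟩
    rwa [Matrix.smul_apply, Matrix.one_apply_eq, smul_eq_mul, mul_one] at this
  · intro h
    rw [h, one_smul]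

/-- elements commuting up to scalars with the special unitary group are scalars -/
theorem su_comm [Fintype F] {p f : ℕ} (h : SUHyp n F q p f) (g : GL (Fin n) F)
    (hg : ∀ x : ↥(Cfsg.SU n F q), ∃ u : Fˣ, g * suE n F q x = sG (Fin n) u * (suE n F q x * g)) :
    ∃ u : Fˣ, g = sG (Fin n) u := by
  obtain ⟨τ, hτ, hpow, hne⟩ := h.tau
  obtain ⟨a, ha⟩ := exists_gram (n := n) hτ hne
  obtain ⟨p, hp, hch⟩ := exists_charP F
  have : Fact p.Prime := ⟨hp⟩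
  obtain ⟨κ, hκ⟩ := suD_long n hτ hne
  have hn := h.hn
  have h1 := Cls.scal_of_comm ((suD n τ hτ).good_fixG) hκ (p := p) (by omega) (g := a * g * a⁻¹) (by
    intro s hs
    obtain ⟨A, hA⟩ := (suIso hτ ha hpow).surjective ⟨s, hs⟩
    obtain ⟨u, hu⟩ := hg A
    refine ⟨u, ?_⟩
    have e2 : Matrix.SpecialLinearGroup.toGL s = a * suE n F q A * a⁻¹ := by
      have : s = (suIso hτ ha hpow A).1 := by rw [hA]
      rw [this]; exact Units.ext rfl
    have e3 : (a * g * a⁻¹) * Matrix.SpecialLinearGroup.toGL s = sG (Fin n) u * (Matrix.SpecialLinearGroup.toGL s * (a * g * a⁻¹)) := by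
      rw [e2]
      have : a * g * a⁻¹ * (a * suE n F q A * a⁻¹) = a * (g * suE n F q A) * a⁻¹ := by group
      rw [this, hu, ← mul_assoc a, ← sG_comm]
      group
    have e4 := congrArg Units.val e3
    rw [sG_mul_coe] at e4
    exact e4)
  obtain ⟨c, hc⟩ := h1
  have hc0 : c ≠ 0 := by
    rintro rfl
    have h3 := (a * g * a⁻¹).isUnit
    rw [hc, Matrix.isUnit_iff_isUnit_det, map_zero] at h3
    have : Nonempty (Fin n) := ⟨⟨0, by omega⟩⟩
    rw [Matrix.det_zero] at h3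
    exact not_isUnit_zero h3
  have h2 : a * g * a⁻¹ = sG (Fin n) (Units.mk0 c hc0) := Units.ext hc
  refine ⟨Units.mk0 c hc0, ?_⟩
  have h3 : g = a⁻¹ * (a * g * a⁻¹) * a := by group
  rw [h3, h2, ← sG_comm, mul_assoc, inv_mul_cancel, mul_one]

theorem su_center [Fintype F] {p f : ℕ} (h : SUHyp n F q p f) :
    ∀ z ∈ Subgroup.center ↥(Cfsg.SU n F q), ∃ u : Fˣ, suE n F q z = sG (Fin n) u := by
  intro z hz
  apply su_comm h
  intro x
  refine ⟨1, ?_⟩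
  rw [map_one, one_mul, ← map_mul, ← map_mul, Subgroup.mem_center_iff.1 hz x]

/-- conjugation by `GU` on `PSU` -/
noncomputable def suC (n : ℕ) (F : Type u) [Field F] (q : ℕ) : ↥(Cfsg.GU n F q) →* MulAut (Cfsg.PSU n F q) :=
  cT suE_inj suS

/-- field automorphisms of `PSU` -/
noncomputable def suF (n q : ℕ) (σ : F ≃+* F) : MulAut (Cfsg.PSU n F q) := fT suE_inj (sust σ)

theorem suC_ker [Fintype F] {p f : ℕ} (h : SUHyp n F q p f) (g : ↥(Cfsg.GU n F q)) (hg : suC n F q g = 1) :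
    ∃ u : Fˣ, g.1 = sG (Fin n) u :=
  ker_cT suE_inj (su_center h) (su_comm h) suS g hg

theorem su_induced_iff {g : GL (Fin n) F} (hg : g ∈ Cfsg.GU n F q) (σ : F ≃+* F)
    (β : MulAut (Cfsg.PSU n F q)) : Cfsg.IsInducedBySemilinearPSU g σ β ↔ β = suC n F q ⟨g, hg⟩ * suF n q σ :=
  induced_iff suE_inj suS hg (sust σ) β

theorem su_refl : suF n q (RingEquiv.refl F) = 1 := fT_one suE_inj (sust (RingEquiv.refl F))

theorem su_std_iff (σ : F ≃+* F) (β : MulAut (Cfsg.PSU n F q)) :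
    Cfsg.IsFieldAutPSUOf σ β ↔ β = suF n q σ := by
  have h1 := su_induced_iff (Cfsg.GU n F q).one_mem σ β
  have h2 : (⟨1, (Cfsg.GU n F q).one_mem⟩ : ↥(Cfsg.GU n F q)) = 1 := rfl
  rw [h2, map_one, one_mul] at h1
  rw [← h1]
  unfold Cfsg.IsFieldAutPSUOf Cfsg.IsInducedBySemilinearPSU
  simp only [Units.val_one, inv_one, one_mul, mul_one]

theorem map_refl (M : Matrix (Fin n) (Fin n) F) : M.map (RingEquiv.refl F) = M := by
  ext i j; rfl

theorem su_inndiag_iff (β : MulAut (Cfsg.PSU n F q)) : Cfsg.IsInnerDiagonalAutPSU β ↔ ∃ g, β = suC n F q g := by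
  have key : ∀ g (hg : g ∈ Cfsg.GU n F q), β = suC n F q ⟨g, hg⟩ ↔ ∀ s s' : ↥(Cfsg.SU n F q),
      ((s' : Matrix.SpecialLinearGroup (Fin n) F) : Matrix (Fin n) (Fin n) F) =
        ((g : GL (Fin n) F) : Matrix (Fin n) (Fin n) F) *
          ((s : Matrix.SpecialLinearGroup (Fin n) F) : Matrix (Fin n) (Fin n) F) *
          ((g⁻¹ : GL (Fin n) F) : Matrix (Fin n) (Fin n) F) →
      β (QuotientGroup.mk s) = QuotientGroup.mk s' := by
    intro g hg
    have h1 := su_induced_iff hg (RingEquiv.refl F) β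
    rw [su_refl, mul_one] at h1
    rw [← h1]
    unfold Cfsg.IsInducedBySemilinearPSU
    simp only [map_refl]
  constructor
  · rintro ⟨g, hg, hβ⟩
    exact ⟨⟨g, hg⟩, (key g hg).2 hβ⟩
  · rintro ⟨⟨g, hg⟩, hβ⟩
    exact ⟨g, hg, (key g hg).1 hβ⟩

theorem inndiagPSU_eq : Cfsg.inndiagPSU n F q = (suC n F q).range := by
  apply le_antisymm
  · unfold Cfsg.inndiagPSU Cfsg.autSubgroupOf
    rw [Subgroup.closure_le]
    rintro β hβ
    obtain ⟨g, hg⟩ := (su_inndiag_iff β).1 hβ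
    exact ⟨g, hg.symm⟩
  · rintro _ ⟨g, rfl⟩
    exact Subgroup.subset_closure ((su_inndiag_iff _).2 ⟨g, rfl⟩)

theorem su_all [Fintype F] {p f : ℕ} (h : SUHyp n F q p f) (β : MulAut (Cfsg.PSU n F q)) :
    ∃ (g : ↥(Cfsg.GU n F q)) (σ : F ≃+* F), β = suC n F q g * suF n q σ := by
  have : Fact p.Prime := ⟨h.hp⟩
  obtain ⟨g, φ, hg, hβ⟩ := psu_aut h.hq h.hf h.hF h.hn h.hs β
  exact ⟨⟨g, hg⟩, φ, (su_induced_iff hg φ β).1 hβ⟩

theorem su_normal [Fintype F] {p f : ℕ} (h : SUHyp n F q p f) : ((suC n F q).range).Normal :=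
  range_normal suE_inj suS sust fGL_GU (su_all h)

/-- faithfulness of the field automorphisms -/
theorem suF_faithful [Fintype F] {p f : ℕ} (h : SUHyp n F q p f) (σ : F ≃+* F) {g : ↥(Cfsg.GU n F q)}
    (hg : suC n F q g * suF n q σ = 1) : σ = 1 := by
  obtain ⟨τ, hτ, hpow, hne⟩ := h.tau
  obtain ⟨a, ha⟩ := exists_gram (n := n) hτ hne
  obtain ⟨p, hp, hch⟩ := exists_charP F
  have : Fact p.Prime := ⟨hp⟩
  obtain ⟨κ, hκ⟩ := suD_long n hτ hne
  have h1 := semi_comm suE_inj suS (sust σ) (su_center h) hg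
  refine Cls.semi_faithful ((suD n τ hτ).good_fixG) hκ (p := p) h.hn (g := a * g.1 * (fGL σ a)⁻¹) ?_
  intro s hs
  obtain ⟨A, hA⟩ := (suIso hτ ha hpow).surjective ⟨s, hs⟩
  obtain ⟨u, hu⟩ := h1 A
  refine ⟨u, ?_⟩
  have e2 : Matrix.SpecialLinearGroup.toGL s = a * suE n F q A * a⁻¹ := by
    have : s = (suIso hτ ha hpow A).1 := by rw [hA]
    rw [this]; exact Units.ext rfl
  have e3 : (a * g.1 * (fGL σ a)⁻¹) * fGL σ (Matrix.SpecialLinearGroup.toGL s) =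
      sG (Fin n) u * (Matrix.SpecialLinearGroup.toGL s * (a * g.1 * (fGL σ a)⁻¹)) := by
    rw [e2, map_mul, map_mul, map_inv]
    have : a * g.1 * (fGL σ a)⁻¹ * (fGL σ a * fGL σ (suE n F q A) * (fGL σ a)⁻¹) =
      a * (g.1 * fGL σ (suE n F q A)) * (fGL σ a)⁻¹ := by group
    rw [this, hu, ← mul_assoc a, ← sG_comm]
    group
  have e4 := congrArg Units.val e3
  rw [sG_mul_coe] at e4
  exact e4

/-- the determinant of a unitary matrix has norm one -/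
def suθ [Finite F] (n : ℕ) {τ : F ≃+* F} (hτ : ∀ x, τ (τ x) = x) (hpow : ∀ a, τ a = a ^ q) : ↥(Cfsg.GU n F q) →* ↥(nU τ) where
  toFun g := ⟨Matrix.GeneralLinearGroup.det g.1, by
    rw [mem_nU]
    have h1 := congrArg Matrix.det ((mem_GU_iff hτ hpow g.1).1 g.2)
    rw [Matrix.det_mul, st_det, Matrix.det_one] at h1
    exact h1⟩
  map_one' := Subtype.ext (map_one _)
  map_mul' g h := Subtype.ext (map_mul Matrix.GeneralLinearGroup.det g.1 h.1)

theorem suθ_coe [Finite F] {τ : F ≃+* F} (hτ : ∀ x, τ (τ x) = x) (hpow : ∀ a, τ a = a ^ q) (g : ↥(Cfsg.GU n F q)) :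
    ((suθ n hτ hpow g : ↥(nU τ)) : Fˣ) = Matrix.GeneralLinearGroup.det g.1 := rfl

theorem duHom_mem_GU [Finite F] {τ : F ≃+* F} (hτ : ∀ x, τ (τ x) = x) (hpow : ∀ a, τ a = a ^ q) {u : Fˣ} (hu : u ∈ nU τ)
    (i0 : Fin n) : duHom n F i0 u ∈ Cfsg.GU n F q := by
  rw [mem_GU_iff hτ hpow]
  show Matrix.diagonal _ * st τ (Matrix.diagonal _) = 1
  rw [st_diagonal, Matrix.diagonal_mul_diagonal, ← Matrix.diagonal_one]
  congr 1
  ext i
  show (((if i = i0 then u else 1 : Fˣ) : F)) * τ ((if i = i0 then u else 1 : Fˣ) : F) = 1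
  split_ifs
  · exact mem_nU.1 hu
  · simp

theorem suθ_surj [Finite F] {τ : F ≃+* F} (hτ : ∀ x, τ (τ x) = x) (hpow : ∀ a, τ a = a ^ q) (hn : 0 < n) :
    Function.Surjective (suθ n hτ hpow) := by
  rintro ⟨u, hu⟩
  refine ⟨⟨duHom n F ⟨0, hn⟩ u, duHom_mem_GU hτ hpow hu _⟩, ?_⟩
  apply Subtype.ext
  rw [suθ_coe]
  exact det_duHom _ u

theorem det_sG (c : Fˣ) : Matrix.GeneralLinearGroup.det (sG (Fin n) c : GL (Fin n) F) = c ^ n := by
  apply Units.ext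
  show (Matrix.scalar (Fin n) (c : F)).det = _
  rw [Matrix.scalar_apply, Matrix.det_diagonal]
  simp

theorem suC_Inn [Fintype F] {p f : ℕ} (h : SUHyp n F q p f) {τ : F ≃+* F} (hτ : ∀ x, τ (τ x) = x)
    (hpow : ∀ a, τ a = a ^ q) (g : ↥(Cfsg.GU n F q)) :
    suθ n hτ hpow g ∈ (powMonoidHom n : ↥(nU τ) →* ↥(nU τ)).range ↔ suC n F q g ∈ Cfsg.Inn (Cfsg.PSU n F q) := by
  have hn := h.hn
  have h1 : suC n F q g ∈ Cfsg.Inn (Cfsg.PSU n F q) ↔ ∃ (A : ↥(Cfsg.SU n F q)) (u : Fˣ), g.1 = sG (Fin n) u * suE n F q A :=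
    cT_Inn_iff suE_inj suS suE_le (suC_ker h) g
  rw [h1]
  constructor
  · rintro ⟨c, hc⟩
    have hc' : c.1 ^ n = Matrix.GeneralLinearGroup.det g.1 := congrArg Subtype.val hc
    have hcm : sG (Fin n) c.1 ∈ Cfsg.GU n F q := (sG_mem_GU hτ hpow c.1 (by omega)).2 c.2
    have h2 : (sG (Fin n) c.1)⁻¹ * g.1 ∈ (suE n F q).range := by
      rw [mem_suE]
      refine ⟨(Cfsg.GU n F q).mul_mem ((Cfsg.GU n F q).inv_mem hcm) g.2, ?_⟩
      have h3 : Matrix.GeneralLinearGroup.det ((sG (Fin n) c.1)⁻¹ * g.1) = 1 := by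
        rw [map_mul, map_inv, det_sG, ← hc', inv_mul_cancel]
      exact congrArg Units.val h3
    obtain ⟨A, hA⟩ := h2
    exact ⟨A, c.1, by rw [hA, mul_inv_cancel_left]⟩
  · rintro ⟨A, u, hA⟩
    have hu : u ∈ nU τ := by
      rw [← sG_mem_GU hτ hpow u (n := n) (by omega)]
      have h2 : sG (Fin n) u = g.1 * (suE n F q A)⁻¹ := by rw [hA, mul_inv_cancel_right]
      rw [h2]
      exact (Cfsg.GU n F q).mul_mem g.2 ((Cfsg.GU n F q).inv_mem (suE_le ⟨A, rfl⟩))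
    refine ⟨⟨u, hu⟩, ?_⟩
    apply Subtype.ext
    show u ^ n = Matrix.GeneralLinearGroup.det g.1
    rw [hA, map_mul, det_sG]
    have h3 : Matrix.GeneralLinearGroup.det (suE n F q A) = 1 := Units.ext A.1.2
    rw [h3, mul_one]

theorem Inn_le_suC : Cfsg.Inn (Cfsg.PSU n F q) ≤ (suC n F q).range := Inn_le_cT suE_inj suS suE_le

theorem orderOf_tau {τ : F ≃+* F} (hτ : ∀ x, τ (τ x) = x) (hne : τ ≠ RingEquiv.refl F) : orderOf τ = 2 :=
  orderOf_eq_two_of hτ hne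

theorem SUHyp.two_le [Fintype F] {p f : ℕ} (h : SUHyp n F q p f) : 2 ≤ q := by
  rw [h.hq]
  calc 2 ≤ p := h.hp.two_le
    _ = p ^ 1 := (pow_one p).symm
    _ ≤ p ^ f := Nat.pow_le_pow_right h.hp.pos h.hf

theorem card_nU [Fintype F] {p f : ℕ} (h : SUHyp n F q p f) {τ : F ≃+* F} (hτ : ∀ x, τ (τ x) = x)
    (hne : τ ≠ RingEquiv.refl F) : Nat.card ↥(nU τ) = q + 1 := by
  have : Fact p.Prime := ⟨h.hp⟩
  have hF : Fintype.card F = p ^ (2 * f) := by rw [h.hF, h.hq, ← pow_mul, mul_comm]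
  have h1 := index_nU hF (orderOf_tau hτ hne)
  rw [Nat.mul_div_cancel_left f (by norm_num), ← h.hq] at h1
  have h2 := (nU τ).card_mul_index
  classical
  rw [h1, Nat.card_units, Nat.card_eq_fintype_card (α := F), h.hF] at h2
  have hq := h.two_le
  obtain ⟨s, rfl⟩ : ∃ s, q = s + 1 := ⟨q - 1, by omega⟩
  have h3 : (s + 1) ^ 2 - 1 = (s + 1 + 1) * (s + 1 - 1) := by
    have : (s + 1) ^ 2 = s * s + 2 * s + 1 := by ring
    rw [this]
    simp only [Nat.add_sub_cancel]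
    ring
  rw [h3] at h2
  exact Nat.eq_of_mul_eq_mul_right (by omega) h2

theorem su_out [Fintype F] {p f : ℕ} (h : SUHyp n F q p f) :
    ∃ φ : Cfsg.Out (Cfsg.PSU n F q) →* Multiplicative (ZMod (2 * f)), Function.Surjective φ ∧ IsCyclic φ.ker ∧
      Nat.card φ.ker = Nat.gcd n (q + 1) := by
  have : Fact p.Prime := ⟨h.hp⟩
  have hF : Fintype.card F = p ^ (2 * f) := by rw [h.hF, h.hq, ← pow_mul, mul_comm]
  obtain ⟨τ, hτ, hpow, hne⟩ := h.tau
  obtain ⟨χ, hχ, hker, _⟩ := chi_gen (suC n F q).range (su_normal h) (fHomG suE_inj sust) (by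
    intro β
    obtain ⟨g, σ, hβ⟩ := su_all h β
    exact ⟨_, ⟨g, rfl⟩, σ, hβ⟩) (by
    rintro σ ⟨g, hg⟩
    refine suF_faithful h σ (g := g⁻¹) ?_
    have hg' : suC n F q g = suF n q σ := hg
    rw [map_inv, hg', inv_mul_cancel])
  obtain ⟨e⟩ := ringAut_equiv hF
  have hfin : Finite ↥(nU τ) := inferInstance
  have hn := h.hn
  obtain ⟨φ, h1, h2, h3⟩ := out_gen (suC n F q) (suθ n hτ hpow) (suθ_surj hτ hpow (by omega)) n Inn_le_suC
    (suC_Inn h hτ hpow) (e.toMonoidHom.comp χ) (e.surjective.comp hχ) (by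
      ext β
      rw [← hker, MonoidHom.mem_ker, MonoidHom.mem_ker]
      show e (χ β) = 1 ↔ _
      rw [MulEquiv.map_eq_one_iff])
  refine ⟨φ, h1, h2, ?_⟩
  rw [h3, card_nU h hτ hne, Nat.gcd_comm]

theorem su_card_aut [Fintype F] {p f : ℕ} (h : SUHyp n F q p f) :
    Nat.card (MulAut (Cfsg.PSU n F q)) = Nat.gcd n (q + 1) * (2 * f) * Nat.card (Cfsg.PSU n F q) := by
  obtain ⟨φ, h1, _, h3⟩ := su_out h
  have h4 := card_aut_gen (X := Cfsg.PSU n F q) (center_quot suE_inj (su_center h) (su_comm h)) φ h1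
  rw [h4, h3]
  congr 2
  have hf := h.hf
  have : NeZero (2 * f) := ⟨by omega⟩
  rw [Nat.card_congr Multiplicative.toAdd, Nat.card_zmod]

end CfsgH6
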