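import Cfsg.Agent.H6.SUC

set_option autoImplicit false

/-! Classes of field automorphisms of `PSU`. -/

namespace CfsgH6

open Matrix

universe u v

variable {F : Type u} [Field F] {n q : ℕ}

/-- subfield data for an odd order field automorphism -/
structure SUSub {F : Type u} [Field F] {F₀ : Type v} [Field F₀] (σ τ : F ≃+* F) (τ₀ : F₀ ≃+* F₀) (j : F₀ →+* F) : Prop where
  hτ : ∀ x, τ (τ x) = x
  hne : τ ≠ RingEquiv.refl F
  hτ₀ : ∀ x, τ₀ (τ₀ x) = x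
  hne₀ : τ₀ ≠ RingEquiv.refl F₀
  hj : ∀ x, σ x = x ↔ ∃ y, j y = x
  hjτ : ∀ y, τ (j y) = j (τ₀ y)

section

variable {F₀ : Type v} [Field F₀] {σ τ : F ≃+* F} {τ₀ : F₀ ≃+* F₀} {j : F₀ →+* F}

theorem map_st (h : SUSub σ τ τ₀ j) (M : Matrix (Fin n) (Fin n) F₀) : (st τ₀ M).map j = st τ (M.map j) := by
  ext a b
  rw [Matrix.map_apply, st_apply, st_apply, Matrix.map_apply, h.hjτ]

theorem snorm_map [Finite F] (σ τ : F ≃+* F) (r : ℕ) (u : Fˣ) :
    snorm σ r (Units.map (τ : F →* F) u) = Units.map (τ : F →* F) (snorm σ r u) := by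
  induction r with
  | zero => rw [snorm_zero, snorm_zero, map_one]
  | succ k ih =>
    rw [snorm_succ, snorm_succ, map_mul, ih]
    congr 1
    apply Units.ext
    exact ringAut_comm σ τ _

theorem fixed_snorm {σ : F ≃+* F} (r : ℕ) {u : Fˣ} (hu : σ (u : F) = u) : snorm σ r u = u ^ r := by
  induction r with
  | zero => rw [snorm_zero, pow_zero]
  | succ k ih =>
    rw [snorm_succ, ih, pow_succ', map_pow]
    congr 2
    exact Units.ext hu

theorem su_s1 [Finite F] (h : SUSub σ τ τ₀ j) {r : ℕ} (hr : orderOf σ = r) (hro : Odd r) (u : Fˣ) (hu : u ∈ nU τ)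
    (hσ : σ (u : F) = u) : ∃ ν ∈ nU τ, snorm σ r ν = u⁻¹ := by
  have hr0 : 0 < r := hro.pos
  obtain ⟨w, hw⟩ := snorm_surj hr hr0 u⁻¹ (by rw [Units.val_inv_eq_inv_val, map_inv₀, hσ])
  obtain ⟨k, hk⟩ := hro
  have hτu : Units.map (τ : F →* F) u = u⁻¹ := by
    rw [eq_comm, inv_eq_iff_mul_eq_one]
    exact Units.ext (mem_nU.1 hu)
  have hw1 : snorm σ r (w * (Units.map (τ : F →* F) w)⁻¹) = (u ^ 2)⁻¹ := by
    rw [map_mul, map_inv, snorm_map, hw, map_inv, hτu]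
    group
  have hmem : w * (Units.map (τ : F →* F) w)⁻¹ ∈ nU τ := by
    rw [mem_nU]
    show ((w : F) * (((Units.map (τ : F →* F) w)⁻¹ : Fˣ) : F)) * τ ((w : F) * (((Units.map (τ : F →* F) w)⁻¹ : Fˣ) : F)) = 1
    have e1 : (((Units.map (τ : F →* F) w)⁻¹ : Fˣ) : F) = (τ (w : F))⁻¹ := by
      rw [Units.val_inv_eq_inv_val]; rfl
    have h0 : τ (w : F) ≠ 0 := fun h0 => w.ne_zero ((map_eq_zero τ).1 h0)
    rw [e1, map_mul, map_inv₀, h.hτ]
    have := w.ne_zero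
    field_simp
  refine ⟨((w * (Units.map (τ : F →* F) w)⁻¹) ^ k)⁻¹ * u⁻¹, (nU τ).mul_mem ((nU τ).inv_mem ((nU τ).pow_mem hmem k)) ((nU τ).inv_mem hu), ?_⟩
  rw [map_mul, map_inv, map_pow, map_inv, hw1, fixed_snorm r hσ, hk]
  group

theorem su_s2 [Finite F] [Finite F₀] (h : SUSub σ τ τ₀ j) {r : ℕ} (hr : orderOf σ = r) (hr0 : 0 < r) (u : Fˣ) (hu : u ∈ nU τ)
    (hσ : snorm σ r u = 1) : ∃ ν ∈ nU τ, (u : F) * σ ν = ν := by
  obtain ⟨ν, hν⟩ := hilbert90_scalar hr hr0 u hσ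
  have hu' := mem_nU.1 hu
  have hσN : σ ((ν : F) * τ ν) = (ν : F) * τ ν := by
    have h1 : τ (ν : F) = τ u * τ (σ ν) := by rw [← map_mul, hν]
    have h2 : τ (σ (ν : F)) = σ (τ ν) := ringAut_comm τ σ ν
    rw [map_mul]
    have h3 : (ν : F) * τ ν = ((u : F) * τ u) * (σ ν * σ (τ ν)) := by
      rw [h2] at h1
      calc (ν : F) * τ ν = ((u : F) * σ ν) * (τ u * σ (τ ν)) := by rw [hν, ← h1]
        _ = _ := by ring
    rw [h3, hu', one_mul]
  obtain ⟨y, hy⟩ := (h.hj _).1 hσN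
  have hντ : τ (ν : F) ≠ 0 := fun h0 => ν.ne_zero ((map_eq_zero τ).1 h0)
  have hy0 : y ≠ 0 := by
    rintro rfl
    rw [map_zero] at hy
    exact mul_ne_zero ν.ne_zero hντ hy.symm
  have hyτ : τ₀ y = y := by
    apply j.injective
    rw [← h.hjτ, hy, map_mul, h.hτ, mul_comm]
  obtain ⟨c, hc0, hc⟩ := exists_norm_eq h.hτ₀ h.hne₀ (inv_ne_zero hy0) (by rw [map_inv₀, hyτ])
  have hjc : j c ≠ 0 := fun h0 => hc0 ((map_eq_zero j).1 h0)
  refine ⟨ν * Units.mk0 (j c) hjc, ?_, ?_⟩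
  · rw [mem_nU]
    show ((ν : F) * j c) * τ ((ν : F) * j c) = 1
    rw [map_mul, h.hjτ]
    have h1 : (ν : F) * j c * (τ ν * j (τ₀ c)) = ((ν : F) * τ ν) * j (c * τ₀ c) := by rw [map_mul]; ring
    rw [h1, hc, ← hy, ← map_mul, mul_inv_cancel₀ hy0, map_one]
  · show (u : F) * σ ((ν : F) * j c) = (ν : F) * j c
    rw [map_mul, (h.hj _).2 ⟨c, rfl⟩, ← mul_assoc, hν]

theorem su_s3 [Finite F] [Finite F₀] (h : SUSub σ τ τ₀ j) (hpow : ∀ a, τ a = a ^ q) {r : ℕ} (hr : orderOf σ = r) (hr0 : 0 < r) :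
    ∀ g ∈ Cfsg.GU n F q, gN σ g r = 1 → ∃ a ∈ Cfsg.GU n F q, g = a * (fGL σ a)⁻¹ := by
  intro g hg hgN
  obtain ⟨a, ha⟩ := hilbert90G hr hr0 g hgN
  have hgU := (mem_GU_iff h.hτ hpow g).1 hg
  have hga : (fGL σ a)⁻¹ = a⁻¹ * g := by rw [ha]; group
  -- the Hermitian matrix
  have hai : (a : Matrix (Fin n) (Fin n) F) * ((a⁻¹ : GL (Fin n) F) : Matrix (Fin n) (Fin n) F) = 1 := a.mul_inv
  have hai' : ((a⁻¹ : GL (Fin n) F) : Matrix (Fin n) (Fin n) F) * (a : Matrix (Fin n) (Fin n) F) = 1 := a.inv_mul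
  have hσai : ((a⁻¹ : GL (Fin n) F) : Matrix (Fin n) (Fin n) F).map σ = ((a⁻¹ : GL (Fin n) F) : Matrix (Fin n) (Fin n) F) * g := by
    rw [← fGL_coe, map_inv, hga]; rfl
  have hdetai : ((a⁻¹ : GL (Fin n) F) : Matrix (Fin n) (Fin n) F).det ≠ 0 := by
    have h1 := (a⁻¹).isUnit
    rw [Matrix.isUnit_iff_isUnit_det] at h1
    exact h1.ne_zero
  generalize ((a⁻¹ : GL (Fin n) F) : Matrix (Fin n) (Fin n) F) = Ai at hai hai' hσai hdetai
  have hstσ : ∀ M : Matrix (Fin n) (Fin n) F, (st τ M).map σ = st τ (M.map σ) := by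
    intro M
    ext x y
    rw [Matrix.map_apply, st_apply, st_apply, Matrix.map_apply]
    exact ringAut_comm σ τ _
  have hBσ : (Ai * st τ Ai).map σ = Ai * st τ Ai := by
    rw [mapMul, hstσ, hσai, st_mul]
    calc Ai * (g : Matrix (Fin n) (Fin n) F) * (st τ (g : Matrix (Fin n) (Fin n) F) * st τ Ai) =
        Ai * ((g : Matrix (Fin n) (Fin n) F) * st τ (g : Matrix (Fin n) (Fin n) F)) * st τ Ai := by simp only [mul_assoc]
      _ = _ := by rw [hgU, mul_one]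
  choose B₀ hB₀ using fun x y => (h.hj ((Ai * st τ Ai) x y)).1 (congrFun (congrFun hBσ x) y)
  have hB : (Matrix.of B₀).map j = Ai * st τ Ai := by
    ext x y
    rw [Matrix.map_apply, Matrix.of_apply, hB₀]
  have hinj : Function.Injective (fun M : Matrix (Fin n) (Fin n) F₀ => M.map j) := Matrix.map_injective j.injective
  obtain ⟨k, hkdet, hk⟩ := herm_std h.hτ₀ h.hne₀ n (Matrix.of B₀) (by
    intro h0
    have h1 := RingHom.map_det j (Matrix.of B₀)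
    rw [h0, map_zero] at h1
    have h2 : ((Matrix.of B₀).map j).det = 0 := h1.symm
    rw [hB, Matrix.det_mul, st_det] at h2
    rcases mul_eq_zero.1 h2 with h3 | h3
    · exact hdetai h3
    · exact hdetai ((map_eq_zero τ).1 h3)) (by
    apply hinj
    show (st τ₀ (Matrix.of B₀)).map j = (Matrix.of B₀).map j
    rw [map_st h, hB, st_mul, st_st h.hτ])
  let kG : GL (Fin n) F₀ := Matrix.GeneralLinearGroup.mkOfDetNeZero k hkdet
  let K : GL (Fin n) F := Matrix.GeneralLinearGroup.map j kG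
  have hK : (K : Matrix (Fin n) (Fin n) F) = k.map j := rfl
  have hKK : (K : Matrix (Fin n) (Fin n) F) * st τ (K : Matrix (Fin n) (Fin n) F) = Ai * st τ Ai := by
    rw [hK, ← map_st h, ← hB, hk, Matrix.map_mul]
  have hKσ : fGL σ K = K := by
    apply Units.ext
    ext x y
    exact (h.hj _).2 ⟨_, rfl⟩
  refine ⟨a * K, ?_, ?_⟩
  · rw [mem_GU_iff h.hτ hpow, Units.val_mul, st_mul]
    have h3 : st τ Ai * st τ (a : Matrix (Fin n) (Fin n) F) = 1 := by rw [← st_mul, hai, st_one]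
    calc (a : Matrix (Fin n) (Fin n) F) * (K : Matrix (Fin n) (Fin n) F) * (st τ (K : Matrix (Fin n) (Fin n) F) * st τ (a : Matrix (Fin n) (Fin n) F)) =
        (a : Matrix (Fin n) (Fin n) F) * ((K : Matrix (Fin n) (Fin n) F) * st τ (K : Matrix (Fin n) (Fin n) F)) * st τ (a : Matrix (Fin n) (Fin n) F) := by
          simp only [mul_assoc]
      _ = ((a : Matrix (Fin n) (Fin n) F) * Ai) * (st τ Ai * st τ (a : Matrix (Fin n) (Fin n) F)) := by rw [hKK]; simp only [mul_assoc]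
      _ = 1 := by rw [hai, h3, one_mul]
  · rw [map_mul, hKσ, ha]; group

theorem orderOf_suF [Fintype F] {p f : ℕ} (h : SUHyp n F q p f) (σ : F ≃+* F) : orderOf (suF n q σ) = orderOf σ :=
  orderOf_fT suE_inj sust (fun σ h1 => suF_faithful h σ (g := 1) (by rw [map_one, one_mul]; exact h1)) σ

/-- the class package -/
theorem su_srep [Fintype F] [Finite F₀] {p f : ℕ} (h : SUHyp n F q p f) (hs : SUSub σ τ τ₀ j) (hpow : ∀ a, τ a = a ^ q)
    {r : ℕ} (hr : orderOf σ = r) (hro : Odd r) : SRep (Cfsg.GU n F q) (Cfsg.PSU n F q) (suC n F q) σ (suF n q σ) r where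
  ker := suC_ker h
  ker' := ker'_cT suE_inj suS
  σS := fGL_GU σ
  comm := fT_mul_cT suE_inj suS (sust σ) (fGL_GU σ)
  hr := hr
  hr0 := hro.pos
  fr := by
    have h1 := pow_orderOf_eq_one (suF n q σ)
    rwa [orderOf_suF h, hr] at h1
  s1 := by
    intro u huS hu
    have hn := h.hn
    obtain ⟨ν, hν, h1⟩ := su_s1 hs hr hro u ((sG_mem_GU hs.hτ hpow u (by omega)).1 huS) hu
    exact ⟨ν, (sG_mem_GU hs.hτ hpow ν (by omega)).2 hν, h1⟩
  s2 := by
    intro u huS hu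
    have hn := h.hn
    obtain ⟨ν, hν, h1⟩ := su_s2 hs hr hro.pos u ((sG_mem_GU hs.hτ hpow u (by omega)).1 huS) hu
    exact ⟨ν, (sG_mem_GU hs.hτ hpow ν (by omega)).2 hν, h1⟩
  s3 := su_s3 hs hpow hr hro.pos

/-- existence of the subfield data -/
theorem exists_susub [Fintype F] {p f : ℕ} (h : SUHyp n F q p f) {σ : F ≃+* F} {r : ℕ} (hr : orderOf σ = r) (hro : Odd r)
    (F₀ : Type v) [Field F₀] [Fintype F₀] (hF₀ : Fintype.card F₀ = p ^ (2 * (f / r))) :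
    r ∣ f ∧ ∃ (τ : F ≃+* F) (τ₀ : F₀ ≃+* F₀) (j : F₀ →+* F), (∀ a, τ a = a ^ q) ∧ (∀ a, τ₀ a = a ^ (p ^ (f / r))) ∧
      SUSub σ τ τ₀ j := by
  have hp : Fact p.Prime := ⟨h.hp⟩
  have hF : Fintype.card F = p ^ (2 * f) := by rw [h.hF, h.hq, ← pow_mul, mul_comm]
  have h1 := (card_fixF hF hr hro.pos).1
  have h2 : r ∣ f := (Nat.Coprime.dvd_mul_left (Nat.coprime_two_right.2 hro)).1 h1
  obtain ⟨k, hk⟩ := h2
  have hk0 : 1 ≤ k := by
    have hf := h.hf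
    rcases Nat.eq_zero_or_pos k with h0 | h0
    · rw [h0, mul_zero] at hk; omega
    · exact h0
  have hfr : f / r = k := by rw [hk, Nat.mul_div_cancel_left _ hro.pos]
  rw [hfr] at hF₀ ⊢
  obtain ⟨τ, hτ, hpow, hne⟩ := h.tau
  obtain ⟨τ₀, hτ₀, hpow₀, hne₀⟩ := exists_tau (F := F₀) (q := p ^ k) (p := p) (f := k) rfl hk0 (by rw [hF₀, mul_comm, pow_mul])
  obtain ⟨j, hj⟩ := exists_emb hF hr hro.pos F₀ (by
    rw [hF₀]
    congr 1
    rw [hk, mul_left_comm, Nat.mul_div_cancel_left _ hro.pos])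
  refine ⟨⟨k, hk⟩, τ, τ₀, j, hpow, hpow₀, ⟨hτ, hne, hτ₀, hne₀, hj, ?_⟩⟩
  intro y
  rw [hpow, hpow₀, ← map_pow]
  congr 1
  obtain ⟨l, hl⟩ := hro
  have e1 : q = (p ^ (2 * k)) ^ l * p ^ k := by
    rw [h.hq, hk, hl, ← pow_mul, ← pow_add]
    congr 1
    ring
  rw [e1, pow_mul, ← hF₀, FiniteField.pow_card_pow]

end

end CfsgH6
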