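import Cfsg.Agent.H6.SUD

set_option autoImplicit false

/-! Classes of field automorphisms of `PSU`, part 2. -/

namespace CfsgH6

open Matrix

universe u v

variable {F : Type u} [Field F] {n q : ℕ}

section

variable {F₀ : Type v} [Field F₀] {σ τ : F ≃+* F} {τ₀ : F₀ ≃+* F₀} {j : F₀ →+* F}

theorem GU_map_iff [Finite F] [Finite F₀] (h : SUSub σ τ τ₀ j) (hpow : ∀ a, τ a = a ^ q) {q₀ : ℕ} (hpow₀ : ∀ a, τ₀ a = a ^ q₀)
    (g : GL (Fin n) F₀) : g ∈ Cfsg.GU n F₀ q₀ ↔ Matrix.GeneralLinearGroup.map j g ∈ Cfsg.GU n F q := by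
  rw [mem_GU_iff h.hτ hpow, mem_GU_iff h.hτ₀ hpow₀]
  have h1 : ((Matrix.GeneralLinearGroup.map j g : GL (Fin n) F) : Matrix (Fin n) (Fin n) F) * st τ ((Matrix.GeneralLinearGroup.map j g : GL (Fin n) F) : Matrix (Fin n) (Fin n) F) =
      ((g : Matrix (Fin n) (Fin n) F₀) * st τ₀ (g : Matrix (Fin n) (Fin n) F₀)).map j := by
    rw [Matrix.map_mul, map_st h]; rfl
  rw [h1]
  constructor
  · intro h2
    rw [h2, Matrix.map_one j (map_zero j) (map_one j)]
  · intro h2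
    apply Matrix.map_injective j.injective
    show Matrix.map _ _ = Matrix.map _ _
    rw [h2, Matrix.map_one j (map_zero j) (map_one j)]

theorem suθ_sG [Finite F] (hτ : ∀ x, τ (τ x) = x) (hpow : ∀ a, τ a = a ^ q) {u : Fˣ} (hu : u ∈ nU τ)
    (h : sG (Fin n) u ∈ Cfsg.GU n F q) : suθ n hτ hpow ⟨sG (Fin n) u, h⟩ = (⟨u, hu⟩ : ↥(nU τ)) ^ n := by
  apply Subtype.ext
  rw [suθ_coe, det_sG]
  rfl

/-- the determinants of the elements commuting with the field automorphism -/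
theorem suθ_cent [Fintype F] [Finite F₀] {p f : ℕ} (h : SUHyp n F q p f) (hs : SUSub σ τ τ₀ j) (hpow : ∀ a, τ a = a ^ q)
    {r : ℕ} (hr : orderOf σ = r) (hro : Odd r) :
    ((Subgroup.centralizer {suF n q σ}).comap (suC n F q)).map (suθ n hs.hτ hpow) ⊔ (powMonoidHom n : ↥(nU τ) →* ↥(nU τ)).range =
      (fixU σ).subgroupOf (nU τ) ⊔ (powMonoidHom n : ↥(nU τ) →* ↥(nU τ)).range := by
  have hn := h.hn
  have : Nonempty (Fin n) := ⟨⟨0, by omega⟩⟩
  have hrep := su_srep h hs hpow hr hro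
  apply le_antisymm
  · apply sup_le _ le_sup_right
    rintro _ ⟨g, hg, rfl⟩
    have hg' := Subgroup.mem_centralizer_singleton_iff.1 hg
    obtain ⟨ν, hν, g0, hg0, rfl⟩ := hrep.commute_field g hg'
    have hν' := (sG_mem_GU hs.hτ hpow ν (by omega)).1 hν
    rw [map_mul, suθ_sG hs.hτ hpow hν' hν]
    apply Subgroup.mul_mem
    · exact Subgroup.mem_sup_right ⟨⟨ν, hν'⟩, rfl⟩
    · apply Subgroup.mem_sup_left
      rw [Subgroup.mem_subgroupOf, suθ_coe, mem_fixU]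
      have h1 := congrArg (fun M : GL (Fin n) F => (M : Matrix (Fin n) (Fin n) F).det) hg0
      have h2 : σ (g0.1 : Matrix (Fin n) (Fin n) F).det = (g0.1 : Matrix (Fin n) (Fin n) F).det :=
        (RingHom.map_det σ.toRingHom (g0.1 : Matrix (Fin n) (Fin n) F)).trans h1
      exact h2
  · apply sup_le _ le_sup_right
    rintro ⟨u, hu⟩ hσu
    have hσu' : σ (u : F) = u := hσu
    apply Subgroup.mem_sup_left
    refine ⟨⟨duHom n F ⟨0, by omega⟩ u, duHom_mem_GU hs.hτ hpow hu _⟩, ?_, ?_⟩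
    · rw [SetLike.mem_coe, Subgroup.mem_comap, Subgroup.mem_centralizer_singleton_iff, hrep.comm]
      congr 2
      apply Subtype.ext
      apply Units.ext
      show Matrix.diagonal _ = (Matrix.diagonal _).map σ
      rw [Matrix.diagonal_map (map_zero σ)]
      congr 1
      ext i
      show ((if i = (⟨0, by omega⟩ : Fin n) then u else 1 : Fˣ) : F) = σ ((if i = (⟨0, by omega⟩ : Fin n) then u else 1 : Fˣ) : F)
      split_ifs
      · exact hσu'.symm
      · rw [Units.val_one, map_one]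
    · apply Subtype.ext
      rw [suθ_coe]
      exact det_duHom _ u

theorem card_nU' [Fintype F] {p f : ℕ} (hp : p.Prime) (hf : 1 ≤ f) (hF : Fintype.card F = (p ^ f) ^ 2) {τ : F ≃+* F} (hτ : ∀ x, τ (τ x) = x)
    (hne : τ ≠ RingEquiv.refl F) : Nat.card ↥(nU τ) = p ^ f + 1 := by
  have : Fact p.Prime := ⟨hp⟩
  have hF' : Fintype.card F = p ^ (2 * f) := by rw [hF, ← pow_mul, mul_comm]
  have h1 := index_nU hF' (orderOf_tau hτ hne)
  rw [Nat.mul_div_cancel_left f (by norm_num)] at h1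
  have h2 := (nU τ).card_mul_index
  classical
  rw [h1, Nat.card_units, Nat.card_eq_fintype_card (α := F), hF] at h2
  have hq : 2 ≤ p ^ f := by
    calc 2 ≤ p := hp.two_le
      _ = p ^ 1 := (pow_one p).symm
      _ ≤ p ^ f := Nat.pow_le_pow_right hp.pos hf
  generalize p ^ f = q at h2 hq ⊢
  obtain ⟨s, rfl⟩ : ∃ s, q = s + 1 := ⟨q - 1, by omega⟩
  have h3 : (s + 1) ^ 2 - 1 = (s + 1 + 1) * (s + 1 - 1) := by
    have : (s + 1) ^ 2 = s * s + 2 * s + 1 := by ring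
    rw [this]
    simp only [Nat.add_sub_cancel]
    ring
  rw [h3] at h2
  exact Nat.eq_of_mul_eq_mul_right (by omega) h2

theorem card_sub (hs : SUSub σ τ τ₀ j) : Nat.card ↥((fixU σ).subgroupOf (nU τ)) = Nat.card ↥(nU τ₀) := by
  have key : ∀ v : F₀ˣ, v ∈ nU τ₀ ↔ Units.map (j : F₀ →* F) v ∈ nU τ := by
    intro v
    rw [mem_nU, mem_nU]
    show _ ↔ j (v : F₀) * τ (j (v : F₀)) = 1
    rw [hs.hjτ, ← map_mul]
    constructor
    · intro h; rw [h, map_one]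
    · intro h; exact j.injective (by rw [h, map_one])
  have h1 : Function.Injective (fun v : ↥(nU τ₀) => (⟨⟨Units.map (j : F₀ →* F) v.1, (key v.1).1 v.2⟩, (by
      show σ (j (v.1 : F₀)) = j (v.1 : F₀)
      exact (hs.hj _).2 ⟨_, rfl⟩)⟩ : ↥((fixU σ).subgroupOf (nU τ)))) := by
    intro v w hvw
    apply Subtype.ext
    apply Units.ext
    apply j.injective
    exact congrArg (fun x : ↥((fixU σ).subgroupOf (nU τ)) => (x.1.1 : F)) hvw
  refine (Nat.card_congr (Equiv.ofBijective _ ⟨h1, ?_⟩)).symm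
  rintro ⟨⟨u, hu⟩, hσu⟩
  have hσu' : σ (u : F) = u := hσu
  obtain ⟨y, hy⟩ := (hs.hj _).1 hσu'
  have hy0 : y ≠ 0 := by
    rintro rfl
    rw [map_zero] at hy
    exact u.ne_zero hy.symm
  have h2 : Units.map (j : F₀ →* F) (Units.mk0 y hy0) = u := Units.ext hy
  refine ⟨⟨Units.mk0 y hy0, (key _).2 (by rw [h2]; exact hu)⟩, ?_⟩
  apply Subtype.ext
  apply Subtype.ext
  exact h2

end

/-- reduction to a standard field automorphism -/
theorem su_field_std [Fintype F] {p f : ℕ} (h : SUHyp n F q p f) {x : MulAut (Cfsg.PSU n F q)}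
    (hx : Cfsg.IsFieldAutClassPSU x) {r : ℕ} (hxr : orderOf x = r) :
    ∃ (α : MulAut (Cfsg.PSU n F q)) (σ : F ≃+* F), α * x * α⁻¹ = suF n q σ ∧ orderOf σ = r ∧ Odd r := by
  obtain ⟨α, φ, σ, _, hodd, hφ, h1⟩ := hx
  have h2 := (su_std_iff σ _).1 hφ
  have h3 : orderOf σ = r := by
    rw [← orderOf_suF h, ← h2, ← hxr, ← h1]
    exact orderOf_injective (MulAut.conj α).toMonoidHom (MulAut.conj α).injective x
  exact ⟨α, σ, h1.trans h2, h3, h3 ▸ hodd⟩

theorem su_class [Fintype F] {p f : ℕ} (h : SUHyp n F q p f) (x : MulAut (Cfsg.PSU n F q))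
    (hx : Cfsg.IsFieldAutClassPSU x) {r : ℕ} (hxr : orderOf x = r) (F₀ : Type v) [Field F₀] [Fintype F₀]
    (hF₀ : Fintype.card F₀ = p ^ (2 * (f / r))) :
    r ∣ f ∧ Nonempty (↥(Cfsg.inndiagPSU n F q ⊓ Subgroup.centralizer {x}) ≃* Cfsg.PGU n F₀ (p ^ (f / r))) ∧
      Cfsg.splitClassCount (Cfsg.inndiagPSU n F q) (Cfsg.Inn (Cfsg.PSU n F q)) x = Nat.gcd n ((q + 1) / (p ^ (f / r) + 1)) := by
  obtain ⟨α, σ, h2, hord, hro⟩ := su_field_std h hx hxr
  obtain ⟨hrf, τ, τ₀, j, hpow, hpow₀, hs⟩ := exists_susub h hord hro F₀ hF₀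
  have hN : ((suC n F q).range).Normal := su_normal h
  rw [inndiagPSU_eq]
  have hn := h.hn
  have : Nonempty (Fin n) := ⟨⟨0, by omega⟩⟩
  refine ⟨hrf, ?_, ?_⟩
  · obtain ⟨e1⟩ := cent_conj (suC n F q).range hN x α
    rw [h2] at e1
    have hrep := su_srep h hs hpow hord hro
    obtain ⟨Φ, hΦ1, hΦ2⟩ := hrep.cent_iso j hs.hj (Cfsg.GU n F₀ (p ^ (f / r))) (GU_map_iff hs hpow hpow₀)
    rw [← hΦ1] at e1
    obtain ⟨e2⟩ := projQuot_iso Φ hΦ2
    exact ⟨e1.trans e2⟩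
  · have hInn : (Cfsg.Inn (Cfsg.PSU n F q)).Normal := inferInstance
    have hcyc : IsCyclic ↥(nU τ) := inferInstance
    have hf0 : 1 ≤ f / r := by
      have hf := h.hf
      obtain ⟨k, hk⟩ := hrf
      rw [hk, Nat.mul_div_cancel_left _ hro.pos]
      rcases Nat.eq_zero_or_pos k with h0 | h0
      · rw [h0, mul_zero] at hk; omega
      · exact h0
    rw [← splitClassCount_conj _ _ x α, h2,
      splitClassCount_eq (suC n F q) (suθ n hs.hτ hpow) (suθ_surj hs.hτ hpow (by omega)) _ Inn_le_suC _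
        (suC_Inn h hs.hτ hpow), suθ_cent h hs hpow hord hro, index_sup_cyclic,
      IsCyclic.index_powMonoidHom_range, card_nU h hs.hτ hs.hne]
    have h3 := ((fixU σ).subgroupOf (nU τ)).card_mul_index
    rw [card_sub hs, card_nU' h.hp hf0 (by rw [hF₀, mul_comm, pow_mul]) hs.hτ₀ hs.hne₀, card_nU h hs.hτ hs.hne] at h3
    have h4 : ((fixU σ).subgroupOf (nU τ)).index = (q + 1) / (p ^ (f / r) + 1) := by
      rw [← h3, Nat.mul_div_cancel_left _ (by omega)]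
    rw [← h4, ← Nat.gcd_assoc, Nat.gcd_eq_left (Subgroup.index_dvd_card _ |>.trans (by rw [card_nU h hs.hτ hs.hne])), Nat.gcd_comm]

theorem su_coset [Fintype F] {p f : ℕ} (h : SUHyp n F q p f) (x δ : MulAut (Cfsg.PSU n F q))
    (hx : Cfsg.IsFieldAutClassPSU x) {r : ℕ} (hxr : orderOf x = r) (hδ : δ ∈ Cfsg.inndiagPSU n F q) :
    orderOf (δ * x) = r ↔ Cfsg.IsConjUnder (Cfsg.inndiagPSU n F q) x (δ * x) := by
  obtain ⟨α, σ, h2, hord, hro⟩ := su_field_std h hx hxr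
  have : Fact p.Prime := ⟨h.hp⟩
  have hF : Fintype.card F = p ^ (2 * f) := by rw [h.hF, h.hq, ← pow_mul, mul_comm]
  have hfF : Fintype (fixF σ) := Fintype.ofFinite _
  have h3 := card_fixF hF hord hro.pos
  have hrf : r ∣ f := (Nat.Coprime.dvd_mul_left (Nat.coprime_two_right.2 hro)).1 h3.1
  obtain ⟨_, τ, τ₀, j, hpow, hpow₀, hs⟩ := exists_susub h hord hro (fixF σ) (by
    rw [← Nat.card_eq_fintype_card, h3.2]
    congr 1
    exact Nat.mul_div_assoc 2 hrf)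
  have hN : ((suC n F q).range).Normal := su_normal h
  have hn := h.hn
  have : Nonempty (Fin n) := ⟨⟨0, by omega⟩⟩
  rw [inndiagPSU_eq] at hδ ⊢
  refine coset_core hN x _ α h2 hxr ?_ δ hδ
  rintro _ ⟨g, rfl⟩ hg
  obtain ⟨a, ha⟩ := (su_srep h hs hpow hord hro).conj_field g hg
  exact ⟨_, ⟨a, rfl⟩, ha⟩

end CfsgH6
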