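import Cfsg.Agent.H6.Sl23
set_option autoImplicit false

namespace CfsgH6
open Cfsg CfsgH4

namespace MG
variable {G : Type*} [Group G] {F : Type*} [Field F] (M : MG G F)

theorem m_ng : M.m M.ng = -1 := by
  ext i j
  fin_cases i <;> fin_cases j
  · show M.m M.ng 0 0 = _; rw [MG.ng00]; simp
  · show M.m M.ng 0 1 = _; rw [MG.ng01]; simp
  · show M.m M.ng 1 0 = _; rw [MG.ng10]; simp
  · show M.m M.ng 1 1 = _; rw [MG.ng11]; simp

theorem tr_zero {x : G} (hx : x * x = M.ng) (hs : ¬ M.Sc x) : M.m x 1 1 = - M.m x 0 0 := by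
  have e00 := congrArg (fun g => M.m g 0 0) hx
  have e01 := congrArg (fun g => M.m g 0 1) hx
  have e10 := congrArg (fun g => M.m g 1 0) hx
  have e11 := congrArg (fun g => M.m g 1 1) hx
  simp only [mul00, mul01, mul10, mul11, ng00, ng01, ng10, ng11] at e00 e01 e10 e11
  have h1 : M.m x 0 1 * (M.m x 0 0 + M.m x 1 1) = 0 := by linear_combination e01
  have h2 : M.m x 1 0 * (M.m x 0 0 + M.m x 1 1) = 0 := by linear_combination e10
  have h3 : (M.m x 0 0 - M.m x 1 1) * (M.m x 0 0 + M.m x 1 1) = 0 := by linear_combination e00 - e11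
  by_contra hc
  have hc' : M.m x 0 0 + M.m x 1 1 ≠ 0 := fun h => hc (by linear_combination h)
  apply hs
  exact ⟨(mul_eq_zero.1 h1).resolve_right hc', (mul_eq_zero.1 h2).resolve_right hc',
    sub_eq_zero.1 ((mul_eq_zero.1 h3).resolve_right hc')⟩

/-- the order three element normalising a quaternion group -/
theorem exists_om (h2 : (2 : F) ≠ 0) {a b : G} (ha : a * a = M.ng) (hb : b * b = M.ng) (hab : (a * b) * (a * b) = M.ng)
    (has : ¬ M.Sc a) (hbs : ¬ M.Sc b) (habs : ¬ M.Sc (a * b)) (hba : b * a = M.ng * (a * b)) :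
    ∃ u : G, u * a = (a * b) * u ∧ u * b = a * u := by
  have ta := M.tr_zero ha has
  have tb := M.tr_zero hb hbs
  have tab := M.tr_zero hab habs
  have a00 := congrArg (fun g => M.m g 0 0) ha
  have b00 := congrArg (fun g => M.m g 0 0) hb
  simp only [mul00, ng00] at a00 b00
  rw [mul11, mul00, ta, tb] at tab
  have hA : M.m a * M.m a = -1 := by rw [← map_mul, ha, m_ng]
  have hB : M.m b * M.m b = -1 := by rw [← map_mul, hb, m_ng]
  have hBA : M.m b * M.m a = -(M.m a * M.m b) := by
    rw [← map_mul, hba, map_mul, m_ng, map_mul, neg_one_mul]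
  have hdet : (-1 + M.m a + M.m b + M.m a * M.m b).det = 4 := by
    rw [Matrix.det_fin_two]
    simp only [Matrix.add_apply, Matrix.neg_apply, Matrix.one_apply, Matrix.mul_apply, Fin.sum_univ_two, ta, tb]
    simp
    linear_combination (-(1 - (M.m b 0 0) ^ 2 - M.m b 0 1 * M.m b 1 0)) * a00 - 2 * b00 - 2 * tab
  obtain ⟨u, hu⟩ := M.ex1 ((2 : F)⁻¹ • (-1 + M.m a + M.m b + M.m a * M.m b)) (by
    rw [Matrix.det_smul, hdet, Fintype.card_fin]
    field_simp
    norm_num)
  have r1 : M.m a * M.m b * M.m a = M.m b := by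
    rw [mul_assoc, hBA, mul_neg, ← mul_assoc, hA]; simp
  have r2 : M.m a * M.m b * M.m b = - M.m a := by
    rw [mul_assoc, hB]; simp
  have r3 : M.m a * (M.m a * M.m b) = - M.m b := by
    rw [← mul_assoc, hA]; simp
  have r4 : M.m a * M.m b * (M.m a * M.m b) = -1 := by
    rw [← mul_assoc, r1, hB]
  refine ⟨u, ?_, ?_⟩
  · apply M.inj
    rw [map_mul, map_mul, map_mul, hu, smul_mul_assoc, mul_smul_comm]
    congr 1
    rw [add_mul, add_mul, add_mul, mul_add, mul_add, mul_add, hA, hBA, r1, r2, r4]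
    simp
    abel
  · apply M.inj
    rw [map_mul, map_mul, hu, smul_mul_assoc, mul_smul_comm]
    congr 1
    rw [add_mul, add_mul, add_mul, mul_add, mul_add, mul_add, hA, hB, r2, r3]
    simp
    abel

variable [Fintype F] [DecidableEq F] [Fintype G]
variable (hM : M.IsSL) (hodd : Odd (Fintype.card F)) (S : Sylow 2 G)

include hM hodd in
theorem sylow2_three (h8 : Fintype.card F % 8 = 3 ∨ Fintype.card F % 8 = 5) :
    Nat.card (Subgroup.normalizer ((S : Subgroup G) : Set G)) = 3 * Nat.card S := by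
  classical
  obtain ⟨z, j, hz, hSN, hj⟩ := M.sylow2_tor hM hodd S
  have hzs := M.not_Sc_of_tr hM hz
  have hcard := M.sylow2_card hM hodd S hz hSN hj
  haveI := M.cyclic_cent hM hz
  haveI hcyc : IsCyclic ((Subgroup.centralizer ({z} : Set G)).subgroupOf (S : Subgroup G)) := by
    refine isCyclic_of_injective (G' := Subgroup.centralizer ({z} : Set G))
      { toFun := fun x => ⟨((x : (S : Subgroup G)) : G), x.2⟩
        map_one' := rfl
        map_mul' := fun x y => rfl } ?_
    intro x y h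
    have h' : ((x : (S : Subgroup G)) : G) = ((y : (S : Subgroup G)) : G) :=
      congrArg (fun t : Subgroup.centralizer ({z} : Set G) => (t : G)) h
    exact Subtype.ext (Subtype.ext h')
  obtain ⟨a', ha'⟩ := hcyc.exists_generator
  have hord := orderOf_eq_card_of_forall_mem_zpowers ha'
  -- the order is eight
  obtain ⟨o, ho⟩ : ∃ o, Nat.card G = 8 * (2 * o + 1) := by
    rw [M.card_SL hM]
    rcases h8 with h | h
    · obtain ⟨k, hk⟩ : ∃ k, Fintype.card F = 8 * k + 3 := ⟨Fintype.card F / 8, by omega⟩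
      rw [hk]
      have e : (8 * k + 3) ^ 2 - 1 = 8 * (8 * k * k + 6 * k + 1) := by
        have : (8 * k + 3) ^ 2 = 8 * (8 * k * k + 6 * k + 1) + 1 := by ring
        omega
      rw [e]
      exact ⟨(4 * k * k + 3 * k) * (8 * k + 3) + 4 * k + 1, by ring⟩
    · obtain ⟨k, hk⟩ : ∃ k, Fintype.card F = 8 * k + 5 := ⟨Fintype.card F / 8, by omega⟩
      rw [hk]
      have e : (8 * k + 5) ^ 2 - 1 = 8 * (8 * k * k + 10 * k + 3) := by
        have : (8 * k + 5) ^ 2 = 8 * (8 * k * k + 10 * k + 3) + 1 := by ring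
        omega
      rw [e]
      exact ⟨(4 * k * k + 5 * k + 1) * (8 * k + 5) + 4 * k + 2, by ring⟩
  have hS8 : Nat.card (S : Subgroup G) = 8 := by
    obtain ⟨t, ht⟩ := IsPGroup.iff_card.1 S.isPGroup'
    have h1 : 2 ^ 3 ∣ Nat.card (S : Subgroup G) := S.pow_dvd_card_of_pow_dvd_card (by rw [ho]; exact Dvd.intro _ rfl)
    have h2 : Nat.card (S : Subgroup G) ∣ Nat.card G := Subgroup.card_subgroup_dvd_card _
    rw [ht] at h1 h2 ⊢
    have h3 : 3 ≤ t := (Nat.pow_dvd_pow_iff_le_right' (b := 0)).1 h1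
    have h4 : t < 4 := by
      by_contra h5
      have h6 : 2 ^ 4 ∣ Nat.card G := (Nat.pow_dvd_pow 2 (not_lt.1 h5)).trans h2
      rw [ho] at h6
      omega
    have : t = 3 := by omega
    rw [this]; norm_num
  have hA4 : Nat.card ((Subgroup.centralizer ({z} : Set G)).subgroupOf (S : Subgroup G)) = 4 := by omega
  rw [hA4] at hord
  set a : G := ((a' : (S : Subgroup G)) : G) with ha
  have haC : a ∈ Subgroup.centralizer ({z} : Set G) := a'.2
  have haS : a ∈ (S : Subgroup G) := (a' : (S : Subgroup G)).2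
  have ha4 : a ^ 4 = 1 := by
    have := pow_orderOf_eq_one a'
    rw [hord] at this
    exact congrArg (fun t : (Subgroup.centralizer ({z} : Set G)).subgroupOf (S : Subgroup G) => ((t : (S : Subgroup G)) : G)) this
  have ha2 : a * a ≠ 1 := by
    intro h
    have h1 : a' ^ 2 = 1 := Subtype.ext (Subtype.ext (by rw [sq]; exact h))
    have := Nat.le_of_dvd (by norm_num) (orderOf_dvd_of_pow_eq_one h1)
    omega
  have haa : a * a = M.ng := by
    have h1 : M.Sc (a * a) := by
      by_contra hs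
      apply M.inv_ne_self hM hodd hs
      rw [pow_four'] at ha4
      exact inv_eq_of_mul_eq_one_right ha4
    exact (M.Sc_SL hM h1).resolve_left ha2
  have has : ¬ M.Sc a := by
    intro hs
    apply ha2
    rcases M.Sc_SL hM hs with h | h
    · rw [h, one_mul]
    · rw [h, ng_mul_ng]
  obtain ⟨b, hb, hbC⟩ := sylow2_not_le S hj
  have hbb := M.norm_sq hM hodd hz (hSN hb) hbC
  have habC : a * b ∉ Subgroup.centralizer ({z} : Set G) := fun h => hbC ((Subgroup.mul_mem_cancel_left _ haC).1 h)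
  have habS : a * b ∈ (S : Subgroup G) := Subgroup.mul_mem _ haS hb
  have habb := M.norm_sq hM hodd hz (hSN habS) habC
  have hnS : ∀ {x : G}, x ∉ Subgroup.centralizer ({z} : Set G) → ¬ M.Sc x := by
    intro x hx hs
    apply hx
    rw [mem_cent_single]; exact (hs.comm z).symm
  have hinv := M.inv_of_norm hM hodd hz (hSN hb) hbC haC
  have hba : b * a = M.ng * (a * b) := by
    have h1 : b * a = a⁻¹ * b := by
      have := congrArg (fun g => g * b) hinv
      have e : b * a * b⁻¹ * b = b * a := by group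
      exact e.symm.trans this
    have h2 : a⁻¹ = M.ng * a := by
      apply inv_eq_of_mul_eq_one_right
      rw [← mul_assoc, ← M.ng_comm a, mul_assoc, haa, ng_mul_ng]
    rw [h1, h2, mul_assoc]
  obtain ⟨u, hu1, hu2⟩ := M.exists_om (two_ne_of_odd hodd) haa hbb habb has (hnS hbC) (hnS habC) hba
  have hu1' : u * a * u⁻¹ = a * b := by rw [hu1, mul_inv_cancel_right]
  have hu2' : u * b * u⁻¹ = a := by rw [hu2, mul_inv_cancel_right]
  have hzp : ∀ s ∈ (S : Subgroup G), s ∈ Subgroup.centralizer ({z} : Set G) → u * s * u⁻¹ ∈ (S : Subgroup G) := by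
    intro s hs hsC
    obtain ⟨i, hi⟩ := Subgroup.mem_zpowers_iff.1 (ha' ⟨⟨s, hs⟩, hsC⟩)
    have hi' : a ^ i = s :=
      congrArg (fun t : (Subgroup.centralizer ({z} : Set G)).subgroupOf (S : Subgroup G) => ((t : (S : Subgroup G)) : G)) hi
    rw [← hi', ← conj_zpow, hu1']
    exact Subgroup.zpow_mem _ habS i
  have hSfin : Finite (((S : Subgroup G) : Set G) : Type _) := inferInstance
  have huN : u ∈ Subgroup.normalizer ((S : Subgroup G) : Set G) := by
    apply Subgroup.mem_normalizer_fintype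
    intro s hs
    by_cases hsC : s ∈ Subgroup.centralizer ({z} : Set G)
    · exact hzp s hs hsC
    · have h1 : b⁻¹ * s ∈ Subgroup.centralizer ({z} : Set G) :=
        M.norm_mul hM hodd hz (Subgroup.inv_mem _ (hSN hb)) (M.norm_inv_not hM hodd hz hbC) (hSN hs) hsC
      have h2 := hzp (b⁻¹ * s) (Subgroup.mul_mem _ (Subgroup.inv_mem _ hb) hs) h1
      have e : u * s * u⁻¹ = (u * b * u⁻¹) * (u * (b⁻¹ * s) * u⁻¹) := by group
      rw [e, hu2']
      exact Subgroup.mul_mem _ haS h2
  have huS : u ∉ (S : Subgroup G) := by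
    intro h
    have h1 := (Subgroup.mem_normalizer_iff.1 (hSN h) a).1 haC
    rw [hu1'] at h1
    exact habC h1
  -- upper bound
  have hup : Nat.card (Subgroup.normalizer ((S : Subgroup G) : Set G)) ≤ 4 * 6 := by
    haveI : Fintype (Subgroup.normalizer ((S : Subgroup G) : Set G)) := Fintype.ofFinite _
    let f : Subgroup.normalizer ((S : Subgroup G) : Set G) → G := fun x => x * a * (x : G)⁻¹
    have hfib : ∀ c ∈ Finset.image f Finset.univ, (Finset.univ.filter (fun x => f x = c)).card ≤ 4 := by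
      intro c hc
      obtain ⟨x₁, -, rfl⟩ := Finset.mem_image.1 hc
      have hT : (Finset.univ.filter (fun g : G => g ∈ (S : Subgroup G) ∧ g ∈ Subgroup.centralizer ({z} : Set G))).card = 4 := by
        rw [← natCard_filter', ← hA4]
        refine Nat.card_congr ⟨fun g => ⟨⟨g.1, g.2.1⟩, g.2.2⟩, fun g => ⟨g.1.1, g.1.2, g.2⟩, fun g => rfl, fun g => rfl⟩
      rw [← hT]
      refine Finset.card_le_card_of_injOn (fun x => (x₁ : G)⁻¹ * x) ?_ ?_
      · intro x hx
        have h1 : (x : G) * a * (x : G)⁻¹ = x₁ * a * (x₁ : G)⁻¹ := (Finset.mem_filter.1 hx).2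
        have h2 : (x₁ : G)⁻¹ * x ∈ Subgroup.centralizer ({z} : Set G) := by
          rw [← M.cent_cent hzs haC has, mem_cent_single]
          have h3 := congrArg (fun g => (x₁ : G)⁻¹ * g * x) h1
          have e1 : (x₁ : G)⁻¹ * (x * a * (x : G)⁻¹) * x = (x₁ : G)⁻¹ * x * a := by group
          have e2 : (x₁ : G)⁻¹ * (x₁ * a * (x₁ : G)⁻¹) * x = a * ((x₁ : G)⁻¹ * x) := by group
          exact (e1.symm.trans (h3.trans e2)).symm
        have h3 : (x₁ : G)⁻¹ * x ∈ Subgroup.normalizer ((S : Subgroup G) : Set G) :=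
          Subgroup.mul_mem _ (Subgroup.inv_mem _ x₁.2) x.2
        have h4 := M.sylow2_norm hM hodd S hz hSN hj h3 (Subgroup.le_normalizer h2)
        exact Finset.mem_coe.2 (Finset.mem_filter.2 ⟨Finset.mem_univ _, h4, h2⟩)
      · intro x _ y _ hxy
        exact Subtype.ext (mul_left_cancel hxy)
    have h1 := Finset.card_le_mul_card_image (f := f) Finset.univ 4 hfib
    rw [Finset.card_univ, ← Nat.card_eq_fintype_card] at h1
    refine h1.trans (Nat.mul_le_mul_left 4 ?_)
    have hngS : M.ng ∈ (S : Subgroup G) := by rw [← haa]; exact Subgroup.mul_mem _ haS haS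
    have h2 : Finset.image f Finset.univ ⊆ ((Finset.univ.filter (fun g : G => g ∈ (S : Subgroup G))).erase 1).erase M.ng := by
      intro c hc
      obtain ⟨x, -, rfl⟩ := Finset.mem_image.1 hc
      rw [Finset.mem_erase, Finset.mem_erase, Finset.mem_filter]
      have h3 : ¬ M.Sc (x * a * (x : G)⁻¹) := fun h => has (by rw [h.conj' (isConj_iff.2 ⟨x, rfl⟩)]; exact h)
      refine ⟨fun h => h3 ?_, fun h => h3 ?_, Finset.mem_univ _, (Subgroup.mem_normalizer_iff.1 x.2 a).1 haS⟩
      · have h' : (x : G) * a * (x : G)⁻¹ = M.ng := h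
        rw [h']; exact M.Sc_ng
      · have h' : (x : G) * a * (x : G)⁻¹ = 1 := h
        rw [h']; exact M.Sc_one
    refine (Finset.card_le_card h2).trans ?_
    rw [Finset.card_erase_of_mem, Finset.card_erase_of_mem, ← natCard_filter']
    · have : Nat.card {g : G // g ∈ (S : Subgroup G)} = 8 := hS8
      rw [this]
    · exact Finset.mem_filter.2 ⟨Finset.mem_univ _, Subgroup.one_mem _⟩
    · exact Finset.mem_erase.2 ⟨(M.one_ne_ng hodd).symm, Finset.mem_filter.2 ⟨Finset.mem_univ _, hngS⟩⟩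
  have hle : (S : Subgroup G) ≤ Subgroup.normalizer ((S : Subgroup G) : Set G) := Subgroup.le_normalizer
  have h1 := Subgroup.card_mul_index ((S : Subgroup G).subgroupOf (Subgroup.normalizer ((S : Subgroup G) : Set G)))
  rw [Nat.card_congr (Subgroup.subgroupOfEquivOfLe hle).toEquiv, hS8] at h1
  have h2 := Subgroup.relIndex_mul_index hle
  have h3 := S.not_dvd_index
  rw [← h2] at h3
  have h4 : ¬ 2 ∣ (S : Subgroup G).relIndex (Subgroup.normalizer ((S : Subgroup G) : Set G)) :=
    fun h => h3 (h.mul_right _)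
  have h5 : (S : Subgroup G).relIndex (Subgroup.normalizer ((S : Subgroup G) : Set G)) ≠ 1 := by
    intro h
    rw [Subgroup.relIndex_eq_one] at h
    exact huS (h huN)
  have h6 : 8 * (S : Subgroup G).relIndex (Subgroup.normalizer ((S : Subgroup G) : Set G)) =
    Nat.card (Subgroup.normalizer ((S : Subgroup G) : Set G)) := h1
  have h7 : Nat.card S = 8 := hS8
  rw [h7]
  omega

end MG

end CfsgH6
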