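import Cfsg.Agent.H6.Sl19
import Cfsg.Agent.H6.Sl21
set_option autoImplicit false

namespace CfsgH6
open Cfsg CfsgH4
open scoped ComplexConjugate

namespace MG
variable {G : Type*} [Group G] {F : Type*} [Field F] (M : MG G F)
variable [Fintype F] [DecidableEq F] [Fintype G]
variable (hM : M.IsSL) (hodd : Odd (Fintype.card F))

section Th0
variable {C : Subgroup G} (hC : ∀ x ∈ C, ∀ y ∈ C, x * y = y * x) (hcard : Nat.card C = Fintype.card F + 1)

include hM hodd hcard in
theorem half_pow {c : G} (hc : c ∈ C) : c ^ ((Fintype.card F + 1) / 2) = 1 ∨ c ^ ((Fintype.card F + 1) / 2) = M.ng := by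
  have h1 : c ^ ((Fintype.card F + 1) / 2) * c ^ ((Fintype.card F + 1) / 2) = 1 := by
    rw [← pow_add]
    have : (Fintype.card F + 1) / 2 + (Fintype.card F + 1) / 2 = Fintype.card F + 1 := by
      obtain ⟨k, hk⟩ := hodd
      omega
    rw [this, ← hcard]
    have h2 : (⟨c, hc⟩ : C) ^ Nat.card C = 1 := pow_card_eq_one'
    exact congrArg Subtype.val h2
  have h2 : M.Sc (c ^ ((Fintype.card F + 1) / 2)) := by
    by_contra hs
    exact M.inv_ne_self hM hodd hs (inv_eq_of_mul_eq_one_right h1)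
  exact M.Sc_SL hM h2

open scoped Classical in
/-- the quadratic character of the torus -/
noncomputable def th0 : C →* ℂˣ where
  toFun c := if (c : G) ^ ((Fintype.card F + 1) / 2) = 1 then 1 else -1
  map_one' := by rw [if_pos]; show (1 : G) ^ _ = 1; rw [one_pow]
  map_mul' := by
    intro x y
    have hne : M.ng ≠ 1 := (M.one_ne_ng hodd).symm
    have h1 : ((x * y : C) : G) ^ ((Fintype.card F + 1) / 2) = (x : G) ^ ((Fintype.card F + 1) / 2) * (y : G) ^ ((Fintype.card F + 1) / 2) := by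
      show ((x : G) * y) ^ _ = _
      exact (show Commute (x : G) (y : G) from hC x x.2 y y.2).mul_pow _
    rw [h1]
    rcases M.half_pow hM hodd hcard x.2 with h2 | h2 <;> rcases M.half_pow hM hodd hcard y.2 with h3 | h3
    · rw [h2, h3]; simp
    · rw [h2, h3]; simp [hne]
    · rw [h2, h3]; simp [hne]
    · rw [h2, h3, ng_mul_ng]; simp [hne]

theorem th0_of_eq {c : C} (h : (c : G) ^ ((Fintype.card F + 1) / 2) = 1) : M.th0 hM hodd hC hcard c = 1 := by
  classical
  exact if_pos h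

theorem th0_of_ne {c : C} (h : (c : G) ^ ((Fintype.card F + 1) / 2) ≠ 1) : M.th0 hM hodd hC hcard c = -1 := by
  classical
  exact if_neg h

theorem th0_sq (c : C) : M.th0 hM hodd hC hcard c ^ 2 = 1 := by
  by_cases h : (c : G) ^ ((Fintype.card F + 1) / 2) = 1
  · rw [M.th0_of_eq hM hodd hC hcard h, one_pow]
  · rw [M.th0_of_ne hM hodd hC hcard h]; simp

variable (θ : C →* ℂˣ) {γ : MulChar F ℂ} (hγ : γ (-1) = (θ ⟨M.ng, M.ng_mem hM hodd hcard⟩ : ℂ))

include hM hodd hC hcard hγ in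
theorem X_B {g : G} (h10 : M.m g 1 0 = 0) (h : M.m g 0 0 = M.m g 1 1) :
    M.X θ γ g = γ (M.m g 0 0) * (if M.m g 0 1 = 0 then (Fintype.card F : ℂ) - 1 else -1) := by
  by_cases h01 : M.m g 0 1 = 0
  · have hs : M.Sc g := ⟨h01, h10, h⟩
    rw [if_pos h01]
    rcases M.Sc_SL hM hs with h1 | h1
    · rw [h1, M.X_one hM hodd hcard θ, m_one00, map_one, one_mul]
    · have hmem : M.ng ∈ C := M.ng_mem hM hodd hcard
      rw [h1, M.X_Sc hM hodd hcard θ hγ hmem M.Sc_ng, ng00, hγ, mul_comm]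
  · rw [if_neg h01, M.X_unip hM hodd hC hcard θ h01 h10 h]; ring

include hM hodd hC hcard hγ in
theorem X_vanish {b : G} (hb : b ∈ M.B) : ∑ x : F, M.X θ γ (b * M.u x) = 0 := by
  have h10 : M.m b 1 0 = 0 := M.mem_B.1 hb
  have hne := M.B_ne hb
  have e10 : ∀ x, M.m (b * M.u x) 1 0 = 0 := by intro x; rw [mul10, u00, u10, h10]; ring
  have e00 : ∀ x, M.m (b * M.u x) 0 0 = M.m b 0 0 := by intro x; rw [mul00, u00, u10]; ring
  have e11 : ∀ x, M.m (b * M.u x) 1 1 = M.m b 1 1 := by intro x; rw [mul11, u01, u11, h10]; ring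
  have e01 : ∀ x, M.m (b * M.u x) 0 1 = M.m b 0 0 * x + M.m b 0 1 := by intro x; rw [mul01, u01, u11]; ring
  by_cases h : M.m b 0 0 = M.m b 1 1
  · have h1 : ∀ x : F, M.X θ γ (b * M.u x) = γ (M.m b 0 0) * (if x = - M.m b 0 1 / M.m b 0 0 then (Fintype.card F : ℂ) - 1 else -1) := by
      intro x
      rw [M.X_B hM hodd hC hcard θ hγ (e10 x) (by rw [e00, e11, h]), e00, e01]
      congr 1
      by_cases hx : x = - M.m b 0 1 / M.m b 0 0
      · rw [if_pos hx, if_pos]
        rw [hx]; field_simp [hne.1]; ring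
      · rw [if_neg hx, if_neg]
        intro h2
        apply hx
        rw [eq_div_iff hne.1]
        linear_combination h2
    rw [Finset.sum_congr rfl (fun x _ => h1 x), ← Finset.mul_sum, Finset.sum_ite, Finset.sum_const, Finset.sum_const,
      Finset.filter_eq', if_pos (Finset.mem_univ _), Finset.card_singleton, Finset.filter_ne', Finset.card_erase_of_mem (Finset.mem_univ _),
      Finset.card_univ, nsmul_eq_mul, nsmul_eq_mul, sub_cast]
    push_cast
    ring
  · refine Finset.sum_eq_zero fun x _ => ?_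
    exact M.X_B_ne hM hodd hC hcard θ (e10 x) (by rw [e00, e11]; exact h)

include hM hodd hC hcard hγ in
theorem X_inner_ps (α β : MulChar F ℂ) : classInner (M.X θ γ) (M.ps α β) = 0 := by
  classical
  haveI : Fintype M.B := Fintype.ofFinite _
  rw [← M.indFun_bf, CfsgH4.frobenius_right M.B _ (IsGen.isClassFunction (M.isGen_X hM θ)), classInner_def]
  have h1 : ∀ x : F, ∑ b : M.B, M.X θ γ b * conj (M.bf α β b) = ∑ b : M.B, M.X θ γ (b * M.u x) * conj (M.bf α β b) := by
    intro x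
    refine (Fintype.sum_equiv (Equiv.mulRight (⟨M.u x, M.u10 x⟩ : M.B)) _ _ fun b => ?_).symm
    show M.X θ γ (b.1 * M.u x) * _ = M.X θ γ (b.1 * M.u x) * conj (M.bf α β (b * ⟨M.u x, M.u10 x⟩))
    congr 2
    show α (M.m b.1 0 0) * β (M.m b.1 1 1) = α (M.m (b.1 * M.u x) 0 0) * β (M.m (b.1 * M.u x) 1 1)
    rw [mul00, mul11, u00, u11, u10, M.mem_B.1 b.2]
    simp
  have h2 : (Fintype.card F : ℂ) * ∑ b : M.B, M.X θ γ b * conj (M.bf α β b) = 0 := by
    have h3 : ∑ x : F, ∑ b : M.B, M.X θ γ b * conj (M.bf α β b) = (Fintype.card F : ℂ) * ∑ b : M.B, M.X θ γ b * conj (M.bf α β b) := by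
      rw [Finset.sum_const, Finset.card_univ, nsmul_eq_mul]
    rw [← h3, Finset.sum_congr rfl (fun x _ => h1 x), Finset.sum_comm]
    refine Finset.sum_eq_zero fun b _ => ?_
    rw [← Finset.sum_mul, M.X_vanish hM hodd hC hcard θ hγ b.2, zero_mul]
  rw [(mul_eq_zero.1 h2).resolve_left card_F_ne, mul_zero]

end Th0

include hM hodd in
theorem small_ell (hq : 5 ≤ Fintype.card F) {χ : G → ℂ} (hχ : IsIrrCharacter G χ)
    (hd : χ 1 = (((Fintype.card F - 1) / 2 : ℕ) : ℂ)) {g : G} (hg : M.Ell g) :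
    (g ^ ((Fintype.card F + 1) / 2) = 1 → χ g = -1) ∧ (g ^ ((Fintype.card F + 1) / 2) ≠ 1 → χ g = 1) := by
  classical
  obtain ⟨e, he⟩ := exists_nonsq hodd
  have he0 : e ≠ 0 := fun h => he (by rw [h]; exact IsSquare.zero)
  have ht := ell_tr hodd hM hg
  have hgs := M.not_Sc_of_tr hM ht
  have hcard := M.card_cent_ell_SL hM hodd hg
  haveI hcy := M.cyclic_cent hM ht
  have hC : ∀ x ∈ Subgroup.centralizer ({g} : Set G), ∀ y ∈ Subgroup.centralizer ({g} : Set G), x * y = y * x :=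
    fun x hx y hy => M.cent_comm hgs hx hy
  have hgC : g ∈ Subgroup.centralizer ({g} : Set G) := by rw [mem_cent_single]
  set C := Subgroup.centralizer ({g} : Set G) with hCdef
  haveI : Fintype C := Fintype.ofFinite _
  set θ := M.th0 hM hodd hC hcard with hθ
  obtain ⟨γ, hγ⟩ := M.exists_gam hM hodd hcard θ
  have hnorm := M.norm_X hM hodd hC hcard θ hγ
  have hsum : ∑' c : C, (θ c : ℂ) ^ 2 = (Fintype.card F : ℂ) + 1 := by
    rw [tsum_fintype]
    have : ∀ c : C, (θ c : ℂ) ^ 2 = 1 := by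
      intro c
      rw [← Units.val_pow_eq_pow_val, M.th0_sq hM hodd hC hcard]; rfl
    rw [Finset.sum_congr rfl (fun c _ => this c), Finset.sum_const, Finset.card_univ, ← Nat.card_eq_fintype_card, hcard]
    simp
  have hq1 : ((Fintype.card F : ℂ) + 1) ≠ 0 := by exact_mod_cast Nat.succ_ne_zero (Fintype.card F)
  rw [hsum, inv_mul_cancel₀ hq1] at hnorm
  obtain ⟨a, b, ε, δ, ha, hb, hab, hε, hδ, hX⟩ := gen_norm_two (M.isGen_X hM θ) (by rw [hnorm]; norm_num)
  have hinner : ∀ ψ : G → ℂ, IsIrrCharacter G ψ → classInner (M.X θ γ) ψ = (if a = ψ then ε else 0) + (if b = ψ then δ else 0) := by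
    intro ψ hψ
    rw [hX, classInner_add_left, classInner_smul_left, classInner_smul_left]
    congr 1
    · by_cases h : a = ψ
      · rw [if_pos h, h, classInner_irr_self hψ, mul_one]
      · rw [if_neg h, classInner_irr_ne ha hψ h, mul_zero]
    · by_cases h : b = ψ
      · rw [if_pos h, h, classInner_irr_self hψ, mul_one]
      · rw [if_neg h, classInner_irr_ne hb hψ h, mul_zero]
  have hε0 : ε ≠ 0 := by rcases hε with h | h <;> rw [h] <;> norm_num
  have hδ0 : δ ≠ 0 := by rcases hδ with h | h <;> rw [h] <;> norm_num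
  have hX1 : M.X θ γ 1 = (Fintype.card F : ℂ) - 1 := M.X_one hM hodd hcard θ
  have hX1' : (Fintype.card F : ℂ) - 1 = ε * a 1 + δ * b 1 := by
    rw [← hX1, hX]; rfl
  have hqq : (Fintype.card F : ℂ) - 1 ≠ 0 := q_sub_ne
  -- a nontrivial inner product forces `ψ` to be `a` or `b`
  have hor : ∀ ψ : G → ℂ, IsIrrCharacter G ψ → classInner (M.X θ γ) ψ ≠ 0 → a = ψ ∨ b = ψ := by
    intro ψ hψ h
    rw [hinner ψ hψ] at h
    by_contra hc
    push Not at hc
    rw [if_neg hc.1, if_neg hc.2, add_zero] at h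
    exact h rfl
  have hpair : ∀ φ ψ : G → ℂ, IsIrrCharacter G φ → IsIrrCharacter G ψ → φ ≠ ψ → classInner (M.X θ γ) φ ≠ 0 →
      classInner (M.X θ γ) φ + classInner (M.X θ γ) ψ = 0 → (M.X θ γ = φ - ψ ∨ M.X θ γ = ψ - φ) := by
    intro φ ψ hφ hψ hne h1 h2
    have h3 : classInner (M.X θ γ) ψ ≠ 0 := by
      intro h; rw [h, add_zero] at h2; exact h1 h2
    have key : ∀ (x y : ℂ), (x = 1 ∨ x = -1) → (y = 1 ∨ y = -1) → x + y = 0 → x • φ + y • ψ = φ - ψ ∨ x • φ + y • ψ = ψ - φ := by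
      rintro x y (rfl | rfl) (rfl | rfl) h
      · norm_num at h
      · left; rw [one_smul, neg_smul, one_smul, sub_eq_add_neg]
      · right; rw [one_smul, neg_smul, one_smul, sub_eq_add_neg, add_comm]
      · norm_num at h
    rcases hor φ hφ h1 with h4 | h4
    · have h5 : b = ψ := by
        rcases hor ψ hψ h3 with h5 | h5
        · exact absurd (h4.symm.trans h5) hne
        · exact h5
      rw [hinner φ hφ, hinner ψ hψ, if_pos h4, if_pos h5, if_neg (by rw [h5]; exact hne.symm),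
        if_neg (by rw [h4]; exact hne), add_zero, zero_add] at h2
      rw [hX, h4, h5]
      exact key ε δ hε hδ h2
    · have h5 : a = ψ := by
        rcases hor ψ hψ h3 with h5 | h5
        · exact h5
        · exact absurd (h4.symm.trans h5) hne
      rw [hinner φ hφ, hinner ψ hψ, if_pos h4, if_pos h5, if_neg (by rw [h5]; exact hne.symm),
        if_neg (by rw [h4]; exact hne), add_zero, zero_add] at h2
      rw [hX, h4, h5, add_comm]
      exact key δ ε hδ hε h2
  obtain ⟨c₀, hc₀⟩ := hcy.exists_generator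
  have hcusp : ∀ ψ : G → ℂ, IsIrrCharacter G ψ → classInner (M.X θ γ) ψ ≠ 0 → M.Cusp ψ := by
    intro ψ hψ h
    by_contra hc
    have hls : classInner (M.X θ γ) (M.lin 1) + classInner (M.X θ γ) (M.sta 1) = 0 := by
      have h1 := M.X_inner_ps hM hodd hC hcard θ hγ 1 1
      have h2 : M.ps (1 : MulChar F ℂ) 1 = M.lin 1 + M.sta 1 := by
        rw [show M.sta 1 = M.ps (1 : MulChar F ℂ) 1 - M.lin 1 from rfl]; abel
      rw [h2, classInner_add_right] at h1
      exact h1
    have hbad : ¬ (M.X θ γ = M.lin 1 - M.sta 1 ∨ M.X θ γ = M.sta 1 - M.lin 1) := by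
      have hns := M.gen_not_Sc hM hodd hcard hc₀
      have hell := M.mem_ell hM hodd hC hcard c₀.2 hns
      have hord := orderOf_eq_card_of_forall_mem_zpowers hc₀
      have hθ0 : θ c₀ = -1 := by
        apply M.th0_of_ne hM hodd hC hcard
        intro h1
        have h2 : c₀ ^ ((Fintype.card F + 1) / 2) = 1 := Subtype.ext h1
        have h3 := Nat.le_of_dvd (by omega) (orderOf_dvd_of_pow_eq_one h2)
        rw [hord, hcard] at h3
        omega
      have hval := M.X_ell hM hodd hC hcard θ (γ := γ) c₀.2 hns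
      have hθ0' : θ ⟨(c₀ : G), c₀.2⟩ = -1 := hθ0
      rw [hθ0'] at hval
      have v1 : M.lin (1 : MulChar F ℂ) (c₀ : G) = 1 := by rw [M.lin_SL hM]
      have v2 : M.sta (1 : MulChar F ℂ) (c₀ : G) = -1 := by
        rw [sta, M.ps_ell _ _ hell, M.lin_SL hM]; ring
      rintro (h1 | h1)
      · have d1 := congrFun h1 1
        rw [hX1] at d1
        have : (Fintype.card F : ℂ) - 1 = 1 - Fintype.card F := by
          rw [d1]
          show M.lin 1 1 - M.sta 1 1 = _
          rw [M.lin_one, M.sta_one]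
        have h3 : 2 * ((Fintype.card F : ℂ) - 1) = 0 := by linear_combination this
        exact hqq ((mul_eq_zero.1 h3).resolve_left two_ne_zero)
      · rw [h1] at hval
        have h2 : M.sta (1 : MulChar F ℂ) (c₀ : G) - M.lin (1 : MulChar F ℂ) (c₀ : G) = - (((-1 : ℂˣ) : ℂ) + (((-1 : ℂˣ)⁻¹ : ℂˣ) : ℂ)) := hval
        rw [v1, v2] at h2
        norm_num at h2
    have hlsne : M.lin (1 : MulChar F ℂ) ≠ M.sta 1 := by
      intro h
      have := congrFun h 1
      rw [M.lin_one, M.sta_one] at this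
      exact hqq (by rw [← this]; ring)
    rcases M.noncusp_SL hM hψ hc with h1 | h1 | ⟨γ', _, h1⟩ | ⟨γ', h1, h1', h1''⟩
    · rw [h1] at h
      exact hbad (hpair _ _ (M.isIrr_lin 1) (M.isIrr_sta_SL hM) hlsne h hls)
    · rw [h1] at h
      exact hbad (Or.symm (hpair _ _ (M.isIrr_sta_SL hM) (M.isIrr_lin 1) hlsne.symm h (by rw [add_comm]; exact hls)))
    · rw [h1] at h
      exact h (M.X_inner_ps hM hodd hC hcard θ hγ γ' 1)
    · rw [eq_qc hodd h1 h1'] at h1''
      obtain ⟨_, _, _, _, he0', k1, k2, k3, _⟩ := M.half_props he hodd hM hψ h1''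
      have h2 := M.X_inner_ps hM hodd hC hcard θ hγ (qc F) 1
      rw [k3, classInner_add_right] at h2
      have h3 := hpair _ _ hψ k1 k2.symm h h2
      have h4 : M.X θ γ 1 = 0 := by
        rcases h3 with h3 | h3
        · rw [h3]; show ψ 1 - ψ (M.phi he0' 1) = 0; rw [map_one, sub_self]
        · rw [h3]; show ψ (M.phi he0' 1) - ψ 1 = 0; rw [map_one, sub_self]
      rw [hX1] at h4
      exact hqq h4
  have hac : M.Cusp a := hcusp a ha (by
    rw [hinner a ha, if_pos rfl, if_neg hab.symm, add_zero]; exact hε0)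
  have hbc : M.Cusp b := hcusp b hb (by
    rw [hinner b hb, if_neg hab, if_pos rfl, zero_add]; exact hδ0)
  -- degrees
  have hdeg : ∀ ψ : G → ℂ, IsIrrCharacter G ψ → M.Cusp ψ → ψ 1 = (Fintype.card F : ℂ) - 1 ∨ ψ 1 = ((Fintype.card F : ℂ) - 1) / 2 := by
    intro ψ hψ hc
    have h0 := (M.cusp_iff ψ).1 hc
    have h1 := M.hat_F2 he hodd (IsIrr.isClassFunction hψ)
    rw [h0, zero_add] at h1
    rcases (M.count_SL_odd he hodd hM).1 ψ hψ hc with ⟨h2, h3⟩ | ⟨h2, h3⟩ | ⟨h2, h3⟩
    · left; rw [h1, h2, h3]; ring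
    · right; rw [h1, h2, h3]; ring
    · right; rw [h1, h2, h3]; ring
  have hfin : a 1 = ((Fintype.card F : ℂ) - 1) / 2 ∧ b 1 = ((Fintype.card F : ℂ) - 1) / 2 ∧ ε = 1 ∧ δ = 1 := by
    have hcontra : ∀ k : ℂ, k ≠ 0 → k * ((Fintype.card F : ℂ) - 1) ≠ 0 := fun k hk => mul_ne_zero hk hqq
    rcases hdeg a ha hac with h1 | h1 <;> rcases hdeg b hb hbc with h2 | h2 <;> rcases hε with h3 | h3 <;>
      rcases hδ with h4 | h4 <;> rw [h1, h2, h3, h4] at hX1' <;>
      first
      | exact ⟨h1, h2, h3, h4⟩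
      | exact absurd (show (1 : ℂ) * ((Fintype.card F : ℂ) - 1) = 0 by linear_combination hX1') (hcontra 1 (by norm_num))
      | exact absurd (show (1 : ℂ) * ((Fintype.card F : ℂ) - 1) = 0 by linear_combination -hX1') (hcontra 1 (by norm_num))
      | exact absurd (show (3 : ℂ) * ((Fintype.card F : ℂ) - 1) = 0 by linear_combination hX1') (hcontra 3 (by norm_num))
      | exact absurd (show (1 / 2 : ℂ) * ((Fintype.card F : ℂ) - 1) = 0 by linear_combination hX1') (hcontra (1 / 2) (by norm_num))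
      | exact absurd (show (1 / 2 : ℂ) * ((Fintype.card F : ℂ) - 1) = 0 by linear_combination -hX1') (hcontra (1 / 2) (by norm_num))
      | exact absurd (show (3 / 2 : ℂ) * ((Fintype.card F : ℂ) - 1) = 0 by linear_combination hX1') (hcontra (3 / 2) (by norm_num))
      | exact absurd (show (5 / 2 : ℂ) * ((Fintype.card F : ℂ) - 1) = 0 by linear_combination hX1') (hcontra (5 / 2) (by norm_num))
      | exact absurd (show (2 : ℂ) * ((Fintype.card F : ℂ) - 1) = 0 by linear_combination hX1') (hcontra 2 (by norm_num))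
  obtain ⟨a1, b1, hε1, hδ1⟩ := hfin
  have hhat : ∀ ψ : G → ℂ, IsIrrCharacter G ψ → ψ 1 = ((Fintype.card F : ℂ) - 1) / 2 → M.Cusp ψ ∧ M.hat ψ 1 ≠ M.hat ψ e := by
    intro ψ hψ h1
    rw [← half_sub hodd] at h1
    obtain ⟨h2, h3⟩ := (M.deg_SL_odd he hodd hM hq hψ h1).2.2.2.2.2 rfl
    refine ⟨h2, ?_⟩
    rcases h3 with ⟨h3, h4⟩ | ⟨h3, h4⟩ <;> rw [h3, h4] <;> norm_num
  have hsm := M.small_conj he hodd hM ha hb hab hac hbc (hhat a ha a1).2 (hhat b hb b1).2 he0
  have hd' : χ 1 = ((Fintype.card F : ℂ) - 1) / 2 := by rw [hd, half_sub hodd]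
  have hcj : IsConj g (M.phi he0 g) := M.conj_SL_tr hM hodd ht (by rw [tr, tr, phi00, phi11])
  have hbg : b g = a g := by
    rw [hsm]
    exact (IsClassFunction.eq_of_isConj (IsIrr.isClassFunction ha) hcj).symm
  have hχg : χ g = a g := by
    by_cases h : a = χ
    · rw [h]
    · have h1 := M.small_conj he hodd hM ha hχ h hac (hhat χ hχ hd').1 (hhat a ha a1).2 (hhat χ hχ hd').2 he0
      rw [h1]
      exact (IsClassFunction.eq_of_isConj (IsIrr.isClassFunction ha) hcj).symm
  have hval := M.X_ell hM hodd hC hcard θ (γ := γ) hgC hgs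
  have hXg : M.X θ γ g = 2 * χ g := by
    rw [hX, hε1, hδ1, one_smul, one_smul]
    show a g + b g = _
    rw [hbg, hχg]; ring
  rw [hXg] at hval
  constructor
  · intro h
    have h1 : θ ⟨g, hgC⟩ = 1 := M.th0_of_eq hM hodd hC hcard h
    rw [h1] at hval
    have h2 : 2 * χ g = -(1 + 1) := by rw [hval]; simp
    linear_combination h2 / 2
  · intro h
    have h1 : θ ⟨g, hgC⟩ = -1 := M.th0_of_ne hM hodd hC hcard h
    rw [h1] at hval
    have h2 : 2 * χ g = -(-1 + -1) := by rw [hval]; simp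
    linear_combination h2 / 2

end MG

end CfsgH6
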