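import Cfsg.Agent.H6.Sl21
import Cfsg.Agent.H6.Sl18
set_option autoImplicit false

namespace CfsgH6
open Cfsg CfsgH4

namespace MG
variable {G : Type*} [Group G] {F : Type*} [Field F] (M : MG G F)
variable [Fintype F] [DecidableEq F] [Fintype G]
variable (hM : M.IsSL) (hodd : Odd (Fintype.card F))

include hM hodd in
theorem card_classes_B : Nat.card (ConjClasses M.B) = Fintype.card F + 3 := by
  classical
  haveI : Fintype M.B := Fintype.ofFinite _
  haveI : Fintype M.T := Fintype.ofFinite _
  have h0 := card_comm_eq_card_conjClasses_mul_card M.B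
  rw [Nat.card_congr (Equiv.subtypeProdEquivSigmaSubtype (fun x y : M.B => Commute x y)), Nat.card_sigma] at h0
  have hB : (Nat.card M.B : ℂ) = (Fintype.card F : ℂ) * ((Fintype.card F : ℂ) - 1) := by
    rw [M.card_B, M.card_T_SL hM, Nat.cast_mul, sub_cast]; ring
  set q : ℂ := (Fintype.card F : ℂ) with hq
  set h : F → F → F → ℂ := fun a y d => if a = d then (if y = 0 then q * (q - 1) else 2 * q) else q - 1 with hh
  have hf : ∀ x : M.B, (Nat.card {y : M.B // Commute x y} : ℂ) = h (M.m x.1 0 0) (M.m x.1 0 1) (M.m x.1 1 1) := by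
    intro x
    have h10 : M.m x.1 1 0 = 0 := M.mem_B.1 x.2
    by_cases hs : M.Sc (x : G)
    · have h1 : Nat.card {y : M.B // Commute x y} = Nat.card M.B :=
        Nat.card_congr (Equiv.subtypeUnivEquiv fun y => Subtype.ext (hs.comm (y : G)))
      rw [h1, hh]
      simp only
      rw [if_pos hs.2.2, if_pos hs.1, hB]
    · have h1 : Nat.card {y : M.B // Commute x y} = Nat.card (Subgroup.centralizer ({(x : G)} : Set G)) := by
        refine Nat.card_congr ⟨fun y => ⟨y.1.1, mem_cent_single.2 (congrArg Subtype.val y.2.eq)⟩,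
          fun y => ⟨⟨y.1, ?_⟩, Subtype.ext (mem_cent_single.1 y.2)⟩, fun y => rfl, fun y => rfl⟩
        rw [M.mem_B]
        obtain ⟨a, b, _, _, h2, _⟩ := M.comm_lin hs (mem_cent_single.1 y.2)
        rw [h2, h10, mul_zero]
      have hd := hM (x : G)
      rw [dt, h10] at hd
      rw [h1, hh]
      simp only
      by_cases had : M.m x.1 0 0 = M.m x.1 1 1
      · have h01 : M.m x.1 0 1 ≠ 0 := fun h01 => hs ⟨h01, h10, had⟩
        rw [if_pos had, if_neg h01, M.card_cent_tr4 hM hodd hs]
        · push_cast; rfl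
        · rw [tr, ← had]
          rw [← had] at hd
          linear_combination 4 * hd
      · have htr : M.tr (x : G) ^ 2 ≠ 4 := by
          intro h
          apply had
          rw [tr] at h
          have : (M.m x.1 0 0 - M.m x.1 1 1) ^ 2 = 0 := by linear_combination h - 4 * hd
          exact sub_eq_zero.1 (pow_eq_zero_iff (two_ne_zero) |>.1 this)
        rw [if_neg had, M.card_cent_nell hM hodd htr (fun h => h.h10 h10), sub_cast]
  have h1 : ∑ x : M.B, (Nat.card {y : M.B // Commute x y} : ℂ) = q * (q - 1) * (q + 3) := by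
    rw [Finset.sum_congr rfl (fun x _ => hf x), M.sum_B h]
    have h2 : ∀ a d : F, ∑ y : F, h a y d = if a = d then 3 * (q * (q - 1)) else q * (q - 1) := by
      intro a d
      rw [hh]
      simp only
      by_cases had : a = d
      · simp only [if_pos had]
        rw [← Finset.add_sum_erase Finset.univ _ (Finset.mem_univ (0 : F)), if_pos rfl,
          Finset.sum_congr rfl (fun y hy => if_neg (Finset.ne_of_mem_erase hy)), Finset.sum_const,
          Finset.card_erase_of_mem (Finset.mem_univ _), Finset.card_univ, nsmul_eq_mul, sub_cast, ← hq]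
        ring
      · simp only [if_neg had]
        rw [Finset.sum_const, Finset.card_univ, nsmul_eq_mul, ← hq]
    rw [Finset.sum_congr rfl (fun (t : M.T) _ => h2 (M.m t.1 0 0) (M.m t.1 1 1))]
    have h3 : ∑ t : M.T, (if M.m t.1 0 0 = M.m t.1 1 1 then 3 * (q * (q - 1)) else q * (q - 1)) =
        ∑ t : M.T, (fun a d : F => (if a = d ∧ a ≠ 0 then 2 * (q * (q - 1)) else 0) + (if a ≠ 0 then q * (q - 1) else 0)) (M.m t.1 0 0) (M.m t.1 1 1) := by
      refine Finset.sum_congr rfl fun t _ => ?_
      simp only
      have hne := (M.T_ne t.2).1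
      by_cases h4 : M.m t.1 0 0 = M.m t.1 1 1
      · rw [if_pos h4, if_pos ⟨h4, hne⟩, if_pos hne]; ring
      · rw [if_neg h4, if_neg (fun h => h4 h.1), if_pos hne, zero_add]
    rw [h3, M.sum_T_SL hM (fun a d : F => (if a = d ∧ a ≠ 0 then 2 * (q * (q - 1)) else 0) + (if a ≠ 0 then q * (q - 1) else 0))
      (by simp)]
    have h4 : ∑ a : F, (if a = a⁻¹ ∧ a ≠ 0 then 2 * (q * (q - 1)) else 0) = 2 * (2 * (q * (q - 1))) := by
      have h11 : (1 : F) ≠ -1 := fun h => two_ne_of_odd hodd (by linear_combination h)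
      have : (Finset.univ.filter (fun a : F => a = a⁻¹ ∧ a ≠ 0)) = {1, -1} := by
        ext a
        simp only [Finset.mem_filter, Finset.mem_univ, true_and, Finset.mem_insert, Finset.mem_singleton]
        constructor
        · rintro ⟨h1, h2⟩
          have : a * a = 1 := by
            nth_rewrite 2 [h1]; exact mul_inv_cancel₀ h2
          exact mul_self_eq_one_iff.1 this
        · rintro (rfl | rfl)
          · simp
          · simp [inv_neg]
      rw [← Finset.sum_filter, this, Finset.sum_pair h11]; ring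
    have h5 : ∑ a : F, (if a ≠ 0 then q * (q - 1) else 0) = (q - 1) * (q * (q - 1)) := by
      rw [← Finset.sum_filter, Finset.filter_ne', Finset.sum_const, Finset.card_erase_of_mem (Finset.mem_univ _),
        Finset.card_univ, nsmul_eq_mul, sub_cast]
    rw [Finset.sum_add_distrib, h4, h5]
    ring
  have h2 : (Nat.card (ConjClasses M.B) : ℂ) * (q * (q - 1)) = q * (q - 1) * (q + 3) := by
    rw [← h1, ← hB]
    exact_mod_cast h0.symm
  have hq0 : q * (q - 1) ≠ 0 := mul_ne_zero card_F_ne q_sub_ne
  have h3 : (Nat.card (ConjClasses M.B) : ℂ) = q + 3 := by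
    apply mul_right_cancel₀ hq0
    rw [h2]; ring
  rw [hq] at h3
  exact_mod_cast h3

end MG

end CfsgH6
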