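import Cfsg.Prelude.Def_RootSubgroups
import Mathlib
set_option autoImplicit false

namespace CfsgH6
open Cfsg

namespace RO
variable {k : Type*} [Field k]

local notation "SS" => Matrix.SpecialLinearGroup (Fin 2) k

def U (x : k) : SS := ⟨!![1, x; 0, 1], by simp⟩
def V (x : k) : SS := ⟨!![1, 0; x, 1], by simp⟩

theorem ext2 {g h : SS} (h00 : (g : Matrix (Fin 2) (Fin 2) k) 0 0 = (h : Matrix (Fin 2) (Fin 2) k) 0 0)
    (h01 : (g : Matrix (Fin 2) (Fin 2) k) 0 1 = (h : Matrix (Fin 2) (Fin 2) k) 0 1)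
    (h10 : (g : Matrix (Fin 2) (Fin 2) k) 1 0 = (h : Matrix (Fin 2) (Fin 2) k) 1 0)
    (h11 : (g : Matrix (Fin 2) (Fin 2) k) 1 1 = (h : Matrix (Fin 2) (Fin 2) k) 1 1) : g = h := by
  apply Subtype.ext
  ext i j
  fin_cases i <;> fin_cases j <;> assumption

theorem mul_val (g h : SS) (i j : Fin 2) : ((g * h : SS) : Matrix (Fin 2) (Fin 2) k) i j =
    (g : Matrix (Fin 2) (Fin 2) k) i 0 * (h : Matrix (Fin 2) (Fin 2) k) 0 j +
    (g : Matrix (Fin 2) (Fin 2) k) i 1 * (h : Matrix (Fin 2) (Fin 2) k) 1 j := by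
  show ((g : Matrix (Fin 2) (Fin 2) k) * (h : Matrix (Fin 2) (Fin 2) k)) i j = _
  rw [Matrix.mul_apply, Fin.sum_univ_two]

theorem U00 (x : k) : (U x : Matrix (Fin 2) (Fin 2) k) 0 0 = 1 := rfl
theorem U01 (x : k) : (U x : Matrix (Fin 2) (Fin 2) k) 0 1 = x := rfl
theorem U10 (x : k) : (U x : Matrix (Fin 2) (Fin 2) k) 1 0 = 0 := rfl
theorem U11 (x : k) : (U x : Matrix (Fin 2) (Fin 2) k) 1 1 = 1 := rfl
theorem V00 (x : k) : (V x : Matrix (Fin 2) (Fin 2) k) 0 0 = 1 := rfl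
theorem V01 (x : k) : (V x : Matrix (Fin 2) (Fin 2) k) 0 1 = 0 := rfl
theorem V10 (x : k) : (V x : Matrix (Fin 2) (Fin 2) k) 1 0 = x := rfl
theorem V11 (x : k) : (V x : Matrix (Fin 2) (Fin 2) k) 1 1 = 1 := rfl

theorem U_mul (x y : k) : U x * U y = U (x + y) := by
  apply ext2 <;> rw [mul_val] <;> simp only [U00, U01, U10, U11] <;> ring

theorem V_mul (x y : k) : V x * V y = V (x + y) := by
  apply ext2 <;> rw [mul_val] <;> simp only [V00, V01, V10, V11] <;> ring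

theorem U_zero : U (0 : k) = 1 := by
  apply ext2 <;> simp [U00, U01, U10, U11]

theorem V_zero : V (0 : k) = 1 := by
  apply ext2 <;> simp [V00, V01, V10, V11]

theorem U_inv (x : k) : (U x)⁻¹ = U (-x) := by
  rw [inv_eq_iff_mul_eq_one, U_mul, add_neg_cancel, U_zero]

theorem V_inv (x : k) : (V x)⁻¹ = V (-x) := by
  rw [inv_eq_iff_mul_eq_one, V_mul, add_neg_cancel, V_zero]

theorem mem_upper {g : SS} : g ∈ upperUnipotentSL2 k ↔ ∃ x, g = U x := by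
  constructor
  · intro h
    rw [upperUnipotentSL2] at h
    induction h using Subgroup.closure_induction with
    | mem x hx => exact ⟨_, ext2 hx.2.1 rfl hx.1 hx.2.2⟩
    | one => exact ⟨0, U_zero.symm⟩
    | mul a b _ _ ha hb =>
      obtain ⟨x, rfl⟩ := ha
      obtain ⟨y, rfl⟩ := hb
      exact ⟨x + y, U_mul x y⟩
    | inv a _ ha =>
      obtain ⟨x, rfl⟩ := ha
      exact ⟨-x, U_inv x⟩
  · rintro ⟨x, rfl⟩
    exact Subgroup.subset_closure ⟨rfl, rfl, rfl⟩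

theorem mem_lower {g : SS} : g ∈ lowerUnipotentSL2 k ↔ ∃ x, g = V x := by
  constructor
  · intro h
    rw [lowerUnipotentSL2] at h
    induction h using Subgroup.closure_induction with
    | mem x hx => exact ⟨_, ext2 hx.2.1 hx.1 rfl hx.2.2⟩
    | one => exact ⟨0, V_zero.symm⟩
    | mul a b _ _ ha hb =>
      obtain ⟨x, rfl⟩ := ha
      obtain ⟨y, rfl⟩ := hb
      exact ⟨x + y, V_mul x y⟩
    | inv a _ ha =>
      obtain ⟨x, rfl⟩ := ha
      exact ⟨-x, V_inv x⟩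
  · rintro ⟨x, rfl⟩
    exact Subgroup.subset_closure ⟨rfl, rfl, rfl⟩

theorem conj_eq {x y : k} (h : x * y = 1) (c : k) :
    U (-x) * V c * U x = V (-y) * U (-(x ^ 2 * c)) * V y := by
  apply ext2 <;> rw [mul_val, mul_val, mul_val, mul_val] <;>
    simp only [mul_val, U00, U01, U10, U11, V00, V01, V10, V11]
  · linear_combination (-(x * c) * (-1)) * h * 1
  · ring
  · linear_combination (-c * (x * y + 1)) * h
  · linear_combination (-(x * c)) * h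

theorem gen : lowerUnipotentSL2 k ⊔ upperUnipotentSL2 k = ⊤ := by
  rw [eq_top_iff]
  have hU : ∀ x : k, U x ∈ lowerUnipotentSL2 k ⊔ upperUnipotentSL2 k := fun x =>
    (le_sup_right : upperUnipotentSL2 k ≤ _) (mem_upper.2 ⟨x, rfl⟩)
  have hV : ∀ x : k, V x ∈ lowerUnipotentSL2 k ⊔ upperUnipotentSL2 k := fun x =>
    (le_sup_left : lowerUnipotentSL2 k ≤ _) (mem_lower.2 ⟨x, rfl⟩)
  have key : ∀ g : SS, (g : Matrix (Fin 2) (Fin 2) k) 1 0 ≠ 0 → g ∈ lowerUnipotentSL2 k ⊔ upperUnipotentSL2 k := by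
    intro g hr
    have hd : (g : Matrix (Fin 2) (Fin 2) k) 0 0 * (g : Matrix (Fin 2) (Fin 2) k) 1 1 -
        (g : Matrix (Fin 2) (Fin 2) k) 0 1 * (g : Matrix (Fin 2) (Fin 2) k) 1 0 = 1 := by
      rw [← Matrix.det_fin_two]; exact g.2
    have hg : g = U (((g : Matrix (Fin 2) (Fin 2) k) 0 0 - 1) / (g : Matrix (Fin 2) (Fin 2) k) 1 0) *
        V ((g : Matrix (Fin 2) (Fin 2) k) 1 0) * U (((g : Matrix (Fin 2) (Fin 2) k) 1 1 - 1) / (g : Matrix (Fin 2) (Fin 2) k) 1 0) := by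
      apply ext2 <;> rw [mul_val] <;> simp only [mul_val, U00, U01, U10, U11, V00, V01, V10, V11]
      · field_simp; ring
      · field_simp; linear_combination -hd
      · ring
      · field_simp; ring
    rw [hg]
    exact mul_mem (mul_mem (hU _) (hV _)) (hU _)
  intro g _
  by_cases hr : (g : Matrix (Fin 2) (Fin 2) k) 1 0 = 0
  · have hd : (g : Matrix (Fin 2) (Fin 2) k) 0 0 * (g : Matrix (Fin 2) (Fin 2) k) 1 1 -
        (g : Matrix (Fin 2) (Fin 2) k) 0 1 * (g : Matrix (Fin 2) (Fin 2) k) 1 0 = 1 := by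
      rw [← Matrix.det_fin_two]; exact g.2
    have hp : (g : Matrix (Fin 2) (Fin 2) k) 0 0 ≠ 0 := by
      intro h; rw [h, hr] at hd; simp at hd
    have h1 : V 1 * g ∈ lowerUnipotentSL2 k ⊔ upperUnipotentSL2 k := by
      apply key
      rw [mul_val, V10, V11, hr]; simpa using hp
    have h2 : g = (V 1)⁻¹ * (V 1 * g) := by group
    rw [h2]
    exact mul_mem (inv_mem (hV 1)) h1
  · exact key g hr

theorem conj_sub {x y : k} (h : x * y = 1) : conjBy (lowerUnipotentSL2 k) (U x)⁻¹ = conjBy (upperUnipotentSL2 k) (V y)⁻¹ := by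
  apply le_antisymm
  · rintro g ⟨a, ha, rfl⟩
    obtain ⟨c, rfl⟩ := mem_lower.1 ha
    refine ⟨U (-(x ^ 2 * c)), mem_upper.2 ⟨_, rfl⟩, ?_⟩
    show (V y)⁻¹ * U (-(x ^ 2 * c)) * (V y)⁻¹⁻¹ = (U x)⁻¹ * V c * (U x)⁻¹⁻¹
    rw [inv_inv, inv_inv, U_inv, V_inv, conj_eq h c]
  · rintro g ⟨a, ha, rfl⟩
    obtain ⟨d, rfl⟩ := mem_upper.1 ha
    refine ⟨V (-(y ^ 2 * d)), mem_lower.2 ⟨_, rfl⟩, ?_⟩
    show (U x)⁻¹ * V (-(y ^ 2 * d)) * (U x)⁻¹⁻¹ = (V y)⁻¹ * U d * (V y)⁻¹⁻¹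
    rw [inv_inv, inv_inv, U_inv, V_inv, conj_eq h]
    have e : -(x ^ 2 * -(y ^ 2 * d)) = d := by linear_combination d * (x * y + 1) * h
    rw [e]

theorem comm_upper : IsMulCommutative (upperUnipotentSL2 k) := by
  refine ⟨⟨?_⟩⟩
  rintro ⟨a, ha⟩ ⟨b, hb⟩
  obtain ⟨x, rfl⟩ := mem_upper.1 ha
  obtain ⟨y, rfl⟩ := mem_upper.1 hb
  apply Subtype.ext
  show U x * U y = U y * U x
  rw [U_mul, U_mul, add_comm]

theorem comm_lower : IsMulCommutative (lowerUnipotentSL2 k) := by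
  refine ⟨⟨?_⟩⟩
  rintro ⟨a, ha⟩ ⟨b, hb⟩
  obtain ⟨x, rfl⟩ := mem_lower.1 ha
  obtain ⟨y, rfl⟩ := mem_lower.1 hb
  apply Subtype.ext
  show V x * V y = V y * V x
  rw [V_mul, V_mul, add_comm]

theorem nilp_of_comm {Γ : Type*} [Group Γ] (h : ∀ a b : Γ, a * b = b * a) : Group.IsNilpotent Γ := by
  letI : CommGroup Γ := { (inferInstance : Group Γ) with mul_comm := h }
  exact CommGroup.isNilpotent

theorem pair : IsRankOnePair (lowerUnipotentSL2 k) (upperUnipotentSL2 k) where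
  ne := by
    intro h
    have h1 : (U (1 : k)) ∈ lowerUnipotentSL2 k := by rw [h]; exact mem_upper.2 ⟨1, rfl⟩
    obtain ⟨x, hx⟩ := mem_lower.1 h1
    have h2 : (U (1 : k) : Matrix (Fin 2) (Fin 2) k) 0 1 = (V x : Matrix (Fin 2) (Fin 2) k) 0 1 := by rw [hx]
    rw [U01, V01] at h2
    exact one_ne_zero h2
  nilpotent_left := nilp_of_comm fun a b => (comm_lower (k := k)).is_comm.comm a b
  nilpotent_right := nilp_of_comm fun a b => (comm_upper (k := k)).is_comm.comm a b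
  cond_left := by
    intro a ha ha1
    obtain ⟨y, rfl⟩ := mem_lower.1 ha
    have hy : y ≠ 0 := by rintro rfl; exact ha1 V_zero
    refine ⟨U y⁻¹, mem_upper.2 ⟨_, rfl⟩, ?_, conj_sub (inv_mul_cancel₀ hy)⟩
    intro h
    have h2 : (U y⁻¹ : Matrix (Fin 2) (Fin 2) k) 0 1 = ((1 : SS) : Matrix (Fin 2) (Fin 2) k) 0 1 := by rw [h]
    rw [U01] at h2
    exact inv_ne_zero hy (by simpa using h2)
  cond_right := by
    intro a ha ha1
    obtain ⟨x, rfl⟩ := mem_upper.1 ha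
    have hx : x ≠ 0 := by rintro rfl; exact ha1 U_zero
    refine ⟨V x⁻¹, mem_lower.2 ⟨_, rfl⟩, ?_, (conj_sub (mul_inv_cancel₀ hx)).symm⟩
    intro h
    have h2 : (V x⁻¹ : Matrix (Fin 2) (Fin 2) k) 1 0 = ((1 : SS) : Matrix (Fin 2) (Fin 2) k) 1 0 := by rw [h]
    rw [V10] at h2
    exact inv_ne_zero hx (by simpa using h2)

theorem special : IsSpecialRankOnePair (lowerUnipotentSL2 k) (upperUnipotentSL2 k) := by
  refine ⟨pair, ?_⟩
  intro a ha ha1 b hb hb1 hc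
  obtain ⟨y, rfl⟩ := mem_lower.1 ha
  obtain ⟨x, rfl⟩ := mem_upper.1 hb
  have hx : x ≠ 0 := by rintro rfl; exact hb1 U_zero
  have h1 : (U x)⁻¹ * V 1 * (U x)⁻¹⁻¹ ∈ conjBy (lowerUnipotentSL2 k) (U x)⁻¹ :=
    ⟨V 1, mem_lower.2 ⟨1, rfl⟩, rfl⟩
  rw [hc] at h1
  obtain ⟨w, hw, he⟩ := h1
  obtain ⟨d, rfl⟩ := mem_upper.1 hw
  have he' : (V y)⁻¹ * U d * (V y)⁻¹⁻¹ = (U x)⁻¹ * V 1 * (U x)⁻¹⁻¹ := he
  rw [inv_inv, inv_inv, U_inv, V_inv] at he'
  have e01 : ((V (-y) * U d * V y : SS) : Matrix (Fin 2) (Fin 2) k) 0 1 = ((U (-x) * V 1 * U x : SS) : Matrix (Fin 2) (Fin 2) k) 0 1 := by rw [he']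
  have e00 : ((V (-y) * U d * V y : SS) : Matrix (Fin 2) (Fin 2) k) 0 0 = ((U (-x) * V 1 * U x : SS) : Matrix (Fin 2) (Fin 2) k) 0 0 := by rw [he']
  rw [mul_val, mul_val] at e01 e00
  simp only [mul_val, U00, U01, U10, U11, V00, V01, V10, V11] at e01 e00
  have hd : d = - x ^ 2 := by linear_combination e01
  have h2 : x * (x * y - 1) = 0 := by
    rw [hd] at e00
    linear_combination -e00
  have hxy : x * y = 1 := sub_eq_zero.1 ((mul_eq_zero.1 h2).resolve_left hx)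
  rw [U_inv, V_inv]
  apply ext2 <;> rw [mul_val, mul_val] <;> simp only [mul_val, U00, U01, U10, U11, V00, V01, V10, V11]
  · linear_combination (0 : k) * hxy
  · linear_combination (-x) * hxy
  · linear_combination (-y) * hxy
  · linear_combination (0 : k) * hxy

end RO

end CfsgH6
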