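import Cfsg.Agent.H6.St9
import Cfsg.Agent.H6.St10

set_option autoImplicit false

/-! The Steinberg character is irreducible and vanishes at the singular elements. -/

namespace CfsgH6
namespace Chv

open Cfsg.Lie CfsgH6.Stb
open scoped Classical

variable {D : ChevalleyDatum} (g : Good D) {F : Type*} [Field F]

namespace Good

theorem sub_asc_inv {I J : Finset ℕ} (hI : I ⊆ Finset.range D.rank) (hJ : J ⊆ I) {x : GL D.Idx F} {L : List ℕ} (hx : g.Ty x L) :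
    J ⊆ g.asc I x⁻¹ ↔ ∀ i < D.rank, i ∈ (J : Set ℕ) → g.N ≤ g.wl L.reverse (D.simple i) := g.sub_asc hI hJ hx.inv

theorem gateG_ex {J K : Finset ℕ} (hJ : J ⊆ Finset.range D.rank) (hK : K ⊆ Finset.range D.rank) (x : ↥(D.group F)) :
    ∃ q ∈ (g.gateG F).P J, ∃ p ∈ (g.gateG F).P K, J ⊆ (g.gateG F).A (q * x * p)⁻¹ ∧ K ⊆ (g.gateG F).A (q * x * p) := by
  obtain ⟨L, hL⟩ := g.exists_ty (show (x : GL D.Idx F) ∈ g.GG F by rw [← g.gG]; exact x.2)
  obtain ⟨q, hq, p, hp, M, hM, h1, h2⟩ := g.dbl_ex (J : Set ℕ) (K : Set ℕ) _ _ L rfl hL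
  have hq' : q ∈ D.group F := by rw [g.gG]; exact g.PJ_le_GG _ hq
  have hp' : p ∈ D.group F := by rw [g.gG]; exact g.PJ_le_GG _ hp
  refine ⟨⟨q, hq'⟩, ?_, ⟨p, hp'⟩, ?_, ?_, ?_⟩
  · rw [g.gateG_P]; exact Subgroup.mem_subgroupOf.2 hq
  · rw [g.gateG_P]; exact Subgroup.mem_subgroupOf.2 hp
  · rw [g.gateG_A]
    exact (g.sub_asc_inv (le_refl _) hJ hM).2 h2
  · rw [g.gateG_A]
    exact (g.sub_asc (le_refl _) hK hM).2 h1

theorem gateG_un {J K : Finset ℕ} (hJ : J ⊆ Finset.range D.rank) (hK : K ⊆ Finset.range D.rank) (x q : ↥(D.group F)) (hq : q ∈ (g.gateG F).P J)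
    (p : ↥(D.group F)) (hp : p ∈ (g.gateG F).P K) (h1 : J ⊆ (g.gateG F).A x⁻¹) (h2 : K ⊆ (g.gateG F).A x)
    (h3 : J ⊆ (g.gateG F).A (q * x * p)⁻¹) (h4 : K ⊆ (g.gateG F).A (q * x * p)) :
    ∃ b ∈ (g.gateG F).B, ∃ b' ∈ (g.gateG F).B, q * x * p = b * x * b' := by
  rw [g.gateG_P, Subgroup.mem_subgroupOf] at hq hp
  rw [g.gateG_A] at h1 h2 h3 h4
  obtain ⟨L, hL⟩ := g.exists_ty (show (x : GL D.Idx F) ∈ g.GG F by rw [← g.gG]; exact x.2)
  obtain ⟨M, hM⟩ := g.exists_ty (show ((q * x * p : ↥(D.group F)) : GL D.Idx F) ∈ g.GG F by rw [← g.gG]; exact (q * x * p).2)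
  obtain ⟨b, hb, b', hb', he⟩ := g.dbl_un hL hq hp hM ((g.sub_asc (le_refl _) hK hL).1 h2) ((g.sub_asc_inv (le_refl _) hJ hL).1 h1)
    ((g.sub_asc (le_refl _) hK hM).1 h4) ((g.sub_asc_inv (le_refl _) hJ hM).1 h3)
  have e1 : b ∈ D.group F := by rw [g.gG]; exact g.BB_le_GG hb
  have e2 : b' ∈ D.group F := by rw [g.gG]; exact g.BB_le_GG hb'
  exact ⟨⟨b, e1⟩, Subgroup.mem_subgroupOf.2 hb, ⟨b', e2⟩, Subgroup.mem_subgroupOf.2 hb', Subtype.ext he⟩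

theorem asc_empty_inv {x : GL D.Idx F} (hx : x ∈ g.GG F) (h : g.asc (Finset.range D.rank) x = ∅) : g.asc (Finset.range D.rank) x⁻¹ = ∅ := by
  obtain ⟨b, hb, b', hb', rfl⟩ := (g.asc_empty_iff hx).1 h
  have h1 : g.Ty (b * g.n0 F * b') g.w0L := ⟨g.w0L_lt, b, hb, b', hb', rfl⟩
  rw [Finset.eq_empty_iff_forall_notMem]
  intro i hi
  have h2 := (g.mem_asc (le_refl _) h1.inv).1 hi
  have hi' := Finset.mem_range.1 h2.1
  have hrev : ∀ i ∈ g.w0L.reverse, i < D.rank := fun i hi => g.w0L_lt i (List.mem_reverse.1 hi)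
  have h3 := g.w0L_neg _ (g.wl_lt hrev (g.simple_lt i hi')) h2.2
  rw [(g.wl_reverse g.w0L_lt (g.simple_lt i hi')).2] at h3
  have := g.simple_ge i hi'
  omega

theorem st_norm [Fintype F] : Cfsg.classInner (g.gateG F).st (g.gateG F).st = 1 := by
  apply (g.gateG F).norm
  · intro J hJ K hK x
    exact g.gateG_ex hJ hK x
  · intro J hJ K hK x q hq p hp h1 h2 h3 h4
    exact g.gateG_un hJ hK x q hq p hp h1 h2 h3 h4
  · intro x y hx hy
    rw [g.gateG_A, g.asc_empty_iff (by rw [← g.gG]; exact x.2)] at hx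
    rw [g.gateG_A, g.asc_empty_iff (by rw [← g.gG]; exact y.2)] at hy
    obtain ⟨b, hb, b', hb', he⟩ := hx
    obtain ⟨c, hc, c', hc', he'⟩ := hy
    have e1 : c * b⁻¹ ∈ D.group F := by rw [g.gG]; exact g.BB_le_GG (Subgroup.mul_mem _ hc (Subgroup.inv_mem _ hb))
    have e2 : b'⁻¹ * c' ∈ D.group F := by rw [g.gG]; exact g.BB_le_GG (Subgroup.mul_mem _ (Subgroup.inv_mem _ hb') hc')
    refine ⟨⟨c * b⁻¹, e1⟩, Subgroup.mem_subgroupOf.2 (Subgroup.mul_mem _ hc (Subgroup.inv_mem _ hb)), ⟨b'⁻¹ * c', e2⟩,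
      Subgroup.mem_subgroupOf.2 (Subgroup.mul_mem _ (Subgroup.inv_mem _ hb') hc'), ?_⟩
    apply Subtype.ext
    show (y : GL D.Idx F) = c * b⁻¹ * x * (b'⁻¹ * c')
    rw [he, he']; group
  · refine ⟨⟨g.n0 F, by rw [g.gG]; exact g.n0_mem⟩, ?_⟩
    rw [g.gateG_A, g.asc_empty_iff g.n0_mem]
    exact ⟨1, Subgroup.one_mem _, 1, Subgroup.one_mem _, by group⟩
  · intro x hx
    rw [g.gateG_A] at hx ⊢
    exact g.asc_empty_inv (by rw [← g.gG]; exact x.2) hx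

include g in
theorem stmt_2311 [Fintype F] : Cfsg.IsIrrCharacter ↥(D.group F) (D.steinbergCharacter F) := by
  rw [g.steinberg_eq]
  apply (g.gateG F).irr_of_norm g.st_norm
  refine ⟨Fintype.card F ^ (D.nroots / 2), ?_⟩
  rw [← g.steinberg_eq, g.stmt_2327]
  push_cast; rfl

/-- the `p`-part of the group order -/
theorem card_factor [Fintype F] {p : ℕ} [Fact p.Prime] (hS : g.SylU F p) : ∃ n : ℕ, Fintype.card F ^ g.N = p ^ n ∧
    p ^ n ∣ Nat.card ↥(D.group F) ∧ ¬ p ^ (n + 1) ∣ Nat.card ↥(D.group F) := by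
  have hp : p.Prime := Fact.out
  obtain ⟨n, hn⟩ := IsPGroup.iff_card.1 hS.1
  rw [g.card_UU] at hn
  have h1 : Nat.card ↥(D.group F) = Fintype.card F ^ g.N * (g.UU F).relIndex (g.GG F) := by
    have h2 := Subgroup.card_mul_index ((g.UU F).subgroupOf (g.GG F))
    have h3 : Nat.card ((g.UU F).subgroupOf (g.GG F)) = Nat.card (g.UU F) := Nat.card_congr (Subgroup.subgroupOfEquivOfLe g.UU_le_GG).toEquiv
    rw [h3, g.card_UU] at h2
    rw [g.gG]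
    exact h2.symm
  refine ⟨n, hn, ?_, ?_⟩
  · rw [h1, hn]; exact dvd_mul_right _ _
  · rw [h1, hn, pow_succ]
    intro h
    exact hS.2 (Nat.dvd_of_mul_dvd_mul_left (pow_pos hp.pos n) h)

include g in
theorem stmt_2328 [Fintype F] {p : ℕ} [Fact p.Prime] (hS : g.SylU F p) (x : ↥(D.group F)) (hx : p ∣ orderOf x) :
    D.steinbergCharacter F x = 0 := by
  obtain ⟨n, h1, h2, h3⟩ := g.card_factor hS
  have hN : D.nroots / 2 = g.N := by have := g.hN; omega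
  refine CfsgH4.defect_zero_vanish g.stmt_2311 (Fact.out : p.Prime) h2 h3 (d := Fintype.card F ^ g.N) ?_ (by rw [h1]) hx
  rw [g.stmt_2327, hN]
  push_cast; rfl

end Good

end Chv
end CfsgH6
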