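import Cfsg.Agent.H6.St11
import Cfsg.Agent.H6.ChW1
import Cfsg.Agent.H1.SZ2

set_option autoImplicit false

/-! Intersections of parabolic subgroups (Kilmoyer), words. -/

namespace CfsgH6
namespace Chv

open Cfsg.Lie CfsgH6.Stb
open scoped Classical

variable {D : ChevalleyDatum} (g : Good D) {F : Type*} [Field F]

namespace Good

theorem coef_simple' {k t : ℕ} (hk : k < D.rank) (ht : t < D.rank) : g.coef (D.simple k) t = if t = k then 1 else 0 := by
  have h1 := g.sum_simple (fun i => if i = t then (1 : ℤ) else 0) hk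
  rw [Finset.sum_eq_single t] at h1
  · rw [if_pos rfl, mul_one] at h1
    rw [h1]
    by_cases h : t = k
    · subst h; rfl
    · rw [if_neg h, if_neg (fun h' => h h'.symm)]
  · intro b _ hb
    rw [if_neg hb, mul_zero]
  · intro h; exact absurd (Finset.mem_range.2 ht) h

theorem coef_wl_sum {M : List ℕ} (hM : ∀ i ∈ M, i < D.rank) {s t : ℕ} (hs : s < D.nroots) (ht : t < D.rank) :
    g.coef (g.wl M s) t = ∑ i ∈ Finset.range D.rank, g.coef s i * g.coef (g.wl M (D.simple i)) t := by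
  obtain ⟨m', hm'⟩ := g.wl_lin hM (fun i => if i = t then (1 : ℤ) else 0)
  have h0 : ∀ s, ∑ j ∈ Finset.range D.rank, g.coef (g.wl M s) j * (if j = t then (1 : ℤ) else 0) = g.coef (g.wl M s) t := by
    intro s
    rw [Finset.sum_eq_single t]
    · rw [if_pos rfl, mul_one]
    · intro b _ hb
      rw [if_neg hb, mul_zero]
    · intro h; exact absurd (Finset.mem_range.2 ht) h
  rw [← h0 s, hm' s hs]
  apply Finset.sum_congr rfl
  intro i hi
  have hi' := Finset.mem_range.1 hi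
  rw [← h0, hm' _ (g.simple_lt i hi'), g.sum_simple m' hi']

theorem exists_coef_pos {r : ℕ} (hr : r < D.nroots) (hp : g.N ≤ r) : ∃ i < D.rank, 1 ≤ g.coef r i := by
  by_contra hcon
  push Not at hcon
  have h1 := (g.Ev_pos hr).1 hp
  have h2 : Ev D.rank (g.coef r) ≤ 0 := by
    unfold Ev
    apply Finset.sum_nonpos
    intro j hj
    have := hcon j (Finset.mem_range.1 hj)
    exact mul_nonpos_of_nonpos_of_nonneg (by omega) (by positivity)
  omega

/-- if `w β` is fundamental and `w` is positive on the support of `β`, then `β` is fundamental -/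
theorem simple_of_image {M : List ℕ} (hM : ∀ i ∈ M, i < D.rank) {β j : ℕ} (hβ : β < D.nroots) (hp : g.N ≤ β) (hj : j < D.rank)
    (h : g.wl M β = D.simple j) (hpos : ∀ i < D.rank, g.coef β i ≠ 0 → g.N ≤ g.wl M (D.simple i)) : ∃ i < D.rank, β = D.simple i ∧ g.coef β i ≠ 0 := by
  obtain ⟨i0, hi0, hc⟩ := g.exists_coef_pos hβ hp
  have hne : g.coef β i0 ≠ 0 := by omega
  have hterm : ∀ t < D.rank, ∀ i ∈ Finset.range D.rank, 0 ≤ g.coef β i * g.coef (g.wl M (D.simple i)) t := by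
    intro t ht i hi
    have hi' := Finset.mem_range.1 hi
    by_cases h0 : g.coef β i = 0
    · rw [h0, zero_mul]
    · exact mul_nonneg (g.coef_nonneg β hβ hp i hi') (g.coef_nonneg _ (g.wl_lt hM (g.simple_lt i hi')) (hpos i hi' h0) t ht)
  have hs0 := g.wl_lt hM (g.simple_lt i0 hi0)
  have hz : ∀ t < D.rank, t ≠ j → g.coef (g.wl M (D.simple i0)) t = 0 := by
    intro t ht htj
    have h1 := g.coef_wl_sum hM hβ ht
    rw [h, g.coef_simple' hj ht, if_neg htj] at h1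
    have h2 := (Finset.sum_eq_zero_iff_of_nonneg (hterm t ht)).1 h1.symm i0 (Finset.mem_range.2 hi0)
    rcases mul_eq_zero.1 h2 with h3 | h3
    · exact absurd h3 hne
    · exact h3
  have hj1 : 1 ≤ g.coef (g.wl M (D.simple i0)) j := by
    obtain ⟨t, ht, hc'⟩ := g.exists_coef_pos hs0 (hpos i0 hi0 hne)
    by_cases htj : t = j
    · rwa [htj] at hc'
    · rw [hz t ht htj] at hc'
      omega
  have h1 := g.coef_wl_sum hM hβ hj
  rw [h, g.coef_simple' hj hj, if_pos rfl] at h1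
  have h2 := Finset.single_le_sum (hterm j hj) (Finset.mem_range.2 hi0)
  rw [← h1] at h2
  have h3 : g.coef (g.wl M (D.simple i0)) j = 1 := by nlinarith
  refine ⟨i0, hi0, ?_, hne⟩
  apply g.wl_inj hM hβ (g.simple_lt i0 hi0)
  rw [h]
  apply g.coef_inj (g.simple_lt j hj) hs0
  intro t ht
  rw [g.coef_simple' hj ht]
  by_cases htj : t = j
  · rw [if_pos htj, htj, h3]
  · rw [if_neg htj, hz t ht htj]

theorem w_wl_comm {M : List ℕ} (hM : ∀ i ∈ M, i < D.rank) {j k : ℕ} (hj : j < D.rank) (hk : k < D.rank) (h : g.wl M (D.simple k) = D.simple j)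
    {r : ℕ} (hr : r < D.nroots) : g.wl M (g.w k r) = g.w j (g.wl M r) := by
  have h3 := g.nl_ng (F := ℚ) hM (g.simple_lt k hk) 1
  rw [← g.nn_eq_ng, h, mul_one] at h3
  have h4 : g.nl ℚ (M ++ [k]) = (g.nl ℚ M * g.nn k * (g.nl ℚ M)⁻¹) * g.nl ℚ M := by
    rw [g.nl_append, g.nl_cons, g.nl_nil]; group
  have key : ∃ y ∈ g.HH ℚ, g.nl ℚ (M ++ [k]) = y * g.nl ℚ (j :: M) := by
    rcases g.el_pm hM (g.simple_lt k hk) with h5 | h5
    · refine ⟨1, Subgroup.one_mem _, ?_⟩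
      rw [h4, h3, h5, Int.cast_one, ← g.nn_eq_ng, g.nl_cons, one_mul]
    · refine ⟨g.hD (D.simple j) (-1), g.hD_mem _ _, ?_⟩
      rw [h4, h3, h5, Int.cast_neg, Int.cast_one, ← g.ng_inv (g.simple_lt j hj), ← g.nn_eq_ng, g.nn_inv_eq hj, g.nl_cons]
      group
  obtain ⟨y, hy, he⟩ := key
  have hL1 : ∀ i ∈ M ++ [k], i < D.rank := by
    intro i hi
    rcases List.mem_append.1 hi with hi | hi
    · exact hM i hi
    · rw [List.mem_singleton.1 hi]; exact hk
  have hL2 : ∀ i ∈ j :: M, i < D.rank := by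
    intro i hi
    rcases List.mem_cons.1 hi with rfl | hi
    · exact hj
    · exact hM i hi
  have h5 := g.wl_eq_of_nl hL1 hL2 hy he hr
  rw [g.wl_append] at h5
  exact h5

/-- the part of `J` mapped into `K` by `w⁻¹` -/
def JK (J K : Set ℕ) (M : List ℕ) : Set ℕ := {j | j ∈ J ∧ ∃ k < D.rank, k ∈ K ∧ g.wl M (D.simple k) = D.simple j}

theorem kilmoyer {J K : Set ℕ} {M : List ℕ} (hM : ∀ i ∈ M, i < D.rank) (hMK : ∀ i < D.rank, i ∈ K → g.N ≤ g.wl M (D.simple i))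
    (hMJ : ∀ i < D.rank, i ∈ J → g.N ≤ g.wl M.reverse (D.simple i)) :
    ∀ m, ∀ Lv Lu : List ℕ, g.cnt Lv.reverse = m → (∀ i ∈ Lv, i < D.rank ∧ i ∈ J) → (∀ i ∈ Lu, i < D.rank ∧ i ∈ K) →
      (∀ r < D.nroots, g.wl Lv (g.wl M r) = g.wl M (g.wl Lu r)) →
      ∃ Lv' : List ℕ, (∀ i ∈ Lv', i < D.rank ∧ i ∈ g.JK J K M) ∧ ∀ r < D.nroots, g.wl Lv r = g.wl Lv' r := by
  have hMr : ∀ i ∈ M.reverse, i < D.rank := fun i hi => hM i (List.mem_reverse.1 hi)
  intro m
  induction m with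
  | zero =>
    intro Lv Lu hm hLv hLu h
    refine ⟨[], by simp, ?_⟩
    have hLv' : ∀ i ∈ Lv, i < D.rank := fun i hi => (hLv i hi).1
    rw [g.cnt_reverse hLv'] at hm
    intro r hr
    apply g.wl_eq_of_pos hLv' _ hr
    intro s hs hp
    by_contra hlt
    push Not at hlt
    unfold cnt at hm
    rw [Finset.card_eq_zero, Finset.filter_eq_empty_iff] at hm
    exact hm (Finset.mem_Ico.2 ⟨hp, hs⟩) hlt
  | succ m ih =>
    intro Lv Lu hm hLv hLu h
    have hLv' : ∀ i ∈ Lv, i < D.rank := fun i hi => (hLv i hi).1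
    have hLu' : ∀ i ∈ Lu, i < D.rank := fun i hi => (hLu i hi).1
    have hLvr : ∀ i ∈ Lv.reverse, i < D.rank ∧ i ∈ J := fun i hi => hLv i (List.mem_reverse.1 hi)
    have hLvr' : ∀ i ∈ Lv.reverse, i < D.rank := fun i hi => (hLvr i hi).1
    have hLur : ∀ i ∈ Lu.reverse, i < D.rank ∧ i ∈ K := fun i hi => hLu i (List.mem_reverse.1 hi)
    have hLur' : ∀ i ∈ Lu.reverse, i < D.rank := fun i hi => (hLur i hi).1
    obtain ⟨j, hj, hlt⟩ := g.simple_neg_of_cnt hLvr' (by omega)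
    have hsj := g.simple_lt j hj
    have hd := g.wl_J_pos hLvr hsj (g.simple_ge j hj) hlt
    have hjJ : j ∈ J := by
      by_contra hjJ
      rw [g.dg_simple_out hj hjJ] at hd
      exact one_ne_zero hd
    -- `w⁻¹ v⁻¹ = u⁻¹ w⁻¹`
    have hinv : ∀ r < D.nroots, g.wl M.reverse (g.wl Lv.reverse r) = g.wl Lu.reverse (g.wl M.reverse r) := by
      intro r hr
      have h1 := g.wl_lt hMr hr
      have h2 := g.wl_lt hLur' h1
      have h3 := h _ h2
      rw [(g.wl_reverse hLu' h1).2, (g.wl_reverse hM hr).2] at h3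
      have h4 : g.wl Lv.reverse r = g.wl M (g.wl Lu.reverse (g.wl M.reverse r)) := by
        calc g.wl Lv.reverse r = g.wl Lv.reverse (g.wl Lv (g.wl M (g.wl Lu.reverse (g.wl M.reverse r)))) := by rw [h3]
          _ = _ := (g.wl_reverse hLv' (g.wl_lt hM h2)).1
      rw [h4, (g.wl_reverse hM h2).1]
    have hs := g.wl_lt hLvr' hsj
    have hds : g.dg J (g.wl Lv.reverse (D.simple j)) = 0 := by rw [g.dg_wl hLvr hsj, hd]
    have h1 := g.wl_pos_J hMr hMJ _ (g.neg_lt hs) (g.N_le_neg hs hlt) (by rw [g.dg_neg hs, hds, neg_zero])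
    rw [g.wl_neg hMr hs] at h1
    have h2 := g.neg_lt_N (g.neg_lt (g.wl_lt hMr hs)) h1
    rw [g.neg_neg (g.wl_lt hMr hs), hinv _ hsj] at h2
    have hβ := g.wl_lt hMr hsj
    have hβp := hMJ j hj hjJ
    have hβK := g.wl_J_pos hLur hβ hβp h2
    obtain ⟨k, hk, hk1, hk2⟩ := g.simple_of_image hM hβ hβp hj (g.wl_reverse hM hsj).2 (by
      intro i hi hne
      apply hMK i hi
      by_contra hiK
      exact hne (g.coef_zero_of_dg hβ hβp hβK i hi hiK))
    have hkK : k ∈ K := by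
      by_contra hkK
      exact hk2 (g.coef_zero_of_dg hβ hβp hβK k hk hkK)
    have hwk : g.wl M (D.simple k) = D.simple j := by rw [← hk1, (g.wl_reverse hM hsj).2]
    obtain ⟨Lv1, hLv1, h3⟩ := ih (j :: Lv) (k :: Lu) (by
      rw [List.reverse_cons]
      have := g.cnt_drop hLvr' hj hlt
      omega) (by
      intro i hi
      rcases List.mem_cons.1 hi with rfl | hi
      · exact ⟨hj, hjJ⟩
      · exact hLv i hi) (by
      intro i hi
      rcases List.mem_cons.1 hi with rfl | hi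
      · exact ⟨hk, hkK⟩
      · exact hLu i hi) (by
      intro r hr
      show g.w j (g.wl Lv (g.wl M r)) = g.wl M (g.w k (g.wl Lu r))
      rw [g.w_wl_comm hM hj hk hwk (g.wl_lt hLu' hr), h r hr])
    refine ⟨j :: Lv1, ?_, ?_⟩
    · intro i hi
      rcases List.mem_cons.1 hi with rfl | hi
      · exact ⟨hj, hjJ, k, hk, hkK, hwk⟩
      · exact hLv1 i hi
    · intro r hr
      show _ = g.w j (g.wl Lv1 r)
      rw [← h3 r hr]
      show _ = g.w j (g.w j (g.wl Lv r))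
      rw [g.w_w j hj _ (g.wl_lt hLv' hr)]

/-- an element of `P_J ∩ w P_K w⁻¹` lies in a smaller parabolic subgroup -/
theorem inter_PJ {J K : Set ℕ} {y q : GL D.Idx F} {M : List ℕ} (hy : g.Ty y M) (hMK : ∀ i < D.rank, i ∈ K → g.N ≤ g.wl M (D.simple i))
    (hMJ : ∀ i < D.rank, i ∈ J → g.N ≤ g.wl M.reverse (D.simple i)) (hq : q ∈ g.PJ F J) (hqy : y⁻¹ * q * y ∈ g.PJ F K) :
    ∃ b ∈ g.BB F, b⁻¹ * q * b ∈ g.PJ F (g.JK J K M) := by
  obtain ⟨hM, b, hb, b', hb', rfl⟩ := hy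
  have hM' : g.Ty (g.nl F M) M := ⟨hM, 1, Subgroup.one_mem _, 1, Subgroup.one_mem _, by simp⟩
  obtain ⟨q1, hq1⟩ : ∃ q1, q1 = b⁻¹ * q * b := ⟨_, rfl⟩
  obtain ⟨p1, hp1⟩ : ∃ p1, p1 = (g.nl F M)⁻¹ * q1 * g.nl F M := ⟨_, rfl⟩
  have hq1J : q1 ∈ g.PJ F J := by
    rw [hq1]
    exact Subgroup.mul_mem _ (Subgroup.mul_mem _ (Subgroup.inv_mem _ (g.BB_le_PJ J hb)) hq) (g.BB_le_PJ J hb)
  have hp1K : p1 ∈ g.PJ F K := by
    have h1 : p1 = b' * ((b * g.nl F M * b')⁻¹ * q * (b * g.nl F M * b')) * b'⁻¹ := by rw [hp1, hq1]; group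
    rw [h1]
    exact Subgroup.mul_mem _ (Subgroup.mul_mem _ (g.BB_le_PJ K hb') hqy) (Subgroup.inv_mem _ (g.BB_le_PJ K hb'))
  obtain ⟨Lv, hLv, hv⟩ := g.PJ_right hq1J
  obtain ⟨Lu, hLu, hu⟩ := g.PJ_right hp1K
  have h1 : g.Ty (g.nl F M * p1) (M ++ Lu) := g.ty_mul hM' hMK hu hLu
  have h2 : g.Ty ((g.nl F M)⁻¹ * q1⁻¹) (M.reverse ++ Lv.reverse) := g.ty_mul hM'.inv hMJ hv.inv (fun i hi => hLv i (List.mem_reverse.1 hi))
  have h3 := h2.inv
  rw [List.reverse_append, List.reverse_reverse, List.reverse_reverse, ← _root_.mul_inv_rev, _root_.inv_inv] at h3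
  have h4 : g.nl F M * p1 = q1 * g.nl F M := by rw [hp1]; group
  rw [h4] at h1
  have h5 := h3.uniq h1
  obtain ⟨Lv', hLv', h6⟩ := g.kilmoyer hM hMK hMJ _ Lv Lu rfl hLv hLu (by
    intro r hr
    have := h5 r hr
    rwa [g.wl_append, g.wl_append] at this)
  refine ⟨b, hb, ?_⟩
  rw [← hq1]
  exact g.PJ_of_ty hLv' (hv.congr (fun i hi => (hLv' i hi).1) h6)

/-- if `w⁻¹ J ⊆ K` then `P_J w P_K = U_J w P_K` -/
theorem PJ_trans {J K : Set ℕ} {y q : GL D.Idx F} {M : List ℕ} (hy : g.Ty y M) (h : ∀ j < D.rank, j ∈ J → j ∈ g.JK J K M) (hq : q ∈ g.PJ F J) :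
    ∃ u ∈ g.RJ F J, (u * y)⁻¹ * q * y ∈ g.PJ F K := by
  obtain ⟨hM, b, hb, b', hb', rfl⟩ := hy
  have hMr : ∀ i ∈ M.reverse, i < D.rank := fun i hi => hM i (List.mem_reverse.1 hi)
  -- `w⁻¹` maps `Φ_J` into `Φ_K`
  have hJ : ∀ r < D.nroots, g.dg J r = 0 → g.dg K (g.wl M.reverse r) = 0 := by
    have hpos : ∀ r < D.nroots, g.N ≤ r → g.dg J r = 0 → g.dg K (g.wl M.reverse r) = 0 := by
      intro r hr hp hd
      unfold dg
      have h1 : ∀ i ∈ Finset.range D.rank, (if i ∈ K then (0 : ℤ) else g.coef (g.wl M.reverse r) i) = 0 := by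
        intro i hi
        split_ifs with hiK
        · rfl
        · rw [g.coef_wl_sum hMr hr (Finset.mem_range.1 hi)]
          apply Finset.sum_eq_zero
          intro j hj
          have hj' := Finset.mem_range.1 hj
          by_cases hjJ : j ∈ J
          · obtain ⟨_, k, hk, hkK, hwk⟩ := h j hj' hjJ
            have h2 : g.wl M.reverse (D.simple j) = D.simple k := by rw [← hwk, (g.wl_reverse hM (g.simple_lt k hk)).1]
            rw [h2, g.coef_simple' hk (Finset.mem_range.1 hi), if_neg (by rintro rfl; exact hiK hkK), mul_zero]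
          · rw [g.coef_zero_of_dg hr hp hd j hj' hjJ, zero_mul]
      exact Finset.sum_eq_zero h1
    intro r hr hd
    by_cases hp : g.N ≤ r
    · exact hpos r hr hp hd
    · push Not at hp
      have h1 := hpos _ (g.neg_lt hr) (g.N_le_neg hr hp) (by rw [g.dg_neg hr, hd, neg_zero])
      rw [g.wl_neg hMr hr, g.dg_neg (g.wl_lt hMr hr)] at h1
      omega
  have hb1 : b⁻¹ * q * b ∈ g.PJ F J := Subgroup.mul_mem _ (Subgroup.mul_mem _ (Subgroup.inv_mem _ (g.BB_le_PJ J hb)) hq) (g.BB_le_PJ J hb)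
  rw [← g.RJ_sup_LJ] at hb1
  have hn : g.LJ F J ≤ Subgroup.normalizer (g.RJ F J : Set (GL D.Idx F)) := (le_sup_right.trans (g.RJ_sup_LJ J).le).trans (g.RJ_norm J)

  obtain ⟨u, hu, l, hl, he⟩ := (CfsgH1.mem_sup_of_le_normalizer' hn).1 hb1
  -- `n⁻¹ l n ∈ P_K`
  have hLn : ∀ l ∈ g.LJ F J, (g.nl F M)⁻¹ * l * g.nl F M ∈ g.PJ F K := by
    have h2 : g.LJ F J ≤ (g.PJ F K).comap (MulAut.conj (g.nl F M)⁻¹).toMonoidHom := by
      apply sup_le
      · intro k hk
        rw [Subgroup.mem_comap]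
        have h3 := g.NN_HH (Subgroup.inv_mem _ (g.nl_mem (F := F) hM)) hk
        exact Subgroup.mem_sup_left h3
      · unfold XS
        rw [Subgroup.closure_le]
        rintro _ ⟨r, t, hr, hr', rfl⟩
        rw [SetLike.mem_coe, Subgroup.mem_comap]
        show (g.nl F M)⁻¹ * g.xg r t * (g.nl F M)⁻¹⁻¹ ∈ g.PJ F K
        obtain ⟨k, hk, he⟩ := g.nl_inv (F := F) hM
        obtain ⟨c, hc⟩ := g.NN_x (F := F) hMr hk he hr'
        rw [hc t]
        exact Subgroup.mem_sup_right (g.xg_mem (S := fun r => g.N ≤ r ∨ g.dg K r = 0) (Or.inr (hJ r hr' hr)) _)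
    intro l hl
    have h3 := h2 hl
    rw [Subgroup.mem_comap] at h3
    have h4 : (MulAut.conj (g.nl F M)⁻¹).toMonoidHom l = (g.nl F M)⁻¹ * l * g.nl F M := by
      show (g.nl F M)⁻¹ * l * (g.nl F M)⁻¹⁻¹ = _
      rw [_root_.inv_inv]
    rwa [h4] at h3
  refine ⟨b * u * b⁻¹, ?_, ?_⟩
  · have h1 := g.RJ_norm J (g.BB_le_PJ J hb)
    rw [Subgroup.mem_normalizer_iff] at h1
    exact (h1 u).1 hu
  · have h5 : (b * u * b⁻¹ * (b * g.nl F M * b'))⁻¹ * q * (b * g.nl F M * b') = b'⁻¹ * ((g.nl F M)⁻¹ * (u⁻¹ * (b⁻¹ * q * b)) * g.nl F M) * b' := by group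
    rw [h5, ← he]
    have h6 : u⁻¹ * (u * l) = l := by group
    rw [h6]
    exact Subgroup.mul_mem _ (Subgroup.mul_mem _ (Subgroup.inv_mem _ (g.BB_le_PJ K hb')) (hLn l hl)) (g.BB_le_PJ K hb')

end Good

end Chv
end CfsgH6
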