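import Cfsg.Agent.H6.St12

set_option autoImplicit false

/-! The opposite element relative to `J`. -/

namespace CfsgH6
namespace Chv

open Cfsg.Lie CfsgH6.Stb
open scoped Classical

variable {D : ChevalleyDatum} (g : Good D) {F : Type*} [Field F]

namespace Good

/-- `w⁻¹` maps the fundamental roots of `J` to fundamental roots, and these are the only ascents of `w` -/
def OppW (J : Set ℕ) (M : List ℕ) : Prop := (∀ j < D.rank, j ∈ J → ∃ k < D.rank, g.wl M (D.simple k) = D.simple j) ∧
  ∀ i < D.rank, g.N ≤ g.wl M (D.simple i) → ∃ j < D.rank, j ∈ J ∧ g.wl M (D.simple i) = D.simple j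

variable {g}

/-- `w⁻¹` sends positive roots outside `Φ_J` to negative roots -/
theorem OppW.neg {J : Set ℕ} {M : List ℕ} (hM : ∀ i ∈ M, i < D.rank) (h : g.OppW J M) {r : ℕ} (hr : r < D.nroots) (hd : 0 < g.dg J r) :
    g.wl M.reverse r < g.N := by
  have hMr : ∀ i ∈ M.reverse, i < D.rank := fun i hi => hM i (List.mem_reverse.1 hi)
  by_contra hlt
  push Not at hlt
  have hβ := g.wl_lt hMr hr
  have h1 : g.dg J r = ∑ i ∈ Finset.range D.rank, g.coef (g.wl M.reverse r) i * g.dg J (g.wl M (D.simple i)) := by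
    conv_lhs => rw [← (g.wl_reverse hM hr).2]
    unfold dg
    simp_rw [Finset.mul_sum]
    rw [Finset.sum_comm]
    apply Finset.sum_congr rfl
    intro t ht
    by_cases htJ : t ∈ J
    · simp only [if_pos htJ, mul_zero, Finset.sum_const_zero]
    · simp only [if_neg htJ]
      exact g.coef_wl_sum hM hβ (Finset.mem_range.1 ht)
  have h2 : ∑ i ∈ Finset.range D.rank, g.coef (g.wl M.reverse r) i * g.dg J (g.wl M (D.simple i)) ≤ 0 := by
    apply Finset.sum_nonpos
    intro i hi
    have hi' := Finset.mem_range.1 hi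
    apply mul_nonpos_of_nonneg_of_nonpos (g.coef_nonneg _ hβ hlt i hi')
    by_cases hp : g.N ≤ g.wl M (D.simple i)
    · obtain ⟨j, hj, hjJ, he⟩ := h.2 i hi' hp
      rw [he, g.dg_simple hj hjJ]
    · push Not at hp
      exact g.dg_nonpos (g.wl_lt hM (g.simple_lt i hi')) hp
  omega

theorem OppW.pos {J : Set ℕ} {M : List ℕ} (hM : ∀ i ∈ M, i < D.rank) (h : g.OppW J M) {r : ℕ} (hr : r < D.nroots) (hp : g.N ≤ r) (hd : g.dg J r = 0) :
    g.N ≤ g.wl M.reverse r := by
  have hMr : ∀ i ∈ M.reverse, i < D.rank := fun i hi => hM i (List.mem_reverse.1 hi)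
  apply g.wl_pos_J hMr _ r hr hp hd
  intro j hj hjJ
  obtain ⟨k, hk, he⟩ := h.1 j hj hjJ
  rw [← he, (g.wl_reverse hM (g.simple_lt k hk)).1]
  exact g.simple_ge k hk

theorem OppW.uniq {J : Set ℕ} {M M' : List ℕ} (hM : ∀ i ∈ M, i < D.rank) (hM' : ∀ i ∈ M', i < D.rank) (h : g.OppW J M) (h' : g.OppW J M') :
    ∀ s < D.nroots, g.wl M s = g.wl M' s := by
  have hMr : ∀ i ∈ M.reverse, i < D.rank := fun i hi => hM i (List.mem_reverse.1 hi)
  have hMr' : ∀ i ∈ M'.reverse, i < D.rank := fun i hi => hM' i (List.mem_reverse.1 hi)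
  intro s hs
  refine g.wl_eq_of_rev hM' hM ?_ hs
  intro r hr hp
  have h1 := g.wl_lt hM hr
  have h2 := (g.wl_reverse hM hr).1
  by_cases hpos : g.N ≤ g.wl M r
  · by_cases hd : g.dg J (g.wl M r) = 0
    · exact h'.pos hM' h1 hpos hd
    · exfalso
      have h3 := g.dg_nonneg (J := J) h1 hpos
      have h4 := h.neg hM h1 (by omega)
      rw [h2] at h4
      omega
  · push Not at hpos
    have h3 := g.neg_lt h1
    have h4 := g.N_le_neg h1 hpos
    have h5 : 0 < g.dg J (D.neg (g.wl M r)) := by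
      have h6 := g.dg_nonneg (J := J) h3 h4
      by_contra hlt
      have h7 := h.pos hM h3 h4 (by omega)
      rw [g.wl_neg hMr h1, h2] at h7
      have := g.neg_lt_N hr hp
      omega
    have h6 := h'.neg hM' h3 h5
    rw [g.wl_neg hMr' h1] at h6
    have h7 := g.N_le_neg (g.neg_lt (g.wl_lt hMr' h1)) h6
    rwa [g.neg_neg (g.wl_lt hMr' h1)] at h7

variable (g)

theorem exists_opp (J : Set ℕ) : ∃ M : List ℕ, (∀ i ∈ M, i < D.rank) ∧ g.OppW J M ∧ ∀ i < D.rank, i ∈ J → g.N ≤ g.wl M.reverse (D.simple i) := by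
  have hK := g.wKL_lt J
  have hK' : ∀ i ∈ g.wKL J, i < D.rank := fun i hi => (hK i hi).1
  have hW : ∀ i ∈ g.w0L ++ g.wKL J, i < D.rank := by
    intro i hi
    rcases List.mem_append.1 hi with h | h
    · exact g.w0L_lt i h
    · exact hK' i h
  obtain ⟨M, hM0⟩ : ∃ M, M = (g.w0L ++ g.wKL J).reverse := ⟨_, rfl⟩
  have hMrev : M.reverse = g.w0L ++ g.wKL J := by rw [hM0, List.reverse_reverse]
  have hM : ∀ i ∈ M, i < D.rank := by rw [hM0]; exact fun i hi => hW i (List.mem_reverse.1 hi)
  have hMr : ∀ i ∈ M.reverse, i < D.rank := by rw [hMrev]; exact hW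
  -- positivity
  have hposJ : ∀ r < D.nroots, g.N ≤ r → g.dg J r = 0 → g.N ≤ g.wl M.reverse r := by
    intro r hr hp hd
    rw [hMrev, g.wl_append]
    have h1 := g.wl_lt hK' hr
    have h2 := g.wKL_neg J r hr hp hd
    have h3 := g.w0L_neg _ (g.neg_lt h1) (g.N_le_neg h1 h2)
    rw [g.wl_neg g.w0L_lt h1] at h3
    have h4 := g.N_le_neg (g.neg_lt (g.wl_lt g.w0L_lt h1)) h3
    rwa [g.neg_neg (g.wl_lt g.w0L_lt h1)] at h4
  have hnegJ : ∀ r < D.nroots, 0 < g.dg J r → g.wl M.reverse r < g.N := by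
    intro r hr hd
    rw [hMrev, g.wl_append]
    have h1 := g.wl_lt hK' hr
    have h2 : 0 < g.dg J (g.wl (g.wKL J) r) := by rw [g.dg_wl hK hr]; exact hd
    exact g.w0L_neg _ h1 (g.dg_pos h1 h2)
  -- the image of a fundamental root of `w` positive means in `Φ_J`
  have himg : ∀ i < D.rank, (g.N ≤ g.wl M (D.simple i) ∧ g.dg J (g.wl M (D.simple i)) = 0) ∨ g.dg J (g.wl M (D.simple i)) < 0 := by
    intro i hi
    have hs := g.wl_lt hM (g.simple_lt i hi)
    have h1 := (g.wl_reverse hM (g.simple_lt i hi)).1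
    by_cases hp : g.N ≤ g.wl M (D.simple i)
    · left
      refine ⟨hp, ?_⟩
      by_contra hne
      have h2 := g.dg_nonneg (J := J) hs hp
      have h3 := hnegJ _ hs (by omega)
      rw [h1] at h3
      have := g.simple_ge i hi
      omega
    · right
      push Not at hp
      have h2 := g.dg_nonpos (J := J) hs hp
      by_contra hge
      have h3 := hposJ _ (g.neg_lt hs) (g.N_le_neg hs hp) (by rw [g.dg_neg hs]; omega)
      rw [g.wl_neg hMr hs, h1] at h3
      have := g.neg_lt_N (g.simple_lt i hi) (g.simple_ge i hi)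
      omega
  refine ⟨M, hM, ⟨?_, ?_⟩, ?_⟩
  · intro j hj hjJ
    have hsj := g.simple_lt j hj
    have hβ := g.wl_lt hMr hsj
    have hβp := hposJ _ hsj (g.simple_ge j hj) (g.dg_simple hj hjJ)
    have hw := (g.wl_reverse hM hsj).2
    obtain ⟨i, hi, he, _⟩ := g.simple_of_image hM hβ hβp hj hw (by
      intro i hi hne
      rcases himg i hi with h | h
      · exact h.1
      · exfalso
        have h1 : g.dg J (D.simple j) = ∑ i ∈ Finset.range D.rank, g.coef (g.wl M.reverse (D.simple j)) i * g.dg J (g.wl M (D.simple i)) := by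
          conv_lhs => rw [← hw]
          unfold dg
          simp_rw [Finset.mul_sum]
          rw [Finset.sum_comm]
          apply Finset.sum_congr rfl
          intro t ht
          by_cases htJ : t ∈ J
          · simp only [if_pos htJ, mul_zero, Finset.sum_const_zero]
          · simp only [if_neg htJ]
            exact g.coef_wl_sum hM hβ (Finset.mem_range.1 ht)
        rw [g.dg_simple hj hjJ] at h1
        have h2 : ∀ t ∈ Finset.range D.rank, 0 ≤ -(g.coef (g.wl M.reverse (D.simple j)) t * g.dg J (g.wl M (D.simple t))) := by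
          intro t ht
          have ht' := Finset.mem_range.1 ht
          have h3 := g.coef_nonneg _ hβ hβp t ht'
          rcases himg t ht' with h4 | h4
          · rw [h4.2]; simp
          · nlinarith
        have h3 : ∑ t ∈ Finset.range D.rank, -(g.coef (g.wl M.reverse (D.simple j)) t * g.dg J (g.wl M (D.simple t))) = 0 := by
          rw [Finset.sum_neg_distrib, ← h1, neg_zero]
        have h4 := (Finset.sum_eq_zero_iff_of_nonneg h2).1 h3 i (Finset.mem_range.2 hi)
        have h5 : g.coef (g.wl M.reverse (D.simple j)) i * g.dg J (g.wl M (D.simple i)) = 0 := by linarith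
        rcases mul_eq_zero.1 h5 with h6 | h6
        · exact hne h6
        · omega)
    exact ⟨i, hi, by rw [← he]; exact hw⟩
  · intro i hi hp
    have hsi := g.simple_lt i hi
    have hs := g.wl_lt hM hsi
    have hd : g.dg J (g.wl M (D.simple i)) = 0 := by
      rcases himg i hi with h | h
      · exact h.2
      · have := g.dg_nonneg (J := J) hs hp
        omega
    obtain ⟨j, hj, he, hc⟩ := g.simple_of_image hMr hs hp hi (g.wl_reverse hM hsi).1 (by
      intro t ht hne
      have htJ : t ∈ J := by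
        by_contra htJ
        exact hne (g.coef_zero_of_dg hs hp hd t ht htJ)
      exact hposJ _ (g.simple_lt t ht) (g.simple_ge t ht) (g.dg_simple ht htJ))
    refine ⟨j, hj, ?_, he⟩
    by_contra hjJ
    exact hc (g.coef_zero_of_dg hs hp hd j hj hjJ)
  · intro i hi hiJ
    exact hposJ _ (g.simple_lt i hi) (g.simple_ge i hi) (g.dg_simple hi hiJ)

end Good

end Chv
end CfsgH6
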