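import Cfsg.Agent.H6.St13
import Cfsg.Agent.H6.St15

set_option autoImplicit false

/-! The Steinberg character at semisimple elements. -/

namespace CfsgH6
namespace Chv

open Cfsg.Lie CfsgH6.Stb
open scoped Classical

variable {D : ChevalleyDatum} (g : Good D) {F : Type*} [Field F]

namespace Good

/-- a chosen type -/
noncomputable def tyL (y : GL D.Idx F) : List ℕ := if h : ∃ L, g.Ty y L then h.choose else []

theorem tyL_spec {y : GL D.Idx F} (hy : y ∈ g.GG F) : g.Ty y (g.tyL y) := by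
  have h := g.exists_ty hy
  unfold tyL
  rw [dif_pos h]
  exact h.choose_spec

theorem tyL_spec' (y : ↥(D.group F)) : g.Ty (y : GL D.Idx F) (g.tyL (y : GL D.Idx F)) := g.tyL_spec (by rw [← g.gG]; exact y.2)

variable (F) in
/-- the unipotent radical as a subgroup of the group -/
def UJ (J : Set ℕ) : Subgroup ↥(D.group F) := (g.RJ F J).subgroupOf (D.group F)

theorem RJ_le_PJ (J : Set ℕ) (K : Set ℕ) : g.RJ F J ≤ g.PJ F K := by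
  rw [g.RJ_eq]
  exact (g.XS_mono (fun r _ h => h.1)).trans (g.UU_le_BB.trans (g.BB_le_PJ K))

theorem UJ_conj {J : Set ℕ} {x : ↥(D.group F)} (hx : (x : GL D.Idx F) ∈ g.PJ F J) : ∀ u ∈ g.UJ F J, x * u * x⁻¹ ∈ g.UJ F J := by
  intro u hu
  have h1 := g.RJ_norm J hx
  rw [Subgroup.mem_normalizer_iff] at h1
  exact (h1 _).1 hu

theorem UJ_conj' {J : Set ℕ} {x : ↥(D.group F)} (hx : (x : GL D.Idx F) ∈ g.PJ F J) : ∀ u ∈ g.UJ F J, x⁻¹ * u * x ∈ g.UJ F J := by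
  intro u hu
  have h1 := g.UJ_conj (x := x⁻¹) (by rw [Subgroup.coe_inv]; exact Subgroup.inv_mem _ hx) u hu
  rwa [_root_.inv_inv] at h1

/-- anisotropic modulo the radical -/
def Ani (J : Set ℕ) (x : GL D.Idx F) : Prop := ∀ z ∈ g.PJ F J, ∀ J' : Set ℕ, J' ⊆ J → z⁻¹ * x * z ∈ g.PJ F J' → J' = J

def CKp (J K : Set ℕ) (y : GL D.Idx F) : Prop := ∀ j < D.rank, j ∈ J → j ∈ g.JK J K (g.tyL y)

theorem mk_eq_iff {P : Subgroup ↥(D.group F)} (a b : ↥(D.group F)) : (QuotientGroup.mk a : ↥(D.group F) ⧸ P) = QuotientGroup.mk b ↔ a⁻¹ * b ∈ P := QuotientGroup.eq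

theorem hmem_UJ {J K : Finset ℕ} {y : ↥(D.group F)} (hy : g.CKp (J : Set ℕ) (K : Set ℕ) (y : GL D.Idx F)) {q : ↥(D.group F)}
    (hq : (q : GL D.Idx F) ∈ g.PJ F (J : Set ℕ)) : ∃ u ∈ g.UJ F (J : Set ℕ), (u * y)⁻¹ * (q * y) ∈ (g.gateG F).P K := by
  obtain ⟨u, hu, h⟩ := g.PJ_trans (g.tyL_spec' y) hy hq
  have hu' : u ∈ D.group F := by rw [g.gG]; exact g.PJ_le_GG _ (g.RJ_le_PJ _ (J : Set ℕ) hu)
  refine ⟨⟨u, hu'⟩, hu, ?_⟩
  rw [g.gateG_P, Subgroup.mem_subgroupOf]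
  push_cast
  rw [← mul_assoc]
  exact h

theorem hUP_UJ {J : Finset ℕ} : ∀ u ∈ g.UJ F (J : Set ℕ), u ∈ (g.gateG F).P J := by
  intro u hu
  rw [g.gateG_P, Subgroup.mem_subgroupOf]
  exact g.RJ_le_PJ _ _ hu

/-- the condition on the double cosets -/
def Dcond (J K : Finset ℕ) (δ : (g.gateG F).DC) : Prop :=
  J ⊆ (g.gateG F).A (δ.out)⁻¹ ∧ K ⊆ (g.gateG F).A δ.out ∧ g.CKp (J : Set ℕ) (K : Set ℕ) ((δ.out : ↥(D.group F)) : GL D.Idx F)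

theorem surj_UJ {J K : Finset ℕ} (hJ : J ⊆ Finset.range D.rank) (hK : K ⊆ Finset.range D.rank) {x : ↥(D.group F)}
    (hx : (x : GL D.Idx F) ∈ g.PJ F (J : Set ℕ)) (hani : g.Ani (J : Set ℕ) (x : GL D.Idx F)) (y : ↥(D.group F))
    (h : ∃ u ∈ g.UJ F (J : Set ℕ), y⁻¹ * (x * u) * y ∈ (g.gateG F).P K) :
    ∃ δ : (g.gateG F).DC, g.Dcond J K δ ∧ ∃ u ∈ g.UJ F (J : Set ℕ), (u * y)⁻¹ * δ.out ∈ (g.gateG F).P K := by
  obtain ⟨u, hu, hfix'⟩ := h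
  rw [g.gateG_P, Subgroup.mem_subgroupOf] at hfix'
  obtain ⟨q, hq, p, hp, h1, h2⟩ := g.gateG_ex hJ hK y
  obtain ⟨b, b', hb, hb', h3⟩ := DoubleCoset.mk_out_eq_mul (g.gateG F).B (g.gateG F).B (q * y * p)
  obtain ⟨δ, hδ⟩ : ∃ δ : (g.gateG F).DC, δ = DoubleCoset.mk (g.gateG F).B (g.gateG F).B (q * y * p) := ⟨_, rfl⟩
  rw [← hδ] at h3
  have hbq : b * q ∈ (g.gateG F).P J := Subgroup.mul_mem _ ((g.gateG F).B_le J hJ hb) hq
  have hpb' : p * b' ∈ (g.gateG F).P K := Subgroup.mul_mem _ hp ((g.gateG F).B_le K hK hb')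
  have hpb := hpb'
  have h3' : δ.out = (b * q) * y * (p * b') := by rw [h3]; group
  have hA1 : J ⊆ (g.gateG F).A (δ.out)⁻¹ := by rw [h3, (g.gateG F).A_inv_inv _ hb hb']; exact h1
  have hA2 : K ⊆ (g.gateG F).A δ.out := by rw [h3, (g.gateG F).A_inv _ hb _ hb']; exact h2
  have hA1' := hA1
  have hA2' := hA2
  rw [g.gateG_A] at hA1' hA2'
  have hM := g.tyL_spec' (F := F) δ.out
  rw [g.gateG_P, Subgroup.mem_subgroupOf] at hbq hpb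
  have hC : g.CKp (J : Set ℕ) (K : Set ℕ) ((δ.out : ↥(D.group F)) : GL D.Idx F) := by
    obtain ⟨b1, hb1, h4⟩ := g.inter_PJ (J := (J : Set ℕ)) (K := (K : Set ℕ)) (q := ((b * q : ↥(D.group F)) : GL D.Idx F) * ((x * u : ↥(D.group F)) : GL D.Idx F) * ((b * q : ↥(D.group F)) : GL D.Idx F)⁻¹)
      hM ((g.sub_asc (le_refl _) hK hM).1 hA2') ((g.sub_asc_inv (le_refl _) hJ hM).1 hA1') (by
        refine Subgroup.mul_mem _ (Subgroup.mul_mem _ hbq ?_) (Subgroup.inv_mem _ hbq)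
        exact Subgroup.mul_mem _ hx (g.RJ_le_PJ _ _ hu)) (by
        have e1 : ((δ.out : ↥(D.group F)) : GL D.Idx F)⁻¹ * (((b * q : ↥(D.group F)) : GL D.Idx F) * ((x * u : ↥(D.group F)) : GL D.Idx F) * ((b * q : ↥(D.group F)) : GL D.Idx F)⁻¹) * ((δ.out : ↥(D.group F)) : GL D.Idx F) =
            ((p * b' : ↥(D.group F)) : GL D.Idx F)⁻¹ * ((y⁻¹ * (x * u) * y : ↥(D.group F)) : GL D.Idx F) * ((p * b' : ↥(D.group F)) : GL D.Idx F) := by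
          rw [h3']; push_cast; group
        rw [e1]
        exact Subgroup.mul_mem _ (Subgroup.mul_mem _ (Subgroup.inv_mem _ hpb) hfix') hpb)
    obtain ⟨zz, hzz⟩ : ∃ zz, zz = ((b * q : ↥(D.group F)) : GL D.Idx F)⁻¹ * b1 := ⟨_, rfl⟩
    have hzzJ : zz ∈ g.PJ F (J : Set ℕ) := by rw [hzz]; exact Subgroup.mul_mem _ (Subgroup.inv_mem _ hbq) (g.BB_le_PJ _ hb1)
    have h5 : zz⁻¹ * (x : GL D.Idx F) * zz = (b1⁻¹ * (((b * q : ↥(D.group F)) : GL D.Idx F) * ((x * u : ↥(D.group F)) : GL D.Idx F) * ((b * q : ↥(D.group F)) : GL D.Idx F)⁻¹) * b1) *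
        (zz⁻¹ * (u : GL D.Idx F)⁻¹ * zz) := by
      rw [hzz]; push_cast; group
    have h6 : zz⁻¹ * (u : GL D.Idx F)⁻¹ * zz ∈ g.RJ F (J : Set ℕ) := by
      have h7 := g.RJ_norm (J : Set ℕ) (Subgroup.inv_mem _ hzzJ)
      rw [Subgroup.mem_normalizer_iff] at h7
      have h8 := (h7 ((u : GL D.Idx F)⁻¹)).1 (Subgroup.inv_mem _ hu)
      rwa [_root_.inv_inv] at h8
    have h7 := hani zz hzzJ (g.JK (J : Set ℕ) (K : Set ℕ) (g.tyL ((δ.out : ↥(D.group F)) : GL D.Idx F))) (fun j hj => hj.1) (by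
      rw [h5]
      exact Subgroup.mul_mem _ h4 (g.RJ_le_PJ _ _ h6))
    intro j hj hjJ
    rw [h7]; exact hjJ
  obtain ⟨u', hu', h4⟩ := g.hmem_UJ (K := K) hC (q := (b * q)⁻¹) (by rw [Subgroup.coe_inv]; exact Subgroup.inv_mem _ hbq)
  refine ⟨δ, ⟨hA1, hA2, hC⟩, u'⁻¹, Subgroup.inv_mem _ hu', ?_⟩
  have h5 : (u'⁻¹ * y)⁻¹ * δ.out = (p * b') * ((u' * δ.out)⁻¹ * ((b * q)⁻¹ * δ.out))⁻¹ := by rw [h3']; group
  rw [h5]
  exact Subgroup.mul_mem _ hpb' (Subgroup.inv_mem _ h4)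

/-- the sum of the permutation character over the coset `x U_J` -/
theorem sum_UJ [Finite F] {J K : Finset ℕ} (hJ : J ⊆ Finset.range D.rank) (hK : K ⊆ Finset.range D.rank) {x : ↥(D.group F)}
    (hx : (x : GL D.Idx F) ∈ g.PJ F (J : Set ℕ)) (hani : g.Ani (J : Set ℕ) (x : GL D.Idx F)) :
    ∑ᶠ u : g.UJ F (J : Set ℕ), Cfsg.fixedPointCharacter ((g.gateG F).P K) (x * (u : ↥(D.group F))) =
      (Nat.card (g.UJ F (J : Set ℕ)) : ℂ) * (Nat.card {δ : (g.gateG F).DC // g.Dcond J K δ} : ℂ) := by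
  apply sum_fpc_coset _ _ x (g.UJ_conj hx) (g.UJ_conj' hx) (fun δ => δ.1.out)
  · rintro ⟨δ, h1, h2, h3⟩
    obtain ⟨u, hu, h⟩ := g.hmem_UJ (K := K) h3 (q := x⁻¹) (by rw [Subgroup.coe_inv]; exact Subgroup.inv_mem _ hx)
    refine ⟨u, hu, ?_⟩
    have h5 : δ.out⁻¹ * (x * u) * δ.out = ((u * δ.out)⁻¹ * (x⁻¹ * δ.out))⁻¹ := by group
    show δ.out⁻¹ * (x * u) * δ.out ∈ _
    rw [h5]
    exact Subgroup.inv_mem _ h
  · rintro ⟨δ, h1, h2, h3⟩ ⟨δ', h1', h2', h3'⟩ u hu h5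
    have h6 : u * δ'.out * ((u * δ'.out)⁻¹ * δ.out) = δ.out := by group
    obtain ⟨b, hb, b', hb', h7⟩ := g.gateG_un hJ hK δ'.out u (g.hUP_UJ _ hu) _ h5 h1' h2' (by rw [h6]; exact h1) (by rw [h6]; exact h2)
    rw [h6] at h7
    have h8 : DoubleCoset.mk (g.gateG F).B (g.gateG F).B δ'.out = DoubleCoset.mk (g.gateG F).B (g.gateG F).B δ.out := (DoubleCoset.eq _ _ _ _).2 ⟨b, hb, b', hb', h7⟩
    rw [DoubleCoset.out_eq', DoubleCoset.out_eq'] at h8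
    exact Subtype.ext h8.symm
  · intro c hc
    obtain ⟨δ, hδ, h⟩ := g.surj_UJ hJ hK hx hani c hc
    exact ⟨⟨δ, hδ⟩, h⟩

end Good

end Chv
end CfsgH6
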