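import Cfsg.Agent.H6.St16

set_option autoImplicit false

/-! The Steinberg character at semisimple elements: conclusion. -/

namespace CfsgH6
namespace Chv

open Cfsg.Lie CfsgH6.Stb
open scoped Classical

variable {D : ChevalleyDatum} (g : Good D) {F : Type*} [Field F]

namespace Good

/-- the fundamental roots sent by `w` to fundamental roots of `J` -/
noncomputable def Rd (J : Finset ℕ) (M : List ℕ) : Finset ℕ := (Finset.range D.rank).filter (fun k => ∃ j < D.rank, j ∈ J ∧ g.wl M (D.simple k) = D.simple j)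

def Cd (J : Finset ℕ) (M : List ℕ) : Prop := ∀ j < D.rank, j ∈ J → ∃ k < D.rank, g.wl M (D.simple k) = D.simple j

theorem Dcond_iff {J K : Finset ℕ} (hK : K ⊆ Finset.range D.rank) (δ : (g.gateG F).DC) :
    g.Dcond J K δ ↔ (J ⊆ (g.gateG F).A (δ.out)⁻¹ ∧ g.Cd J (g.tyL ((δ.out : ↥(D.group F)) : GL D.Idx F))) ∧
      (g.Rd J (g.tyL ((δ.out : ↥(D.group F)) : GL D.Idx F)) ⊆ K ∧ K ⊆ (g.gateG F).A δ.out) := by
  have hM := g.tyL_spec' (F := F) δ.out
  constructor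
  · rintro ⟨h1, h2, h3⟩
    refine ⟨⟨h1, ?_⟩, ?_, h2⟩
    · intro j hj hjJ
      obtain ⟨_, k, hk, _, he⟩ := h3 j hj (Finset.mem_coe.2 hjJ)
      exact ⟨k, hk, he⟩
    · intro k hk
      obtain ⟨hk1, j, hj, hjJ, he⟩ := Finset.mem_filter.1 hk
      obtain ⟨_, k', hk', hk'K, he'⟩ := h3 j hj (Finset.mem_coe.2 hjJ)
      have hk2 := Finset.mem_range.1 hk1
      have h4 := g.wl_inj hM.1 (g.simple_lt k hk2) (g.simple_lt k' hk') (he.trans he'.symm)
      rw [g.simple_inj hk2 hk' h4]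
      exact Finset.mem_coe.1 hk'K
  · rintro ⟨⟨h1, h2⟩, h3, h4⟩
    refine ⟨h1, h4, ?_⟩
    intro j hj hjJ
    obtain ⟨k, hk, he⟩ := h2 j hj (Finset.mem_coe.1 hjJ)
    exact ⟨hjJ, k, hk, Finset.mem_coe.2 (h3 (Finset.mem_filter.2 ⟨Finset.mem_range.2 hk, j, hj, Finset.mem_coe.1 hjJ, he⟩)), he⟩

theorem Rd_sub {J : Finset ℕ} (δ : (g.gateG F).DC) : g.Rd J (g.tyL ((δ.out : ↥(D.group F)) : GL D.Idx F)) ⊆ (g.gateG F).A δ.out := by
  intro k hk
  obtain ⟨hk1, j, hj, hjJ, he⟩ := Finset.mem_filter.1 hk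
  rw [g.gateG_A, g.mem_asc (le_refl _) (g.tyL_spec' (F := F) δ.out)]
  refine ⟨hk1, ?_⟩
  rw [he]; exact g.simple_ge j hj

theorem dc_eq {δ δ' : (g.gateG F).DC} (h : ∀ s < D.nroots, g.wl (g.tyL ((δ.out : ↥(D.group F)) : GL D.Idx F)) s = g.wl (g.tyL ((δ'.out : ↥(D.group F)) : GL D.Idx F)) s) : δ = δ' := by
  have hM := g.tyL_spec' (F := F) δ.out
  have hM' := g.tyL_spec' (F := F) δ'.out
  obtain ⟨M', hM''⟩ : ∃ M', M' = g.tyL ((δ'.out : ↥(D.group F)) : GL D.Idx F) := ⟨_, rfl⟩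
  rw [← hM''] at h hM'
  obtain ⟨_, b, hb, b', hb', he⟩ := hM.congr hM'.1 h
  obtain ⟨_, c, hc, c', hc', he'⟩ := hM'
  have e1 : b * c⁻¹ ∈ D.group F := by rw [g.gG]; exact g.BB_le_GG (Subgroup.mul_mem _ hb (Subgroup.inv_mem _ hc))
  have e2 : c'⁻¹ * b' ∈ D.group F := by rw [g.gG]; exact g.BB_le_GG (Subgroup.mul_mem _ (Subgroup.inv_mem _ hc') hb')
  have h8 : DoubleCoset.mk (g.gateG F).B (g.gateG F).B δ'.out = DoubleCoset.mk (g.gateG F).B (g.gateG F).B δ.out := by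
    refine (DoubleCoset.eq _ _ _ _).2 ⟨⟨b * c⁻¹, e1⟩, Subgroup.mem_subgroupOf.2 (Subgroup.mul_mem _ hb (Subgroup.inv_mem _ hc)), ⟨c'⁻¹ * b', e2⟩,
      Subgroup.mem_subgroupOf.2 (Subgroup.mul_mem _ (Subgroup.inv_mem _ hc') hb'), ?_⟩
    apply Subtype.ext
    show ((δ.out : ↥(D.group F)) : GL D.Idx F) = b * c⁻¹ * ((δ'.out : ↥(D.group F)) : GL D.Idx F) * (c'⁻¹ * b')
    rw [he, he']; group
  rw [DoubleCoset.out_eq', DoubleCoset.out_eq'] at h8
  exact h8.symm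

theorem sum_Dcond [Finite F] {J : Finset ℕ} (hJ : J ⊆ Finset.range D.rank) :
    ∑ K ∈ (Finset.range D.rank).powerset, (-1 : ℂ) ^ K.card * (Nat.card {δ : (g.gateG F).DC // g.Dcond J K δ} : ℂ) = 1 ∨
    ∑ K ∈ (Finset.range D.rank).powerset, (-1 : ℂ) ^ K.card * (Nat.card {δ : (g.gateG F).DC // g.Dcond J K δ} : ℂ) = -1 := by
  have hfin : Finite (g.gateG F).DC := Quotient.finite _
  have : Fintype (g.gateG F).DC := Fintype.ofFinite _
  obtain ⟨Mt, hMt⟩ : ∃ Mt : (g.gateG F).DC → List ℕ, Mt = fun δ => g.tyL ((δ.out : ↥(D.group F)) : GL D.Idx F) := ⟨_, rfl⟩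
  obtain ⟨Pd, hPd⟩ : ∃ Pd : (g.gateG F).DC → Prop, Pd = fun δ => J ⊆ (g.gateG F).A (δ.out)⁻¹ ∧ g.Cd J (g.tyL ((δ.out : ↥(D.group F)) : GL D.Idx F)) := ⟨_, rfl⟩
  have h1 : ∑ K ∈ (Finset.range D.rank).powerset, (-1 : ℂ) ^ K.card * (Nat.card {δ : (g.gateG F).DC // g.Dcond J K δ} : ℂ) =
      ∑ δ : (g.gateG F).DC, (if Pd δ then (1 : ℂ) else 0) * (if g.Rd J (Mt δ) = (g.gateG F).A δ.out then (-1) ^ (g.Rd J (Mt δ)).card else 0) := by
    have h2 : ∀ K ∈ (Finset.range D.rank).powerset, (-1 : ℂ) ^ K.card * (Nat.card {δ : (g.gateG F).DC // g.Dcond J K δ} : ℂ) =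
        ∑ δ : (g.gateG F).DC, (if Pd δ then (1 : ℂ) else 0) * ((-1 : ℂ) ^ K.card * (if g.Rd J (Mt δ) ⊆ K ∧ K ⊆ (g.gateG F).A δ.out then (1 : ℂ) else 0)) := by
      intro K hK
      have e1 : (Nat.card {δ : (g.gateG F).DC // g.Dcond J K δ} : ℂ) = ∑ δ : (g.gateG F).DC, if g.Dcond J K δ then (1 : ℂ) else 0 := by
        rw [Nat.card_eq_fintype_card, Fintype.card_subtype, Finset.sum_boole]
      rw [e1, Finset.mul_sum]
      apply Finset.sum_congr rfl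
      intro δ _
      have h3 := g.Dcond_iff (J := J) (Finset.mem_powerset.1 hK) δ
      by_cases h4 : Pd δ <;> by_cases h5 : (g.Rd J (Mt δ) ⊆ K ∧ K ⊆ (g.gateG F).A δ.out)
      · rw [if_pos (h3.2 ⟨by rw [hPd] at h4; exact h4, by rw [hMt] at h5; exact h5⟩), if_pos h4, if_pos h5]; ring
      · rw [if_neg (fun h => h5 (by rw [hMt]; exact (h3.1 h).2)), if_neg h5]; ring
      · rw [if_neg (fun h => h4 (by rw [hPd]; exact (h3.1 h).1)), if_neg h4]; ring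
      · rw [if_neg (fun h => h4 (by rw [hPd]; exact (h3.1 h).1)), if_neg h4]; ring
    rw [Finset.sum_congr rfl h2, Finset.sum_comm]
    apply Finset.sum_congr rfl
    intro δ _
    rw [← Finset.mul_sum]
    congr 1
    have h3 := alt_interval (I := Finset.range D.rank) (R := g.Rd J (Mt δ)) (A := (g.gateG F).A δ.out) (by rw [hMt]; exact g.Rd_sub δ) ((g.gateG F).A_sub _)
    exact h3
  rw [h1]
  -- the unique double coset
  obtain ⟨M0, hM0, hopp, hpos0⟩ := g.exists_opp (J : Set ℕ)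
  have hn0 : g.nl F M0 ∈ D.group F := by rw [g.gG]; exact g.NN_le_GG (g.nl_mem hM0)
  obtain ⟨δ1, hδ1⟩ : ∃ δ1 : (g.gateG F).DC, δ1 = DoubleCoset.mk (g.gateG F).B (g.gateG F).B ⟨g.nl F M0, hn0⟩ := ⟨_, rfl⟩
  have hty1 : g.Ty ((δ1.out : ↥(D.group F)) : GL D.Idx F) M0 := by
    obtain ⟨b, b', hb, hb', h3⟩ := DoubleCoset.mk_out_eq_mul (g.gateG F).B (g.gateG F).B (⟨g.nl F M0, hn0⟩ : ↥(D.group F))
    rw [← hδ1] at h3
    rw [h3]
    exact ⟨hM0, b, Subgroup.mem_subgroupOf.1 hb, b', Subgroup.mem_subgroupOf.1 hb', rfl⟩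
  have key : ∀ δ : (g.gateG F).DC, (Pd δ ∧ g.Rd J (Mt δ) = (g.gateG F).A δ.out) ↔ δ = δ1 := by
    intro δ
    have hM := g.tyL_spec' (F := F) δ.out
    constructor
    · rintro ⟨h2, h3⟩
      rw [hPd] at h2
      have hO : g.OppW (J : Set ℕ) (Mt δ) := by
        rw [hMt] at h3 ⊢
        refine ⟨fun j hj hjJ => h2.2 j hj (Finset.mem_coe.1 hjJ), ?_⟩
        intro i hi hp
        have h4 : i ∈ (g.gateG F).A δ.out := by
          rw [g.gateG_A, g.mem_asc (le_refl _) hM]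
          exact ⟨Finset.mem_range.2 hi, hp⟩
        rw [← h3] at h4
        obtain ⟨_, j, hj, hjJ, he⟩ := Finset.mem_filter.1 h4
        exact ⟨j, hj, Finset.mem_coe.2 hjJ, he⟩
      apply g.dc_eq
      intro s hs
      have h4 := hO.uniq (by rw [hMt]; exact hM.1) hM0 hopp s hs
      rw [hMt] at h4
      rw [h4]
      exact (hty1.uniq (g.tyL_spec' (F := F) δ1.out) s hs)
    · rintro rfl
      have hu := hty1.uniq hM
      have hC : g.Cd J (Mt δ) := by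
        rw [hMt]
        intro j hj hjJ
        obtain ⟨k, hk, he⟩ := hopp.1 j hj (Finset.mem_coe.2 hjJ)
        exact ⟨k, hk, by rw [← hu _ (g.simple_lt k hk)]; exact he⟩
      refine ⟨?_, ?_⟩
      · rw [hPd]
        refine ⟨?_, by rw [hMt] at hC; exact hC⟩
        rw [g.gateG_A]
        refine (g.sub_asc_inv (le_refl _) hJ hty1).2 ?_
        exact hpos0
      · apply Finset.Subset.antisymm
        · rw [hMt]; exact g.Rd_sub _
        · intro i hi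
          rw [g.gateG_A, g.mem_asc (le_refl _) hty1] at hi
          have hi' := Finset.mem_range.1 hi.1
          obtain ⟨j, hj, hjJ, he⟩ := hopp.2 i hi' hi.2
          rw [hMt]
          refine Finset.mem_filter.2 ⟨hi.1, j, hj, Finset.mem_coe.1 hjJ, ?_⟩
          rw [← hu _ (g.simple_lt i hi')]; exact he
  have h2 : ∑ δ : (g.gateG F).DC, (if Pd δ then (1 : ℂ) else 0) * (if g.Rd J (Mt δ) = (g.gateG F).A δ.out then (-1) ^ (g.Rd J (Mt δ)).card else 0) =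
      (-1) ^ (g.Rd J (Mt δ1)).card := by
    rw [Finset.sum_eq_single δ1]
    · obtain ⟨h3, h4⟩ := (key δ1).2 rfl
      rw [if_pos h3, if_pos h4, one_mul]
    · intro δ _ hne
      by_cases h3 : Pd δ
      · by_cases h4 : g.Rd J (Mt δ) = (g.gateG F).A δ.out
        · exact absurd ((key δ).1 ⟨h3, h4⟩) hne
        · rw [if_neg h4, mul_zero]
      · rw [if_neg h3, zero_mul]
    · intro h; exact absurd (Finset.mem_univ _) h
  rw [h2]
  exact neg_one_pow_eq_or ℂ _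

end Good

end Chv
end CfsgH6
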