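import Cfsg.Agent.H6.St17

set_option autoImplicit false

/-! The Steinberg character at semisimple elements: the theorem. -/

namespace CfsgH6
namespace Stb

theorem card_cent_conj {G : Type*} [Group G] (x y : G) : Nat.card ↥(Subgroup.centralizer ({y⁻¹ * x * y} : Set G)) = Nat.card ↥(Subgroup.centralizer ({x} : Set G)) := by
  apply Nat.card_congr
  refine
    { toFun := fun c => ⟨y * c * y⁻¹, ?_⟩
      invFun := fun c => ⟨y⁻¹ * c * y, ?_⟩
      left_inv := fun c => Subtype.ext (by show y⁻¹ * (y * (c : G) * y⁻¹) * y = c; group)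
      right_inv := fun c => Subtype.ext (by show y * (y⁻¹ * (c : G) * y) * y⁻¹ = c; group) }
  · apply Subgroup.mem_centralizer_singleton_iff.2
    have h := Subgroup.mem_centralizer_singleton_iff.1 c.2
    calc y * (c : G) * y⁻¹ * x = y * ((c : G) * (y⁻¹ * x * y)) * y⁻¹ := by group
      _ = _ := by rw [h]; group
  · apply Subgroup.mem_centralizer_singleton_iff.2
    have h := Subgroup.mem_centralizer_singleton_iff.1 c.2
    calc y⁻¹ * (c : G) * y * (y⁻¹ * x * y) = y⁻¹ * ((c : G) * x) * y := by group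
      _ = _ := by rw [h]; group

/-- the `p`-part of the centralizer order from divisibility -/
theorem ppart_eq {G : Type*} [Group G] [Finite G] {p : ℕ} [Fact p.Prime] {U : Subgroup G} (hU : IsPGroup p U) {x : G}
    (h : ∀ Q : Subgroup G, IsPGroup p Q → x ∈ Subgroup.centralizer (Q : Set G) → Nat.card Q ∣ Nat.card ↥(U ⊓ Subgroup.centralizer {x})) :
    Nat.card ↥(U ⊓ Subgroup.centralizer {x}) = p ^ (Nat.card ↥(Subgroup.centralizer ({x} : Set G))).factorization p := by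
  have hp : p.Prime := Fact.out
  obtain ⟨k, hk⟩ := IsPGroup.iff_card.1 (hU.to_le (inf_le_left : U ⊓ Subgroup.centralizer {x} ≤ U))
  apply Nat.dvd_antisymm
  · rw [hk]
    apply pow_dvd_pow
    have h1 : p ^ k ∣ Nat.card ↥(Subgroup.centralizer ({x} : Set G)) := by
      rw [← hk]
      exact Subgroup.card_dvd_of_le inf_le_right
    exact (hp.pow_dvd_iff_le_factorization Nat.card_pos.ne').1 h1
  · obtain ⟨P⟩ : Nonempty (Sylow p ↥(Subgroup.centralizer ({x} : Set G))) := inferInstance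
    have h1 := h ((P : Subgroup ↥(Subgroup.centralizer ({x} : Set G))).map (Subgroup.centralizer ({x} : Set G)).subtype) (P.isPGroup'.map _) (by
      rw [Subgroup.mem_centralizer_iff]
      rintro _ ⟨y, _, rfl⟩
      exact Subgroup.mem_centralizer_singleton_iff.1 y.2)
    have h2 : Nat.card ↥((P : Subgroup ↥(Subgroup.centralizer ({x} : Set G))).map (Subgroup.centralizer ({x} : Set G)).subtype) = Nat.card P :=
      Nat.card_congr ((P : Subgroup ↥(Subgroup.centralizer ({x} : Set G))).equivMapOfInjective _ (Subgroup.subtype_injective _)).toEquiv.symm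
    rw [h2, P.card_eq_multiplicity] at h1
    exact h1

end Stb

namespace Chv

open Cfsg.Lie CfsgH6.Stb
open scoped Classical

variable {D : ChevalleyDatum} (g : Good D) {F : Type*} [Field F]

namespace Good

theorem st_coset [Finite F] {J : Finset ℕ} (hJ : J ⊆ Finset.range D.rank) {x : ↥(D.group F)}
    (hx : (x : GL D.Idx F) ∈ g.PJ F (J : Set ℕ)) (hani : g.Ani (J : Set ℕ) (x : GL D.Idx F)) :
    ∑ᶠ u : g.UJ F (J : Set ℕ), (g.gateG F).st (x * (u : ↥(D.group F))) = (Nat.card (g.UJ F (J : Set ℕ)) : ℂ) ∨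
    ∑ᶠ u : g.UJ F (J : Set ℕ), (g.gateG F).st (x * (u : ↥(D.group F))) = -(Nat.card (g.UJ F (J : Set ℕ)) : ℂ) := by
  have : Fintype (g.UJ F (J : Set ℕ)) := Fintype.ofFinite _
  have h1 : ∑ᶠ u : g.UJ F (J : Set ℕ), (g.gateG F).st (x * (u : ↥(D.group F))) = (Nat.card (g.UJ F (J : Set ℕ)) : ℂ) *
      ∑ K ∈ (Finset.range D.rank).powerset, (-1 : ℂ) ^ K.card * (Nat.card {δ : (g.gateG F).DC // g.Dcond J K δ} : ℂ) := by
    rw [finsum_eq_sum_of_fintype]
    unfold Gate.st
    rw [Finset.sum_comm, Finset.mul_sum]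
    apply Finset.sum_congr rfl
    intro K hK
    have h2 := g.sum_UJ hJ (Finset.mem_powerset.1 hK) hx hani
    rw [finsum_eq_sum_of_fintype] at h2
    rw [← Finset.mul_sum, h2]
    ring
  rw [h1]
  rcases g.sum_Dcond (F := F) hJ with h | h
  · left; rw [h, mul_one]
  · right; rw [h]; ring

theorem st_int (x : ↥(D.group F)) [Finite F] : ∃ m : ℤ, (g.gateG F).st x = m := by
  unfold Gate.st
  refine ⟨∑ K ∈ (Finset.range D.rank).powerset, (-1 : ℤ) ^ K.card * (Nat.card (MulAction.fixedBy (↥(D.group F) ⧸ (g.gateG F).P K) x) : ℤ), ?_⟩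
  push_cast
  rfl

/-- an anisotropic representative -/
theorem exists_ani (x : ↥(D.group F)) : ∃ (J : Finset ℕ) (y : ↥(D.group F)), J ⊆ Finset.range D.rank ∧
    ((y⁻¹ * x * y : ↥(D.group F)) : GL D.Idx F) ∈ g.PJ F (J : Set ℕ) ∧ g.Ani (J : Set ℕ) ((y⁻¹ * x * y : ↥(D.group F)) : GL D.Idx F) := by
  have hex : ∃ n, ∃ (J : Finset ℕ) (y : ↥(D.group F)), J ⊆ Finset.range D.rank ∧ J.card = n ∧
      ((y⁻¹ * x * y : ↥(D.group F)) : GL D.Idx F) ∈ g.PJ F (J : Set ℕ) := by
    refine ⟨_, Finset.range D.rank, 1, le_refl _, rfl, ?_⟩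
    rw [g.PJ_all, ← g.gG]
    exact (1⁻¹ * x * 1).2
  obtain ⟨J, y, hJ, hc, hm⟩ := Nat.find_spec hex
  refine ⟨J, y, hJ, hm, ?_⟩
  intro z hz J' hJ' hzJ
  have hz' : z ∈ D.group F := by rw [g.gG]; exact g.PJ_le_GG _ hz
  have h1 : ((J.filter (· ∈ J') : Finset ℕ) : Set ℕ) = J' := by
    ext i
    rw [Finset.mem_coe, Finset.mem_filter]
    exact ⟨fun h => h.2, fun h => ⟨Finset.mem_coe.1 (hJ' h), h⟩⟩
  have h2 := Nat.find_min' hex (m := (J.filter (· ∈ J')).card) ⟨J.filter (· ∈ J'), y * ⟨z, hz'⟩, (Finset.filter_subset _ _).trans hJ, rfl, by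
    rw [h1]
    have e1 : (((y * ⟨z, hz'⟩)⁻¹ * x * (y * ⟨z, hz'⟩) : ↥(D.group F)) : GL D.Idx F) = z⁻¹ * ((y⁻¹ * x * y : ↥(D.group F)) : GL D.Idx F) * z := by
      push_cast; group
    rw [e1]; exact hzJ⟩
  rw [← hc] at h2
  have h3 := Finset.eq_of_subset_of_card_le (Finset.filter_subset (· ∈ J') J) h2
  rw [← h1, h3]

include g in
theorem stmt_2312 [Fintype F] {p : ℕ} [Fact p.Prime] (hS : g.SylU F p) (x : ↥(D.group F)) (hx : ¬ p ∣ orderOf x) :
    D.steinbergCharacter F x = ((p ^ (Nat.card ↥(Subgroup.centralizer ({x} : Set ↥(D.group F)))).factorization p : ℕ) : ℂ) ∨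
      D.steinbergCharacter F x = -((p ^ (Nat.card ↥(Subgroup.centralizer ({x} : Set ↥(D.group F)))).factorization p : ℕ) : ℂ) := by
  obtain ⟨J, y, hJ, hm, hani⟩ := g.exists_ani x
  obtain ⟨x0, hx0⟩ : ∃ x0, x0 = y⁻¹ * x * y := ⟨_, rfl⟩
  rw [← hx0] at hm hani
  have h1 : D.steinbergCharacter F x = (g.gateG F).st x0 := by
    rw [g.steinberg_eq, hx0, ← (g.gateG F).st_conj y⁻¹ x, _root_.inv_inv]
  have h2 : Nat.card ↥(Subgroup.centralizer ({x} : Set ↥(D.group F))) = Nat.card ↥(Subgroup.centralizer ({x0} : Set ↥(D.group F))) := by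
    rw [hx0, card_cent_conj]
  have hx0' : ¬ p ∣ orderOf x0 := by
    have h3 : orderOf x0 = orderOf x := by
      have h4 := MulEquiv.orderOf_eq (MulAut.conj y⁻¹) x
      rw [MulAut.conj_apply, _root_.inv_inv, ← hx0] at h4
      exact h4
    rwa [h3]
  rw [h1, h2]
  have hU : IsPGroup p (g.UJ F (J : Set ℕ)) := by
    have h3 : g.RJ F (J : Set ℕ) ≤ g.UU F := by rw [g.RJ_eq]; exact g.XS_mono (fun r _ h => h.1)
    have h4 : IsPGroup p (g.RJ F (J : Set ℕ)) := hS.1.to_le h3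
    have h5 : g.RJ F (J : Set ℕ) ≤ D.group F := by rw [g.gG]; exact h3.trans g.UU_le_GG
    exact h4.of_equiv (Subgroup.subgroupOfEquivOfLe h5).symm
  have hn : x0 ∈ Subgroup.normalizer (g.UJ F (J : Set ℕ) : Set ↥(D.group F)) := by
    rw [Subgroup.mem_normalizer_iff]
    intro u
    constructor
    · exact g.UJ_conj hm u
    · intro h
      have h3 := g.UJ_conj' hm _ h
      have h4 : x0⁻¹ * (x0 * u * x0⁻¹) * x0 = u := by group
      rwa [h4] at h3
  have hvan : ∀ y, p ∣ orderOf y → (g.gateG F).st y = 0 := by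
    intro y hy
    rw [← g.steinberg_eq]
    exact g.stmt_2328 hS y hy
  have h3 := sum_coset (f := (g.gateG F).st) hU hn hx0' (fun y z => (g.gateG F).st_conj z y) hvan
  have hcU : (Nat.card (g.UJ F (J : Set ℕ)) : ℂ) ≠ 0 := by exact_mod_cast Nat.card_pos.ne'
  have h4 : (g.gateG F).st x0 = (Nat.card ↥(g.UJ F (J : Set ℕ) ⊓ Subgroup.centralizer {x0}) : ℂ) ∨
      (g.gateG F).st x0 = -(Nat.card ↥(g.UJ F (J : Set ℕ) ⊓ Subgroup.centralizer {x0}) : ℂ) := by
    rcases g.st_coset hJ hm hani with h | h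
    · left
      rw [h, mul_comm] at h3
      exact (mul_left_cancel₀ hcU h3).symm
    · right
      rw [h] at h3
      apply mul_left_cancel₀ hcU
      rw [← h3]; ring
  have hchar : Cfsg.IsCharacter ↥(D.group F) (g.gateG F).st := by
    rw [← g.steinberg_eq]
    exact CfsgH4.IsIrr.isCharacter g.stmt_2311
  have h5 := ppart_eq hU (x := x0) (by
    intro Q hQ hxQ
    rcases h4 with h | h
    · have h6 := dvd_val hchar hvan hx0' hQ hxQ (m := (Nat.card ↥(g.UJ F (J : Set ℕ) ⊓ Subgroup.centralizer {x0}) : ℤ)) (by rw [h]; push_cast; rfl)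
      exact_mod_cast h6
    · have h6 := dvd_val hchar hvan hx0' hQ hxQ (m := -(Nat.card ↥(g.UJ F (J : Set ℕ) ⊓ Subgroup.centralizer {x0}) : ℤ)) (by rw [h]; push_cast; rfl)
      rw [dvd_neg] at h6
      exact_mod_cast h6)
  rw [h5] at h4
  exact h4

end Good

end Chv
end CfsgH6
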