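import Cfsg.Agent.H6.St21
import Cfsg.Agent.H6.St18

set_option autoImplicit false

/-! The Steinberg character is the only irreducible character of defect zero. -/

namespace CfsgH6
namespace Chv

open Cfsg.Lie CfsgH6.Stb
open scoped Classical

variable {D : ChevalleyDatum} (g : Good D) {F : Type*} [Field F]

namespace Good

theorem cell_of_disj {J : Finset ℕ} (hJ : J ⊆ Finset.range D.rank) {x : ↥(D.group F)} (hx : x ∈ (g.gateG F).P J) (h : (g.gateG F).A x ∩ J = ∅) :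
    ∃ b ∈ g.BB F, ∃ b' ∈ g.BB F, (x : GL D.Idx F) = b * g.nK F (J : Set ℕ) * b' := by
  rw [g.gateG_P, Subgroup.mem_subgroupOf] at hx
  rw [g.gateG_A] at h
  exact (g.desc_cell (le_refl _) hJ).1 ⟨hx, by rw [Finset.disjoint_iff_inter_eq_empty, Finset.inter_comm]; exact h⟩

theorem gh : GH (g.gateG F) where
  mono := by
    intro J hJ K hK
    rw [g.gateG_P, g.gateG_P]
    intro x hx
    exact Subgroup.mem_subgroupOf.2 (g.PJ_mono (by exact_mod_cast hK) (Subgroup.mem_subgroupOf.1 hx))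
  top := by
    rw [g.gateG_P, g.PJ_all, ← g.gG]
    exact Subgroup.subgroupOf_eq_top.2 (le_refl _)
  ex := fun J hJ K hK x => g.gateG_ex hJ hK x
  un := fun J hJ K hK x q hq p hp h1 h2 h3 h4 => g.gateG_un hJ hK x q hq p hp h1 h2 h3 h4
  w := by
    intro J hJ x hx y hy h1 h2
    obtain ⟨b, hb, b', hb', he⟩ := g.cell_of_disj hJ hx h1
    obtain ⟨c, hc, c', hc', he'⟩ := g.cell_of_disj hJ hy h2
    have e1 : c * b⁻¹ ∈ D.group F := by rw [g.gG]; exact g.BB_le_GG (Subgroup.mul_mem _ hc (Subgroup.inv_mem _ hb))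
    have e2 : b'⁻¹ * c' ∈ D.group F := by rw [g.gG]; exact g.BB_le_GG (Subgroup.mul_mem _ (Subgroup.inv_mem _ hb') hc')
    refine ⟨⟨c * b⁻¹, e1⟩, Subgroup.mem_subgroupOf.2 (Subgroup.mul_mem _ hc (Subgroup.inv_mem _ hb)), ⟨b'⁻¹ * c', e2⟩,
      Subgroup.mem_subgroupOf.2 (Subgroup.mul_mem _ (Subgroup.inv_mem _ hb') hc'), ?_⟩
    apply Subtype.ext
    show (y : GL D.Idx F) = c * b⁻¹ * x * (b'⁻¹ * c')
    rw [he, he']; group
  w0 := by
    intro J hJ
    have h1 := g.nK_mem (F := F) (J : Set ℕ)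
    have h2 : g.nK F (J : Set ℕ) ∈ D.group F := by rw [g.gG]; exact g.PJ_le_GG _ h1
    refine ⟨⟨g.nK F (J : Set ℕ), h2⟩, ?_, ?_⟩
    · rw [g.gateG_P]; exact Subgroup.mem_subgroupOf.2 h1
    · rw [g.gateG_A, Finset.inter_comm, ← Finset.disjoint_iff_inter_eq_empty]
      exact ((g.desc_cell (le_refl _) hJ).2 ⟨1, Subgroup.one_mem _, 1, Subgroup.one_mem _, by group⟩).2
  w1 := by
    intro J hJ x hx h
    obtain ⟨b, hb, b', hb', he⟩ := g.cell_of_disj hJ hx h
    have h1 : g.Ty (x : GL D.Idx F) (g.wKL (J : Set ℕ)) := ⟨fun i hi => (g.wKL_lt _ i hi).1, b, hb, b', hb', he⟩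
    rw [g.gateG_A, Finset.inter_comm, ← Finset.disjoint_iff_inter_eq_empty]
    show Disjoint J (g.asc (Finset.range D.rank) (x : GL D.Idx F)⁻¹)
    rw [g.disj_asc (le_refl _) hJ h1.inv]
    intro i hi hiJ
    by_contra hlt
    push Not at hlt
    have hL : ∀ i ∈ g.wKL (J : Set ℕ), i < D.rank := fun i hi => (g.wKL_lt _ i hi).1
    have hrev : ∀ i ∈ (g.wKL (J : Set ℕ)).reverse, i < D.rank ∧ i ∈ (J : Set ℕ) := fun i hi => g.wKL_lt _ i (List.mem_reverse.1 hi)
    have hr := g.wl_lt (fun i hi => (hrev i hi).1) (g.simple_lt i hi)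
    have h2 : g.dg (J : Set ℕ) (g.wl (g.wKL (J : Set ℕ)).reverse (D.simple i)) = 0 := by
      rw [g.dg_wl hrev (g.simple_lt i hi)]; exact g.dg_simple hi hiJ
    have h3 := g.wKL_neg (J : Set ℕ) _ hr hlt h2
    rw [(g.wl_reverse hL (g.simple_lt i hi)).2] at h3
    have := g.simple_ge i hi
    omega

theorem UJ_le_B (J : Finset ℕ) : g.UJ F (J : Set ℕ) ≤ (g.gateG F).B := by
  intro x hx
  have h1 := Subgroup.mem_subgroupOf.1 hx
  rw [g.gateG_B]
  refine Subgroup.mem_subgroupOf.2 (g.UU_le_BB ?_)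
  rw [g.RJ_eq] at h1
  exact g.XS_mono (fun r _ h => h.1) h1

theorem UJ_pgroup {p : ℕ} (hS : g.SylU F p) (J : Finset ℕ) : IsPGroup p (g.UJ F (J : Set ℕ)) := by
  have h3 : g.RJ F (J : Set ℕ) ≤ g.UU F := by rw [g.RJ_eq]; exact g.XS_mono (fun r _ h => h.1)
  have h4 : IsPGroup p (g.RJ F (J : Set ℕ)) := hS.1.to_le h3
  have h5 : g.RJ F (J : Set ℕ) ≤ D.group F := by rw [g.gG]; exact h3.trans g.UU_le_GG
  exact h4.of_equiv (Subgroup.subgroupOfEquivOfLe h5).symm

theorem card_UJ [Fintype F] (J : Finset ℕ) : Nat.card (g.UJ F (J : Set ℕ)) * Fintype.card F ^ g.NK (J : Set ℕ) = Fintype.card F ^ g.N := by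
  have h3 : g.RJ F (J : Set ℕ) ≤ g.UU F := by rw [g.RJ_eq]; exact g.XS_mono (fun r _ h => h.1)
  have h5 : g.RJ F (J : Set ℕ) ≤ D.group F := by rw [g.gG]; exact h3.trans g.UU_le_GG
  rw [← g.card_SK (J : Set ℕ), ← g.RJ_eq]
  congr 1
  exact Nat.card_congr (Subgroup.subgroupOfEquivOfLe h5).toEquiv

theorem res_one [Fintype F] {J : Finset ℕ} (hJ : J ⊆ Finset.range D.rank) :
    ((g.gateG F).res g.gh.mono J hJ).st 1 = (Fintype.card F : ℂ) ^ g.NK (J : Set ℕ) := by
  have h1 := g.gateJ_U hJ (F := F) (u := 1) (Subgroup.one_mem _)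
  have h0 : ((1 : ↥(g.PJ F (J : Set ℕ))) : GL D.Idx F) ∈ g.XS F (g.SK (J : Set ℕ)) := by
    rw [Subgroup.coe_one]; exact Subgroup.one_mem _
  rw [if_pos h0] at h1
  rw [← h1]
  unfold Gate.st
  apply Finset.sum_congr rfl
  intro K hK
  rw [fpc_one, fpc_one, Gate.res_P, g.gateJ_P, g.gateG_P, g.gateG_P]
  congr 2
  show (((g.PJ F (K : Set ℕ)).subgroupOf (D.group F)).relIndex ((g.PJ F (J : Set ℕ)).subgroupOf (D.group F))) =
    (g.PJ F (K : Set ℕ)).relIndex (g.PJ F (J : Set ℕ))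
  rw [Subgroup.relIndex_subgroupOf]
  rw [g.gG]; exact g.PJ_le_GG _

theorem st_one [Fintype F] : (g.gateG F).st 1 = (Fintype.card F : ℂ) ^ g.N := by
  have hN : D.nroots / 2 = g.N := by have := g.hN; omega
  rw [← g.steinberg_eq, g.stmt_2327, hN]

theorem trunc_one [Fintype F] {p : ℕ} [Fact p.Prime] (hS : g.SylU F p) {J : Finset ℕ} (hJ : J ⊆ Finset.range D.rank) :
    trunc ((g.gateG F).P J) (g.UJ F (J : Set ℕ)) (g.gateG F).st 1 = ((g.gateG F).res g.gh.mono J hJ).st 1 := by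
  have hp : p.Prime := Fact.out
  rw [g.res_one hJ]
  unfold trunc
  rw [Finset.sum_eq_single (1 : ↥(g.UJ F (J : Set ℕ)))]
  · rw [Subgroup.coe_one, Subgroup.coe_one, one_mul, g.st_one]
    have h1 := g.card_UJ (F := F) J
    have h2 : (Nat.card (g.UJ F (J : Set ℕ)) : ℂ) ≠ 0 := by exact_mod_cast Nat.card_pos.ne'
    rw [← Nat.cast_pow, ← h1]
    push_cast
    rw [← mul_assoc, inv_mul_cancel₀ h2, one_mul]
  · intro u _ hu
    rw [Subgroup.coe_one, one_mul, ← g.steinberg_eq]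
    apply g.stmt_2328 hS
    obtain ⟨k, hk⟩ := (IsPGroup.iff_orderOf.1 (g.UJ_pgroup hS J)) u
    rw [Subgroup.orderOf_coe, hk]
    apply dvd_pow_self
    rintro rfl
    rw [pow_zero, orderOf_eq_one_iff] at hk
    exact hu hk
  · intro h; exact absurd (Finset.mem_univ _) h

theorem normal_of_UU {N : Subgroup ↥(D.group F)} (hN : N.Normal) (h : g.UJ F ((∅ : Finset ℕ) : Set ℕ) ≤ N) : N = ⊤ := by
  have hU : ∀ y : ↥(D.group F), (y : GL D.Idx F) ∈ g.UU F → y ∈ N := by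
    intro y hy
    apply h
    apply Subgroup.mem_subgroupOf.2
    rw [g.RJ_eq]
    refine g.XS_mono ?_ hy
    intro r hr hp
    refine ⟨hp, ?_⟩
    intro h0
    obtain ⟨i, hi, hc⟩ := g.exists_coef_pos hr hp
    have := g.coef_zero_of_dg hr hp h0 i hi (by simp)
    omega
  rw [eq_top_iff]
  rintro ⟨x, hx⟩ _
  have hx' := hx
  rw [g.gG] at hx'
  have key : ∀ x ∈ g.GG F, ∀ hx : x ∈ D.group F, (⟨x, hx⟩ : ↥(D.group F)) ∈ N := by
    intro x hx
    unfold GG XS at hx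
    induction hx using Subgroup.closure_induction with
    | mem y hy =>
      intro hx
      obtain ⟨r, t, _, hr, rfl⟩ := hy
      by_cases hp : g.N ≤ r
      · exact hU _ (g.xg_mem_UU hp t)
      · push Not at hp
        have hn0 : g.n0 F ∈ D.group F := by rw [g.gG]; exact g.n0_mem
        have h1 : (g.n0 F)⁻¹ * g.xg r t * g.n0 F ∈ g.UU F := by
          unfold n0 UU
          apply g.conj_map_XS' (S := fun r => g.N ≤ r) (T := fun r => r < g.N) g.w0L_lt
          · intro s hs h2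
            by_contra h3
            push Not at h3
            have h4 : g.N ≤ D.neg s := by rw [g.neg_eq s hs]; have := g.hN; omega
            have h5 := g.w0L_neg _ (g.neg_lt hs) h4
            rw [g.wl_neg g.w0L_lt hs, g.neg_eq _ (g.wl_lt g.w0L_lt hs)] at h5
            have := g.wl_lt g.w0L_lt hs
            have := g.hN
            omega
          · exact g.xg_mem (S := fun r => r < g.N) hp t
        have h2 := hU ⟨_, by rw [g.gG]; exact g.UU_le_GG h1⟩ h1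
        have h3 := hN.conj_mem _ h2 ⟨g.n0 F, hn0⟩
        have h4 : (⟨g.n0 F, hn0⟩ : ↥(D.group F)) * ⟨(g.n0 F)⁻¹ * g.xg r t * g.n0 F, by rw [g.gG]; exact g.UU_le_GG h1⟩ * ⟨g.n0 F, hn0⟩⁻¹ = ⟨g.xg r t, hx⟩ := by
          apply Subtype.ext
          show g.n0 F * ((g.n0 F)⁻¹ * g.xg r t * g.n0 F) * (g.n0 F)⁻¹ = g.xg r t
          group
        rwa [h4] at h3
    | one => intro hx; exact N.one_mem
    | mul a b ha hb iha ihb =>
      intro hx
      have ha' : a ∈ D.group F := by rw [g.gG]; exact ha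
      have hb' : b ∈ D.group F := by rw [g.gG]; exact hb
      exact N.mul_mem (iha ha') (ihb hb')
    | inv a ha iha =>
      intro hx
      have ha' : a ∈ D.group F := by rw [g.gG]; exact ha
      exact N.inv_mem (iha ha')
  exact key x hx' hx

include g in
theorem stmt_2318 [Fintype F] {p : ℕ} [Fact p.Prime] (hS : g.SylU F p) (χ : ↥(D.group F) → ℂ) (hχ : Cfsg.IsIrrCharacter ↥(D.group F) χ)
    (hdeg : ∃ d : ℕ, χ 1 = (d : ℂ) ∧ p ^ (Nat.card ↥(D.group F)).factorization p ∣ d) :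
    χ = D.steinbergCharacter F := by
  have hp : p.Prime := Fact.out
  obtain ⟨d, hd, hdvd⟩ := hdeg
  have hc0 : Nat.card ↥(D.group F) ≠ 0 := Nat.card_pos.ne'
  rw [g.steinberg_eq]
  apply g.gh.unique_dz (p := p) (fun J => g.UJ F (J : Set ℕ)) (fun J _ => g.UJ_le_B J) _ (fun J _ => g.UJ_pgroup hS J)
    (fun J hJ => g.trunc_one hS hJ) _ _ (fun N hN h => g.normal_of_UU hN h) hχ
  · intro x hx
    exact CfsgH4.defect_zero_vanish hχ hp (Nat.ordProj_dvd _ _) (Nat.pow_succ_factorization_not_dvd hc0 hp) hd hdvd hx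
  · intro J hJ x hx u hu
    rw [g.gateG_P, Subgroup.mem_subgroupOf] at hx
    exact g.UJ_conj' hx u hu
  · intro x hx
    rw [← g.steinberg_eq]
    exact g.stmt_2328 hS x hx
  · intro x hx
    rw [← g.steinberg_eq]
    have hpos : 0 < p ^ (Nat.card ↥(Subgroup.centralizer ({x} : Set ↥(D.group F)))).factorization p := pow_pos hp.pos _
    have h0 : ((p ^ (Nat.card ↥(Subgroup.centralizer ({x} : Set ↥(D.group F)))).factorization p : ℕ) : ℂ) ≠ 0 := by
      exact_mod_cast hpos.ne'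
    rcases g.stmt_2312 hS x hx with h | h
    · rw [h]; exact h0
    · rw [h]; exact neg_ne_zero.2 h0

end Good

end Chv
end CfsgH6
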