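import Cfsg.Agent.H6.St7
import Cfsg.Agent.H6.ChY5

set_option autoImplicit false

/-! Steinberg's count of the unipotent elements. -/

namespace CfsgH6
namespace Chv

open Cfsg.Lie CfsgH6.Stb
open scoped Classical

variable {D : ChevalleyDatum} (g : Good D) {F : Type*} [Field F]

namespace Good

/-- `U` is a Sylow `p`-subgroup -/
def SylU (F : Type*) [Field F] (p : ℕ) : Prop := IsPGroup p (g.UU F) ∧ ¬ p ∣ (g.UU F).relIndex (g.GG F)

variable {g} in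
theorem sylU_of [Finite F] {γ : MulAut ↥(g.GG F)} (hγ : g.IsInv γ) {p : ℕ} [Fact p.Prime] (hpF : CharP F p) : g.SylU F p := by
  obtain ⟨P, hP⟩ := dat_sylow g hγ hpF
  have hP' : (P : Subgroup ↥(g.GG F)) = (g.UU F).subgroupOf (g.GG F) := hP
  constructor
  · have h1 := P.isPGroup'
    rw [hP'] at h1
    exact h1.of_equiv (Subgroup.subgroupOfEquivOfLe g.UU_le_GG)
  · have h1 := P.not_dvd_index
    rw [hP'] at h1
    exact h1

theorem conj_to_UU [Finite F] {p : ℕ} [Fact p.Prime] (hS : g.SylU F p) {J : Set ℕ} {x : ↥(g.PJ F J)} {k : ℕ} (hx : orderOf x = p ^ k) :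
    ∃ y : ↥(g.PJ F J), ((y * x * y⁻¹ : ↥(g.PJ F J)) : GL D.Idx F) ∈ g.UU F := by
  have := Fintype.ofFinite F
  have hle : g.UU F ≤ g.PJ F J := g.UU_le_BB.trans (g.BB_le_PJ J)
  have h1 : ¬ p ∣ ((g.UU F).subgroupOf (g.PJ F J)).index := by
    intro h
    apply hS.2
    have h2 := Subgroup.relIndex_mul_relIndex (g.UU F) (g.PJ F J) (g.GG F) hle (g.PJ_le_GG J)
    rw [← h2]
    exact Dvd.dvd.mul_right h _
  have h2 : IsPGroup p ((g.UU F).subgroupOf (g.PJ F J)) := hS.1.of_equiv (Subgroup.subgroupOfEquivOfLe hle).symm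
  have h3 : IsPGroup p (Subgroup.zpowers x) := IsPGroup.of_card (n := k) (by rw [Nat.card_zpowers, hx])
  obtain ⟨Q, hQ⟩ := h3.exists_le_sylow
  obtain ⟨y, hy⟩ := MulAction.exists_smul_eq ↥(g.PJ F J) Q (h2.toSylow h1)
  refine ⟨y, ?_⟩
  have h4 : x ∈ (Q : Subgroup _) := hQ (Subgroup.mem_zpowers x)
  have h5 : y * x * y⁻¹ ∈ ((h2.toSylow h1 : Sylow p _) : Subgroup _) := by
    rw [← hy, Sylow.coe_subgroup_smul]
    have := Subgroup.smul_mem_pointwise_smul x (MulAut.conj y) (Q : Subgroup _) h4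
    simpa using this
  exact Subgroup.mem_subgroupOf.1 h5

/-- elements of `p`-power order -/
def uSet (F : Type*) [Field F] (p : ℕ) (J : Set ℕ) : Set ↥(g.PJ F J) := {x | ∃ k : ℕ, orderOf x = p ^ k}

theorem uSet_conj {p : ℕ} {J : Set ℕ} : ∀ x, ∀ u ∈ g.uSet F p J, x * u * x⁻¹ ∈ g.uSet F p J := by
  rintro x u ⟨k, hk⟩
  refine ⟨k, ?_⟩
  rw [← hk]
  have h1 := MulEquiv.orderOf_eq (MulAut.conj x) u
  rwa [MulAut.conj_apply] at h1

theorem st_uSet [Fintype F] {p : ℕ} [Fact p.Prime] (hS : g.SylU F p) {J : Finset ℕ} (hJ : J ⊆ Finset.range D.rank) {u : ↥(g.PJ F (J : Set ℕ))}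
    (hu : u ∈ g.uSet F p (J : Set ℕ)) : (g.gateJ F J hJ).st u = if (u : GL D.Idx F) ∈ g.XS F (g.SK (J : Set ℕ)) then (Fintype.card F : ℂ) ^ g.NK (J : Set ℕ) else 0 := by
  obtain ⟨k, hk⟩ := hu
  obtain ⟨y, hy⟩ := g.conj_to_UU hS hk
  rw [← (g.gateJ F J hJ).st_conj y u, g.gateJ_U hJ hy]
  have h1 : ((y * u * y⁻¹ : ↥(g.PJ F (J : Set ℕ))) : GL D.Idx F) ∈ g.XS F (g.SK (J : Set ℕ)) ↔ (u : GL D.Idx F) ∈ g.XS F (g.SK (J : Set ℕ)) := by
    constructor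
    · intro h
      have h2 := g.RJ_conj (K := (J : Set ℕ)) (Subgroup.inv_mem _ y.2) h
      have h3 : (y : GL D.Idx F)⁻¹ * ((y * u * y⁻¹ : ↥(g.PJ F (J : Set ℕ))) : GL D.Idx F) * (y : GL D.Idx F)⁻¹⁻¹ = (u : GL D.Idx F) := by
        push_cast; group
      rwa [h3] at h2
    · intro h
      exact g.RJ_conj (K := (J : Set ℕ)) y.2 h
  rw [if_congr h1 rfl rfl]

theorem sum_uSet [Fintype F] {p : ℕ} [Fact p.Prime] (hS : g.SylU F p) {J : Finset ℕ} (hJ : J ⊆ Finset.range D.rank) :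
    ∑ᶠ u : g.uSet F p (J : Set ℕ), (g.gateJ F J hJ).st (u : ↥(g.PJ F (J : Set ℕ))) = (Fintype.card F : ℂ) ^ g.N := by
  have : Fintype ↥(g.PJ F (J : Set ℕ)) := Fintype.ofFinite _
  rw [finsum_eq_sum_of_fintype, Finset.sum_congr rfl (fun u _ => g.st_uSet hS hJ u.2)]
  rw [← Finset.sum_filter, Finset.sum_const, nsmul_eq_mul]
  have h1 : (Finset.univ.filter (fun u : g.uSet F p (J : Set ℕ) => ((u : ↥(g.PJ F (J : Set ℕ))) : GL D.Idx F) ∈ g.XS F (g.SK (J : Set ℕ)))).card =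
      Nat.card (g.XS F (g.SK (J : Set ℕ))) := by
    rw [← Fintype.card_subtype, ← Nat.card_eq_fintype_card]
    apply Nat.card_congr
    refine Equiv.ofBijective (fun z => ⟨((z.1 : ↥(g.PJ F (J : Set ℕ))) : GL D.Idx F), z.2⟩) ⟨?_, ?_⟩
    · rintro ⟨⟨⟨a, ha⟩, hu⟩, hz⟩ ⟨⟨⟨a', ha'⟩, hu'⟩, hz'⟩ h
      have h2 : a = a' := congrArg Subtype.val h
      subst h2
      rfl
    · rintro ⟨a, ha⟩
      have h2 : a ∈ g.UU F := g.XS_mono (fun r _ h => h.1) ha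
      have h3 : a ∈ g.PJ F (J : Set ℕ) := g.BB_le_PJ _ (g.UU_le_BB h2)
      have h4 : ∃ k : ℕ, orderOf (⟨a, h3⟩ : ↥(g.PJ F (J : Set ℕ))) = p ^ k := by
        obtain ⟨k, hk⟩ := (IsPGroup.iff_orderOf.1 hS.1) ⟨a, h2⟩
        refine ⟨k, ?_⟩
        rw [← hk, Subgroup.orderOf_mk, Subgroup.orderOf_mk]
      exact ⟨⟨⟨⟨a, h3⟩, h4⟩, ha⟩, rfl⟩
  rw [h1]
  have h2 := g.card_SK (F := F) (J : Set ℕ)
  exact_mod_cast h2

/-- elements of `p`-power order of smaller parabolic subgroups -/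
theorem card_uSet_sub {p : ℕ} {J K : Set ℕ} (h : K ⊆ J) :
    Nat.card {u : g.uSet F p J // (u : ↥(g.PJ F J)) ∈ (g.PJ F K).subgroupOf (g.PJ F J)} = Nat.card (g.uSet F p K) := by
  apply Nat.card_congr
  have hle : g.PJ F K ≤ g.PJ F J := g.PJ_mono h
  refine Equiv.ofBijective (fun z => (⟨⟨((z.1 : ↥(g.PJ F J)) : GL D.Idx F), Subgroup.mem_subgroupOf.1 z.2⟩, ?_⟩ : g.uSet F p K)) ⟨?_, ?_⟩
  · obtain ⟨k, hk⟩ := z.1.2
    refine ⟨k, ?_⟩
    rw [← hk, Subgroup.orderOf_mk, Subgroup.orderOf_coe]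
  · rintro ⟨⟨⟨a, ha⟩, hu⟩, hz⟩ ⟨⟨⟨a', ha'⟩, hu'⟩, hz'⟩ h
    have h2 : a = a' := congrArg (fun z => (z.1 : GL D.Idx F)) h
    subst h2
    rfl
  · rintro ⟨⟨a, ha⟩, ⟨k, hk⟩⟩
    refine ⟨⟨⟨⟨a, hle ha⟩, ⟨k, ?_⟩⟩, Subgroup.mem_subgroupOf.2 ha⟩, rfl⟩
    rw [← hk, Subgroup.orderOf_mk, Subgroup.orderOf_mk]

theorem gateJ_P {J : Finset ℕ} (hJ : J ⊆ Finset.range D.rank) (K : Finset ℕ) :
    (g.gateJ F J hJ).P K = (g.PJ F (K : Set ℕ)).subgroupOf (g.PJ F (J : Set ℕ)) := rfl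
theorem gateJ_B' {J : Finset ℕ} (hJ : J ⊆ Finset.range D.rank) :
    (g.gateJ F J hJ).B = (g.BB F).subgroupOf (g.PJ F (J : Set ℕ)) := rfl
theorem gateJ_A {J : Finset ℕ} (hJ : J ⊆ Finset.range D.rank) (x : ↥(g.PJ F (J : Set ℕ))) :
    (g.gateJ F J hJ).A x = g.asc J (x : GL D.Idx F) := rfl

theorem cell_eq {J K : Finset ℕ} (hJ : J ⊆ Finset.range D.rank) (hK : K ⊆ J) (c : ↥(g.PJ F (J : Set ℕ)) ⧸ (g.gateJ F J hJ).B)
    (n : ↥(g.PJ F (J : Set ℕ))) (hn : (n : GL D.Idx F) = g.nK F (K : Set ℕ)) :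
    (∃ p ∈ (g.gateJ F J hJ).P K, Disjoint K ((g.gateJ F J hJ).A p) ∧ c = QuotientGroup.mk p) ↔
      ∃ b ∈ (g.gateJ F J hJ).B, c = QuotientGroup.mk (b * n) := by
  constructor
  · rintro ⟨p, hp, h3, rfl⟩
    rw [g.gateJ_P, Subgroup.mem_subgroupOf] at hp
    rw [g.gateJ_A] at h3
    obtain ⟨b, hb, b', hb', he⟩ := (g.desc_cell hJ hK).1 ⟨hp, h3⟩
    refine ⟨⟨b, g.BB_le_PJ _ hb⟩, Subgroup.mem_subgroupOf.2 hb, ?_⟩
    rw [QuotientGroup.eq, g.gateJ_B']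
    apply Subgroup.mem_subgroupOf.2
    have e1 : ((p⁻¹ * (⟨b, g.BB_le_PJ _ hb⟩ * n) : ↥(g.PJ F (J : Set ℕ))) : GL D.Idx F) = (p : GL D.Idx F)⁻¹ * (b * g.nK F (K : Set ℕ)) := by
      rw [← hn]; rfl
    rw [e1, he]
    have : (b * g.nK F (K : Set ℕ) * b')⁻¹ * (b * g.nK F (K : Set ℕ)) = b'⁻¹ := by group
    rw [this]
    exact Subgroup.inv_mem _ hb'
  · rintro ⟨b, hb, rfl⟩
    rw [g.gateJ_B', Subgroup.mem_subgroupOf] at hb
    have h3 := (g.desc_cell (I := J) hJ hK (p := (b : GL D.Idx F) * g.nK F (K : Set ℕ))).2 ⟨b, hb, 1, Subgroup.one_mem _, by group⟩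
    rw [← hn] at h3
    exact ⟨b * n, Subgroup.mem_subgroupOf.2 h3.1, h3.2, rfl⟩

theorem index_cell [Fintype F] {J K : Finset ℕ} (hJ : J ⊆ Finset.range D.rank) :
    (((g.XH F (g.SK (K : Set ℕ))).subgroupOf (g.PJ F (J : Set ℕ))).subgroupOf (g.gateJ F J hJ).B).index = Fintype.card F ^ g.NK (K : Set ℕ) := by
  rw [← g.index_SK (F := F), g.gateJ_B']
  exact Subgroup.relIndex_subgroupOf (g.BB_le_PJ _)

theorem index_NK [Fintype F] {J K : Finset ℕ} (hJ : J ⊆ Finset.range D.rank) (hK : K ⊆ J) :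
    Nat.card {c : ↥(g.PJ F (J : Set ℕ)) ⧸ (g.gateJ F J hJ).B // Disjoint K ((g.gateJ F J hJ).Ac c)} =
      ((g.gateJ F J hJ).P K).index * Fintype.card F ^ g.NK (K : Set ℕ) := by
  have hle : g.PJ F (K : Set ℕ) ≤ g.PJ F (J : Set ℕ) := g.PJ_mono (by exact_mod_cast hK)
  obtain ⟨n, hn⟩ : ∃ n : ↥(g.PJ F (J : Set ℕ)), (n : GL D.Idx F) = g.nK F (K : Set ℕ) := ⟨⟨_, hle (g.nK_mem _)⟩, rfl⟩
  rw [(g.gateJ F J hJ).card_desc hK]
  · congr 1
    rw [← g.index_cell (F := F) (K := K) hJ]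
    rw [← cell_card (g.gateJ F J hJ).B ((g.XH F (g.SK (K : Set ℕ))).subgroupOf (g.PJ F (J : Set ℕ))) n]
    · apply Nat.card_congr
      apply Equiv.subtypeEquivRight
      intro c
      exact g.cell_eq hJ hK c n hn
    · intro b hb
      rw [g.gateJ_B', Subgroup.mem_subgroupOf] at hb
      rw [g.gateJ_B', Subgroup.mem_subgroupOf, Subgroup.mem_subgroupOf]
      have e1 : ((n⁻¹ * b * n : ↥(g.PJ F (J : Set ℕ))) : GL D.Idx F) = (g.nK F (K : Set ℕ))⁻¹ * (b : GL D.Idx F) * g.nK F (K : Set ℕ) := by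
        rw [← hn]; rfl
      rw [e1]
      exact g.nK_conj _ hb
  · intro x hx p hp
    rw [g.gateJ_P, Subgroup.mem_subgroupOf] at hp
    exact g.desc_iff hJ hK (g.PJ_le_GG _ x.2) hx hp

theorem card_uSet [Fintype F] {p : ℕ} [Fact p.Prime] (hS : g.SylU F p) : ∀ J : Finset ℕ, J ⊆ Finset.range D.rank →
    (Nat.card (g.uSet F p (J : Set ℕ)) : ℂ) = (Fintype.card F : ℂ) ^ (g.N + g.NK (J : Set ℕ)) := by
  intro J
  induction J using Finset.strongInduction with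
  | H J ih =>
    intro hJ
    have h1 := (g.gateJ F J hJ).st_sum _ (g.uSet_conj (p := p))
    rw [g.sum_uSet hS hJ] at h1
    have h2 := (g.gateJ F J hJ).desc_alt (by
      show g.asc J ((1 : ↥(g.PJ F (J : Set ℕ))) : GL D.Idx F) = J
      have h3 : g.Ty ((1 : ↥(g.PJ F (J : Set ℕ))) : GL D.Idx F) [] := ⟨by simp, 1, Subgroup.one_mem _, 1, Subgroup.one_mem _, by simp [nl_nil]⟩
      ext i
      rw [g.mem_asc hJ h3]
      exact ⟨fun h => h.1, fun h => ⟨h, g.simple_ge i (Finset.mem_range.1 (hJ h))⟩⟩) (by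
      show (g.PJ F (J : Set ℕ)).subgroupOf (g.PJ F (J : Set ℕ)) = ⊤
      exact Subgroup.subgroupOf_self _)
    have h3 : ∀ K ∈ J.powerset, (Nat.card {u : g.uSet F p (J : Set ℕ) // (u : ↥(g.PJ F (J : Set ℕ))) ∈ (g.gateJ F J hJ).P K} : ℂ) =
        (Nat.card (g.uSet F p (K : Set ℕ)) : ℂ) := by
      intro K hK
      congr 1
      exact g.card_uSet_sub (by exact_mod_cast Finset.mem_powerset.1 hK)
    rw [Finset.sum_congr rfl (fun K hK => by rw [h3 K hK])] at h1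
    rw [Finset.sum_congr rfl (fun K hK => by rw [g.index_NK hJ (Finset.mem_powerset.1 hK)])] at h2
    have h4 : J ∈ J.powerset := Finset.mem_powerset_self J
    rw [← Finset.add_sum_erase _ _ h4] at h1 h2
    have h5 : ∀ K ∈ J.powerset.erase J, (-1 : ℂ) ^ K.card * ((((g.gateJ F J hJ).P K).index : ℂ) * (Nat.card (g.uSet F p (K : Set ℕ)) : ℂ)) =
        (Fintype.card F : ℂ) ^ g.N * ((-1 : ℂ) ^ K.card * ((((g.gateJ F J hJ).P K).index * Fintype.card F ^ g.NK (K : Set ℕ) : ℕ) : ℂ)) := by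
      intro K hK
      rw [Finset.mem_erase, Finset.mem_powerset] at hK
      rw [ih K (Finset.ssubset_iff_subset_ne.2 ⟨hK.2, hK.1⟩) (hK.2.trans hJ)]
      push_cast
      ring
    rw [Finset.sum_congr rfl h5, ← Finset.mul_sum] at h1
    have h6 : ((g.gateJ F J hJ).P J).index = 1 := by
      show ((g.PJ F (J : Set ℕ)).subgroupOf (g.PJ F (J : Set ℕ))).index = 1
      rw [Subgroup.subgroupOf_self, Subgroup.index_top]
    rw [h6] at h1 h2
    have h7 : (-1 : ℂ) ^ J.card * (-1 : ℂ) ^ J.card = 1 := by rw [← mul_pow]; norm_num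
    have h8 : (-1 : ℂ) ^ J.card * ((-1 : ℂ) ^ J.card * (Nat.card (g.uSet F p (J : Set ℕ)) : ℂ)) =
        (-1 : ℂ) ^ J.card * ((-1 : ℂ) ^ J.card * (Fintype.card F : ℂ) ^ (g.N + g.NK (J : Set ℕ))) := by
      congr 1
      push_cast at h1 h2
      rw [pow_add]
      linear_combination (-1 : ℂ) * h1 - (Fintype.card F : ℂ) ^ g.N * h2
    rwa [← mul_assoc, h7, one_mul, ← mul_assoc, h7, one_mul] at h8

include g in
theorem stmt_2314 [Fintype F] {p : ℕ} [Fact p.Prime] (hS : g.SylU F p) :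
    Nat.card {x : ↥(D.group F) // ∃ k : ℕ, orderOf x = p ^ k} = Fintype.card F ^ (2 * (D.nroots / 2)) := by
  have h1 := g.card_uSet hS (Finset.range D.rank) (le_refl _)
  have h2 : g.NK ((Finset.range D.rank : Finset ℕ) : Set ℕ) = g.N := by
    unfold NK
    have h3 : (Finset.Ico g.N D.nroots).filter (fun r => g.dg ((Finset.range D.rank : Finset ℕ) : Set ℕ) r = 0) = Finset.Ico g.N D.nroots := by
      apply Finset.filter_true_of_mem
      intro r _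
      unfold dg
      apply Finset.sum_eq_zero
      intro i hi
      rw [if_pos (Finset.mem_coe.2 hi)]
    rw [h3, Nat.card_Ico]
    have := g.hN
    omega
  rw [h2] at h1
  have h3 : D.group F = g.PJ F ((Finset.range D.rank : Finset ℕ) : Set ℕ) := by rw [g.gG, g.PJ_all]
  have h4 : Nat.card {x : ↥(D.group F) // ∃ k : ℕ, orderOf x = p ^ k} = Nat.card (g.uSet F p ((Finset.range D.rank : Finset ℕ) : Set ℕ)) := by
    rw [h3]; rfl
  have hN : 2 * (D.nroots / 2) = g.N + g.N := by have := g.hN; omega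
  rw [h4, hN]
  exact_mod_cast h1

end Good

end Chv
end CfsgH6
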