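import Cfsg.Agent.H6.St8

set_option autoImplicit false

/-! Double cosets of parabolic subgroups. -/

namespace CfsgH6
namespace Chv

open Cfsg.Lie CfsgH6.Stb
open scoped Classical

variable {D : ChevalleyDatum} (g : Good D) {F : Type*} [Field F]

namespace Good

theorem cnt_reverse {L : List ℕ} (hL : ∀ i ∈ L, i < D.rank) : g.cnt L.reverse = g.cnt L := by
  unfold cnt
  have hrev : ∀ i ∈ L.reverse, i < D.rank := fun i hi => hL i (List.mem_reverse.1 hi)
  have hN := g.hN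
  apply Finset.card_bij' (fun r _ => D.neg (g.wl L.reverse r)) (fun r _ => D.neg (g.wl L r))
  · intro r hr
    rw [Finset.mem_filter, Finset.mem_Ico] at hr ⊢
    obtain ⟨⟨h1, h2⟩, h3⟩ := hr
    have h4 := g.wl_lt hrev h2
    refine ⟨⟨g.N_le_neg h4 h3, g.neg_lt h4⟩, ?_⟩
    rw [g.wl_neg hL h4, (g.wl_reverse hL h2).2]
    exact g.neg_lt_N h2 h1
  · intro r hr
    rw [Finset.mem_filter, Finset.mem_Ico] at hr ⊢
    obtain ⟨⟨h1, h2⟩, h3⟩ := hr
    have h4 := g.wl_lt hL h2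
    refine ⟨⟨g.N_le_neg h4 h3, g.neg_lt h4⟩, ?_⟩
    rw [g.wl_neg hrev h4, (g.wl_reverse hL h2).1]
    exact g.neg_lt_N h2 h1
  · intro r hr
    rw [Finset.mem_filter, Finset.mem_Ico] at hr
    obtain ⟨⟨h1, h2⟩, h3⟩ := hr
    show D.neg (g.wl L (D.neg (g.wl L.reverse r))) = r
    rw [g.wl_neg hL (g.wl_lt hrev h2), (g.wl_reverse hL h2).2, g.neg_neg h2]
  · intro r hr
    rw [Finset.mem_filter, Finset.mem_Ico] at hr
    obtain ⟨⟨h1, h2⟩, h3⟩ := hr
    show D.neg (g.wl L.reverse (D.neg (g.wl L r))) = r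
    rw [g.wl_neg hrev (g.wl_lt hL h2), (g.wl_reverse hL h2).1, g.neg_neg h2]

/-- left multiplication by an element of a parabolic subgroup -/
theorem PJ_left_ty {K : Set ℕ} {z y : GL D.Idx F} {M : List ℕ} (hz : z ∈ g.PJ F K) (hy : g.Ty y M) :
    ∃ M', (∀ i ∈ M', i < D.rank ∧ i ∈ K) ∧ g.Ty (z * y) (M' ++ M) := by
  obtain ⟨L, hL, hzL⟩ := g.PJ_right hz
  obtain ⟨hL', b, hb, b', hb', rfl⟩ := hzL
  have h1 : ∀ L : List ℕ, (∀ i ∈ L, i < D.rank ∧ i ∈ K) → ∀ y : GL D.Idx F, g.Ty y M →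
      ∃ M', (∀ i ∈ M', i < D.rank ∧ i ∈ K) ∧ g.Ty (g.nl F L * y) (M' ++ M) := by
    intro L
    induction L with
    | nil => intro _ y hy; exact ⟨[], by simp, by rw [g.nl_nil, one_mul]; exact hy⟩
    | cons i L ih =>
      intro hL y hy
      obtain ⟨M', hM', hL2, c, hc, c', hc', he⟩ := ih (fun x hx => hL x (List.mem_cons_of_mem _ hx)) y hy
      have hi := hL i List.mem_cons_self
      rw [g.nl_cons, mul_assoc, he]
      obtain ⟨b1, hb1, b2, hb2, h | h⟩ := g.bn3 hi.1 (g.nl_mem (F := F) hL2) hc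
      · refine ⟨i :: M', ?_, ?_, b1, hb1, b2 * c', Subgroup.mul_mem _ hb2 hc', ?_⟩
        · intro j hj
          rcases List.mem_cons.1 hj with rfl | hj
          · exact hi
          · exact hM' j hj
        · intro j hj
          rcases List.mem_cons.1 hj with rfl | hj
          · exact hi.1
          · exact hL2 j hj
        · rw [List.cons_append, g.nl_cons, ← mul_assoc, ← mul_assoc, h]; group
      · refine ⟨M', hM', hL2, b1, hb1, b2 * c', Subgroup.mul_mem _ hb2 hc', ?_⟩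
        rw [← mul_assoc, ← mul_assoc, h]; group
  obtain ⟨M', hM', h2⟩ := h1 L hL (b' * y) (by
    have := hy.mul hb' (Subgroup.one_mem _)
    rwa [mul_one] at this)
  refine ⟨M', hM', ?_⟩
  have h3 := h2.mul hb (Subgroup.one_mem _)
  rw [mul_one] at h3
  have h4 : b * g.nl F L * b' * y = b * (g.nl F L * (b' * y)) := by group
  rw [h4]; exact h3

theorem PJ_right_ty {K : Set ℕ} {z y : GL D.Idx F} {M : List ℕ} (hz : z ∈ g.PJ F K) (hy : g.Ty y M) :
    ∃ M', (∀ i ∈ M', i < D.rank ∧ i ∈ K) ∧ g.Ty (y * z) (M ++ M') := by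
  obtain ⟨M', hM', h⟩ := g.PJ_left_ty (Subgroup.inv_mem _ hz) hy.inv
  refine ⟨M'.reverse, fun i hi => hM' i (List.mem_reverse.1 hi), ?_⟩
  have h1 := h.inv
  rw [List.reverse_append, List.reverse_reverse, ← _root_.mul_inv_rev, _root_.inv_inv] at h1
  exact h1

theorem simple_neg_of_cnt {L : List ℕ} (hL : ∀ i ∈ L, i < D.rank) (h : g.cnt L ≠ 0) : ∃ i < D.rank, g.wl L (D.simple i) < g.N := by
  by_contra hcon
  push Not at hcon
  apply h
  unfold cnt
  rw [Finset.card_eq_zero, Finset.filter_eq_empty_iff]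
  intro r hr hlt
  rw [Finset.mem_Ico] at hr
  have := g.wl_all_pos hL hcon r hr.2 hr.1
  omega

theorem dg_wl_refl {K : Set ℕ} {M : List ℕ} (hM : ∀ i ∈ M, i < D.rank) {j r : ℕ} (hj : j < D.rank) (hr : r < D.nroots)
    (h0 : g.dg K (g.wl M (D.simple j)) = 0) : g.dg K (g.wl M (g.w j r)) = g.dg K (g.wl M r) := by
  obtain ⟨m', hm'⟩ := g.wl_lin hM (fun i => if i ∈ K then (0 : ℤ) else 1)
  have h1 : ∀ s < D.nroots, g.dg K (g.wl M s) = ∑ i ∈ Finset.range D.rank, g.coef s i * m' i := by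
    intro s hs
    rw [← hm' s hs]
    unfold dg
    apply Finset.sum_congr rfl
    intro i _
    split_ifs <;> ring
  have h2 : m' j = 0 := by
    rw [h1 _ (g.simple_lt j hj), g.sum_simple m' hj] at h0
    exact h0
  rw [h1 _ (g.w_lt j hj r hr), h1 r hr]
  apply Finset.sum_congr rfl
  intro i hi
  rw [g.coef_w j hj r hr i (Finset.mem_range.1 hi)]
  by_cases hij : j = i
  · subst hij; rw [h2, mul_zero, mul_zero]
  · rw [if_neg hij, sub_zero]

/-- existence of doubly minimal representatives -/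
theorem dbl_ex (J K : Set ℕ) : ∀ m, ∀ (x : GL D.Idx F) (L : List ℕ), g.cnt L = m → g.Ty x L →
    ∃ q ∈ g.PJ F J, ∃ p ∈ g.PJ F K, ∃ M, g.Ty (q * x * p) M ∧ (∀ i < D.rank, i ∈ K → g.N ≤ g.wl M (D.simple i)) ∧
      (∀ i < D.rank, i ∈ J → g.N ≤ g.wl M.reverse (D.simple i)) := by
  intro m
  induction m with
  | zero =>
    intro x L hm hx
    refine ⟨1, Subgroup.one_mem _, 1, Subgroup.one_mem _, L, by rwa [mul_one, one_mul], ?_, ?_⟩
    · intro i hi _
      by_contra hlt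
      push Not at hlt
      have := g.cnt_drop hx.1 hi hlt
      omega
    · intro i hi _
      by_contra hlt
      push Not at hlt
      have := g.cnt_drop hx.inv.1 hi hlt
      rw [g.cnt_reverse hx.1] at this
      omega
  | succ m ih =>
    intro x L hm hx
    by_cases h1 : ∀ i < D.rank, i ∈ K → g.N ≤ g.wl L (D.simple i)
    · by_cases h2 : ∀ i < D.rank, i ∈ J → g.N ≤ g.wl L.reverse (D.simple i)
      · exact ⟨1, Subgroup.one_mem _, 1, Subgroup.one_mem _, L, by rwa [mul_one, one_mul], h1, h2⟩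
      · push Not at h2
        obtain ⟨j, hj, hjJ, hlt⟩ := h2
        have h3 := g.cnt_drop hx.inv.1 hj hlt
        rw [g.cnt_reverse hx.1] at h3
        obtain ⟨b, hb, h4⟩ := g.ty_nn hx.inv hj
        have h5 := h4.inv
        have h6 : (x⁻¹ * (b * g.nn j))⁻¹ = (b * g.nn j)⁻¹ * x := by group
        rw [h6] at h5
        obtain ⟨q, hq, p, hp, M, hM, h7, h8⟩ := ih _ _ (by rw [g.cnt_reverse h4.1]; omega) h5
        refine ⟨q * (b * g.nn j)⁻¹, Subgroup.mul_mem _ hq (Subgroup.inv_mem _ (Subgroup.mul_mem _ (g.BB_le_PJ J hb) (g.nn_mem_PJ hjJ hj))), p, hp, M, ?_, h7, h8⟩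
        rwa [mul_assoc q]
    · push Not at h1
      obtain ⟨j, hj, hjK, hlt⟩ := h1
      have h3 := g.cnt_drop hx.1 hj hlt
      obtain ⟨b, hb, h4⟩ := g.ty_nn hx hj
      obtain ⟨q, hq, p, hp, M, hM, h7, h8⟩ := ih _ _ (by omega) h4
      refine ⟨q, hq, b * g.nn j * p, Subgroup.mul_mem _ (Subgroup.mul_mem _ (g.BB_le_PJ K hb) (g.nn_mem_PJ hjK hj)) hp, M, ?_, h7, h8⟩
      have h5 : q * x * (b * g.nn j * p) = q * (x * (b * g.nn j)) * p := by group
      rwa [h5]

theorem dbl_un_aux {J K : Set ℕ} {L M : List ℕ} (hL : ∀ i ∈ L, i < D.rank) (hM : ∀ i ∈ M, i < D.rank)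
    (hLJ : ∀ i < D.rank, i ∈ J → g.N ≤ g.wl L.reverse (D.simple i)) (hMJ : ∀ i < D.rank, i ∈ J → g.N ≤ g.wl M.reverse (D.simple i)) :
    ∀ m, ∀ La : List ℕ, g.cnt La.reverse = m → (∀ i ∈ La, i < D.rank ∧ i ∈ J) →
      (∀ r < D.nroots, g.dg K (g.wl M.reverse r) = g.dg K (g.wl L.reverse (g.wl La.reverse r))) →
      ∀ r < D.nroots, g.dg K (g.wl M.reverse r) = g.dg K (g.wl L.reverse r) := by
  have hLr : ∀ i ∈ L.reverse, i < D.rank := fun i hi => hL i (List.mem_reverse.1 hi)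
  have hMr : ∀ i ∈ M.reverse, i < D.rank := fun i hi => hM i (List.mem_reverse.1 hi)
  intro m
  induction m with
  | zero =>
    intro La hm hLa h r hr
    have hLar : ∀ i ∈ La.reverse, i < D.rank := fun i hi => (hLa i (List.mem_reverse.1 hi)).1
    rw [h r hr, g.wl_eq_of_pos hLar _ hr]
    intro s hs hp
    by_contra hlt
    push Not at hlt
    unfold cnt at hm
    rw [Finset.card_eq_zero, Finset.filter_eq_empty_iff] at hm
    exact hm (Finset.mem_Ico.2 ⟨hp, hs⟩) hlt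
  | succ m ih =>
    intro La hm hLa h
    have hLar : ∀ i ∈ La.reverse, i < D.rank ∧ i ∈ J := fun i hi => hLa i (List.mem_reverse.1 hi)
    have hLar' : ∀ i ∈ La.reverse, i < D.rank := fun i hi => (hLar i hi).1
    obtain ⟨j, hj, hlt⟩ := g.simple_neg_of_cnt hLar' (by omega)
    have hsj := g.simple_lt j hj
    have hd := g.wl_J_pos hLar hsj (g.simple_ge j hj) hlt
    have hjJ : j ∈ J := by
      by_contra hjJ
      rw [g.dg_simple_out hj hjJ] at hd
      exact one_ne_zero hd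
    have hs := g.wl_lt hLar' hsj
    have hds : g.dg J (g.wl La.reverse (D.simple j)) = 0 := by rw [g.dg_wl hLar hsj, hd]
    have h1 := g.wl_pos_J hLr hLJ _ (g.neg_lt hs) (g.N_le_neg hs hlt) (by rw [g.dg_neg hs, hds, neg_zero])
    have h2 := g.dg_nonneg (J := K) (g.wl_lt hLr (g.neg_lt hs)) h1
    rw [g.wl_neg hLr hs, g.dg_neg (g.wl_lt hLr hs), ← h _ hsj] at h2
    have h3 := g.dg_nonneg (J := K) (g.wl_lt hMr hsj) (hMJ j hj hjJ)
    have h0 : g.dg K (g.wl M.reverse (D.simple j)) = 0 := by omega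
    apply ih (j :: La)
    · rw [List.reverse_cons]
      have := g.cnt_drop hLar' hj hlt
      omega
    · intro i hi
      rcases List.mem_cons.1 hi with rfl | hi
      · exact ⟨hj, hjJ⟩
      · exact hLa i hi
    · intro r hr
      rw [List.reverse_cons, g.wl_append]
      show _ = g.dg K (g.wl L.reverse (g.wl La.reverse (g.w j r)))
      rw [← h _ (g.w_lt j hj r hr), g.dg_wl_refl hMr hj hr h0]

/-- uniqueness of doubly minimal representatives -/
theorem dbl_un {J K : Set ℕ} {x q p : GL D.Idx F} {L M : List ℕ} (hx : g.Ty x L) (hq : q ∈ g.PJ F J) (hp : p ∈ g.PJ F K)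
    (hy : g.Ty (q * x * p) M) (hLK : ∀ i < D.rank, i ∈ K → g.N ≤ g.wl L (D.simple i)) (hLJ : ∀ i < D.rank, i ∈ J → g.N ≤ g.wl L.reverse (D.simple i))
    (hMK : ∀ i < D.rank, i ∈ K → g.N ≤ g.wl M (D.simple i)) (hMJ : ∀ i < D.rank, i ∈ J → g.N ≤ g.wl M.reverse (D.simple i)) :
    ∃ b ∈ g.BB F, ∃ b' ∈ g.BB F, q * x * p = b * x * b' := by
  obtain ⟨La, hLa, h1⟩ := g.PJ_left_ty hq hx
  obtain ⟨Lv, hLv, h2⟩ := g.PJ_right_ty hp h1
  have hL := hx.1
  have hM := hy.1
  have hLr : ∀ i ∈ L.reverse, i < D.rank := fun i hi => hL i (List.mem_reverse.1 hi)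
  have hMr : ∀ i ∈ M.reverse, i < D.rank := fun i hi => hM i (List.mem_reverse.1 hi)
  have hLvr : ∀ i ∈ Lv.reverse, i < D.rank ∧ i ∈ K := fun i hi => hLv i (List.mem_reverse.1 hi)
  have hLar : ∀ i ∈ La.reverse, i < D.rank := fun i hi => (hLa i (List.mem_reverse.1 hi)).1
  have h3 := hy.inv.uniq h2.inv
  have h4 : ∀ r < D.nroots, g.dg K (g.wl M.reverse r) = g.dg K (g.wl L.reverse (g.wl La.reverse r)) := by
    intro r hr
    rw [h3 r hr, List.reverse_append, List.reverse_append, g.wl_append, g.wl_append]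
    exact g.dg_wl hLvr (g.wl_lt hLr (g.wl_lt hLar hr))
  have h5 := g.dbl_un_aux hL hM hLJ hMJ _ La rfl hLa h4
  have h6 : ∀ s < D.nroots, g.wl M s = g.wl L s := by
    intro s hs
    have hLM : ∀ i ∈ L.reverse ++ M, i < D.rank := by
      intro i hi
      rcases List.mem_append.1 hi with h | h
      · exact hLr i h
      · exact hM i h
    have hpos : ∀ r < D.nroots, g.N ≤ r → g.N ≤ g.wl (L.reverse ++ M) r := by
      apply g.wl_all_pos hLM
      intro i hi
      rw [g.wl_append]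
      have hsi := g.simple_lt i hi
      have hMi := g.wl_lt hM hsi
      have h7 : g.dg K (g.wl L.reverse (g.wl M (D.simple i))) = g.dg K (D.simple i) := by
        rw [← h5 _ hMi, (g.wl_reverse hM hsi).1]
      by_cases hiK : i ∈ K
      · rw [g.dg_simple hi hiK] at h7
        by_contra hlt
        push Not at hlt
        have ht := g.wl_lt hLr hMi
        have h8 := g.wl_pos_J hL hLK _ (g.neg_lt ht) (g.N_le_neg ht hlt) (by rw [g.dg_neg ht, h7, neg_zero])
        rw [g.wl_neg hL ht, (g.wl_reverse hL hMi).2] at h8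
        have h9 := g.neg_lt_N hMi (hMK i hi hiK)
        omega
      · rw [g.dg_simple_out hi hiK] at h7
        exact g.dg_pos (J := K) (g.wl_lt hLr hMi) (by omega)
    exact g.wl_eq_of_rev hL hM (fun r hr hp => by
      have := hpos r hr hp
      rwa [g.wl_append] at this) hs
  obtain ⟨_, b, hb, b', hb', he⟩ := hy.congr hL h6
  obtain ⟨_, c, hc, c', hc', he'⟩ := hx
  refine ⟨b * c⁻¹, Subgroup.mul_mem _ hb (Subgroup.inv_mem _ hc), c'⁻¹ * b', Subgroup.mul_mem _ (Subgroup.inv_mem _ hc') hb', ?_⟩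
  rw [he, he']; group

end Good

end Chv
end CfsgH6
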