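import Cfsg.Agent.H6.PSLGood

set_option autoImplicit false

/-! Uniqueness in the Bruhat decomposition of `SL_m(F)` and fixed points of automorphisms. -/

namespace CfsgH6

open Matrix

variable {F : Type*} [Field F] {m : ℕ}

theorem mono_inv {π : Equiv.Perm (Fin m)} {w : Matrix.SpecialLinearGroup (Fin m) F} (hw : IsMono π w)
    (a b : Fin m) : ((w⁻¹ : Matrix.SpecialLinearGroup (Fin m) F) : Matrix (Fin m) (Fin m) F) a b =
      if b = π a then ((w : Matrix (Fin m) (Fin m) F) (π a) a)⁻¹ else 0 := by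
  have h1 : ((w⁻¹ * w : Matrix.SpecialLinearGroup (Fin m) F) : Matrix (Fin m) (Fin m) F) a (π.symm b) =
      (1 : Matrix (Fin m) (Fin m) F) a (π.symm b) := by
    rw [inv_mul_cancel]; simp
  rw [Matrix.SpecialLinearGroup.coe_mul, Matrix.mul_apply, Finset.sum_eq_single b] at h1
  · have h2 := mono_ne_zero hw (π.symm b)
    rw [Equiv.apply_symm_apply] at h2
    rw [Matrix.one_apply] at h1
    split_ifs with h
    · subst h
      rw [Equiv.symm_apply_apply, if_pos rfl] at h1
      rw [Equiv.symm_apply_apply] at h2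
      exact eq_inv_of_mul_eq_one_left h1
    · rw [if_neg] at h1
      · exact (mul_eq_zero.1 h1).resolve_right h2
      · rintro rfl
        exact h (by simp)
  · intro k _ hk
    rw [hw k (π.symm b) (by simpa using hk), mul_zero]
  · simp

theorem mono_mul_apply {π : Equiv.Perm (Fin m)} {w : Matrix.SpecialLinearGroup (Fin m) F} (hw : IsMono π w)
    (g : Matrix (Fin m) (Fin m) F) (a b : Fin m) :
    ((w : Matrix (Fin m) (Fin m) F) * g) (π a) b = (w : Matrix (Fin m) (Fin m) F) (π a) a * g a b := by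
  rw [Matrix.mul_apply, Finset.sum_eq_single a]
  · intro k _ hk
    rw [hw (π a) k (fun h => hk (π.injective h).symm), zero_mul]
  · simp

theorem mul_mono_apply {π : Equiv.Perm (Fin m)} {w : Matrix.SpecialLinearGroup (Fin m) F} (hw : IsMono π w)
    (g : Matrix (Fin m) (Fin m) F) (a b : Fin m) :
    (g * (w : Matrix (Fin m) (Fin m) F)) a b = g a (π b) * (w : Matrix (Fin m) (Fin m) F) (π b) b := by
  rw [Matrix.mul_apply, Finset.sum_eq_single (π b)]
  · intro k _ hk
    rw [hw k b hk, mul_zero]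
  · simp

/-- entries of a conjugate by a monomial element -/
theorem mono_conj_apply {π : Equiv.Perm (Fin m)} {w : Matrix.SpecialLinearGroup (Fin m) F} (hw : IsMono π w)
    (g : Matrix.SpecialLinearGroup (Fin m) F) (a b : Fin m) :
    ((w * g * w⁻¹ : Matrix.SpecialLinearGroup (Fin m) F) : Matrix (Fin m) (Fin m) F) (π a) (π b) =
      (w : Matrix (Fin m) (Fin m) F) (π a) a * (g : Matrix (Fin m) (Fin m) F) a b *
        ((w : Matrix (Fin m) (Fin m) F) (π b) b)⁻¹ := by
  have h1 : w * g = (w * g * w⁻¹) * w := by group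
  have h2 := congrArg (fun x : Matrix.SpecialLinearGroup (Fin m) F =>
    (x : Matrix (Fin m) (Fin m) F) (π a) b) h1
  simp only [Matrix.SpecialLinearGroup.coe_mul (w * g * w⁻¹) w] at h2
  rw [mul_mono_apply hw, Matrix.SpecialLinearGroup.coe_mul w g, mono_mul_apply hw] at h2
  rw [h2, mul_inv_cancel_right₀ (mono_ne_zero hw b)]

theorem mono_conj_apply' {π : Equiv.Perm (Fin m)} {w : Matrix.SpecialLinearGroup (Fin m) F} (hw : IsMono π w)
    (g : Matrix.SpecialLinearGroup (Fin m) F) (a b : Fin m) :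
    ((w⁻¹ * g * w : Matrix.SpecialLinearGroup (Fin m) F) : Matrix (Fin m) (Fin m) F) a b =
      ((w : Matrix (Fin m) (Fin m) F) (π a) a)⁻¹ * (g : Matrix (Fin m) (Fin m) F) (π a) (π b) *
        (w : Matrix (Fin m) (Fin m) F) (π b) b := by
  have h1 : w * (w⁻¹ * g * w) * w⁻¹ = g := by group
  have h2 := mono_conj_apply hw (w⁻¹ * g * w) a b
  rw [h1] at h2
  have ha := mono_ne_zero hw a
  have hb := mono_ne_zero hw b
  generalize ((w⁻¹ * g * w : Matrix.SpecialLinearGroup (Fin m) F) : Matrix (Fin m) (Fin m) F) a b = X at h2 ⊢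
  rw [h2]
  field_simp

theorem perm_eq_one_of_le {π : Equiv.Perm (Fin m)} (h : ∀ j, π j ≤ j) : π = 1 := by
  apply Equiv.ext
  intro j
  obtain ⟨j, hj⟩ := j
  induction j using Nat.strong_induction_on with
  | _ j ih =>
    have h1 := h ⟨j, hj⟩
    rcases h1.lt_or_eq with h2 | h2
    · exfalso
      have h3 : ((π ⟨j, hj⟩ : Fin m) : ℕ) < j := h2
      have h4 := ih _ h3 (π ⟨j, hj⟩).isLt
      have h5 : π (π ⟨j, hj⟩) = π ⟨j, hj⟩ := h4
      have h6 := π.injective h5
      rw [h6] at h2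
      exact absurd h2 (lt_irrefl _)
    · exact h2

theorem mono_unique {π π' : Equiv.Perm (Fin m)} {w w' : Matrix.SpecialLinearGroup (Fin m) F}
    (hw : IsMono π w) (hw' : IsMono π' w') {u v : Matrix.SpecialLinearGroup (Fin m) F}
    (hu : u ∈ UU m F) (hv : v ∈ UU m F) (h : u * w = w' * v) : π = π' ∧ w = w' := by
  have key : ∀ j b, (u : Matrix (Fin m) (Fin m) F) (π' b) (π j) * (w : Matrix (Fin m) (Fin m) F) (π j) j =
      (w' : Matrix (Fin m) (Fin m) F) (π' b) b * (v : Matrix (Fin m) (Fin m) F) b j := by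
    intro j b
    have h1 := congrArg (fun x : Matrix.SpecialLinearGroup (Fin m) F =>
      (x : Matrix (Fin m) (Fin m) F) (π' b) j) h
    simp only [Matrix.SpecialLinearGroup.coe_mul] at h1
    rw [mul_mono_apply hw, mono_mul_apply hw'] at h1
    exact h1
  have hle : ∀ j, (π'.symm (π j)) ≤ j := by
    intro j
    have h1 := key j (π'.symm (π j))
    rw [Equiv.apply_symm_apply, hu.1, one_mul] at h1
    by_contra hlt
    rw [hv.2 _ _ (not_le.1 hlt), mul_zero] at h1
    exact mono_ne_zero hw j h1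
  have hππ : π = π' := by
    have h1 : (π.trans π'.symm) = 1 := perm_eq_one_of_le hle
    ext j
    have h2 := DFunLike.congr_fun h1 j
    simp only [Equiv.trans_apply, Equiv.Perm.coe_one, id_eq] at h2
    rw [← Equiv.apply_symm_apply π' (π j), h2]
  subst hππ
  refine ⟨rfl, ?_⟩
  apply Subtype.ext
  ext i j
  by_cases hi : i = π j
  · subst hi
    have h1 := key j j
    rw [hu.1, hv.1, one_mul, mul_one] at h1
    exact h1
  · rw [hw i j hi, hw' i j hi]

/-- the part of `UU` moved to `LL` by a monomial element -/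
def AS (w : Matrix.SpecialLinearGroup (Fin m) F) : Subgroup (Matrix.SpecialLinearGroup (Fin m) F) :=
  UU m F ⊓ (LL m F).comap (MulAut.conj w⁻¹).toMonoidHom

/-- the part of `UU` kept in `UU` by a monomial element -/
def BS (w : Matrix.SpecialLinearGroup (Fin m) F) : Subgroup (Matrix.SpecialLinearGroup (Fin m) F) :=
  UU m F ⊓ (UU m F).comap (MulAut.conj w⁻¹).toMonoidHom

theorem mem_AS {w u : Matrix.SpecialLinearGroup (Fin m) F} :
    u ∈ AS w ↔ u ∈ UU m F ∧ w⁻¹ * u * w ∈ LL m F := by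
  unfold AS
  rw [Subgroup.mem_inf, Subgroup.mem_comap]
  have : (MulAut.conj w⁻¹).toMonoidHom u = w⁻¹ * u * w := by
    show w⁻¹ * u * w⁻¹⁻¹ = _
    rw [inv_inv]
  rw [this]

theorem mem_BS {w u : Matrix.SpecialLinearGroup (Fin m) F} :
    u ∈ BS w ↔ u ∈ UU m F ∧ w⁻¹ * u * w ∈ UU m F := by
  unfold BS
  rw [Subgroup.mem_inf, Subgroup.mem_comap]
  have : (MulAut.conj w⁻¹).toMonoidHom u = w⁻¹ * u * w := by
    show w⁻¹ * u * w⁻¹⁻¹ = _
    rw [inv_inv]
  rw [this]

theorem UU_inf_LL {g : Matrix.SpecialLinearGroup (Fin m) F} (h1 : g ∈ UU m F) (h2 : g ∈ LL m F) :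
    g = 1 := by
  apply Subtype.ext
  ext i j
  rw [Matrix.SpecialLinearGroup.coe_one, Matrix.one_apply]
  split_ifs with h
  · subst h; exact h1.1 i
  · rcases lt_or_gt_of_ne h with h | h
    · exact LL_zero h2 h
    · exact h1.2 i j h

theorem mem_AS_iff {π : Equiv.Perm (Fin m)} {w : Matrix.SpecialLinearGroup (Fin m) F} (hw : IsMono π w)
    {u : Matrix.SpecialLinearGroup (Fin m) F} :
    u ∈ AS w ↔ u ∈ UU m F ∧ ∀ i j, i < j → ¬ (π.symm j < π.symm i) → (u : Matrix (Fin m) (Fin m) F) i j = 0 := by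
  rw [mem_AS]
  refine and_congr_right fun hu => ?_
  constructor
  · intro h i j hij hn
    have h1 : π.symm i < π.symm j := lt_of_le_of_ne (not_lt.1 hn) (fun h => hij.ne (π.symm.injective h))
    have h2 := LL_zero h h1
    rw [mono_conj_apply' hw, Equiv.apply_symm_apply, Equiv.apply_symm_apply] at h2
    have h3 := mono_ne_zero hw (π.symm i)
    have h4 := mono_ne_zero hw (π.symm j)
    rw [Equiv.apply_symm_apply] at h3 h4
    rcases mul_eq_zero.1 h2 with h5 | h5
    · rcases mul_eq_zero.1 h5 with h6 | h6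
      · exact absurd h6 (inv_ne_zero h3)
      · exact h6
    · exact absurd h5 h4
  · intro h
    rw [mem_LL']
    refine ⟨fun a => ?_, fun a b hab => ?_⟩
    · rw [Matrix.transpose_apply, mono_conj_apply' hw, hu.1, mul_one, inv_mul_cancel₀ (mono_ne_zero hw a)]
    · rw [Matrix.transpose_apply, mono_conj_apply' hw]
      have : (u : Matrix (Fin m) (Fin m) F) (π b) (π a) = 0 := by
        rcases lt_trichotomy (π b) (π a) with h1 | h1 | h1
        · apply h _ _ h1
          simpa using hab.le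
        · exact absurd (π.injective h1) hab.ne
        · exact hu.2 _ _ h1
      rw [this, mul_zero, zero_mul]

theorem mem_BS_iff {π : Equiv.Perm (Fin m)} {w : Matrix.SpecialLinearGroup (Fin m) F} (hw : IsMono π w)
    {u : Matrix.SpecialLinearGroup (Fin m) F} :
    u ∈ BS w ↔ u ∈ UU m F ∧ ∀ i j, i < j → ¬ ¬ (π.symm j < π.symm i) → (u : Matrix (Fin m) (Fin m) F) i j = 0 := by
  rw [mem_BS]
  refine and_congr_right fun hu => ?_
  constructor
  · intro h i j hij hn
    have h1 := not_not.1 hn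
    have h2 := h.2 _ _ h1
    rw [mono_conj_apply' hw, Equiv.apply_symm_apply, Equiv.apply_symm_apply] at h2
    have h3 := mono_ne_zero hw (π.symm i)
    have h4 := mono_ne_zero hw (π.symm j)
    rw [Equiv.apply_symm_apply] at h3 h4
    rcases mul_eq_zero.1 h2 with h5 | h5
    · rcases mul_eq_zero.1 h5 with h6 | h6
      · exact absurd h6 (inv_ne_zero h3)
      · exact h6
    · exact absurd h5 h4
  · intro h
    refine ⟨fun a => ?_, fun a b hab => ?_⟩
    · rw [mono_conj_apply' hw, hu.1, mul_one, inv_mul_cancel₀ (mono_ne_zero hw a)]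
    · rw [mono_conj_apply' hw]
      have : (u : Matrix (Fin m) (Fin m) F) (π a) (π b) = 0 := by
        rcases lt_trichotomy (π a) (π b) with h1 | h1 | h1
        · apply h _ _ h1
          simpa using hab
        · exact absurd (π.injective h1) hab.ne'
        · exact hu.2 _ _ h1
      rw [this, mul_zero, zero_mul]

/-- unitriangular matrices with a given pattern -/
def patEquiv (P : Fin m → Fin m → Prop) [∀ i j, Decidable (P i j)] :
    {u : Matrix.SpecialLinearGroup (Fin m) F // u ∈ UU m F ∧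
      ∀ i j, i < j → ¬ P i j → (u : Matrix (Fin m) (Fin m) F) i j = 0} ≃
    ({x : Fin m × Fin m // x.1 < x.2 ∧ P x.1 x.2} → F) where
  toFun u x := (u.1 : Matrix (Fin m) (Fin m) F) x.1.1 x.1.2
  invFun f := ⟨⟨Matrix.of fun i j => if i = j then 1 else if h : i < j ∧ P i j then f ⟨(i, j), h⟩ else 0,
      isUU_det ⟨fun i => by simp, fun i j hij => by
        rw [Matrix.of_apply, if_neg hij.ne', dif_neg]
        rintro ⟨h, _⟩
        exact absurd h hij.not_gt⟩⟩,
    ⟨fun i => by simp, fun i j hij => by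
        show (Matrix.of _) i j = 0
        rw [Matrix.of_apply, if_neg hij.ne', dif_neg]
        rintro ⟨h, _⟩
        exact absurd h hij.not_gt⟩, fun i j hij hP => by
      show (Matrix.of _) i j = 0
      rw [Matrix.of_apply, if_neg hij.ne, dif_neg]
      rintro ⟨_, h⟩
      exact hP h⟩
  left_inv := by
    rintro ⟨u, hu, hP⟩
    apply Subtype.ext
    apply Subtype.ext
    ext i j
    show (Matrix.of _) i j = _
    rw [Matrix.of_apply]
    split_ifs with h1 h2
    · subst h1; exact (hu.1 i).symm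
    · rfl
    · rcases lt_or_gt_of_ne h1 with h3 | h3
      · refine (hP i j h3 ?_).symm
        intro h4; exact h2 ⟨h3, h4⟩
      · exact (hu.2 i j h3).symm
  right_inv := by
    intro f
    ext ⟨⟨i, j⟩, h⟩
    show (Matrix.of _) i j = _
    rw [Matrix.of_apply, if_neg h.1.ne, dif_pos h]

theorem card_pat [Finite F] (P : Fin m → Fin m → Prop) [∀ i j, Decidable (P i j)] :
    Nat.card {u : Matrix.SpecialLinearGroup (Fin m) F // u ∈ UU m F ∧
      ∀ i j, i < j → ¬ P i j → (u : Matrix (Fin m) (Fin m) F) i j = 0} =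
    Nat.card F ^ (Finset.univ.filter fun x : Fin m × Fin m => x.1 < x.2 ∧ P x.1 x.2).card := by
  rw [Nat.card_congr (patEquiv P), Nat.card_fun]
  congr 1
  rw [Nat.card_eq_fintype_card, Fintype.card_subtype]

theorem UU_factor [Finite F] {π : Equiv.Perm (Fin m)} {w : Matrix.SpecialLinearGroup (Fin m) F}
    (hw : IsMono π w) {u : Matrix.SpecialLinearGroup (Fin m) F} (hu : u ∈ UU m F) :
    ∃ a ∈ AS w, ∃ b ∈ BS w, u = a * b := by
  have hA : Nat.card (AS w) = Nat.card F ^ (Finset.univ.filter fun x : Fin m × Fin m =>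
      x.1 < x.2 ∧ (π.symm x.2 < π.symm x.1)).card := by
    rw [← card_pat (F := F) (fun i j => π.symm j < π.symm i)]
    exact Nat.card_congr (Equiv.subtypeEquivRight fun u => mem_AS_iff hw)
  have hB : Nat.card (BS w) = Nat.card F ^ (Finset.univ.filter fun x : Fin m × Fin m =>
      x.1 < x.2 ∧ ¬ (π.symm x.2 < π.symm x.1)).card := by
    rw [← card_pat (F := F) (fun i j => ¬ (π.symm j < π.symm i))]
    exact Nat.card_congr (Equiv.subtypeEquivRight fun u => mem_BS_iff hw)
  have hUc : Nat.card (UU m F) = Nat.card F ^ (Finset.univ.filter fun x : Fin m × Fin m =>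
      x.1 < x.2 ∧ True).card := by
    rw [← card_pat (F := F) (fun _ _ => True)]
    refine Nat.card_congr (Equiv.subtypeEquivRight fun u => ?_)
    constructor
    · intro h; exact ⟨h, fun i j _ h => absurd trivial h⟩
    · intro h; exact h.1
  have hcard : Nat.card (AS w × BS w) = Nat.card (UU m F) := by
    rw [Nat.card_prod, hA, hB, hUc, ← pow_add]
    congr 1
    rw [← Finset.filter_filter, ← Finset.filter_filter, Finset.card_filter_add_card_filter_not]
    simp
  let f : AS w × BS w → UU m F := fun x => ⟨x.1.1 * x.2.1, (UU m F).mul_mem (mem_AS.1 x.1.2).1 (mem_BS.1 x.2.2).1⟩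
  have hinj : Function.Injective f := by
    rintro ⟨⟨a, ha⟩, ⟨b, hb⟩⟩ ⟨⟨a', ha'⟩, ⟨b', hb'⟩⟩ h
    have h1 : a * b = a' * b' := congrArg Subtype.val h
    have h2 : a'⁻¹ * a = b' * b⁻¹ := by
      rw [inv_mul_eq_iff_eq_mul, ← mul_assoc, ← h1, mul_inv_cancel_right]
    have h3 : a'⁻¹ * a ∈ AS w := (AS w).mul_mem ((AS w).inv_mem ha') ha
    have h4 : a'⁻¹ * a ∈ BS w := by rw [h2]; exact (BS w).mul_mem hb' ((BS w).inv_mem hb)
    have h5 := UU_inf_LL (mem_BS.1 h4).2 (mem_AS.1 h3).2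
    have h6 : a'⁻¹ * a = 1 := by
      have : a'⁻¹ * a = w * (w⁻¹ * (a'⁻¹ * a) * w) * w⁻¹ := by group
      rw [this, h5]; group
    have h7 : a = a' := (inv_mul_eq_one.1 h6).symm
    subst h7
    have h8 : b = b' := mul_left_cancel h1
    subst h8
    rfl
  have hbij : Function.Bijective f := by
    have hfin1 : Finite (AS w × BS w) := inferInstance
    have : Fintype (AS w × BS w) := Fintype.ofFinite _
    have : Fintype (UU m F) := Fintype.ofFinite _
    rw [Fintype.bijective_iff_injective_and_card]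
    refine ⟨hinj, ?_⟩
    rw [← Nat.card_eq_fintype_card, ← Nat.card_eq_fintype_card, hcard]
  obtain ⟨⟨⟨a, ha⟩, ⟨b, hb⟩⟩, h⟩ := hbij.2 ⟨u, hu⟩
  exact ⟨a, ha, b, hb, (congrArg Subtype.val h).symm⟩

/-- the Bruhat decomposition in the group of fixed points of an automorphism -/
theorem fix_bruhat [Finite F] (τ : MulAut (Matrix.SpecialLinearGroup (Fin m) F))
    (hU : ∀ u ∈ UU m F, τ u ∈ UU m F) (hL : ∀ u ∈ LL m F, τ u ∈ LL m F)
    (hN : ∀ (π : Equiv.Perm (Fin m)) w, IsMono π w → ∃ π', IsMono π' (τ w))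
    {g : Matrix.SpecialLinearGroup (Fin m) F} (hg : τ g = g) :
    ∃ u ∈ UU m F, τ u = u ∧ ∃ v ∈ UU m F, τ v = v ∧ ∃ (π : Equiv.Perm (Fin m))
      (w : Matrix.SpecialLinearGroup (Fin m) F), IsMono π w ∧ τ w = w ∧ g = u * w * v := by
  obtain ⟨u0, hu0, v0, hv0, π, w, hw, hg0⟩ := bruhat_SL g
  obtain ⟨a, ha, b, hb, hab⟩ := UU_factor hw hu0
  have haU := (mem_AS.1 ha).1
  let v := w⁻¹ * b * w * v0
  have hv : v ∈ UU m F := (UU m F).mul_mem (mem_BS.1 hb).2 hv0
  have hgv : g = a * w * v := by rw [hg0, hab]; simp only [v]; group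
  obtain ⟨π', hw'⟩ := hN π w hw
  have h1 : a * w * v = τ a * τ w * τ v := by rw [← map_mul, ← map_mul, ← hgv, hg]
  have h2 : ((τ a)⁻¹ * a) * w = τ w * (τ v * v⁻¹) := by
    have : (τ a)⁻¹ * a * w = (τ a)⁻¹ * (a * w * v) * v⁻¹ := by group
    rw [this, h1]; group
  obtain ⟨-, h3⟩ := mono_unique hw hw' ((UU m F).mul_mem ((UU m F).inv_mem (hU a haU)) haU)
    ((UU m F).mul_mem (hU v hv) ((UU m F).inv_mem hv)) h2
  rw [← h3] at h2
  have h4 : w⁻¹ * ((τ a)⁻¹ * a) * w = τ v * v⁻¹ := by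
    rw [mul_assoc, h2]; group
  have h5 : w⁻¹ * ((τ a)⁻¹ * a) * w ∈ LL m F := by
    have h6 := hL _ (mem_AS.1 ha).2
    rw [map_mul, map_mul, map_inv, ← h3] at h6
    have h7 : w⁻¹ * ((τ a)⁻¹ * a) * w = (w⁻¹ * τ a * w)⁻¹ * (w⁻¹ * a * w) := by group
    rw [h7]
    exact (LL m F).mul_mem ((LL m F).inv_mem h6) (mem_AS.1 ha).2
  have h6 : w⁻¹ * ((τ a)⁻¹ * a) * w ∈ UU m F := by
    rw [h4]
    exact (UU m F).mul_mem (hU v hv) ((UU m F).inv_mem hv)
  have h7 := UU_inf_LL h6 h5
  have h8 : τ a = a := by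
    have : (τ a)⁻¹ * a = 1 := by
      have : (τ a)⁻¹ * a = w * (w⁻¹ * ((τ a)⁻¹ * a) * w) * w⁻¹ := by group
      rw [this, h7]; group
    exact inv_mul_eq_one.1 this
  have h9 : τ v = v := by
    rw [h7] at h4
    exact mul_inv_eq_one.1 h4.symm
  exact ⟨a, haU, h8, v, hv, h9, π, w, hw, h3.symm, hgv⟩

end CfsgH6
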