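import Cfsg.Agent.H6.TwE6c

set_option autoImplicit false
set_option maxRecDepth 100000

/-! The twisted group of type `³D₄`. -/

namespace CfsgH6
namespace Chv

open Cfsg.Lie

theorem s0D4 : chevD4.simple 0 = 18 := by decide +kernel
theorem s1D4 : chevD4.simple 1 = 14 := by decide +kernel
theorem s2D4 : chevD4.simple 2 = 13 := by decide +kernel
theorem s3D4 : chevD4.simple 3 = 12 := by decide +kernel
theorem n0D4 : chevD4.neg 18 = 5 := by decide +kernel
theorem n1D4 : chevD4.neg 14 = 9 := by decide +kernel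
theorem n2D4 : chevD4.neg 13 = 10 := by decide +kernel
theorem n3D4 : chevD4.neg 12 = 11 := by decide +kernel
theorem rkD4 : chevD4.rank = 4 := rfl
theorem sn0D4 : snB chevD4 goodD4.w goodD4.N [1] [14] = true := by decide +kernel
theorem sn1D4 : snB chevD4 goodD4.w goodD4.N [0, 2, 3] [18, 13, 12] = true := by decide +kernel
theorem orD4_02 (F : Type*) [Field F] : goodD4.Orth F 18 13 := goodD4.orth_of (by decide +kernel)
theorem orD4_03 (F : Type*) [Field F] : goodD4.Orth F 18 12 := goodD4.orth_of (by decide +kernel)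
theorem orD4_23 (F : Type*) [Field F] : goodD4.Orth F 13 12 := goodD4.orth_of (by decide +kernel)

section D4

variable {K : Type*} [Field K] [Fintype K] {q : ℕ}

theorem ffD4_s (hq : IsPrimePow q) (hK : Fintype.card K = q ^ 3) {i : ℕ} (hi : i < 4) (t : K) :
    (twD4 K q).ff (goodD4.xg (chevD4.simple i) t) = goodD4.xg (chevD4.simple (grD4.pi i)) (t ^ q) := by
  rw [(twD4 K q).ff_xg (goodD4.simple_lt i hi)]
  show goodD4.xg (grD4.rho (chevD4.simple i)) (((grD4.eps (chevD4.simple i) : ℤ) : K) * frobQ K q t ^ 1) = _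
  rw [grD4_P.rho_s i hi, grD4_P.eps_s i hi, frobQ_eq hq hK, pow_one, Int.cast_one, one_mul]

theorem ffD4_n (hq : IsPrimePow q) (hK : Fintype.card K = q ^ 3) {i : ℕ} (hi : i < 4) (t : K) :
    (twD4 K q).ff (goodD4.xg (chevD4.neg (chevD4.simple i)) t) = goodD4.xg (chevD4.neg (chevD4.simple (grD4.pi i))) (t ^ q) := by
  rw [(twD4 K q).ff_xg (goodD4.neg_lt (goodD4.simple_lt i hi))]
  show goodD4.xg (grD4.rho (chevD4.neg (chevD4.simple i))) (((grD4.eps (chevD4.neg (chevD4.simple i)) : ℤ) : K) * frobQ K q t ^ 1) = _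
  rw [grD4_P.rho_neg _ (goodD4.simple_lt i hi), grD4_P.rho_s i hi, grD4_P.eps_n i hi, frobQ_eq hq hK, pow_one, Int.cast_one, one_mul]

theorem pow_qqq (hK : Fintype.card K = q ^ 3) (t : K) : ((t ^ q) ^ q) ^ q = t := by
  rw [← pow_mul, ← pow_mul, show q * (q * q) = q ^ 3 by ring]; exact pow_qq hK t

theorem pow_q2 (t : K) : t ^ (q ^ 2) = (t ^ q) ^ q := by rw [← pow_mul, pow_two]

/-- the orbit groups -/
theorem orbD4_0 (hq : IsPrimePow q) (hK : Fintype.card K = q ^ 3) {x : GL chevD4.Idx K} :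
    x ∈ goodD4.XS K (goodD4.Sneg [1]) ⊓ (twD4 K q).FG ↔ ∃ t : K, t ^ q = t ∧ x = goodD4.xg 14 t :=
  (twD4 K q).orb1 (p := 14) (by decide) (fun r hr => by rw [snB_spec goodD4 sn0D4 r hr]; simp) (fun t => by
    have := ffD4_s hq hK (i := 1) (by norm_num) t; rwa [s1D4, show grD4.pi 1 = 1 from rfl, s1D4] at this)

theorem orbD4_1 (hq : IsPrimePow q) (hK : Fintype.card K = q ^ 3) {x : GL chevD4.Idx K} :
    x ∈ goodD4.XS K (goodD4.Sneg [0, 2, 3]) ⊓ (twD4 K q).FG ↔ ∃ t : K, x = goodD4.xg 18 t * goodD4.xg 13 (t ^ q) * goodD4.xg 12 ((t ^ q) ^ q) := by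
  have := (twD4 K q).orb3 (i := 0) (j := 2) (p'' := 12) (φ := fun t => t ^ q) (S := goodD4.Sneg [0, 2, 3]) (x := x) (by decide) (by decide) (by decide)
    (by decide +kernel) (by rw [s0D4, s2D4]; decide) (by rw [s0D4]; decide) (by rw [s2D4]; decide)
    (by rw [s0D4, s2D4]; exact (orD4_02 K).1) (by rw [s0D4]; exact (orD4_03 K).1) (by rw [s2D4]; exact (orD4_23 K).1)
    (fun r hr => by rw [snB_spec goodD4 sn1D4 r hr, s0D4, s2D4]; simp)
    (fun t => by have := ffD4_s hq hK (i := 0) (by norm_num) t; rwa [show grD4.pi 0 = 2 from rfl] at this)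
    (fun t => by have := ffD4_s hq hK (i := 2) (by norm_num) t; rwa [show grD4.pi 2 = 3 from rfl, s3D4] at this)
    (fun t => by have := ffD4_s hq hK (i := 3) (by norm_num) t; rwa [show grD4.pi 3 = 0 from rfl, s3D4] at this)
    (fun t => pow_qqq hK t)
  rw [s0D4, s2D4] at this
  exact this

theorem cardD4 (hq : IsPrimePow q) (hK : Fintype.card K = q ^ 3) :
    ∀ a < (twD4 K q).m, Nat.card ↥(goodD4.XS K (goodD4.Sneg ((twD4 K q).ww a)) ⊓ (twD4 K q).FG) = q ^ (teD4.getD a 0) := by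
  have h2 := hq.two_le
  have hcK : Nat.card K = q ^ 3 := by rw [Nat.card_eq_fintype_card, hK]
  intro a ha
  have ha' : a < 2 := ha
  interval_cases a
  · show Nat.card ↥(goodD4.XS K (goodD4.Sneg [1]) ⊓ (twD4 K q).FG) = q ^ 1
    rw [(twD4 K q).card_orb1 (p := 14) (φ := fun t => t ^ q) (by decide) (fun r hr => by rw [snB_spec goodD4 sn0D4 r hr]; simp) (fun t => by
      have := ffD4_s hq hK (i := 1) (by norm_num) t; rwa [s1D4, show grD4.pi 1 = 1 from rfl, s1D4] at this), card_fix h2 hK, pow_one]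
  · show Nat.card ↥(goodD4.XS K (goodD4.Sneg [0, 2, 3]) ⊓ (twD4 K q).FG) = q ^ 3
    rw [← hcK]
    exact (twD4 K q).card_orb3 (i := 0) (j := 2) (p'' := 12) (φ := fun t => t ^ q) (by decide) (by decide) (by decide)
      (by decide +kernel) (by rw [s0D4, s2D4]; decide) (by rw [s0D4]; decide) (by rw [s2D4]; decide)
      (by rw [s0D4, s2D4]; exact (orD4_02 K).1) (by rw [s0D4]; exact (orD4_03 K).1) (by rw [s2D4]; exact (orD4_23 K).1)
      (fun r hr => by rw [snB_spec goodD4 sn1D4 r hr, s0D4, s2D4]; simp)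
      (fun t => by have := ffD4_s hq hK (i := 0) (by norm_num) t; rwa [show grD4.pi 0 = 2 from rfl] at this)
      (fun t => by have := ffD4_s hq hK (i := 2) (by norm_num) t; rwa [show grD4.pi 2 = 3 from rfl, s3D4] at this)
      (fun t => by have := ffD4_s hq hK (i := 3) (by norm_num) t; rwa [show grD4.pi 3 = 0 from rfl, s3D4] at this)
      (fun t => pow_qqq hK t)

/-! ### the generated group -/

/-- words of the first kind -/
theorem memD4_1 {r : ℕ} (hr : r ∈ [d4p2, d4m2]) {t : K} (ht : t ^ q = t) : goodD4.xg r t ∈ twistedD4 K q := by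
  have := mem_gen goodD4 (F := K) (S := d4Words K q) (w := [(r, t)]) (Or.inl ⟨t, ht, r, hr, rfl⟩)
  show _ ∈ chevD4.genSubgroup K (d4Words K q)
  simpa using this

/-- words of the second kind -/
theorem memD4_2 {r s p : ℕ} (hr : (r, s, p) ∈ [(d4p1, d4p3, d4p4), (d4m1, d4m3, d4m4)]) (t : K) :
    goodD4.xg r t * goodD4.xg s (t ^ q) * goodD4.xg p ((t ^ q) ^ q) ∈ twistedD4 K q := by
  have := mem_gen goodD4 (F := K) (S := d4Words K q) (w := [(r, t), (s, t ^ q), (p, t ^ (q ^ 2))]) (Or.inr ⟨t, (r, s, p), hr, rfl⟩)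
  show _ ∈ chevD4.genSubgroup K (d4Words K q)
  rw [pow_q2] at this
  simpa [mul_assoc] using this

theorem ngD4_1 (hq : IsPrimePow q) (hK : Fintype.card K = q ^ 3) {r s : ℕ} (hr : r ∈ [d4p2, d4m2]) (hs : chevD4.neg r = s) (hs' : s ∈ [d4p2, d4m2])
    {t : K} (ht : t ^ q = t) : goodD4.ng r t ∈ twistedD4 K q := by
  unfold Good.ng
  rw [hs]
  refine Subgroup.mul_mem _ (Subgroup.mul_mem _ (memD4_1 hr ht) (memD4_1 hs' ?_)) (memD4_1 hr ht)
  rw [neg_eq_neg_one_mul, mul_pow, neg_one_pow_q hq hK, inv_pow, ht]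

theorem ngD4_2 (hq : IsPrimePow q) (hK : Fintype.card K = q ^ 3) (t : K) :
    goodD4.ng 18 t * goodD4.ng 13 (t ^ q) * goodD4.ng 12 ((t ^ q) ^ q) ∈ twistedD4 K q := by
  rw [goodD4.ng_three (orD4_02 K) (orD4_03 K) (orD4_23 K), n0D4, n2D4, n3D4]
  have h1 : goodD4.xg 18 t * goodD4.xg 13 (t ^ q) * goodD4.xg 12 ((t ^ q) ^ q) ∈ twistedD4 K q := memD4_2 (by decide) t
  refine Subgroup.mul_mem _ (Subgroup.mul_mem _ h1 ?_) h1
  have e : ∀ u : K, (-(u ^ q)⁻¹ : K) = (-u⁻¹) ^ q := by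
    intro u
    rw [neg_eq_neg_one_mul u⁻¹, mul_pow, neg_one_pow_q hq hK, inv_pow]; ring
  rw [e (t ^ q), e t]
  exact memD4_2 (by decide) _

theorem piD4 : ∀ j < chevD4.rank, grD4.pi (grD4.pi j) < chevD4.rank ∧ grD4.pi (grD4.pi (grD4.pi j)) = j := by
  intro j hj
  have hj' : j < 4 := hj
  refine ⟨grD4_P.pi_lt _ (grD4_P.pi_lt j hj), ?_⟩
  interval_cases j <;> rfl

theorem HHD4 (hq : IsPrimePow q) (hK : Fintype.card K = q ^ 3) {x : GL chevD4.Idx K} (hx : x ∈ goodD4.HH K ⊓ (twD4 K q).FG) :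
    ∃ c : ℕ → Kˣ, (∀ j < 4, c (grD4.pi j) = c j ^ q) ∧ x = goodD4.hc c := by
  obtain ⟨⟨c, rfl⟩, hx⟩ := hx
  have h1 := hx.2
  rw [(twD4 K q).ff_hc piD4 (fun i hi => (piD4 i hi).2) c] at h1
  obtain ⟨c', hc'⟩ : ∃ c' : ℕ → Kˣ, c' = fun j => c (grD4.pi (grD4.pi j)) ^ q := ⟨_, rfl⟩
  have h2 : goodD4.hc c' = goodD4.hc c := by
    rw [← h1]
    apply goodD4.hc_congr
    intro j hj
    show c' j = Units.map (frobQ K q : K →* K) (c (grD4.pi (grD4.pi j))) ^ 1
    rw [pow_one, hc']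
    apply Units.ext
    show ((c (grD4.pi (grD4.pi j)) : K)) ^ q = frobQ K q (c (grD4.pi (grD4.pi j)) : K)
    rw [frobQ_eq hq hK]
  have hqq : ∀ u : Kˣ, ((u ^ q) ^ q) ^ q = u := fun u => Units.ext (by
    show (((u : K) ^ q) ^ q) ^ q = u
    exact pow_qqq hK _)
  obtain ⟨z, hz⟩ : ∃ z : ℕ → Kˣ, z = fun i => c' i / c i := ⟨_, rfl⟩
  have h3 : goodD4.hc z = 1 := by rw [hz, goodD4.hc_div, h2, mul_inv_cancel]
  have h4 := (goodD4.hc_eq_one_iff _).1 h3
  have t0 : z 0 ^ 2 = 1 := latD4.tors h4 (a := 0) (by norm_num)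
  have t2 : z 2 ^ 2 = 1 := latD4.tors h4 (a := 1) (by norm_num)
  have d1 : z 1 = 1 := by
    have := latD4.det h4 (i := 1) (by decide)
    rw [Finset.prod_range_succ, Finset.prod_range_one] at this
    rw [this]
    show z 0 ^ (0 : ℤ) * z 2 ^ (0 : ℤ) = 1
    rw [zpow_zero, zpow_zero, mul_one]
  have d3 : z 3 = (z 0)⁻¹ * (z 2)⁻¹ := by
    have := latD4.det h4 (i := 3) (by decide)
    rw [Finset.prod_range_succ, Finset.prod_range_one] at this
    rw [this]
    show z 0 ^ (-1 : ℤ) * z 2 ^ (-1 : ℤ) = _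
    rw [zpow_neg_one, zpow_neg_one]
  have i0 : (z 0)⁻¹ = z 0 := by rw [inv_eq_iff_mul_eq_one, ← pow_two, t0]
  have i2 : (z 2)⁻¹ = z 2 := by rw [inv_eq_iff_mul_eq_one, ← pow_two, t2]
  rw [i0, i2] at d3
  -- elements of square one are fixed by the Frobenius
  have hfix : ∀ u : Kˣ, u ^ 2 = 1 → u ^ q = u := by
    intro u hu
    have h5 : ∀ n, u ^ (2 * n) = 1 := fun n => by rw [pow_mul, hu, one_pow]
    rcases Nat.even_or_odd' q with ⟨n, hn | hn⟩
    · have h6 := hqq u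
      rw [hn, h5, one_pow, one_pow] at h6
      rw [← h6, one_pow]
    · rw [hn, pow_succ, h5, one_mul]
  have f0 := hfix _ t0
  have f2 := hfix _ t2
  have hcz : ∀ j, c' j = z j * c j := fun j => by rw [hz]; simp
  have e0 : c 3 ^ q = z 0 * c 0 := (congrFun hc' 0).symm.trans (hcz 0)
  have e1 : c 1 ^ q = z 1 * c 1 := (congrFun hc' 1).symm.trans (hcz 1)
  have e2 : c 0 ^ q = z 2 * c 2 := (congrFun hc' 2).symm.trans (hcz 2)
  have e3 : c 2 ^ q = z 3 * c 3 := (congrFun hc' 3).symm.trans (hcz 3)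
  -- `λ_j = z_{π⁻¹ j}`: `λ_0 = z 3`, `λ_2 = z 0`, `λ_3 = z 2`
  obtain ⟨l, hl⟩ : ∃ l : ℕ → Kˣ, l = fun j => [z 0 * z 2, 1, z 0, z 2].getD j 1 := ⟨_, rfl⟩
  have s0 : z 0 * z 0 = 1 := by rw [← pow_two, t0]
  have s2 : z 2 * z 2 = 1 := by rw [← pow_two, t2]
  have hl1 : goodD4.hc l = 1 := by
    rw [goodD4.hc_eq_one_iff]
    have h6 := (latD4.sol (z := fun a => [z 0 * z 2, z 0].getD a 1) (fun a ha => by
      interval_cases a
      · show (z 0 * z 2) ^ 2 = 1; rw [mul_pow, t0, t2, one_mul]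
      · exact t0)).1
    intro j hj
    rw [← h6 j hj]
    apply Finset.prod_congr rfl
    intro i hi
    have hi' : i < 4 := Finset.mem_range.1 hi
    congr 1
    rw [Finset.prod_range_succ, Finset.prod_range_one, hl]
    interval_cases i
    · show z 0 * z 2 = (z 0 * z 2) ^ (1 : ℤ) * z 0 ^ (0 : ℤ)
      rw [zpow_one, zpow_zero, mul_one]
    · show 1 = (z 0 * z 2) ^ (0 : ℤ) * z 0 ^ (0 : ℤ)
      rw [zpow_zero, zpow_zero, mul_one]
    · show z 0 = (z 0 * z 2) ^ (0 : ℤ) * z 0 ^ (1 : ℤ)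
      rw [zpow_one, zpow_zero, one_mul]
    · show z 2 = (z 0 * z 2) ^ (-1 : ℤ) * z 0 ^ (-1 : ℤ)
      rw [zpow_neg_one, zpow_neg_one, mul_inv, i0, i2]
      calc z 2 = z 0 * z 0 * z 2 := by rw [s0, one_mul]
        _ = _ := by rw [mul_assoc, mul_assoc, mul_comm (z 0) (z 2)]
  refine ⟨fun j => c j * l j, ?_, ?_⟩
  · intro j hj
    rw [hl]
    interval_cases j
    · show c 2 * z 0 = (c 0 * (z 0 * z 2)) ^ q
      rw [mul_pow, mul_pow, e2, f0, f2]
      calc c 2 * z 0 = (z 2 * z 2) * (c 2 * z 0) := by rw [s2, one_mul]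
        _ = z 2 * c 2 * (z 0 * z 2) := by ac_rfl
    · show c 1 * 1 = (c 1 * 1) ^ q
      rw [mul_one, e1, d1, one_mul]
    · show c 3 * z 2 = (c 2 * z 0) ^ q
      rw [mul_pow, e3, d3, f0]
      calc c 3 * z 2 = (z 0 * z 0) * (c 3 * z 2) := by rw [s0, one_mul]
        _ = z 0 * z 2 * c 3 * z 0 := by ac_rfl
    · show c 0 * (z 0 * z 2) = (c 3 * z 2) ^ q
      rw [mul_pow, e0, f2]
      ac_rfl
  · have e1 : goodD4.hc (fun j => c j * l j) = goodD4.hc c * goodD4.hc l := (goodD4.hc_mul _ _).symm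
    rw [e1, hl1, mul_one]

theorem twistedD4_eq (hq : IsPrimePow q) (hK : Fintype.card K = q ^ 3) : twistedD4 K q = (twD4 K q).FG := by
  have hx : ∀ (r : ℕ) (t : K), goodD4.xg r t ∈ goodD4.GG K := fun _ _ => goodD4.xg_mem_GG _ _
  apply le_antisymm
  · apply gen_le goodD4
    rintro w (⟨t, ht, r, hr, rfl⟩ | ⟨t, ⟨r, s, p⟩, hr, rfl⟩)
    · have hG : ([(r, t)].map fun q => goodD4.xg q.1 q.2).prod = goodD4.xg r t := by simp
      rw [hG]
      refine ⟨hx _ _, ?_⟩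
      simp only [d4p2, d4m2, List.mem_cons, List.not_mem_nil, or_false] at hr
      rcases hr with rfl | rfl
      · have := ffD4_s hq hK (i := 1) (by norm_num) t; rwa [s1D4, show grD4.pi 1 = 1 from rfl, s1D4, ht] at this
      · have := ffD4_n hq hK (i := 1) (by norm_num) t; rwa [s1D4, show grD4.pi 1 = 1 from rfl, s1D4, n1D4, ht] at this
    · have hG : ([((r, s, p).1, t), ((r, s, p).2.1, t ^ q), ((r, s, p).2.2, t ^ (q ^ 2))].map fun q => goodD4.xg q.1 q.2).prod =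
          goodD4.xg r t * goodD4.xg s (t ^ q) * goodD4.xg p ((t ^ q) ^ q) := by rw [pow_q2]; simp [mul_assoc]
      rw [hG]
      refine ⟨Subgroup.mul_mem _ (Subgroup.mul_mem _ (hx _ _) (hx _ _)) (hx _ _), ?_⟩
      rw [(twD4 K q).ff_mul (Subgroup.mul_mem _ (hx _ _) (hx _ _)) (hx _ _), (twD4 K q).ff_mul (hx _ _) (hx _ _)]
      have htt := pow_qqq hK t
      simp only [d4p1, d4p3, d4p4, d4m1, d4m3, d4m4, List.mem_cons, List.not_mem_nil, or_false, Prod.mk.injEq] at hr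
      rcases hr with ⟨rfl, rfl, rfl⟩ | ⟨rfl, rfl, rfl⟩
      · have h1 := ffD4_s hq hK (i := 0) (by norm_num) t
        have h2 := ffD4_s hq hK (i := 2) (by norm_num) (t ^ q)
        have h3 := ffD4_s hq hK (i := 3) (by norm_num) ((t ^ q) ^ q)
        rw [s0D4, show grD4.pi 0 = 2 from rfl, s2D4] at h1
        rw [s2D4, show grD4.pi 2 = 3 from rfl, s3D4] at h2
        rw [s3D4, show grD4.pi 3 = 0 from rfl, s0D4, htt] at h3
        rw [h1, h2, h3, mul_assoc, ← (orD4_03 K).1, ← mul_assoc, ← (orD4_02 K).1]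
      · have h1 := ffD4_n hq hK (i := 0) (by norm_num) t
        have h2 := ffD4_n hq hK (i := 2) (by norm_num) (t ^ q)
        have h3 := ffD4_n hq hK (i := 3) (by norm_num) ((t ^ q) ^ q)
        rw [s0D4, show grD4.pi 0 = 2 from rfl, s2D4, n0D4, n2D4] at h1
        rw [s2D4, show grD4.pi 2 = 3 from rfl, s3D4, n2D4, n3D4] at h2
        rw [s3D4, show grD4.pi 3 = 0 from rfl, s0D4, n3D4, n0D4, htt] at h3
        have k1 := (orD4_03 K).2.2.1 t ((t ^ q) ^ q)
        have k2 := (orD4_02 K).2.2.1 t (t ^ q)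
        rw [n0D4, n3D4] at k1
        rw [n0D4, n2D4] at k2
        rw [h1, h2, h3, mul_assoc, ← k1, ← mul_assoc, ← k2]
  · have hm14 : (14 : ℕ) ∈ [d4p2, d4m2] := by decide
    have hm9 : (9 : ℕ) ∈ [d4p2, d4m2] := by decide
    have g14 : ∀ t : K, t ^ q = t → goodD4.ng 14 t ∈ twistedD4 K q := fun t ht => ngD4_1 hq hK hm14 n1D4 hm9 ht
    apply (twD4 K q).FG_gen
    · intro a ha
      have ha' : a < 2 := ha
      interval_cases a
      · intro x hx
        obtain ⟨t, ht, rfl⟩ := (orbD4_0 hq hK).1 hx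
        exact memD4_1 hm14 ht
      · intro x hx
        obtain ⟨t, rfl⟩ := (orbD4_1 hq hK).1 hx
        exact memD4_2 (by decide) t
    · intro a ha
      have ha' : a < 2 := ha
      interval_cases a
      · show goodD4.nl K [1] ∈ _
        rw [goodD4.nl_cons, goodD4.nl_nil, mul_one, goodD4.nn_eq_ng, s1D4]
        exact g14 1 (one_pow _)
      · show goodD4.nl K [0, 2, 3] ∈ _
        rw [goodD4.nl_cons, goodD4.nl_cons, goodD4.nl_cons, goodD4.nl_nil, mul_one, goodD4.nn_eq_ng, goodD4.nn_eq_ng, goodD4.nn_eq_ng, s0D4, s2D4, s3D4]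
        have := ngD4_2 hq hK 1
        rwa [one_pow, one_pow, mul_assoc] at this
    · intro x hx
      obtain ⟨c, hc, rfl⟩ := HHD4 hq hK hx
      have m1 : (-1 : K) ^ q = -1 := neg_one_pow_q hq hK
      have k14 : ∀ t : Kˣ, t ^ q = t → goodD4.hD 14 t ∈ twistedD4 K q := by
        intro t ht
        rw [← goodD4.ng_mul_eq_hD (by decide)]
        exact Subgroup.mul_mem _ (g14 _ (by exact_mod_cast congrArg Units.val ht)) (g14 _ m1)
      have k18 : ∀ t : Kˣ, goodD4.hD 18 t * goodD4.hD 13 (t ^ q) * goodD4.hD 12 ((t ^ q) ^ q) ∈ twistedD4 K q := by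
        intro t
        rw [goodD4.hD_three (by decide) (by decide) (by decide) (orD4_02 K) (orD4_03 K) (orD4_23 K)]
        refine Subgroup.mul_mem _ ?_ ?_
        · have := ngD4_2 hq hK (t : K); push_cast; exact this
        · have := ngD4_2 hq hK (-1 : K); rwa [m1, m1] at this
      have e1 : goodD4.hc c = goodD4.hD 18 (c 0) * goodD4.hD 14 (c 1) * goodD4.hD 13 (c 2) * goodD4.hD 12 (c 3) := by
        have hr : List.range chevD4.rank = [0, 1, 2, 3] := by decide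
        rw [goodD4.hc_eq_prod, hr]
        simp only [List.map_cons, List.map_nil, List.prod_cons,
          List.prod_nil, mul_one, s0D4, s1D4, s2D4, s3D4, mul_assoc]
      have e2 : c 2 = c 0 ^ q := hc 0 (by norm_num)
      have e3 : c 3 = (c 0 ^ q) ^ q := by rw [← e2]; exact hc 2 (by norm_num)
      have e4 : c 1 = c 1 ^ q := hc 1 (by norm_num)
      have hcm : ∀ (r s : ℕ) (t u : Kˣ), goodD4.hD r t * goodD4.hD s u = goodD4.hD s u * goodD4.hD r t := fun r s t u =>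
        goodD4.HH_comm (goodD4.hD_mem _ _) (goodD4.hD_mem _ _)
      have e6 : goodD4.hc c = goodD4.hD 14 (c 1) * (goodD4.hD 18 (c 0) * goodD4.hD 13 (c 0 ^ q) * goodD4.hD 12 ((c 0 ^ q) ^ q)) := by
        rw [e1, e2, e3, hcm 18 14]; group
      rw [e6]
      exact Subgroup.mul_mem _ (k14 _ e4.symm) (k18 _)

end D4

end Chv
end CfsgH6
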