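import Cfsg.Agent.H6.TwD4

set_option autoImplicit false
set_option maxRecDepth 100000

/-! The twisted group of type `³D₄`: consequences. -/

namespace CfsgH6
namespace Chv

open Cfsg.Lie

section D4

variable {K : Type*} [Field K] [Fintype K] {q : ℕ}

theorem neD4 (hq : IsPrimePow q) (hK : Fintype.card K = q ^ 3) :
    ∀ a < (twD4 K q).m, ∃ u ∈ goodD4.XS K (goodD4.Sneg ((twD4 K q).ww a)) ⊓ (twD4 K q).FG, u ≠ 1 := by
  intro a ha
  refine ne_of_card hq.two_le ?_ (cardD4 hq hK a ha)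
  have ha' : a < 2 := ha
  interval_cases a <;> decide

theorem bnD4 (hq : IsPrimePow q) (hK : Fintype.card K = q ^ 3) : ∃ P : Cfsg.BNPair ↥(twistedD4 K q),
      P.B = (chevD4.borelSubgroup K ⊓ twistedD4 K q).subgroupOf (twistedD4 K q) ∧
      P.N = (chevD4.monomialSubgroup K ⊓ twistedD4 K q).subgroupOf (twistedD4 K q) := by
  rw [twistedD4_eq hq hK, goodD4.borel_eq, goodD4.mono_eq]
  exact (twD4 K q).exists_bn (neD4 hq hK)

theorem cardUD4 (hq : IsPrimePow q) (hK : Fintype.card K = q ^ 3) : Nat.card ↥(goodD4.UU K ⊓ (twD4 K q).FG) = q ^ 12 := by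
  obtain ⟨n, h1, h2⟩ := (twD4 K q).card_UUF (d := 1) (e := fun a => teD4.getD a 0) (cardD4 hq hK) (by
    intro a ha
    have ha' : a < 2 := ha
    interval_cases a
    · show 1 * 1 = goodD4.cnt [1]
      decide +kernel
    · show 1 * 3 = goodD4.cnt [0, 2, 3]
      decide +kernel)
  have h3 : goodD4.N = 12 := rfl
  rw [h3] at h1
  have : n = 12 := by omega
  rw [h2, this]

theorem _root_.CfsgH6.Chv.Good.cen3 {D : ChevalleyDatum} (g : Good D) {F : Type*} [Field F] {i j p'' : ℕ} (hi : i < D.rank) (hj : j < D.rank)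
    (hp'' : p'' < D.nroots) (hpp : g.N ≤ p'') (hne1 : D.simple j ≠ D.simple i)
    (hne2 : p'' ≠ D.simple i) (hne3 : p'' ≠ D.simple j) {t u v : F} (ht : t ≠ 0) (hu : u ≠ 0) (hv : v ≠ 0) {c : ℕ → Fˣ}
    (h : g.hc c * (g.xg (D.simple i) t * g.xg (D.simple j) u * g.xg p'' v) * (g.hc c)⁻¹ = g.xg (D.simple i) t * g.xg (D.simple j) u * g.xg p'' v) :
    g.hcf c (D.simple i) = 1 ∧ g.hcf c (D.simple j) = 1 ∧ g.hcf c p'' = 1 := by
  have hp := g.simple_lt i hi
  have h1 : g.hc c * (g.xg (D.simple i) t * g.xg (D.simple j) u * g.xg p'' v) * (g.hc c)⁻¹ =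
      g.xg (D.simple i) (((g.hcf c (D.simple i) : Fˣ) : F) * t) * g.xg (D.simple j) (((g.hcf c (D.simple j) : Fˣ) : F) * u) * g.xg p'' (((g.hcf c p'' : Fˣ) : F) * v) := by
    rw [← g.hc_x c (g.simple_lt i hi), ← g.hc_x c (g.simple_lt j hj), ← g.hc_x c hp'']; group
  rw [h1] at h
  obtain ⟨t', ht'⟩ : ∃ t', t' = ((g.hcf c (D.simple i) : Fˣ) : F) * t := ⟨_, rfl⟩
  obtain ⟨u', hu'⟩ : ∃ u', u' = ((g.hcf c (D.simple j) : Fˣ) : F) * u := ⟨_, rfl⟩
  obtain ⟨v', hv'⟩ : ∃ v', v' = ((g.hcf c p'' : Fˣ) : F) * v := ⟨_, rfl⟩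
  rw [← ht', ← hu', ← hv'] at h
  have h4 : g.xg (D.simple i) (-t + t') = g.xg (D.simple j) u * g.xg p'' v * (g.xg (D.simple j) u' * g.xg p'' v')⁻¹ := by
    rw [← g.xg_add hp, ← g.xg_inv hp]
    calc (g.xg (D.simple i) t)⁻¹ * g.xg (D.simple i) t' = (g.xg (D.simple i) t)⁻¹ *
        (g.xg (D.simple i) t' * g.xg (D.simple j) u' * g.xg p'' v') * (g.xg (D.simple j) u' * g.xg p'' v')⁻¹ := by group
      _ = _ := by rw [h]; group
  have hm : ∀ a b : F, g.xg (D.simple j) a * g.xg p'' b ∈ g.XS F (fun r => r = D.simple j ∨ r = p'') := fun a b =>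
    Subgroup.mul_mem _ (g.xg_mem (S := fun r => r = D.simple j ∨ r = p'') (Or.inl rfl) a) (g.xg_mem (S := fun r => r = D.simple j ∨ r = p'') (Or.inr rfl) b)
  have h5 := g.simple_sep hi (S := fun r => r = D.simple j ∨ r = p'') (t := -t + t') (by
    rintro r hr (rfl | rfl)
    · exact ⟨g.N_le_simple hj, hne1⟩
    · exact ⟨hpp, hne2⟩) (by rw [h4]; exact Subgroup.mul_mem _ (hm _ _) (Subgroup.inv_mem _ (hm _ _)))
  have h6 : t' = t := by linear_combination h5
  rw [h6, mul_assoc, mul_assoc] at h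
  obtain ⟨h8, h9⟩ := g.two_inj hj hp'' hpp hne3 (mul_left_cancel h)
  exact ⟨Units.ext (mul_right_cancel₀ ht ((ht'.symm.trans h6).trans (one_mul _).symm)), Units.ext (mul_right_cancel₀ hu ((hu'.symm.trans h8).trans (one_mul _).symm)),
    Units.ext (mul_right_cancel₀ hv ((hv'.symm.trans h9).trans (one_mul _).symm))⟩

theorem cenD4 (hq : IsPrimePow q) (hK : Fintype.card K = q ^ 3) : ∀ a < (twD4 K q).m, ∀ i ∈ (twD4 K q).J a, ∀ c : ℕ → Kˣ,
    (∀ u ∈ goodD4.XS K (goodD4.Sneg ((twD4 K q).ww a)) ⊓ (twD4 K q).FG, goodD4.hc c * u * (goodD4.hc c)⁻¹ = u) →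
      goodD4.hcf c (chevD4.simple i) = 1 := by
  intro a ha i hi c h
  have ha' : a < 2 := ha
  have hq0 : (1 : K) ^ q ≠ 0 := by rw [one_pow]; exact one_ne_zero
  have hq1 : ((1 : K) ^ q) ^ q ≠ 0 := by rw [one_pow, one_pow]; exact one_ne_zero
  interval_cases a
  · have hi' : i ∈ [1] := hi
    simp only [List.mem_cons, List.not_mem_nil, or_false] at hi'
    subst hi'
    rw [s1D4]
    exact goodD4.cen1 (by decide) (h _ ((orbD4_0 hq hK).2 ⟨1, one_pow _, rfl⟩))
  · have hi' : i ∈ [0, 2, 3] := hi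
    simp only [List.mem_cons, List.not_mem_nil, or_false] at hi'
    have h1 := goodD4.cen3 (F := K) (i := 0) (j := 2) (p'' := 12) (by decide) (by decide) (by decide) (by decide +kernel)
      (by rw [s0D4, s2D4]; decide) (by rw [s0D4]; decide) (by rw [s2D4]; decide) one_ne_zero hq0 hq1
      (by rw [s0D4, s2D4]; exact (h _ ((orbD4_1 hq hK).2 ⟨1, rfl⟩)))
    rcases hi' with rfl | rfl | rfl
    · exact h1.1
    · exact h1.2.1
    · rw [s3D4]; exact h1.2.2

theorem coreD4 (hq : IsPrimePow q) (hK : Fintype.card K = q ^ 3) :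
    ((chevD4.borelSubgroup K ⊓ twistedD4 K q).subgroupOf (twistedD4 K q)).normalCore = ⊥ := by
  rw [twistedD4_eq hq hK, goodD4.borel_eq]
  exact (twD4 K q).core_bot (cenD4 hq hK)

theorem hcD4_mem (hq : IsPrimePow q) (hK : Fintype.card K = q ^ 3) {c : ℕ → Kˣ} (hc : ∀ j < 4, c (grD4.pi j) = c j ^ q) :
    goodD4.hc c ∈ (twD4 K q).FG := by
  refine ⟨goodD4.HH_le_GG ⟨c, rfl⟩, ?_⟩
  rw [(twD4 K q).ff_hc piD4 (fun i hi => (piD4 i hi).2) c]
  apply goodD4.hc_congr
  intro j hj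
  show Units.map (frobQ K q : K →* K) (c (grD4.pi (grD4.pi j))) ^ 1 = c j
  rw [pow_one]
  apply Units.ext
  show frobQ K q (c (grD4.pi (grD4.pi j)) : K) = c j
  rw [frobQ_eq hq hK, hc _ (grD4_P.pi_lt j hj), hc j hj]
  push_cast
  exact pow_qqq hK _

theorem cardHD4 (hq : IsPrimePow q) (hK : Fintype.card K = q ^ 3) :
    Nat.card ↥(goodD4.HH K ⊓ (twD4 K q).FG) = (q - 1) ^ 2 * (q ^ 2 + q + 1) := by
  have h2 := hq.two_le
  have hU := card_units_q hK
  have hfac : q ^ 3 - 1 = (q - 1) * (q ^ 2 + q + 1) := by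
    obtain ⟨r, rfl⟩ : ∃ r, q = r + 1 := ⟨q - 1, by omega⟩
    rw [Nat.add_sub_cancel]
    have : (r + 1) ^ 3 = r * ((r + 1) ^ 2 + (r + 1) + 1) + 1 := by ring
    omega
  let M : Subgroup Kˣ := (powMonoidHom (q - 1)).ker
  have hM : Nat.card M = q - 1 := by
    rw [IsCyclic.card_powMonoidHom_ker, hU, hfac]
    exact Nat.gcd_eq_right (dvd_mul_right _ _)
  let v : M × Kˣ → ℕ → Kˣ := fun p j => [p.2, (p.1 : Kˣ), p.2 ^ q, (p.2 ^ q) ^ q].getD j 1
  have hMq : ∀ a : M, (a : Kˣ) ^ q = a := by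
    intro a
    have h := a.2
    rw [MonoidHom.mem_ker, powMonoidHom_apply] at h
    calc (a : Kˣ) ^ q = (a : Kˣ) ^ (q - 1 + 1) := by congr 1; omega
      _ = _ := by rw [pow_succ, h, one_mul]
  have hqq : ∀ u : Kˣ, ((u ^ q) ^ q) ^ q = u := fun u => Units.ext (by
    show (((u : K) ^ q) ^ q) ^ q = u
    exact pow_qqq hK _)
  let Θ : M × Kˣ →* GL chevD4.Idx K :=
    { toFun := fun p => goodD4.hc (v p)
      map_one' := by
        rw [← goodD4.hc_one]
        apply goodD4.hc_congr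
        intro i hi
        have hi' : i < 4 := hi
        interval_cases i <;> simp [v]
      map_mul' := by
        intro p p'
        rw [goodD4.hc_mul]
        apply goodD4.hc_congr
        intro i hi
        have hi' : i < 4 := hi
        interval_cases i <;> simp [v, mul_pow] }
  have hΘ : ∀ p, Θ p = goodD4.hc (v p) := fun _ => rfl
  have hrange : Θ.range = goodD4.HH K ⊓ (twD4 K q).FG := by
    ext x
    constructor
    · rintro ⟨p, rfl⟩
      refine ⟨⟨v p, rfl⟩, hcD4_mem hq hK ?_⟩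
      intro j hj
      interval_cases j
      · rfl
      · exact (hMq p.1).symm
      · rfl
      · exact (hqq _).symm
    · intro hx
      obtain ⟨c, hc, rfl⟩ := HHD4 hq hK hx
      have hfix : c 1 ∈ M := by
        have h1 : c 1 = c 1 ^ q := hc 1 (by norm_num)
        rw [MonoidHom.mem_ker, powMonoidHom_apply]
        have h3 : c 1 ^ (q - 1) * c 1 = c 1 := by
          rw [← pow_succ]
          exact (congrArg (fun n => c 1 ^ n) (by omega : q - 1 + 1 = q)).trans h1.symm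
        exact mul_eq_right.1 h3
      refine ⟨(⟨c 1, hfix⟩, c 0), ?_⟩
      rw [hΘ]
      apply goodD4.hc_congr
      intro i hi
      have hi' : i < 4 := hi
      have e2 : c 2 = c 0 ^ q := hc 0 (by norm_num)
      have e3 : c 3 = c 2 ^ q := hc 2 (by norm_num)
      interval_cases i
      · rfl
      · rfl
      · exact e2.symm
      · rw [e3, e2]; rfl
  have hker : Θ.ker = ⊥ := by
    rw [Subgroup.eq_bot_iff_forall]
    rintro ⟨a, t⟩ hp
    rw [MonoidHom.mem_ker, hΘ] at hp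
    have h4 := (goodD4.hc_eq_one_iff _).1 hp
    have t0 : t ^ 2 = 1 := latD4.tors h4 (a := 0) (by norm_num)
    have d1 : (a : Kˣ) = t ^ (0 : ℤ) * (t ^ q) ^ (0 : ℤ) := by
      have := latD4.det h4 (i := 1) (by decide)
      rw [Finset.prod_range_succ, Finset.prod_range_one] at this
      exact this
    have d3 : (t ^ q) ^ q = t ^ (-1 : ℤ) * (t ^ q) ^ (-1 : ℤ) := by
      have := latD4.det h4 (i := 3) (by decide)
      rw [Finset.prod_range_succ, Finset.prod_range_one] at this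
      exact this
    have ht : t = 1 := by
      rw [zpow_neg_one, zpow_neg_one] at d3
      have h5 : (t ^ q) ^ q * t ^ q * t = 1 := by rw [d3]; group
      rw [← pow_mul, ← pow_add, ← pow_succ] at h5
      have hodd : (q * q + q + 1) % 2 = 1 := by
        have : (q * q + q) % 2 = 0 := by
          have := Nat.even_mul_succ_self q
          rw [Nat.even_iff] at this
          rw [show q * q + q = q * (q + 1) by ring]; exact this
        omega
      obtain ⟨n, hn⟩ : ∃ n, q * q + q + 1 = 2 * n + 1 := ⟨(q * q + q) / 2, by omega⟩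
      rw [hn, pow_succ, pow_mul, t0, one_pow, one_mul] at h5
      exact h5
    rw [ht] at d1
    have : a = 1 := Subtype.ext (by rw [d1]; simp)
    rw [this, ht]; rfl
  have h1 := Subgroup.card_mul_index Θ.ker
  rw [Subgroup.index_ker, hker, hrange, Nat.card_prod, hM, hU, hfac, Subgroup.card_bot, one_mul] at h1
  rw [h1]
  ring

theorem cardFD4 (hq : IsPrimePow q) (hK : Fintype.card K = q ^ 3) :
    Nat.card ↥(twistedD4 K q) = q ^ 12 * (q ^ 2 - 1) * (q ^ 6 - 1) * (q ^ 8 + q ^ 4 + 1) := by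
  have h2 := hq.two_le
  rw [twistedD4_eq hq hK, (twD4 K q).card_FG (e := fun a => teD4.getD a 0) (cardD4 hq hK), (twD4 K q).card_BBF, cardUD4 hq hK]
  have h3 := (Wt.SW_eq ((twD4 K q).wt (e := fun a => teD4.getD a 0) (cardD4 hq hK)) (A := tAD4) (Js := tJD4) (Ws := tWD4) (cartB_spec cartD4)
    (fun a _ => rfl) (fun a _ => rfl) tOsD4 tcD4)
  have h4 := cardHD4 hq hK
  have h5 : tOsD4.length = (twD4 K q).m := rfl
  rw [h5] at h3
  obtain ⟨S, hS⟩ : ∃ S, S = ((twD4 K q).wt (e := fun a => teD4.getD a 0) (cardD4 hq hK)).SW (twD4 K q).m := ⟨_, rfl⟩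
  rw [← hS] at h3 ⊢
  have h6 := congrArg (fun p => hev p (q : ℤ)) polD4
  simp only [hev_mulP, hev_prodP, List.map_cons, List.map_nil, List.prod_cons, List.prod_nil, mul_one,
    hev_qdP _ (by norm_num : 1 ≤ 1), hev_qdP _ (by norm_num : 1 ≤ 2), hev_qdP _ (by norm_num : 1 ≤ 6), hev_cons, hev_nil] at h6
  rw [← h3] at h6
  have hsub : ∀ n : ℕ, ((q ^ n - 1 : ℕ) : ℤ) = (q : ℤ) ^ n - 1 := by
    intro n
    have := Nat.one_le_pow n q (by omega)
    push_cast [Nat.cast_sub this]; ring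
  have hsub1 : ((q - 1 : ℕ) : ℤ) = (q : ℤ) - 1 := by
    rw [Nat.cast_sub (by omega)]; push_cast; ring
  have h7 : ((q ^ 12 * Nat.card ↥(goodD4.HH K ⊓ (twD4 K q).FG) * S : ℕ) : ℤ) =
      ((q ^ 12 * (q ^ 2 - 1) * (q ^ 6 - 1) * (q ^ 8 + q ^ 4 + 1) : ℕ) : ℤ) := by
    rw [h4]
    push_cast [hsub, hsub1]
    linear_combination (q : ℤ) ^ 12 * h6
  exact_mod_cast h7

theorem relD4 (i j : Fin 2) : ((twD4 K q).tP i * (twD4 K q).tP j) ^ (CoxeterMatrix.G₂ i j) = 1 := by
  have key : ∀ i j : Fin 2, ((List.range chevD4.nroots).all fun r => decide (wlF goodD4.w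
      (((List.replicate (CoxeterMatrix.G₂ i j) [(i : ℕ), (j : ℕ)]).flatten.map fun a => tWD4.getD a []).flatten) r = r)) = true := by
    decide +kernel
  exact (twD4 K q).rel_of i.2 j.2 (key i j)

theorem weylD4 (hq : IsPrimePow q) (hK : Fintype.card K = q ^ 3) :
    ∃ φ : ↥(chevD4.monomialSubgroup K ⊓ twistedD4 K q) →* (CoxeterMatrix.G₂).Group, Function.Surjective φ ∧
      φ.ker = (chevD4.diagonalSubgroup K ⊓ twistedD4 K q).subgroupOf (chevD4.monomialSubgroup K ⊓ twistedD4 K q) := by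
  rw [twistedD4_eq hq hK, goodD4.mono_eq, goodD4.diag_eq]
  have h1 : Nat.card (CoxeterMatrix.G₂).Group = 12 := card_cox goodG2 coxG2 ordG2 hvG2
  have h2 : Nat.card ↥((twD4 K q).TW (twD4 K q).m) = 12 :=
    (twD4 K q).card_TW (cartB_spec cartD4) (fun a _ => rfl) (fun a _ => rfl) tcD4 rfl (by decide +kernel)
  obtain ⟨ψ, hψ⟩ := (twD4 K q).exists_cox_hom CoxeterMatrix.G₂ (CoxeterMatrix.G₂).toCoxeterSystem rfl (relD4 (q := q))
  haveI : Finite (CoxeterMatrix.G₂).Group := Nat.finite_of_card_ne_zero (by rw [h1]; norm_num)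
  exact (twD4 K q).exists_weyl ψ hψ (by rw [h1, h2])

theorem posD4 (hq : IsPrimePow q) (hK : Fintype.card K = q ^ 3) :
    ∀ a < (twD4 K q).m, goodD4.XS K (goodD4.Sneg ((twD4 K q).ww a)) ⊓ (twD4 K q).FG ≤ ⁅(twD4 K q).FG, (twD4 K q).FG⁆ := by
  have h2 := hq.two_le
  have hU := card_units_q hK
  have hfx : ∀ r, grD4.rho r = r → grD4.eps r = 1 → r < 24 → ∀ t : K, t ^ q = t → goodD4.xg r t ∈ (twD4 K q).FG := by
    intro r h1 h2 hr t ht
    refine ⟨goodD4.xg_mem_GG _ _, ?_⟩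
    rw [(twD4 K q).ff_xg hr]
    show goodD4.xg (grD4.rho r) (((grD4.eps r : ℤ) : K) * frobQ K q t ^ 1) = _
    rw [h1, h2, frobQ_eq hq hK, ht, pow_one, Int.cast_one, one_mul]
  obtain ⟨z, hz⟩ : ∃ z : Kˣ, z ^ 2 ≠ 1 := by
    apply exists_sq_ne
    rw [hU]
    have : 2 ^ 3 ≤ q ^ 3 := Nat.pow_le_pow_left h2 3
    omega
  have hqq : ∀ u : Kˣ, ((u ^ q) ^ q) ^ q = u := fun u => Units.ext (by
    show (((u : K) ^ q) ^ q) ^ q = u
    exact pow_qqq hK _)
  have hpw : ∀ u : Kˣ, u ^ 2 ≠ 1 → (u ^ q) ^ 2 ≠ 1 := by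
    intro u hu h
    apply hu
    rw [← hqq (u ^ 2), ← pow_mul u, mul_comm 2 q, pow_mul, h, one_pow, one_pow]
  have hzq := hpw z hz
  have hzqq := hpw _ hzq
  intro a ha
  have ha' : a < 2 := ha
  interval_cases a
  · intro x hx
    obtain ⟨t, ht, rfl⟩ := (orbD4_0 hq hK).1 hx
    have h3 := goodD4.comm_one (r := 1) (s := 23) (p := 14) (c := -1) (by decide) (by decide) (by decide) (by decide +kernel) (by decide +kernel)
      (hfx 1 (by decide +kernel) (by decide +kernel) (by norm_num) t ht) (hfx 23 (by decide +kernel) (by decide +kernel) (by norm_num) 1 (one_pow _))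
    have e : (((-1 : ℤ) : K) * -t * 1) = t := by push_cast; ring
    rwa [e] at h3
  · refine (twD4 K q).torus_le (a := 1) ha (c := fun j => [z, 1, z ^ q, (z ^ q) ^ q].getD j 1) (hcD4_mem hq hK ?_) ?_
    · intro j hj
      interval_cases j
      · rfl
      · exact (one_pow _).symm
      · rfl
      · exact (hqq z).symm
    · intro r hr hS
      have hS' : r ∈ [18, 13, 12] := (snB_spec goodD4 sn1D4 r hr).1 hS
      simp only [List.mem_cons, List.not_mem_nil, or_false] at hS'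
      unfold Good.hcf
      rw [rkD4]
      simp only [Finset.prod_range_succ, Finset.prod_range_zero, one_mul]
      rcases hS' with rfl | rfl | rfl
      · have e0 : chevD4.cartan 0 18 = 2 := by decide +kernel
        have e1 : chevD4.cartan 2 18 = 0 := by decide +kernel
        have e2 : chevD4.cartan 3 18 = 0 := by decide +kernel
        rw [e0, e1, e2]
        show z ^ (2 : ℤ) * (1 : Kˣ) ^ _ * (z ^ q) ^ (0 : ℤ) * ((z ^ q) ^ q) ^ (0 : ℤ) ≠ 1
        rw [one_zpow, zpow_zero, zpow_zero]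
        simpa using hz
      · have e0 : chevD4.cartan 0 13 = 0 := by decide +kernel
        have e1 : chevD4.cartan 2 13 = 2 := by decide +kernel
        have e2 : chevD4.cartan 3 13 = 0 := by decide +kernel
        rw [e0, e1, e2]
        show z ^ (0 : ℤ) * (1 : Kˣ) ^ _ * (z ^ q) ^ (2 : ℤ) * ((z ^ q) ^ q) ^ (0 : ℤ) ≠ 1
        rw [one_zpow, zpow_zero, zpow_zero]
        simpa using hzq
      · have e0 : chevD4.cartan 0 12 = 0 := by decide +kernel
        have e1 : chevD4.cartan 2 12 = 0 := by decide +kernel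
        have e2 : chevD4.cartan 3 12 = 2 := by decide +kernel
        rw [e0, e1, e2]
        show z ^ (0 : ℤ) * (1 : Kˣ) ^ _ * (z ^ q) ^ (0 : ℤ) * ((z ^ q) ^ q) ^ (2 : ℤ) ≠ 1
        rw [one_zpow, zpow_zero, zpow_zero]
        simpa using hzqq

theorem perfD4 (hq : IsPrimePow q) (hK : Fintype.card K = q ^ 3) : commutator ↥(twD4 K q).FG = ⊤ := by
  refine (twD4 K q).perf_words (S := d4Words K q) (twistedD4_eq hq hK).symm (posD4 hq hK) ?_
  have hm : ∀ a, a < 2 → a < (twD4 K q).m := fun a h => h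
  have hp0 : ∀ r, r ∈ [14] → r < chevD4.nroots → goodD4.Sneg [1] r := fun r h hr => (snB_spec goodD4 sn0D4 r hr).2 h
  have hp1 : ∀ r, r ∈ [18, 13, 12] → r < chevD4.nroots → goodD4.Sneg [0, 2, 3] r := fun r h hr => (snB_spec goodD4 sn1D4 r hr).2 h
  rintro w (⟨t, ht, r, hr, rfl⟩ | ⟨t, ⟨r, s, p⟩, hr, rfl⟩)
  · simp only [d4p2, d4m2, List.mem_cons, List.not_mem_nil, or_false] at hr
    rcases hr with rfl | rfl
    · refine ⟨0, hm 0 (by norm_num), Or.inl ?_⟩
      intro p hp hp'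
      simp only [List.mem_cons, List.not_mem_nil, or_false] at hp
      subst hp
      exact hp0 14 (by decide) hp'
    · refine ⟨0, hm 0 (by norm_num), Or.inr ?_⟩
      intro p hp hp'
      simp only [List.mem_cons, List.not_mem_nil, or_false] at hp
      subst hp
      show goodD4.Sneg [1] (chevD4.neg 9)
      exact hp0 _ (by decide +kernel) (by decide +kernel)
  · simp only [d4p1, d4p3, d4p4, d4m1, d4m3, d4m4, List.mem_cons, List.not_mem_nil, or_false, Prod.mk.injEq] at hr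
    rcases hr with ⟨rfl, rfl, rfl⟩ | ⟨rfl, rfl, rfl⟩
    · refine ⟨1, hm 1 (by norm_num), Or.inl ?_⟩
      intro p hp hp'
      simp only [List.mem_cons, List.not_mem_nil, or_false] at hp
      rcases hp with rfl | rfl | rfl
      · exact hp1 18 (by decide) hp'
      · exact hp1 13 (by decide) hp'
      · exact hp1 12 (by decide) hp'
    · refine ⟨1, hm 1 (by norm_num), Or.inr ?_⟩
      intro p hp hp'
      simp only [List.mem_cons, List.not_mem_nil, or_false] at hp
      rcases hp with rfl | rfl | rfl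
      · show goodD4.Sneg [0, 2, 3] (chevD4.neg 5)
        exact hp1 _ (by decide +kernel) (by decide +kernel)
      · show goodD4.Sneg [0, 2, 3] (chevD4.neg 10)
        exact hp1 _ (by decide +kernel) (by decide +kernel)
      · show goodD4.Sneg [0, 2, 3] (chevD4.neg 11)
        exact hp1 _ (by decide +kernel) (by decide +kernel)

theorem simpleD4 (hq : IsPrimePow q) (hK : Fintype.card K = q ^ 3) : IsSimpleGroup ↥(twD4 K q).FG ∧ ¬ IsMulCommutative ↥(twD4 K q).FG := by
  refine (twD4 K q).simple_FG (neD4 hq hK) (cenD4 hq hK) (show 0 < 2 by norm_num) ?_ (perfD4 hq hK)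
  intro a ha
  have ha' : a + 1 < 2 := ha
  have key : ∀ a < 1, ((List.range chevD4.nroots).all fun r => decide (wlF goodD4.w
      ((([a, a + 1]).map fun a => tWD4.getD a []).flatten) r = wlF goodD4.w ((([a + 1, a]).map fun a => tWD4.getD a []).flatten) r)) = false := by
    decide +kernel
  exact (twD4 K q).tP_ne (show a < 2 by omega) ha (key a (by omega))

end D4

end Chv
end CfsgH6
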