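import Mathlib
set_option autoImplicit false

namespace CfsgH6
namespace Scal
variable {F : Type*} [Field F] [Fintype F]

theorem neg_ne (ho : Odd (Fintype.card F)) : (-1 : F) ≠ 1 := by
  intro h
  have h2 : (2 : F) = 0 := by linear_combination -h
  haveI : CharP F 2 := CharTwo.of_one_ne_zero_of_two_eq_zero one_ne_zero h2
  have h3 : 2 ∣ Fintype.card F := by
    have := (CharP.cast_eq_zero_iff F 2 (Fintype.card F)).1 (Nat.cast_card_eq_zero F)
    exact this
  obtain ⟨k, hk⟩ := ho
  omega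

theorem split2 {n : ℕ} (hn : n ≠ 0) : ∃ n', n = 2 ^ padicValNat 2 n * n' ∧ Odd n' := by
  haveI : Fact (Nat.Prime 2) := ⟨Nat.prime_two⟩
  obtain ⟨n', hn'⟩ := pow_padicValNat_dvd (p := 2) (n := n)
  refine ⟨n', hn', ?_⟩
  rw [← Nat.not_even_iff_odd]
  rintro ⟨k, hk⟩
  have h1 : 2 ^ (padicValNat 2 n + 1) ∣ n := ⟨k, by
    conv_lhs => rw [hn', hk]
    ring⟩
  rw [padicValNat_dvd_iff_le hn] at h1
  omega

/-- a primitive power -/
theorem exists_half (ho : Odd (Fintype.card F)) {v : ℕ} (hv : 2 ^ (v + 1) ∣ Fintype.card F - 1) :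
    ∃ c : F, c ^ (2 ^ v) = -1 := by
  classical
  obtain ⟨g, hg⟩ := IsCyclic.exists_generator (α := Fˣ)
  have hord : orderOf g = Fintype.card F - 1 := by
    rw [orderOf_eq_card_of_forall_mem_zpowers hg, Nat.card_eq_fintype_card, Fintype.card_units]
  obtain ⟨k, hk⟩ := hv
  have hq1 := Fintype.one_lt_card (α := F)
  have hk0 : 0 < k := by
    rcases Nat.eq_zero_or_pos k with h | h
    · rw [h, mul_zero] at hk; omega
    · exact h
  refine ⟨((g ^ k : Fˣ) : F), ?_⟩
  have h1 : (g ^ k) ^ (2 ^ v) * (g ^ k) ^ (2 ^ v) = 1 := by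
    rw [← pow_add, ← two_mul, ← pow_succ', ← pow_mul, mul_comm k, ← hk, ← hord, pow_orderOf_eq_one]
  have h2 : (g ^ k) ^ (2 ^ v) ≠ 1 := by
    intro h
    rw [← pow_mul] at h
    have h3 := Nat.le_of_dvd (by positivity) (orderOf_dvd_of_pow_eq_one h)
    rw [hord, hk, pow_succ] at h3
    have : k * 2 ^ v < 2 ^ v * 2 * k := by
      have : 0 < k * 2 ^ v := by positivity
      nlinarith
    omega
  have h3 : (((g ^ k : Fˣ) : F) ^ (2 ^ v)) * (((g ^ k : Fˣ) : F) ^ (2 ^ v)) = 1 := by
    have := congrArg Units.val h1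
    simpa using this
  rcases mul_self_eq_one_iff.1 h3 with h | h
  · exfalso; apply h2
    apply Units.ext
    rw [Units.val_pow_eq_pow_val, Units.val_one]; exact h
  · exact h

theorem pow_neg_one (ho : Odd (Fintype.card F)) {n : ℕ} (hn : n ≠ 0) :
    (∃ c : F, c ^ n = -1) ↔ padicValNat 2 n < padicValNat 2 (Fintype.card F - 1) := by
  haveI : Fact (Nat.Prime 2) := ⟨Nat.prime_two⟩
  have hq1 := Fintype.one_lt_card (α := F)
  have hq0 : Fintype.card F - 1 ≠ 0 := by omega
  obtain ⟨n', hn', hodd'⟩ := split2 hn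
  constructor
  · rintro ⟨c, hc⟩
    by_contra hlt
    obtain ⟨m, hm, hmodd⟩ := split2 hq0
    have hc0 : c ≠ 0 := by
      rintro rfl
      rw [zero_pow hn] at hc
      exact one_ne_zero (α := F) (by linear_combination hc)
    have h1 : (c ^ n) ^ m = -1 := by rw [hc, hmodd.neg_one_pow]
    obtain ⟨l, hl⟩ : 2 ^ padicValNat 2 (Fintype.card F - 1) ∣ n := by
      rw [padicValNat_dvd_iff_le hn]; omega
    have h2 : (c ^ n) ^ m = 1 := by
      rw [← pow_mul, hl]
      have e : 2 ^ padicValNat 2 (Fintype.card F - 1) * l * m = (Fintype.card F - 1) * l := by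
        conv_rhs => rw [hm]
        ring
      rw [e, pow_mul, FiniteField.pow_card_sub_one_eq_one c hc0, one_pow]
    exact neg_ne ho (h1.symm.trans h2)
  · intro hlt
    have h1 : 2 ^ (padicValNat 2 n + 1) ∣ Fintype.card F - 1 := by
      rw [padicValNat_dvd_iff_le hq0]; omega
    obtain ⟨c, hc⟩ := exists_half ho h1
    refine ⟨c, ?_⟩
    rw [hn', pow_mul, hc, hodd'.neg_one_pow]

theorem diag_iff {q : ℕ} (hF : Fintype.card F = q) (hq : Odd q) {n : ℕ} (hn : 1 ≤ n) (i : ℕ) (hi : i ≤ n) :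
    (∃ c : F, c ≠ 0 ∧ (c • Matrix.diagonal (fun j : Fin n => if (j : ℕ) < i then (-1 : F) else 1)).det = 1) ↔
      (Even i ∨ padicValNat 2 n < padicValNat 2 (q - 1)) := by
  subst hF
  have hdet : ∀ c : F, (c • Matrix.diagonal (fun j : Fin n => if (j : ℕ) < i then (-1 : F) else 1)).det = c ^ n * (-1) ^ i := by
    intro c
    rw [Matrix.det_smul, Matrix.det_diagonal, Fintype.card_fin,
      Fin.prod_univ_eq_prod_range (fun j => if j < i then (-1 : F) else 1) n]
    congr 1
    obtain ⟨k, rfl⟩ := Nat.exists_eq_add_of_le hi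
    rw [Finset.prod_range_add]
    have e1 : ∏ x ∈ Finset.range i, (if x < i then (-1 : F) else 1) = (-1) ^ i := by
      rw [Finset.prod_congr rfl (fun x hx => if_pos (Finset.mem_range.1 hx)), Finset.prod_const, Finset.card_range]
    have e2 : ∏ x ∈ Finset.range k, (if i + x < i then (-1 : F) else 1) = 1 :=
      Finset.prod_eq_one fun x _ => if_neg (by omega)
    rw [e1, e2, mul_one]
  simp only [hdet]
  rcases Nat.even_or_odd i with he | ho
  · refine ⟨fun _ => Or.inl he, fun _ => ⟨1, one_ne_zero, by rw [he.neg_one_pow]; simp⟩⟩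
  · have hno : ¬ Even i := by rwa [Nat.not_even_iff_odd]
    rw [ho.neg_one_pow, ← pow_neg_one hq (by omega)]
    constructor
    · rintro ⟨c, _, h⟩
      exact Or.inr ⟨c, by linear_combination -h⟩
    · rintro (h | ⟨c, hc⟩)
      · exact absurd h hno
      · refine ⟨c, ?_, by rw [hc]; ring⟩
        rintro rfl
        rw [zero_pow (by omega)] at hc
        exact one_ne_zero (α := F) (by linear_combination hc)

theorem block_iff {q : ℕ} (hF : Fintype.card F = q) (hq : Odd q) {m : ℕ} (hm : 1 ≤ m) (μ : F)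
    (hμ : orderOf μ = 2 ^ padicValNat 2 (q - 1)) :
    (∃ c : F, c ≠ 0 ∧ (c • Matrix.blockDiagonal (fun _ : Fin m => !![(0 : F), 1; μ, 0])).det = 1) ↔
      (q % 4 = 3 ∨ padicValNat 2 (q - 1) < padicValNat 2 (2 * m)) := by
  haveI : Fact (Nat.Prime 2) := ⟨Nat.prime_two⟩
  subst hF
  have hq1 := Fintype.one_lt_card (α := F)
  have hq0 : Fintype.card F - 1 ≠ 0 := by omega
  have hm0 : m ≠ 0 := by omega
  have hdet : ∀ c : F, (c • Matrix.blockDiagonal (fun _ : Fin m => !![(0 : F), 1; μ, 0])).det = c ^ (2 * m) * (-μ) ^ m := by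
    intro c
    rw [Matrix.det_smul, Matrix.det_blockDiagonal, Fintype.card_prod, Fintype.card_fin, Fintype.card_fin]
    congr 1
    rw [Finset.prod_const, Finset.card_univ, Fintype.card_fin]
    congr 1
    rw [Matrix.det_fin_two]
    show (0 : F) * 0 - 1 * μ = -μ
    ring
  simp only [hdet]
  obtain ⟨k, hk, hkodd⟩ := split2 hq0
  set s := padicValNat 2 (Fintype.card F - 1) with hs
  have hs1 : 1 ≤ s := by
    rw [hs, ← padicValNat_dvd_iff_le hq0]
    obtain ⟨j, hj⟩ := hq
    exact ⟨j, by omega⟩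
  have hμs : μ ^ (2 ^ s) = 1 := by rw [← hμ, pow_orderOf_eq_one]
  have hμh : μ ^ (2 ^ (s - 1)) = -1 := by
    have h1 : μ ^ (2 ^ (s - 1)) * μ ^ (2 ^ (s - 1)) = 1 := by
      rw [← pow_add, ← two_mul, ← pow_succ', Nat.sub_add_cancel hs1, hμs]
    rcases mul_self_eq_one_iff.1 h1 with h | h
    · exfalso
      have := Nat.le_of_dvd (by positivity) (orderOf_dvd_of_pow_eq_one h)
      rw [hμ] at this
      have h2 : 2 ^ (s - 1) < 2 ^ s := Nat.pow_lt_pow_right (by norm_num) (by omega)
      omega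
    · exact h
  have hv : padicValNat 2 (2 * m) = padicValNat 2 m + 1 := by
    rw [padicValNat.mul (by norm_num) hm0, padicValNat_self, add_comm]
  rw [hv]
  by_cases h4 : Fintype.card F % 4 = 3
  · refine ⟨fun _ => Or.inl h4, fun _ => ⟨1, one_ne_zero, ?_⟩⟩
    have hs' : s = 1 := by
      by_contra hne
      have h2 : 2 ^ 2 ∣ Fintype.card F - 1 := by
        rw [padicValNat_dvd_iff_le hq0]; omega
      omega
    rw [hs', Nat.sub_self, pow_zero, pow_one] at hμh
    rw [hμh]; simp
  · have h41 : Fintype.card F % 4 = 1 := by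
      obtain ⟨j, hj⟩ := hq
      omega
    have hs2 : 2 ≤ s := by
      rw [hs, ← padicValNat_dvd_iff_le hq0]
      exact ⟨Fintype.card F / 4, by omega⟩
    constructor
    · rintro ⟨c, hc0, hc⟩
      right
      by_contra hlt
      -- order considerations
      obtain ⟨m', hm', hmodd⟩ := split2 hm0
      set r := padicValNat 2 m with hr
      have hrs : r < s := by omega
      have hhalf : Fintype.card F - 1 = 2 * (2 ^ (s - 1) * k) := by
        conv_lhs => rw [hk]
        rw [← mul_assoc, ← pow_succ', Nat.sub_add_cancel hs1]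
      have hx : (c ^ 2 * (-μ)) ^ (2 ^ (s - 1) * k) = -1 := by
        rw [mul_pow, ← pow_mul, ← hhalf, FiniteField.pow_card_sub_one_eq_one c hc0, one_mul, neg_pow, pow_mul μ, hμh,
          hkodd.neg_one_pow]
        have he : Even (2 ^ (s - 1) * k) := by
          apply Even.mul_right
          exact (even_two).pow_of_ne_zero (by omega)
        rw [he.neg_one_pow]; ring
      have hxm : (c ^ 2 * (-μ)) ^ m = 1 := by rw [mul_pow, ← pow_mul]; exact hc
      have h1 : ((c ^ 2 * (-μ)) ^ (2 ^ (s - 1) * k)) ^ m' = 1 := by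
        rw [← pow_mul]
        have e : 2 ^ (s - 1) * k * m' = m * (2 ^ (s - 1 - r) * k) := by
          conv_rhs => rw [hm']
          have e2 : 2 ^ (s - 1) = 2 ^ r * 2 ^ (s - 1 - r) := by
            rw [← pow_add]; congr 1; omega
          rw [e2]; ring
        rw [e, pow_mul, hxm, one_pow]
      rw [hx, hmodd.neg_one_pow] at h1
      exact neg_ne hq h1
    · rintro (h | h)
      · exact absurd h h4
      · refine ⟨1, one_ne_zero, ?_⟩
        obtain ⟨l, hl⟩ : 2 ^ s ∣ m := by
          rw [padicValNat_dvd_iff_le hm0]; omega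
        have he : Even m := by
          rw [hl]
          apply Even.mul_right
          exact (even_two).pow_of_ne_zero (by omega)
        rw [one_pow, one_mul, he.neg_pow, hl, pow_mul, hμs, one_pow]

end Scal
end CfsgH6
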